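import Mathlib
import Cfsg.Agent.Helper13.TLDefs
import Cfsg.Agent.Helper33.OType

set_option autoImplicit false
set_option linter.unusedSectionVars false

/-!
# S5992 hub (helper96): orthogonal groups on nondegenerate subspaces of given type.

Setting: `Q : (ι → F) → F` with `hQ : IsNondegenerateQuadraticForm Q` (Prelude), odd characteristic.
`OPres Q T` (isometry), `ONd Q W` (= Prelude `IsNondegenerateOn (polar Q) W`), `OPl Q W`
(= Prelude `IsPlusTypeOn Q W`), `OOrth Q W W'` (= Prelude `AreOrthogonalFor (polar Q) W W'`),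
`pB Q hQ : LinearMap.BilinForm F (ι → F)` the polar form, with the bridges `und_iff`, `upres_of`
to helper13's `UNd` / `UPres` (so that every S5954 piece without `hσne` applies at
`σ = RingHom.id F`).
-/

namespace Cfsg.Agent.Helper96.OH

open Module Cfsg Cfsg.Geo
open Cfsg.Agent.Helper13.TIu

variable {ι : Type} [Fintype ι] [DecidableEq ι] {F : Type*} [Field F]

/-- `T` is an isometry of `Q`. -/
def OPres (Q : (ι → F) → F) (T : Module.End F (ι → F)) : Prop := ∀ v, Q (T v) = Q v

/-- nondegenerate subspace (Prelude). -/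
abbrev ONd (Q : (ι → F) → F) (W : Submodule F (ι → F)) : Prop :=
  IsNondegenerateOn (QuadraticMap.polar Q) W

/-- plus type (Prelude). -/
abbrev OPl (Q : (ι → F) → F) (W : Submodule F (ι → F)) : Prop := IsPlusTypeOn Q W

/-- orthogonal subspaces (Prelude). -/
abbrev OOrth (Q : (ι → F) → F) (W W' : Submodule F (ι → F)) : Prop :=
  AreOrthogonalFor (QuadraticMap.polar Q) W W'

/-- the polar form as a bilinear form. -/
noncomputable def pB (Q : (ι → F) → F) (hQ : IsNondegenerateQuadraticForm Q) :
    LinearMap.BilinForm F (ι → F) :=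
  QuadraticMap.polarBilin (Cfsg.Agent.Helper98.op_qf Q hQ)

theorem pB_apply (Q : (ι → F) → F) (hQ : IsNondegenerateQuadraticForm Q) (x y : ι → F) :
    pB Q hQ x y = QuadraticMap.polar Q x y := rfl

theorem pB_comm (Q : (ι → F) → F) (hQ : IsNondegenerateQuadraticForm Q) (x y : ι → F) :
    pB Q hQ x y = pB Q hQ y x := by
  rw [pB_apply, pB_apply, QuadraticMap.polar_comm]

theorem pB_symm (Q : (ι → F) → F) (hQ : IsNondegenerateQuadraticForm Q) : (pB Q hQ).IsSymm :=
  ⟨fun x y => pB_comm Q hQ x y⟩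

theorem id2 : ∀ a : F, (RingHom.id F) ((RingHom.id F) a) = a := fun _ => rfl

theorem pB_self (Q : (ι → F) → F) (hQ : IsNondegenerateQuadraticForm Q) (x : ι → F) :
    pB Q hQ x x = 2 * Q x := by
  have h := QuadraticMap.polar_self (Cfsg.Agent.Helper98.op_qf Q hQ) x
  rw [pB_apply]
  rw [two_smul] at h
  rw [two_mul]
  exact h

theorem q_add (Q : (ι → F) → F) (x y : ι → F) :
    Q (x + y) = Q x + Q y + QuadraticMap.polar Q x y := by
  unfold QuadraticMap.polar
  ring

theorem q_zero (Q : (ι → F) → F) (hQ : IsNondegenerateQuadraticForm Q) : Q 0 = 0 := by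
  have := hQ.smul 0 0
  simpa using this

/-- bridge: nondegeneracy. -/
theorem und_iff (Q : (ι → F) → F) (hQ : IsNondegenerateQuadraticForm Q)
    (W : Submodule F (ι → F)) : UNd (pB Q hQ) W ↔ ONd Q W := by
  constructor
  · intro h w hw hw0
    have h1 : ∃ x ∈ W, QuadraticMap.polar Q w x ≠ 0 := by
      by_contra hcon
      push Not at hcon
      exact hw0 (h w hw (fun x hx => by rw [pB_apply]; exact hcon x hx))
    obtain ⟨x, hx, hne⟩ := h1
    exact ⟨⟨x, hx, by rwa [QuadraticMap.polar_comm]⟩, ⟨x, hx, hne⟩⟩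
  · intro h w hw hall
    by_contra hw0
    obtain ⟨-, x, hx, hne⟩ := h w hw hw0
    exact hne (by rw [← pB_apply Q hQ]; exact hall x hx)

/-- bridge: isometries. -/
theorem upres_of (Q : (ι → F) → F) (hQ : IsNondegenerateQuadraticForm Q)
    (T : Module.End F (ι → F)) (hT : OPres Q T) : UPres (pB Q hQ) T := by
  intro u v
  rw [pB_apply, pB_apply]
  unfold QuadraticMap.polar
  rw [← map_add, hT, hT, hT]

theorem opres_one (Q : (ι → F) → F) : OPres Q (1 : Module.End F (ι → F)) := fun _ => rfl

theorem ond_top (Q : (ι → F) → F) (hQ : IsNondegenerateQuadraticForm Q) : ONd Q ⊤ := by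
  intro w _ hw0
  obtain ⟨⟨x, hx⟩, ⟨y, hy⟩⟩ := hQ.nondegenerate w hw0
  exact ⟨⟨x, Submodule.mem_top, hx⟩, ⟨y, Submodule.mem_top, hy⟩⟩

/-- orthogonality is symmetric. -/
theorem oorth_symm (Q : (ι → F) → F) {W W' : Submodule F (ι → F)} (h : OOrth Q W W') :
    OOrth Q W' W := fun u hu v hv => by
  rw [QuadraticMap.polar_comm]
  exact h v hv u hu

/-- in odd characteristic a subspace on which the polar form vanishes is totally singular. -/
theorem q_eq_zero_of_polar (Q : (ι → F) → F) (hQ : IsNondegenerateQuadraticForm Q)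
    (h2 : (2 : F) ≠ 0) (v : ι → F) (hv : QuadraticMap.polar Q v v = 0) : Q v = 0 := by
  have h := pB_self Q hQ v
  rw [pB_apply, hv] at h
  rcases mul_eq_zero.mp h.symm with h3 | h3
  · exact absurd h3 h2
  · exact h3

end Cfsg.Agent.Helper96.OH
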