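import Mathlib
import Cfsg.Prelude.Def_GeometricClasses
import Cfsg.Agent.Helper71.T4Defs

/-!
# Helper96: definitions for the CALL S5704 (Sp ⊗ Sp tensor stabiliser maximal in Ω⁺).

Index type `Fin a × Fin b` ("`U ⊗ W`") as in `Helper71.T4Defs` (`blk`, `pt`, `InM`, `IsKron`,
`kronSub`).  `J₁`, `J₂` are the Gram matrices of the two symplectic forms; `bf J x y = xᵀ J y`.
-/

set_option autoImplicit false
set_option linter.unusedSectionVars false
set_option linter.unusedSimpArgs false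
set_option linter.unusedVariables false

namespace Cfsg.Agent.Helper96.T5

open Matrix Cfsg.Agent.Helper71.T4
open scoped Kronecker

variable {F : Type*} [Field F]

section General

variable {ι : Type*} [Fintype ι] [DecidableEq ι]

/-- The bilinear form with Gram matrix `J`. -/
def bf (J : Matrix ι ι F) (x y : ι → F) : F := x ⬝ᵥ J *ᵥ y

/-- The rank one operator `w ↦ bf J w y • x`. -/
def rk (J : Matrix ι ι F) (x y : ι → F) : Matrix ι ι F := vecMulVec x (J *ᵥ y)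

/-- The transvection `w ↦ w + c * bf J w x • x`. -/
def tv (J : Matrix ι ι F) (x : ι → F) (c : F) : Matrix ι ι F := 1 + c • rk J x x

/-- The alternating operator `w ↦ bf J w y • x - bf J w x • y`. -/
def dm (J : Matrix ι ι F) (x y : ι → F) : Matrix ι ι F := rk J x y - rk J y x

/-- The adjoint of `A` for `bf J`: `bf J (A x) y = bf J x (adj J A y)`. -/
noncomputable def adj (J : Matrix ι ι F) (A : Matrix ι ι F) : Matrix ι ι F := J⁻¹ * Aᵀ * J

theorem bf_add_left (J : Matrix ι ι F) (x x' y : ι → F) : bf J (x + x') y = bf J x y + bf J x' y := by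
  simp [bf, add_dotProduct]

theorem bf_add_right (J : Matrix ι ι F) (x y y' : ι → F) : bf J x (y + y') = bf J x y + bf J x y' := by
  simp [bf, Matrix.mulVec_add, dotProduct_add]

theorem bf_smul_left (J : Matrix ι ι F) (c : F) (x y : ι → F) : bf J (c • x) y = c * bf J x y := by
  simp [bf, smul_dotProduct]

theorem bf_smul_right (J : Matrix ι ι F) (c : F) (x y : ι → F) : bf J x (c • y) = c * bf J x y := by
  simp [bf, Matrix.mulVec_smul, dotProduct_smul]

theorem bf_zero_left (J : Matrix ι ι F) (y : ι → F) : bf J 0 y = 0 := by simp [bf]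

theorem bf_zero_right (J : Matrix ι ι F) (x : ι → F) : bf J x 0 = 0 := by simp [bf]

theorem bf_neg_left (J : Matrix ι ι F) (x y : ι → F) : bf J (-x) y = - bf J x y := by
  simp [bf]

theorem bf_neg_right (J : Matrix ι ι F) (x y : ι → F) : bf J x (-y) = - bf J x y := by
  simp [bf, Matrix.mulVec_neg]

theorem bf_sub_left (J : Matrix ι ι F) (x x' y : ι → F) : bf J (x - x') y = bf J x y - bf J x' y := by
  simp [bf, sub_dotProduct]

theorem bf_sub_right (J : Matrix ι ι F) (x y y' : ι → F) : bf J x (y - y') = bf J x y - bf J x y' := by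
  simp [bf, Matrix.mulVec_sub, dotProduct_sub]

/-- An alternating form is skew-symmetric. -/
theorem bf_swap (J : Matrix ι ι F) (hJ : ∀ x, bf J x x = 0) (x y : ι → F) : bf J x y = - bf J y x := by
  have h := hJ (x + y)
  rw [bf_add_left, bf_add_right, bf_add_right, hJ x, hJ y] at h
  linear_combination h

/-- `bf J (A x) y = xᵀ (Aᵀ J) y`. -/
theorem bf_mulVec_left (J : Matrix ι ι F) (A : Matrix ι ι F) (x y : ι → F) :
    bf J (A *ᵥ x) y = bf (Aᵀ * J) x y := by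
  simp only [bf]
  rw [← Matrix.mulVec_mulVec, dotProduct_comm (A *ᵥ x), Matrix.dotProduct_mulVec,
    ← Matrix.mulVec_transpose, dotProduct_comm]

/-- `bf J x (A y) = xᵀ (J A) y`. -/
theorem bf_mulVec_right (J : Matrix ι ι F) (A : Matrix ι ι F) (x y : ι → F) :
    bf J x (A *ᵥ y) = bf (J * A) x y := by
  simp only [bf, Matrix.mulVec_mulVec]

/-- The defining property of the adjoint. -/
theorem bf_adj (J : Matrix ι ι F) (hJ : J.det ≠ 0) (A : Matrix ι ι F) (x y : ι → F) :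
    bf J (A *ᵥ x) y = bf J x (adj J A *ᵥ y) := by
  rw [bf_mulVec_left, bf_mulVec_right, adj, ← Matrix.mul_assoc, ← Matrix.mul_assoc,
    Matrix.mul_nonsing_inv _ (isUnit_iff_ne_zero.mpr hJ), Matrix.one_mul]

theorem rk_mulVec (J : Matrix ι ι F) (x y w : ι → F) : rk J x y *ᵥ w = bf J w y • x := by
  ext i
  simp only [rk, Matrix.mulVec, dotProduct, Matrix.vecMulVec_apply, bf, Pi.smul_apply, smul_eq_mul,
    Finset.sum_mul]
  refine Finset.sum_congr rfl fun j _ => ?_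
  ring

theorem rk_mul_rk (J : Matrix ι ι F) (x y x' y' : ι → F) :
    rk J x y * rk J x' y' = bf J x' y • rk J x y' := by
  rw [rk, rk, Matrix.vecMulVec_mul_vecMulVec, rk, bf, dotProduct_comm]
  ext i j
  simp [Matrix.vecMulVec_apply, mul_comm, mul_left_comm]

theorem tv_mulVec (J : Matrix ι ι F) (x : ι → F) (c : F) (w : ι → F) :
    tv J x c *ᵥ w = w + (c * bf J w x) • x := by
  rw [tv, Matrix.add_mulVec, Matrix.one_mulVec, Matrix.smul_mulVec, rk_mulVec, smul_smul]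

theorem dm_mulVec (J : Matrix ι ι F) (x y w : ι → F) :
    dm J x y *ᵥ w = bf J w y • x - bf J w x • y := by
  rw [dm, Matrix.sub_mulVec, rk_mulVec, rk_mulVec]

/-- Nondegeneracy: a non-zero vector pairs to `1` with some vector. -/
theorem exists_bf_eq_one (J : Matrix ι ι F) (hJ : J.det ≠ 0) (x : ι → F) (hx : x ≠ 0) :
    ∃ y, bf J x y = 1 := by
  have h1 : x ᵥ* J ≠ 0 := by
    intro h
    apply hx
    have h2 : (x ᵥ* J) ᵥ* J⁻¹ = 0 := by rw [h, Matrix.zero_vecMul]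
    rwa [Matrix.vecMul_vecMul, Matrix.mul_nonsing_inv _ (isUnit_iff_ne_zero.mpr hJ),
      Matrix.vecMul_one] at h2
  obtain ⟨y, hy⟩ := exists_dot_eq_one' (x ᵥ* J) h1
  exact ⟨y, by rw [bf, Matrix.dotProduct_mulVec]; exact hy⟩
where
  exists_dot_eq_one' (β : ι → F) (hβ : β ≠ 0) : ∃ w : ι → F, β ⬝ᵥ w = 1 := by
    obtain ⟨k, hk⟩ : ∃ k, β k ≠ 0 := by
      by_contra h
      push Not at h
      exact hβ (funext h)
    refine ⟨Pi.single k (β k)⁻¹, ?_⟩
    simp [dotProduct_single, hk]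

end General

section Tensor

variable {a b : ℕ}

theorem pt_add_left (u u' : Fin a → F) (w : Fin b → F) : pt (u + u') w = pt u w + pt u' w := by
  ext p; simp [pt, add_mul]

theorem pt_add_right (u : Fin a → F) (w w' : Fin b → F) : pt u (w + w') = pt u w + pt u w' := by
  ext p; simp [pt, mul_add]

theorem pt_smul_left (c : F) (u : Fin a → F) (w : Fin b → F) : pt (c • u) w = c • pt u w := by
  ext p; simp [pt, mul_assoc]

theorem pt_smul_right (c : F) (u : Fin a → F) (w : Fin b → F) : pt u (c • w) = c • pt u w := by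
  ext p; simp [pt, mul_left_comm]

theorem pt_zero_left (w : Fin b → F) : pt (0 : Fin a → F) w = 0 := by
  ext p; simp [pt]

theorem pt_zero_right (u : Fin a → F) : pt u (0 : Fin b → F) = 0 := by
  ext p; simp [pt]

/-- The tensor form on pure tensors. -/
theorem bf_kron_pt (J₁ : Matrix (Fin a) (Fin a) F) (J₂ : Matrix (Fin b) (Fin b) F)
    (u u' : Fin a → F) (w w' : Fin b → F) :
    bf (J₁ ⊗ₖ J₂) (pt u w) (pt u' w') = bf J₁ u u' * bf J₂ w w' := by
  rw [bf, kron_mulVec_pt]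
  simp only [bf, dotProduct, pt, Fintype.sum_prod_type, Finset.sum_mul, Finset.mul_sum]
  rw [Finset.sum_comm]
  refine Finset.sum_congr rfl fun k _ => Finset.sum_congr rfl fun i _ => ?_
  ring

/-- Contraction of the `W`-factor against `y`: `cnt J₂ y (u ⊗ w) = bf J₂ w y • u`. -/
def cnt (J₂ : Matrix (Fin b) (Fin b) F) (y : Fin b → F) (v : Fin a × Fin b → F) : Fin a → F :=
  fun i => ∑ k, (J₂ *ᵥ y) k * v (i, k)

theorem cnt_pt (J₂ : Matrix (Fin b) (Fin b) F) (y : Fin b → F) (u : Fin a → F) (w : Fin b → F) :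
    cnt J₂ y (pt u w) = bf J₂ w y • u := by
  ext i
  simp only [cnt, pt, bf, Pi.smul_apply, smul_eq_mul, dotProduct, Finset.sum_mul]
  refine Finset.sum_congr rfl fun k _ => ?_
  ring

theorem cnt_add (J₂ : Matrix (Fin b) (Fin b) F) (y : Fin b → F) (v v' : Fin a × Fin b → F) :
    cnt J₂ y (v + v') = cnt J₂ y v + cnt J₂ y v' := by
  ext i; simp [cnt, mul_add, Finset.sum_add_distrib]

theorem cnt_smul (J₂ : Matrix (Fin b) (Fin b) F) (y : Fin b → F) (c : F) (v : Fin a × Fin b → F) :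
    cnt J₂ y (c • v) = c • cnt J₂ y v := by
  ext i; simp [cnt, Finset.mul_sum, mul_left_comm]

theorem cnt_zero (J₂ : Matrix (Fin b) (Fin b) F) (y : Fin b → F) :
    cnt J₂ y (0 : Fin a × Fin b → F) = 0 := by
  ext i; simp [cnt]

/-- Blocks and contractions: `blk Z (J₂ y) w u = cnt J₂ y (Z (u ⊗ w))`. -/
theorem blk_mulVec_eq_cnt (J₂ : Matrix (Fin b) (Fin b) F) (Z : Matrix (Fin a × Fin b) (Fin a × Fin b) F)
    (y w : Fin b → F) (u : Fin a → F) :
    blk Z (J₂ *ᵥ y) w *ᵥ u = cnt J₂ y (Z *ᵥ pt u w) := by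
  ext i
  simp only [cnt, Matrix.mulVec, dotProduct, blk_apply, pt, Fintype.sum_prod_type, Finset.sum_mul,
    Finset.mul_sum]
  rw [Finset.sum_comm]
  refine Finset.sum_congr rfl fun k _ => Finset.sum_congr rfl fun j _ =>
    Finset.sum_congr rfl fun l _ => Finset.sum_congr rfl fun m _ => ?_
  ring

/-- The quadratic form data: `J₁`, `J₂` alternating non-degenerate, `Q` a non-degenerate quadratic
form on `F^(a×b)` with polar form `J₁ ⊗ J₂`, vanishing on pure tensors. -/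
structure TQ (J₁ : Matrix (Fin a) (Fin a) F) (J₂ : Matrix (Fin b) (Fin b) F)
    (Q : (Fin a × Fin b → F) → F) : Prop where
  alt₁ : ∀ u, bf J₁ u u = 0
  det₁ : J₁.det ≠ 0
  alt₂ : ∀ w, bf J₂ w w = 0
  det₂ : J₂.det ≠ 0
  nq : Cfsg.Geo.IsNondegenerateQuadraticForm Q
  polar : ∀ v v', QuadraticMap.polar Q v v' = bf (J₁ ⊗ₖ J₂) v v'
  pure : ∀ u w, Q (pt u w) = 0

/-- `M` contains the root elements `1 ⊗ t_w(c)` and `t_u(c) ⊗ 1`. -/
def HasR (J₁ : Matrix (Fin a) (Fin a) F) (J₂ : Matrix (Fin b) (Fin b) F)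
    (M : Subgroup (GL (Fin a × Fin b) F)) : Prop :=
  (∀ (w : Fin b → F) (c : F), InM M ((1 : Matrix (Fin a) (Fin a) F) ⊗ₖ tv J₂ w c)) ∧
  (∀ (u : Fin a → F) (c : F), InM M (tv J₁ u c ⊗ₖ (1 : Matrix (Fin b) (Fin b) F)))

/-- (NSW) every element `1 + S ⊗ τ_d` of `M` (`d ≠ 0`, `τ_d = rk J₂ d d`) has `S` scalar. -/
def NSW (J₂ : Matrix (Fin b) (Fin b) F) (M : Subgroup (GL (Fin a × Fin b) F)) : Prop :=
  ∀ (S : Matrix (Fin a) (Fin a) F) (d : Fin b → F), d ≠ 0 →
    InM M (1 + S ⊗ₖ rk J₂ d d) → ∃ c : F, S = c • (1 : Matrix (Fin a) (Fin a) F)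

/-- (NSU) every element `1 + τ_u ⊗ S` of `M` (`u ≠ 0`, `τ_u = rk J₁ u u`) has `S` scalar. -/
def NSU (J₁ : Matrix (Fin a) (Fin a) F) (M : Subgroup (GL (Fin a × Fin b) F)) : Prop :=
  ∀ (S : Matrix (Fin b) (Fin b) F) (u : Fin a → F), u ≠ 0 →
    InM M (1 + rk J₁ u u ⊗ₖ S) → ∃ c : F, S = c • (1 : Matrix (Fin b) (Fin b) F)

/-- `Z = g - 1` for `g` in the unipotent radical of the stabiliser of `U ⊗ d`:
`Z` kills `U ⊗ d`, maps everything into `U ⊗ d^⊥` and maps `U ⊗ d^⊥` into `U ⊗ d`. -/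
def InU (J₂ : Matrix (Fin b) (Fin b) F) (d : Fin b → F)
    (Z : Matrix (Fin a × Fin b) (Fin a × Fin b) F) : Prop :=
  (∀ u : Fin a → F, Z *ᵥ pt u d = 0) ∧ (∀ v, cnt J₂ d (Z *ᵥ v) = 0) ∧
  (∀ v, cnt J₂ d v = 0 → ∃ u : Fin a → F, Z *ᵥ v = pt u d)

/-- The standard element of the radical with "pure" `Λ`-part `A ⊗ w` (`w ⊥ d`):
`u ⊗ y ↦ u ⊗ y + bf y d • (A u ⊗ w) + bf y w • (A* u ⊗ d) + bf y d • (S u ⊗ d)`. -/
noncomputable def Gm (J₁ : Matrix (Fin a) (Fin a) F) (J₂ : Matrix (Fin b) (Fin b) F)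
    (d w : Fin b → F) (A S : Matrix (Fin a) (Fin a) F) : Matrix (Fin a × Fin b) (Fin a × Fin b) F :=
  1 + A ⊗ₖ rk J₂ w d + adj J₁ A ⊗ₖ rk J₂ d w + S ⊗ₖ rk J₂ d d

/-- The Siegel element with singular vectors `u ⊗ x`, `u' ⊗ x'` (orthogonal):
`v ↦ v + f(v, u'⊗x') • u⊗x - f(v, u⊗x) • u'⊗x'`. -/
def sg (J₁ : Matrix (Fin a) (Fin a) F) (J₂ : Matrix (Fin b) (Fin b) F)
    (u : Fin a → F) (x : Fin b → F) (u' : Fin a → F) (x' : Fin b → F) :
    Matrix (Fin a × Fin b) (Fin a × Fin b) F :=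
  1 + rk J₁ u u' ⊗ₖ rk J₂ x x' - rk J₁ u' u ⊗ₖ rk J₂ x' x

theorem sg_mulVec_pt (J₁ : Matrix (Fin a) (Fin a) F) (J₂ : Matrix (Fin b) (Fin b) F)
    (u : Fin a → F) (x : Fin b → F) (u' : Fin a → F) (x' : Fin b → F) (s : Fin a → F)
    (y : Fin b → F) :
    sg J₁ J₂ u x u' x' *ᵥ pt s y = pt s y + (bf J₁ s u' * bf J₂ y x') • pt u x
      - (bf J₁ s u * bf J₂ y x) • pt u' x' := by
  rw [sg, Matrix.sub_mulVec, Matrix.add_mulVec, Matrix.one_mulVec, kron_mulVec_pt, kron_mulVec_pt,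
    rk_mulVec, rk_mulVec, rk_mulVec, rk_mulVec, pt_smul_left, pt_smul_right, pt_smul_left,
    pt_smul_right, smul_smul, smul_smul]

end Tensor

end Cfsg.Agent.Helper96.T5
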