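-- helper96 library: definitions for the `q = 3` exceptions of the maximal subgroups of `Sp_4(q)`:
-- the Kronecker embedding of pairs of `2 × 2` matrices and the group `2_-^{1+4}` as `Q_8 ⊗ D_8`.
import Cfsg.Agent.Helper94.Symp

set_option autoImplicit false
set_option linter.unusedSectionVars false
set_option linter.unusedVariables false
open Cfsg Cfsg.Geo Matrix

namespace Cfsg.Agent.Helper96.Q3

variable {F : Type*} [Field F]

/-- The matrix `[[0, -1], [1, 0]]`. -/
def mJ : Matrix (Fin 2) (Fin 2) F := !![0, -1; 1, 0]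

/-- The matrix `[[1, 1], [1, -1]]`. -/
def mT : Matrix (Fin 2) (Fin 2) F := !![1, 1; 1, -1]

/-- The matrix `[[1, 0], [0, -1]]`. -/
def mPhi : Matrix (Fin 2) (Fin 2) F := !![1, 0; 0, -1]

/-- The Kronecker product of two `2 × 2` matrices on the index type `Fin 2 ⊕ Fin 2`: the block
`(s, t)` is `a s t • b`. -/
def kr (a b : Matrix (Fin 2) (Fin 2) F) : Matrix (Fin 2 ⊕ Fin 2) (Fin 2 ⊕ Fin 2) F :=
  Matrix.fromBlocks (a 0 0 • b) (a 0 1 • b) (a 1 0 • b) (a 1 1 • b)

/-- The quaternion group inside `SL_2(3)`, described intrinsically. -/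
def Q8set : Set (Matrix (Fin 2) (Fin 2) F) := {a | a.det = 1 ∧ (a.trace = 0 ∨ a = 1 ∨ a = -1)}

/-- The orthogonal group of the form `x² + y²`. -/
def D8set : Set (Matrix (Fin 2) (Fin 2) F) := {b | bᵀ * b = 1}

/-- The group generated by the Kronecker products of the two sets. -/
def R0 : Subgroup (GL (Fin 2 ⊕ Fin 2) F) :=
  Subgroup.closure {g | ∃ a ∈ Q8set (F := F), ∃ b ∈ D8set (F := F),
    (g : Matrix (Fin 2 ⊕ Fin 2) (Fin 2 ⊕ Fin 2) F) = kr a b}

theorem kr_mul (a b a' b' : Matrix (Fin 2) (Fin 2) F) : kr a b * kr a' b' = kr (a * a') (b * b') := by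
  unfold kr
  rw [Matrix.fromBlocks_multiply]
  simp only [Matrix.smul_mul, Matrix.mul_smul, smul_smul, ← add_smul, Matrix.mul_apply,
    Fin.sum_univ_two]
  congr 1 <;> congr 1 <;> ring

theorem kr_one : kr (1 : Matrix (Fin 2) (Fin 2) F) 1 = 1 := by
  unfold kr
  simp [Matrix.fromBlocks_one]

theorem kr_smul_left (c : F) (a b : Matrix (Fin 2) (Fin 2) F) : kr (c • a) b = c • kr a b := by
  unfold kr
  simp only [Matrix.smul_apply, smul_eq_mul, Matrix.fromBlocks_smul, smul_smul]

theorem kr_smul_right (c : F) (a b : Matrix (Fin 2) (Fin 2) F) : kr a (c • b) = c • kr a b := by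
  unfold kr
  simp only [Matrix.fromBlocks_smul, smul_smul, mul_comm c]

theorem kr_neg_left (a b : Matrix (Fin 2) (Fin 2) F) : kr (-a) b = -kr a b := by
  have := kr_smul_left (-1 : F) a b
  rwa [neg_one_smul, neg_one_smul] at this

theorem kr_neg_right (a b : Matrix (Fin 2) (Fin 2) F) : kr a (-b) = -kr a b := by
  have := kr_smul_right (-1 : F) a b
  rwa [neg_one_smul, neg_one_smul] at this

theorem kr_add_left (a a' b : Matrix (Fin 2) (Fin 2) F) : kr (a + a') b = kr a b + kr a' b := by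
  unfold kr
  simp only [Matrix.add_apply, add_smul, Matrix.fromBlocks_add]

theorem kr_add_right (a b b' : Matrix (Fin 2) (Fin 2) F) : kr a (b + b') = kr a b + kr a b' := by
  unfold kr
  simp only [smul_add, Matrix.fromBlocks_add]

theorem kr_transpose (a b : Matrix (Fin 2) (Fin 2) F) : (kr a b)ᵀ = kr aᵀ bᵀ := by
  unfold kr
  rw [Matrix.fromBlocks_transpose]
  simp only [Matrix.transpose_smul, Matrix.transpose_apply]

theorem kr_zero_left (b : Matrix (Fin 2) (Fin 2) F) : kr 0 b = 0 := by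
  unfold kr
  simp

theorem kr_zero_right (a : Matrix (Fin 2) (Fin 2) F) : kr a 0 = 0 := by
  unfold kr
  simp

/-- The entries of a Kronecker product. -/
theorem kr_apply_inl_inl (a b : Matrix (Fin 2) (Fin 2) F) (i j : Fin 2) :
    kr a b (Sum.inl i) (Sum.inl j) = a 0 0 * b i j := rfl

theorem kr_apply_inl_inr (a b : Matrix (Fin 2) (Fin 2) F) (i j : Fin 2) :
    kr a b (Sum.inl i) (Sum.inr j) = a 0 1 * b i j := rfl

theorem kr_apply_inr_inl (a b : Matrix (Fin 2) (Fin 2) F) (i j : Fin 2) :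
    kr a b (Sum.inr i) (Sum.inl j) = a 1 0 * b i j := rfl

theorem kr_apply_inr_inr (a b : Matrix (Fin 2) (Fin 2) F) (i j : Fin 2) :
    kr a b (Sum.inr i) (Sum.inr j) = a 1 1 * b i j := rfl

/-- The Gram matrix of the standard alternating form is `kr mJ 1`. -/
theorem J_eq_kr : Matrix.J (Fin 2) F = kr mJ 1 := by
  unfold kr mJ Matrix.J
  simp

/-- Membership in the symplectic group in matrix form. -/
theorem mem_spGL_iff_mat (g : GL (Fin 2 ⊕ Fin 2) F) :
    g ∈ spGL 2 F ↔ (g : Matrix (Fin 2 ⊕ Fin 2) (Fin 2 ⊕ Fin 2) F)ᵀ * Matrix.J (Fin 2) F *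
      (g : Matrix (Fin 2 ⊕ Fin 2) (Fin 2 ⊕ Fin 2) F) = Matrix.J (Fin 2) F := by
  rw [Helper94.mem_spGL_iff]
  constructor
  · intro h
    ext i j
    have h1 := h (Pi.single i 1) (Pi.single j 1)
    unfold sympForm at h1
    rw [Matrix.mulVec_mulVec, Matrix.dotProduct_mulVec, Matrix.vecMul_mulVec] at h1
    simpa [Matrix.mul_assoc] using h1
  · intro h u v
    unfold sympForm
    rw [Matrix.mulVec_mulVec, Matrix.dotProduct_mulVec, Matrix.vecMul_mulVec, ← Matrix.mul_assoc, h,
      ← Matrix.dotProduct_mulVec]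

end Cfsg.Agent.Helper96.Q3
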