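import Mathlib
import Cfsg.Agent.Helper71.SQDefs

/-!
# CALL S5867 piece R1 (helper96): `rad_pair`

The commutator identity in the unipotent radical `Q_a` of the stabiliser of `W = a ⊗ F^n`:
with `N = ρ - 1` and `e = E_{y₁} ⊗ 1` one has `N e = (a (J y₁)ᵀ) ⊗ C₁`,
`e N = -(y₁ (J a)ᵀ) ⊗ C₁†` (adjoint for the form), `e N e = 0`, `N N e = 0`, `e N N = 0`, and the
identity reduces to a computation in a ring.
-/

set_option autoImplicit false
set_option linter.unusedVariables false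

namespace Cfsg.Agent.Helper96.SQR1

open Matrix Cfsg.Agent.Helper71.T4 Cfsg.Agent.Helper71.SO Cfsg.Agent.Helper71.SQ
open scoped Kronecker

variable {F : Type*} [Field F] {m n : ℕ}

/-- Two matrices agreeing on all pure tensors are equal. -/
theorem eq_of_pt (A B : Matrix (Fin m × Fin n) (Fin m × Fin n) F)
    (h : ∀ (x : Fin m → F) (b : Fin n → F), A *ᵥ pt x b = B *ᵥ pt x b) : A = B := by
  ext p q
  have h2 : pt (Pi.single q.1 (1 : F)) (Pi.single q.2 (1 : F)) = Pi.single q 1 := by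
    ext ⟨i, k⟩
    obtain ⟨q1, q2⟩ := q
    simp only [pt, Pi.single_apply, Prod.mk.injEq]
    by_cases h1 : i = q1 <;> by_cases h2 : k = q2 <;> simp [h1, h2]
  have h1 := congrFun (h (Pi.single q.1 1) (Pi.single q.2 1)) p
  rw [h2] at h1
  simpa using h1

theorem vmv_mulVec (y φ x : Fin m → F) : vecMulVec y φ *ᵥ x = (φ ⬝ᵥ x) • y := by
  ext i
  simp only [Matrix.mulVec, dotProduct, Matrix.vecMulVec_apply, Pi.smul_apply, smul_eq_mul,
    Finset.sum_mul]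
  exact Finset.sum_congr rfl fun j _ => by ring

theorem pt_smul_l (c : F) (u : Fin m → F) (w : Fin n → F) : pt (c • u) w = c • pt u w := by
  ext ⟨i, k⟩
  simp [pt, mul_assoc]

theorem pt_neg_r (u : Fin m → F) (w : Fin n → F) : pt u (-w) = - pt u w := by
  ext ⟨i, k⟩
  simp [pt]

theorem pt_zero_r (u : Fin m → F) : pt u (0 : Fin n → F) = 0 := by
  ext ⟨i, k⟩
  simp [pt]

theorem neg_kron_l (A : Matrix (Fin m) (Fin m) F) (B : Matrix (Fin n) (Fin n) F) :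
    (-A) ⊗ₖ B = -(A ⊗ₖ B) := by
  ext ⟨i, k⟩ ⟨j, l⟩
  simp [Matrix.kroneckerMap_apply]

theorem neg_kron_r (A : Matrix (Fin m) (Fin m) F) (B : Matrix (Fin n) (Fin n) F) :
    A ⊗ₖ (-B) = -(A ⊗ₖ B) := by
  ext ⟨i, k⟩ ⟨j, l⟩
  simp [Matrix.kroneckerMap_apply]

/-- If `N (y ⊗ b) = a ⊗ C b` then `N ((y φᵀ) ⊗ K) = (a φᵀ) ⊗ (C K)`. -/
theorem key_mul (N : Matrix (Fin m × Fin n) (Fin m × Fin n) F) (a y : Fin m → F)
    (C : Matrix (Fin n) (Fin n) F) (hN : ∀ b : Fin n → F, N *ᵥ pt y b = pt a (C *ᵥ b))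
    (φ : Fin m → F) (K : Matrix (Fin n) (Fin n) F) :
    N * (vecMulVec y φ ⊗ₖ K) = vecMulVec a φ ⊗ₖ (C * K) := by
  apply eq_of_pt
  intro x b
  rw [← Matrix.mulVec_mulVec, kron_mulVec_pt, kron_mulVec_pt, vmv_mulVec, vmv_mulVec, pt_smul_l,
    Matrix.mulVec_smul, hN, pt_smul_l, Matrix.mulVec_mulVec]

/-- If `N` kills `a ⊗ F^n` then `N ((a φᵀ) ⊗ K) = 0`. -/
theorem kill_mul (N : Matrix (Fin m × Fin n) (Fin m × Fin n) F) (a : Fin m → F)
    (hN : ∀ b : Fin n → F, N *ᵥ pt a b = 0)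
    (φ : Fin m → F) (K : Matrix (Fin n) (Fin n) F) :
    N * (vecMulVec a φ ⊗ₖ K) = 0 := by
  apply eq_of_pt
  intro x b
  rw [← Matrix.mulVec_mulVec, kron_mulVec_pt, vmv_mulVec, pt_smul_l, Matrix.mulVec_smul, hN,
    smul_zero, Matrix.zero_mulVec]

/-- The adjoint version of `key_mul`. -/
theorem adj_mul (J : Matrix (Fin m) (Fin m) F) (hJ : Jᵀ = -J) (S : Matrix (Fin n) (Fin n) F)
    (hdetS : S.det ≠ 0) (N Nm : Matrix (Fin m × Fin n) (Fin m × Fin n) F)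
    (hΩ : OmG J S * N = Nmᵀ * OmG J S) (a y : Fin m → F) (C : Matrix (Fin n) (Fin n) F)
    (hNm : ∀ b : Fin n → F, Nm *ᵥ pt y b = pt a (C *ᵥ b)) (u : Fin m → F)
    (K : Matrix (Fin n) (Fin n) F) :
    (vecMulVec u (J *ᵥ y) ⊗ₖ K) * N = vecMulVec u (J *ᵥ a) ⊗ₖ (K * S⁻¹ * Cᵀ * S) := by
  have hvJ : ∀ x : Fin m → F, x ᵥ* J = -(J *ᵥ x) := by
    intro x
    rw [← Matrix.mulVec_transpose, hJ, Matrix.neg_mulVec]
  have hSS : S⁻¹ * S = 1 := Matrix.nonsing_inv_mul S (isUnit_iff_ne_zero.mpr hdetS)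
  have h1 : vecMulVec u (J *ᵥ y) ⊗ₖ K = -((vecMulVec u y ⊗ₖ (K * S⁻¹)) * OmG J S) := by
    rw [OmG, ← Matrix.mul_kronecker_mul, Matrix.vecMulVec_mul, hvJ, Matrix.mul_assoc, hSS,
      Matrix.mul_one, Matrix.vecMulVec_neg, neg_kron_l, neg_neg]
  have h2 : (vecMulVec u y ⊗ₖ (K * S⁻¹)) * Nmᵀ = (vecMulVec u a ⊗ₖ (K * S⁻¹ * Cᵀ)) := by
    have h3 := key_mul Nm a y C hNm u (K * S⁻¹)ᵀ
    have h4 := congrArg Matrix.transpose h3
    simp only [Matrix.transpose_mul, ← Matrix.kroneckerMap_transpose, Matrix.transpose_vecMulVec,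
      Matrix.transpose_transpose] at h4
    exact h4
  rw [h1, Matrix.neg_mul, Matrix.mul_assoc, hΩ, ← Matrix.mul_assoc, h2, OmG,
    ← Matrix.mul_kronecker_mul, Matrix.vecMulVec_mul, hvJ, Matrix.vecMulVec_neg, neg_kron_l,
    neg_neg]

/-- The ring computation. -/
theorem ring_core {R : Type*} [Ring R] (N E Z : R) (hEE : E * E = 0) (hENE : E * N * E = 0)
    (hNNE : N * N * E = 0) (hENN : E * N * N = 0) (hZ : Z = N * E * N + N * E * N)
    (hNZ : N * Z = 0) (hEZ : E * Z = 0) :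
    (1 + N) * ((1 + E) * (1 + N) * (1 - E))
      = ((1 + E) * (1 + N) * (1 - E)) * (1 + N) * (1 + Z) := by
  have h1 : (1 + E) * (1 + N) * (1 - E) = 1 + N + E * N - N * E := by
    have : (1 + E) * (1 + N) * (1 - E) = 1 + N + E * N - N * E - E * E - E * N * E := by
      noncomm_ring
    rw [this, hEE, hENE, sub_zero, sub_zero]
  rw [h1]
  have h2 : (1 + N + E * N - N * E) * (1 + N) * (1 + Z)
      = (1 + N + E * N - N * E) * (1 + N) + Z := by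
    have : (1 + N + E * N - N * E) * (1 + N) * (1 + Z)
        = (1 + N + E * N - N * E) * (1 + N) + Z
          + (N + E * N - N * E + N + N * N + E * N * N - N * E * N) * Z := by
      noncomm_ring
    rw [this]
    have h0 : (N + E * N - N * E + N + N * N + E * N * N - N * E * N) * Z = 0 := by
      simp only [add_mul, sub_mul, mul_assoc, hNZ, hEZ, mul_zero, add_zero, sub_zero]
    rw [h0, add_zero]
  rw [h2]
  have h3 : (1 + N) * (1 + N + E * N - N * E)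
      = (1 + N + E * N - N * E) * (1 + N) + (N * E * N + N * E * N) - N * N * E - E * N * N := by
    noncomm_ring
  rw [h3, hNNE, hENN, hZ, sub_zero, sub_zero]

/-- PIECE R1 -/
theorem rad_pair (h2 : (2 : F) ≠ 0) (J : Matrix (Fin m) (Fin m) F) (hJ : Jᵀ = -J)
    (hdetJ : J.det ≠ 0) (S : Matrix (Fin n) (Fin n) F) (hS : Sᵀ = S) (hdetS : S.det ≠ 0)
    (a a₁ y₁ : Fin m → F) (ha : a ≠ 0) (haa₁ : bl J a a₁ = 1) (hay₁ : bl J a y₁ = 0)
    (hy₁a₁ : bl J y₁ a₁ = 0)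
    (ρ ρ' : Matrix (Fin m × Fin n) (Fin m × Fin n) F) (hρ : ρ * ρ' = 1) (hρ' : ρ' * ρ = 1)
    (hsp : IsSpG J S ρ)
    (h1 : ∀ b : Fin n → F, ρ *ᵥ pt a b = pt a b)
    (h2' : ∀ (y : Fin m → F) (b : Fin n → F), bl J a y = 0 → ∃ b' : Fin n → F,
      ρ *ᵥ pt y b = pt y b + pt a b')
    (C₁ : Matrix (Fin n) (Fin n) F)
    (hC₁ : ∀ b : Fin n → F, ρ *ᵥ pt y₁ b = pt y₁ b + pt a (C₁ *ᵥ b)) (c : F) :
    ρ * ((Tac J y₁ c ⊗ₖ (1 : Matrix (Fin n) (Fin n) F)) * ρ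
        * (Tac J y₁ (-c) ⊗ₖ (1 : Matrix (Fin n) (Fin n) F)))
      = ((Tac J y₁ c ⊗ₖ (1 : Matrix (Fin n) (Fin n) F)) * ρ
        * (Tac J y₁ (-c) ⊗ₖ (1 : Matrix (Fin n) (Fin n) F))) * ρ
        * (1 + vecMulVec a (J *ᵥ a) ⊗ₖ ((-2 * c) • (C₁ * S⁻¹ * C₁ᵀ * S))) := by
  -- notation
  obtain ⟨N, hNdef⟩ : ∃ N : Matrix (Fin m × Fin n) (Fin m × Fin n) F, N = ρ - 1 := ⟨_, rfl⟩
  obtain ⟨Nm, hNmdef⟩ : ∃ Nm : Matrix (Fin m × Fin n) (Fin m × Fin n) F, Nm = ρ' - 1 := ⟨_, rfl⟩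
  obtain ⟨e, hedef⟩ : ∃ e : Matrix (Fin m × Fin n) (Fin m × Fin n) F,
      e = vecMulVec y₁ (J *ᵥ y₁) ⊗ₖ (1 : Matrix (Fin n) (Fin n) F) := ⟨_, rfl⟩
  have hρN : ρ = 1 + N := by rw [hNdef]; abel
  -- the form is alternating
  have hswap : ∀ x y : Fin m → F, bl J x y = - bl J y x := by
    intro x y
    simp only [bl]
    rw [Matrix.dotProduct_mulVec, ← Matrix.mulVec_transpose, hJ, Matrix.neg_mulVec,
      neg_dotProduct, dotProduct_comm]
  have halt : ∀ x : Fin m → F, bl J x x = 0 := by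
    intro x
    have h := hswap x x
    have h3 : (2 : F) * bl J x x = 0 := by linear_combination h
    rcases mul_eq_zero.mp h3 with h4 | h4
    · exact absurd h4 h2
    · exact h4
  -- the actions of `N`, `Nm`
  have hN1 : ∀ b : Fin n → F, N *ᵥ pt y₁ b = pt a (C₁ *ᵥ b) := by
    intro b
    rw [hNdef, Matrix.sub_mulVec, Matrix.one_mulVec, hC₁, add_sub_cancel_left]
  have hN0 : ∀ b : Fin n → F, N *ᵥ pt a b = 0 := by
    intro b
    rw [hNdef, Matrix.sub_mulVec, Matrix.one_mulVec, h1, sub_self]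
  have hρ'a : ∀ b : Fin n → F, ρ' *ᵥ pt a b = pt a b := by
    intro b
    have h := congrArg (fun v => ρ' *ᵥ v) (h1 b)
    simp only [Matrix.mulVec_mulVec, hρ', Matrix.one_mulVec] at h
    exact h.symm
  have hNm0 : ∀ b : Fin n → F, Nm *ᵥ pt a b = 0 := by
    intro b
    rw [hNmdef, Matrix.sub_mulVec, Matrix.one_mulVec, hρ'a, sub_self]
  have hNm1 : ∀ b : Fin n → F, Nm *ᵥ pt y₁ b = pt a ((-C₁) *ᵥ b) := by
    intro b
    have h := congrArg (fun v => ρ' *ᵥ v) (hC₁ b)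
    simp only [Matrix.mulVec_mulVec, hρ', Matrix.one_mulVec, Matrix.mulVec_add, hρ'a] at h
    rw [hNmdef, Matrix.sub_mulVec, Matrix.one_mulVec, Matrix.neg_mulVec, pt_neg_r]
    rw [eq_sub_of_add_eq h.symm]
    abel
  have hNm0' : ∀ b : Fin n → F, Nm *ᵥ pt a b = pt a ((0 : Matrix (Fin n) (Fin n) F) *ᵥ b) := by
    intro b
    rw [hNm0, Matrix.zero_mulVec, pt_zero_r]
  -- adjointness
  have hΩρ : OmG J S * ρ = ρ'ᵀ * OmG J S := by
    have h : ρ'ᵀ * (ρᵀ * OmG J S * ρ) = ρ'ᵀ * OmG J S := congrArg (fun X => ρ'ᵀ * X) hsp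
    rw [← Matrix.mul_assoc, ← Matrix.mul_assoc, ← Matrix.transpose_mul, hρ, Matrix.transpose_one,
      Matrix.one_mul] at h
    exact h
  have hΩ : OmG J S * N = Nmᵀ * OmG J S := by
    rw [hNdef, hNmdef, Matrix.mul_sub, Matrix.mul_one, hΩρ, Matrix.transpose_sub,
      Matrix.transpose_one, Matrix.sub_mul, Matrix.one_mul]
  -- the basic products
  have hd1 : (J *ᵥ y₁) ⬝ᵥ y₁ = 0 := by
    rw [dotProduct_comm]; exact halt y₁
  have hd2 : (J *ᵥ y₁) ⬝ᵥ a = 0 := by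
    rw [dotProduct_comm]; exact hay₁
  have hP : N * e = vecMulVec a (J *ᵥ y₁) ⊗ₖ C₁ := by
    rw [hedef, key_mul N a y₁ C₁ hN1, Matrix.mul_one]
  have hR : e * N = vecMulVec y₁ (J *ᵥ a) ⊗ₖ (1 * S⁻¹ * (-C₁)ᵀ * S) := by
    rw [hedef]
    exact adj_mul J hJ S hdetS N Nm hΩ a y₁ (-C₁) hNm1 y₁ 1
  have hee : e * e = 0 := by
    rw [hedef, ← Matrix.mul_kronecker_mul, Matrix.vecMulVec_mul_vecMulVec, hd1, zero_smul,
      Matrix.vecMulVec_zero, Matrix.zero_kronecker]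
  have heNe : e * N * e = 0 := by
    rw [Matrix.mul_assoc, hP, hedef, ← Matrix.mul_kronecker_mul, Matrix.vecMulVec_mul_vecMulVec,
      hd2, zero_smul, Matrix.vecMulVec_zero, Matrix.zero_kronecker]
  have hNNe : N * N * e = 0 := by
    rw [Matrix.mul_assoc, hP]
    exact kill_mul N a hN0 _ _
  have heNN : e * N * N = 0 := by
    rw [hR]
    have h := adj_mul J hJ S hdetS N Nm hΩ a a 0 hNm0' y₁ (1 * S⁻¹ * (-C₁)ᵀ * S)
    rw [h, Matrix.transpose_zero, Matrix.mul_zero, Matrix.zero_mul, Matrix.kronecker_zero]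
  have hNeN : N * e * N = -(vecMulVec a (J *ᵥ a) ⊗ₖ (C₁ * S⁻¹ * C₁ᵀ * S)) := by
    rw [Matrix.mul_assoc, hR, key_mul N a y₁ C₁ hN1, Matrix.one_mul, Matrix.transpose_neg,
      Matrix.mul_neg, Matrix.neg_mul, Matrix.mul_neg, neg_kron_r, ← Matrix.mul_assoc,
      ← Matrix.mul_assoc]
  obtain ⟨Z, hZdef⟩ : ∃ Z : Matrix (Fin m × Fin n) (Fin m × Fin n) F,
      Z = vecMulVec a (J *ᵥ a) ⊗ₖ ((-2 * c) • (C₁ * S⁻¹ * C₁ᵀ * S)) := ⟨_, rfl⟩
  have hNZ : N * Z = 0 := by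
    rw [hZdef]
    exact kill_mul N a hN0 _ _
  have heZ : e * Z = 0 := by
    rw [hZdef, hedef, ← Matrix.mul_kronecker_mul, Matrix.vecMulVec_mul_vecMulVec, hd2, zero_smul,
      Matrix.vecMulVec_zero, Matrix.zero_kronecker]
  -- the transvections
  have ht : ∀ c' : F, Tac J y₁ c' ⊗ₖ (1 : Matrix (Fin n) (Fin n) F) = 1 + c' • e := by
    intro c'
    rw [Tac, Matrix.add_kronecker, Matrix.one_kronecker_one, Matrix.smul_kronecker, hedef]
  rw [ht c, ht (-c), ← hZdef, hρN]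
  have hcore := ring_core N (c • e) Z
    (by rw [smul_mul_smul_comm, hee, smul_zero])
    (by rw [smul_mul_assoc, smul_mul_assoc, mul_smul_comm, heNe, smul_zero, smul_zero])
    (by rw [mul_smul_comm, hNNe, smul_zero])
    (by rw [smul_mul_assoc, smul_mul_assoc, heNN, smul_zero])
    (by
      rw [mul_smul_comm, smul_mul_assoc, hNeN, hZdef, Matrix.kronecker_smul]
      module)
    hNZ
    (by rw [smul_mul_assoc, heZ, smul_zero])
  have hneg : (1 : Matrix (Fin m × Fin n) (Fin m × Fin n) F) + (-c) • e = 1 - c • e := by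
    rw [neg_smul, sub_eq_add_neg]
  rw [hneg]
  exact hcore

end Cfsg.Agent.Helper96.SQR1
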