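import Mathlib
import Cfsg.Agent.Helper96.OHDefs
import Cfsg.Agent.Helper97.OForm

set_option autoImplicit false
set_option linter.unusedSectionVars false
set_option linter.unusedVariables false

/-!
# S5992 (helper96): small helper lemmas for the assemblies.
-/

namespace Cfsg.Agent.Helper96.OHAux

open Module Polynomial Cfsg Cfsg.Geo
open Cfsg.Agent.Helper13.TIu Cfsg.Agent.Helper96.OH
open scoped MatrixGroups

theorem oh_toLin'_pow_eq {κ : Type} [Fintype κ] [DecidableEq κ] {F : Type*} [Field F]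
    (M : Matrix κ κ F) (k : ℕ) : Matrix.toLin' M ^ k = Matrix.toLin' (M ^ k) := by
  induction k with
  | zero => rw [pow_zero, pow_zero, Matrix.toLin'_one]; rfl
  | succ k ih => rw [pow_succ, pow_succ, Matrix.toLin'_mul, ih]; rfl

theorem oh_two_ne_zero_of_odd_card {F : Type*} [Field F] [Fintype F]
    (hodd : Odd (Fintype.card F)) : (2 : F) ≠ 0 := by
  have hchar : ringChar F ≠ 2 := by
    intro h
    have := FiniteField.even_card_iff_char_two.mp h
    rcases hodd with ⟨k, hk⟩
    omega
  exact Ring.two_ne_zero hchar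

theorem oh_card_idx (d : ℕ) : Fintype.card (Unit ⊕ (Fin d ⊕ Fin d)) = 2 * d + 1 := by
  simp; omega

/-- the isometry attached to an element of the isometry group. -/
theorem oh_opres_toLin' {κ : Type} [Fintype κ] [DecidableEq κ] {F : Type*} [Field F]
    (Q : (κ → F) → F) (g : GL κ F) (hg : g ∈ Cfsg.isometryGroup F Q) :
    OPres Q (Matrix.toLin' (g : Matrix κ κ F)) := by
  intro v
  rw [Matrix.toLin'_apply]
  exact (Cfsg.Agent.Helper97.Gen.mem_isometryGroup_iff Q g).mp hg v

theorem oh_pow_toLin'_of_orderOf {κ : Type} [Fintype κ] [DecidableEq κ] {F : Type*} [Field F]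
    (g : GL κ F) (r : ℕ) (hg : orderOf g = r) :
    Matrix.toLin' (g : Matrix κ κ F) ^ r = 1 := by
  have h1 : g ^ r = 1 := by rw [← hg]; exact pow_orderOf_eq_one g
  have h2 : (g : Matrix κ κ F) ^ r = 1 := by
    rw [← Units.val_pow_eq_pow_val, h1]; rfl
  rw [oh_toLin'_pow_eq, h2, Matrix.toLin'_one]; rfl

/-- a prime different from the characteristic is invertible. -/
theorem oh_rF {F : Type*} [Field F] (p : ℕ) [Fact p.Prime] [CharP F p] (r : ℕ) [Fact r.Prime]
    (hrp : r ≠ p) : (r : F) ≠ 0 := by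
  intro h0
  have h1 := (CharP.cast_eq_zero_iff F p r).mp h0
  exact hrp ((Nat.prime_dvd_prime_iff_eq Fact.out Fact.out).mp h1).symm

/-- an endomorphism of finite order is injective. -/
theorem oh_inj_of_pow {V : Type*} {F : Type*} [Field F] [AddCommGroup V] [Module F V]
    (T : Module.End F V) (r : ℕ) (hr0 : 0 < r) (hTr : T ^ r = 1) : Function.Injective T := by
  intro u v huv
  have h1 : T ^ r = T ^ (r - 1) * T := by
    rw [← pow_succ]
    congr 1
    omega
  have h3 : ∀ w, (T ^ (r - 1)) (T w) = w := by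
    intro w
    have h4 := congrArg (fun f : Module.End F V => f w) hTr
    simp only [Module.End.one_apply] at h4
    rw [h1] at h4
    exact h4
  rw [← h3 u, ← h3 v, huv]

/-- an injective isometry maps hyperbolic nondegenerate `m`-spaces to such. -/
theorem oh_map_pres {ι : Type} [Fintype ι] [DecidableEq ι] {F : Type*} [Field F]
    (Q : (ι → F) → F) (T : Module.End F (ι → F)) (hT : OPres Q T)
    (hinj : Function.Injective T) (m : ℕ) (W : Submodule F (ι → F))
    (hW : finrank F W = m ∧ ONd Q W ∧ OPl Q W) :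
    finrank F (W.map T) = m ∧ ONd Q (W.map T) ∧ OPl Q (W.map T) := by
  obtain ⟨h1, h2, h3⟩ := hW
  have hpol : ∀ u v, QuadraticMap.polar Q (T u) (T v) = QuadraticMap.polar Q u v := by
    intro u v
    unfold QuadraticMap.polar
    rw [← map_add, hT, hT, hT]
  refine ⟨?_, ?_, ?_⟩
  · rw [← h1]
    exact ((Submodule.equivMapOfInjective T hinj W).finrank_eq).symm
  · rintro _ ⟨w, hw, rfl⟩ hw0
    have hw0' : w ≠ 0 := by
      rintro rfl
      exact hw0 (map_zero T)
    obtain ⟨⟨x, hx, hx1⟩, ⟨y, hy, hy1⟩⟩ := h2 w hw hw0'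
    exact ⟨⟨T x, ⟨x, hx, rfl⟩, by rw [hpol]; exact hx1⟩, ⟨T y, ⟨y, hy, rfl⟩, by rw [hpol]; exact hy1⟩⟩
  · obtain ⟨U, hUW, hU, hUd⟩ := h3
    refine ⟨U.map T, Submodule.map_mono hUW, ?_, ?_⟩
    · rintro _ ⟨u, hu, rfl⟩
      rw [hT]
      exact hU u hu
    · rw [← (Submodule.equivMapOfInjective T hinj U).finrank_eq,
        ← (Submodule.equivMapOfInjective T hinj W).finrank_eq]
      exact hUd

end Cfsg.Agent.Helper96.OHAux
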