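import Mathlib
import Cfsg.Agent.Helper13.TJDec
import Cfsg.Agent.Helper96.OHDefs
import Cfsg.Agent.Helper31.OHOFIX
import Cfsg.Agent.Helper31.OHOPERP
import Cfsg.Agent.Helper96.OHATOM

set_option autoImplicit false
set_option linter.unusedSectionVars false
set_option linter.unusedVariables false

/-!
# S5992 piece OCDVD (helper96): `c` divides the codimension of the fixed space.
-/

namespace Cfsg.Agent.Helper96.OH5992

open Module Polynomial Cfsg Cfsg.Geo
open Cfsg.Agent.Helper13.TIu Cfsg.Agent.Helper96.OH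
open Cfsg.Agent.Helper31.OH5992

variable {ι : Type} [Fintype ι] [DecidableEq ι] {F : Type*} [Field F] (Q : (ι → F) → F)

/-- auxiliary: an invariant nondegenerate subspace without fixed vectors has dimension divisible
by `c`. -/
theorem o_cdvd_aux [Fintype F] (hQ : IsNondegenerateQuadraticForm Q) (h2 : (2 : F) ≠ 0)
    (T : Module.End F (ι → F)) (hT : OPres Q T) (r : ℕ) [Fact r.Prime] (hr2 : 2 < r)
    (hrF : (r : F) ≠ 0) (hTr : T ^ r = 1) (i c : ℕ)
    (hi : i = orderOf ((Fintype.card F : ℕ) : ZMod r)) (hc : c = if Even i then i else 2 * i)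
    (k : ℕ) : ∀ P : Submodule F (ι → F), finrank F P = k → P.map T ≤ P → ONd Q P →
      P ⊓ LinearMap.ker (T - 1) = ⊥ → c ∣ finrank F P := by
  have hrpr : r.Prime := Fact.out
  have hi0 : 0 < i := by
    rw [hi]
    exact Cfsg.Agent.Helper13.TIsp.ti_ord_pos_of_ne r hrF
  have hc0 : 0 < c := by
    rw [hc]
    split_ifs <;> omega
  induction k using Nat.strong_induction_on with
  | _ k ih =>
    intro P hPk hPT hP hPker
    by_cases hP0 : P = ⊥
    · rw [hP0, finrank_bot]
      exact dvd_zero c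
    · obtain ⟨E, hEP, hET, hE, hEdim⟩ :=
        o_atom Q hQ h2 T hT r hr2 hrF hTr i c hi hc P hPT hP hP0 hPker
      obtain ⟨P', hP'P, hP'T, hP', -, -, -, hdim⟩ :=
        o_perp Q hQ T hT r hrpr.pos hTr P E hP hE hEP hPT hET
      have hP'ker : P' ⊓ LinearMap.ker (T - 1) = ⊥ := by
        rw [eq_bot_iff]
        exact (inf_le_inf_right _ hP'P).trans (le_of_eq hPker)
      have hlt : finrank F P' < k := by omega
      have hd := ih (finrank F P') hlt P' rfl hP'T hP' hP'ker
      rw [← hdim, hEdim]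
      exact Dvd.dvd.add hd (dvd_refl c)

/-- OCDVD (uses OFIX, OATOM, OPERP). -/
theorem o_cdvd [Fintype F] (hQ : IsNondegenerateQuadraticForm Q) (h2 : (2 : F) ≠ 0)
    (T : Module.End F (ι → F)) (hT : OPres Q T) (r : ℕ) [Fact r.Prime] (hr2 : 2 < r)
    (hrF : (r : F) ≠ 0) (hTr : T ^ r = 1) (i c : ℕ)
    (hi : i = orderOf ((Fintype.card F : ℕ) : ZMod r)) (hc : c = if Even i then i else 2 * i)
    (N : Submodule F (ι → F)) (hNT : N.map T ≤ N) (hN : ONd Q N) :
    c ∣ finrank F N - finrank F (N ⊓ LinearMap.ker (T - 1) : Submodule F (ι → F)) := by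
  have hrpr : r.Prime := Fact.out
  obtain ⟨-, P, -, hPT, hP, hPk, -, -, hdim⟩ := o_fix Q hQ T hT r hrpr.pos hrF hTr N hNT hN
  have h1 := o_cdvd_aux Q hQ h2 T hT r hr2 hrF hTr i c hi hc (finrank F P) P rfl hPT hP hPk
  have h3 : finrank F N - finrank F (N ⊓ LinearMap.ker (T - 1) : Submodule F (ι → F)) =
      finrank F P := by omega
  rw [h3]
  exact h1

end Cfsg.Agent.Helper96.OH5992
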