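import Mathlib
import Cfsg.Agent.Helper96.OHDefs
import Cfsg.Agent.Helper96.OHATOM
import Cfsg.Agent.Helper96.OHCDVD
import Cfsg.Agent.Helper3.OHOAEA
import Cfsg.Agent.Helper37.OHONOODD
import Cfsg.Agent.Helper37.OHOTYPEODD
import Cfsg.Agent.Helper88.OHOTYPEEVEN
import Cfsg.Agent.Helper70.OHONONISO
import Cfsg.Agent.Helper59.TIMAXTI
import Cfsg.Agent.Helper58.TICOMPL
import Cfsg.Agent.Helper13.TJDec

set_option autoImplicit false
set_option linter.unusedSectionVars false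
set_option linter.unusedVariables false

/-!
# S5992 pieces in ALL characteristics (helper96)

The hypotheses `2 ≠ 0` of OATOM / OAEA / OCDVD / OTYPEODD / OTYPEEVEN / ONOODD are removed:
* `oall_ts_of_ti`: an invariant subspace without fixed vectors on which the polar form vanishes is
  totally singular (characteristic 2: the zeros of `Q` form an invariant subspace with trivial
  action on the quotient, Maschke);
* `oall_even_char2`: in characteristic 2 nondegenerate subspaces have even dimension;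
* `oall_no_odd`, `oall_atom_even`, `oall_atom`, `oall_cdvd`, `oall_type_odd`, `oall_type_even`:
  the S5992 statements without `h2` (proofs of helper3 / helper37 / helper88 / helper96 adapted).
-/

namespace Cfsg.Agent.Helper96.OHAll

open Module Polynomial Cfsg Cfsg.Geo
open Cfsg.Agent.Helper13.TIu Cfsg.Agent.Helper96.OH
open Cfsg.Agent.Helper13.TIsp Cfsg.Agent.Helper90.BG
open Cfsg.Agent.Helper39.TI5961 Cfsg.Agent.Helper58.TI5955

variable {ι : Type} [Fintype ι] [DecidableEq ι] {F : Type*} [Field F] (Q : (ι → F) → F)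

/-- an invariant subspace without fixed vectors on which the polar form vanishes is totally
singular (all characteristics). -/
theorem oall_ts_of_ti (hQ : IsNondegenerateQuadraticForm Q) (T : Module.End F (ι → F))
    (hT : OPres Q T) (r : ℕ) (hrF : (r : F) ≠ 0) (hTr : T ^ r = 1) (A : Submodule F (ι → F))
    (hAT : A.map T ≤ A) (hAk : A ⊓ LinearMap.ker (T - 1) = ⊥)
    (hti : ∀ u ∈ A, ∀ w ∈ A, QuadraticMap.polar Q u w = 0) : ∀ u ∈ A, Q u = 0 := by
  by_cases h2 : (2 : F) = 0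
  · have hneg : ∀ v : ι → F, -v = v := by
      intro v
      have h3 : (2 : F) • v = 0 := by rw [h2, zero_smul]
      rw [two_smul] at h3
      exact neg_eq_of_add_eq_zero_left h3
    let A₀ : Submodule F (ι → F) :=
      { carrier := {u | u ∈ A ∧ Q u = 0}
        add_mem' := by
          rintro a b ⟨ha, ha'⟩ ⟨hb, hb'⟩
          exact ⟨A.add_mem ha hb, by rw [q_add Q, ha', hb', hti a ha b hb]; simp⟩
        zero_mem' := ⟨A.zero_mem, q_zero Q hQ⟩
        smul_mem' := by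
          rintro c a ⟨ha, ha'⟩
          exact ⟨A.smul_mem c ha, by rw [hQ.smul, ha', mul_zero]⟩ }
    have hA₀A : A₀ ≤ A := fun u hu => hu.1
    have hA₀T : A₀.map T ≤ A₀ := by
      rintro _ ⟨u, hu, rfl⟩
      exact ⟨hAT ⟨u, hu.1, rfl⟩, by rw [hT]; exact hu.2⟩
    obtain ⟨L, hLA, hLT, hdisj, hsup⟩ :=
      Cfsg.Agent.Helper58.TI5955.ti_compl T r hrF hTr A₀ A hA₀A hA₀T hAT
    have hL0 : ∀ l ∈ L, l = 0 := by
      intro l hl
      have hTl : T l ∈ L := hLT ⟨l, hl, rfl⟩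
      have h1 : T l - l ∈ A₀ ⊓ L := by
        refine ⟨⟨A.sub_mem (hLA hTl) (hLA hl), ?_⟩, L.sub_mem hTl hl⟩
        show Q (T l - l) = 0
        rw [sub_eq_add_neg, hneg, q_add Q, hT, hti (T l) (hLA hTl) l (hLA hl), add_zero,
          ← two_mul, h2, zero_mul]
      rw [hdisj, Submodule.mem_bot, sub_eq_zero] at h1
      have h3 : l ∈ A ⊓ LinearMap.ker (T - 1) := by
        refine ⟨hLA hl, ?_⟩
        show l ∈ LinearMap.ker (T - 1)
        rw [LinearMap.mem_ker, LinearMap.sub_apply, Module.End.one_apply, h1, sub_self]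
      rw [hAk, Submodule.mem_bot] at h3
      exact h3
    intro u hu
    rw [← hsup] at hu
    obtain ⟨a, ha, l, hl, rfl⟩ := Submodule.mem_sup.mp hu
    rw [hL0 l hl, add_zero]
    exact ha.2
  · intro u hu
    exact q_eq_zero_of_polar Q hQ h2 u (hti u hu u hu)

/-- in characteristic 2 nondegenerate subspaces have even dimension. -/
theorem oall_even_char2 (hQ : IsNondegenerateQuadraticForm Q) (h2 : (2 : F) = 0)
    (U : Submodule F (ι → F)) (hU : ONd Q U) : Even (finrank F U) :=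
  (Cfsg.Agent.Helper59.TI5955.ti_lag (pB Q hQ) (fun v => by rw [pB_self, h2, zero_mul]) U
    ((und_iff Q hQ U).mpr hU)).1

/-- ONOODD in all characteristics. -/
theorem oall_no_odd (hQ : IsNondegenerateQuadraticForm Q)
    (T : Module.End F (ι → F)) (hT : OPres Q T) (r : ℕ) (hr : Odd r) (hTr : T ^ r = 1)
    (U : Submodule F (ι → F)) (hUT : U.map T ≤ U) (hU : ONd Q U) (hodd : Odd (finrank F U)) :
    U ⊓ LinearMap.ker (T - 1) ≠ ⊥ := by
  by_cases h2 : (2 : F) = 0
  · exact absurd (oall_even_char2 Q hQ h2 U hU) (Nat.not_even_iff_odd.mpr hodd)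
  · exact Cfsg.Agent.Helper37.OH5992.o_no_odd Q hQ h2 T hT r hr hTr U hUT hU hodd

/-- OAEA in all characteristics (helper3's proof of `o_atom_even`, with the last step replaced by
`oall_ts_of_ti`). -/
theorem oall_atom_even [Fintype F] (hQ : IsNondegenerateQuadraticForm Q)
    (T : Module.End F (ι → F)) (hT : OPres Q T) (r : ℕ) [Fact r.Prime] (hr2 : 2 < r)
    (hrF : (r : F) ≠ 0) (hTr : T ^ r = 1)
    (heven : Even (orderOf ((Fintype.card F : ℕ) : ZMod r)))
    (E₂ : Submodule F (ι → F)) (hET : E₂.map T ≤ E₂) (hE : ONd Q E₂)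
    (hEk : E₂ ⊓ LinearMap.ker (T - 1) = ⊥)
    (hEdim : finrank F E₂ = 2 * orderOf ((Fintype.card F : ℕ) : ZMod r)) :
    ∃ E : Submodule F (ι → F), E ≤ E₂ ∧ E.map T ≤ E ∧ ONd Q E ∧
      finrank F E = orderOf ((Fintype.card F : ℕ) : ZMod r) := by
  classical
  have hE' : UNd (pB Q hQ) E₂ := (und_iff Q hQ E₂).mpr hE
  have hTU : UPres (pB Q hQ) T := upres_of Q hQ T hT
  have hS : LinearMap.IsSymm (pB Q hQ) := ⟨fun x y => by
    simpa using pB_comm Q hQ x y⟩
  have hd : ∀ g : F[X], Irreducible g → g ∣ ∑ j ∈ Finset.range r, (X : F[X]) ^ j →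
      g.natDegree = orderOf ((Fintype.card F : ℕ) : ZMod r) := fun g hg hdvd =>
    Cfsg.Agent.Helper46.bgl_irr_factor_degree r hrF g hg hdvd
  obtain ⟨b, hb⟩ : ∃ b, b = orderOf ((Fintype.card F : ℕ) : ZMod r) := ⟨_, rfl⟩
  rw [← hb] at hEdim hd heven ⊢
  have hrad' : ∀ U : Submodule F (ι → F), U.map T ≤ U → U ⊓ LinearMap.ker (T - 1) = ⊥ →
      finrank F U = b → UNd (pB Q hQ) U ∨ (∀ u ∈ U, ∀ v ∈ U, pB Q hQ u v = 0) := by
    intro U h1 h2' h3
    exact Cfsg.Agent.Helper10.TI5954.u_rad_dich (pB Q hQ) id2 hS T hTU r hrF hTr U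
      h1 h2' (by rw [h3, hb])
  by_contra hcon
  have hqpos : 0 < Fintype.card F := Fintype.card_pos
  have hnr : ¬ r ∣ Fintype.card F := by
    intro hdv
    obtain ⟨p, hp⟩ := CharP.exists F
    have hpp : p.Prime := by
      rcases CharP.char_is_prime_or_zero F p with h | h
      · exact h
      · exfalso
        subst h
        have : CharZero F := CharP.charP_to_charZero F
        exact not_finite F
    have : Fact p.Prime := ⟨hpp⟩
    obtain ⟨n, -, hn⟩ := FiniteField.card F p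
    rw [hn] at hdv
    have h3 := (Nat.prime_dvd_prime_iff_eq (Fact.out : r.Prime) hpp).mp
      ((Fact.out : r.Prime).dvd_of_dvd_pow hdv)
    apply hrF
    rw [h3]
    exact CharP.cast_eq_zero F p
  have hbpos : 0 < b := by
    rw [hb]
    exact (Cfsg.Agent.Helper51.TI5955.ord_pos r (Fintype.card F) hnr).1
  obtain ⟨e, he⟩ := heven
  have he1 : 1 ≤ e := by omega
  have hrdvd : r ∣ Fintype.card F ^ e + 1 :=
    ti_dvd_plus r (Fintype.card F) e hqpos he1 (by rw [← hb]; omega)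
  have hQ' : T ^ (Fintype.card F ^ e) * T = 1 := by
    obtain ⟨m, hm⟩ := hrdvd
    rw [← pow_succ, hm, pow_mul, hTr, one_pow]
  have hkill : ∀ v ∈ E₂, aeval T (∑ j ∈ Finset.range r, (X : F[X]) ^ j) v ∈
      (⊥ : Submodule F (ι → F)) := by
    intro v hv
    have h2' : aeval T (∑ j ∈ Finset.range r, (X : F[X]) ^ j) v ∈
        E₂ ⊓ LinearMap.ker (T - 1) := by
      refine ⟨aeval_mem T E₂ hET _ hv, ?_⟩
      rw [SetLike.mem_coe, LinearMap.mem_ker, ← Module.End.mul_apply,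
        sub_one_mul_aeval_phi T r hTr, LinearMap.zero_apply]
    rw [hEk] at h2'
    exact h2'
  have hile : b ≤ finrank F E₂ := by omega
  obtain ⟨U₁, -, hU₁E, hU₁T, hU₁fr⟩ := chain_exists T ⊥ E₂ bot_le (by simp) hET
    (∑ j ∈ Finset.range r, (X : F[X]) ^ j) (phi_ne_zero r hrF) hkill b hd 1 (by simpa using hile)
  rw [finrank_bot, zero_add, mul_one] at hU₁fr
  have hsubk : ∀ U : Submodule F (ι → F), U ≤ E₂ → U ⊓ LinearMap.ker (T - 1) = ⊥ := by
    intro U hU
    rw [eq_bot_iff]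
    exact (inf_le_inf_right _ hU).trans (le_of_eq hEk)
  have hdich : ∀ U : Submodule F (ι → F), U ≤ E₂ → U.map T ≤ U → finrank F U = b →
      ∀ u ∈ U, ∀ v ∈ U, pB Q hQ u v = 0 := by
    intro U hU hUT hUfr
    rcases hrad' U hUT (hsubk U hU) hUfr with hnd | hti
    · exact absurd ⟨U, hU, hUT, (und_iff Q hQ U).mp hnd, hUfr⟩ hcon
    · exact hti
  have hti := hdich U₁ hU₁E hU₁T hU₁fr
  obtain ⟨g, hgm, hgdeg, hgU₁⟩ := ann_poly T U₁ hU₁T
  -- the perp of `U₁` in `E₂`
  obtain ⟨P₁, hP₁⟩ : ∃ P₁ : Submodule F (ι → F),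
      ∀ w, w ∈ P₁ ↔ (w ∈ E₂ ∧ ∀ u ∈ U₁, pB Q hQ u w = 0) :=
    ⟨{ carrier := {w | w ∈ E₂ ∧ ∀ u ∈ U₁, pB Q hQ u w = 0}
       add_mem' := fun {a c} ha hc => ⟨E₂.add_mem ha.1 hc.1, fun u hu => by
         rw [map_add, ha.2 u hu, hc.2 u hu, add_zero]⟩
       zero_mem' := ⟨E₂.zero_mem, fun u _ => map_zero _⟩
       smul_mem' := fun c a ha => ⟨E₂.smul_mem c ha.1, fun u hu => by
         rw [map_smul, ha.2 u hu, smul_zero]⟩ }, fun w => Iff.rfl⟩
  have hP₁E : P₁ ≤ E₂ := fun w hw => ((hP₁ w).mp hw).1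
  have hU₁P₁ : U₁ ≤ P₁ := fun v hv => (hP₁ v).mpr ⟨hU₁E hv, fun u hu => hti u hu v hv⟩
  have hr1 : r = (r - 1) + 1 := by omega
  have hP₁T : P₁.map T ≤ P₁ := by
    rintro _ ⟨w, hw, rfl⟩
    rw [SetLike.mem_coe, hP₁] at hw
    refine (hP₁ _).mpr ⟨hET (Submodule.mem_map_of_mem hw.1), fun u hu => ?_⟩
    have h1 : T ((T ^ (r - 1)) u) = u := by
      rw [← Module.End.mul_apply, ← pow_succ', ← hr1, hTr, Module.End.one_apply]
    have h2' := hTU ((T ^ (r - 1)) u) w
    rw [h1] at h2'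
    rw [h2']
    exact hw.2 _ (ti_pow_mem T U₁ hU₁T (r - 1) u hu)
  have hU₁ne : U₁ ≠ ⊥ := by
    intro h
    rw [h, finrank_bot] at hU₁fr
    omega
  have hP₁lt : P₁ < E₂ := by
    refine lt_of_le_of_ne hP₁E ?_
    intro h
    apply hU₁ne
    rw [eq_bot_iff]
    intro u hu
    rw [Submodule.mem_bot]
    apply hE' u (hU₁E hu)
    intro w hw
    rw [← h] at hw
    exact ((hP₁ w).mp hw).2 u hu
  have hP₁fr : finrank F P₁ = b := by
    have h1 := Submodule.finrank_lt_finrank_of_lt hP₁lt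
    have h2' := Submodule.finrank_mono hU₁P₁
    have hdvd := cyc_dvd T r b hrF hTr hd P₁ hP₁T
    rw [hsubk _ hP₁E, finrank_bot, Nat.sub_zero] at hdvd
    obtain ⟨c, hc⟩ := hdvd
    rcases Nat.lt_or_ge c 1 with h | h
    · have hc0 : c = 0 := by omega
      rw [hc0, Nat.mul_zero] at hc
      omega
    · rcases Nat.lt_or_ge c 2 with h' | h'
      · have hc1 : c = 1 := by omega
        rw [hc, hc1, Nat.mul_one]
      · have : b * 2 ≤ b * c := Nat.mul_le_mul_left b h'
        omega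
  have hP₁eq : U₁ = P₁ := Submodule.eq_of_le_of_finrank_eq hU₁P₁ (by omega)
  obtain ⟨U₂, hU₂E, hU₂T, hU₁U₂, hsup⟩ := ti_compl T r hrF hTr U₁ E₂ hU₁E hU₁T hET
  have hpair : ∀ w ∈ U₂, (∀ u ∈ U₁, pB Q hQ w u = 0) → w = 0 := by
    intro w hw h
    have h3 : w ∈ U₁ ⊓ U₂ := by
      refine ⟨?_, hw⟩
      rw [hP₁eq]
      refine (hP₁ w).mpr ⟨hU₂E hw, fun u hu => ?_⟩
      rw [pB_comm Q hQ u w, h u hu]
    rw [hU₁U₂] at h3
    exact (Submodule.mem_bot F).mp h3
  have hgU₂ := Cfsg.Agent.Helper60.TI5961.dual_ann (pB Q hQ) T (fun x y => hTU x y) r hrF hTr e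
    hQ' U₁ U₂ hU₂T hpair g hgU₁
  have hgE : ∀ v ∈ E₂, aeval T g v = 0 := by
    intro v hv
    rw [← hsup] at hv
    obtain ⟨u₁, hu₁, u₂, hu₂, rfl⟩ := Submodule.mem_sup.mp hv
    rw [map_add, hgU₁ u₁ hu₁, hgU₂ u₂ hu₂, add_zero]
  have hE0 : E₂ ≠ ⊥ := by
    intro h
    rw [h, finrank_bot] at hEdim
    omega
  obtain ⟨v, hv, hvv⟩ := Cfsg.Agent.Helper70.OH5992.o_noniso Q hQ E₂ hE hE0
  have hv0 : v ≠ 0 := by
    intro h
    apply hvv
    rw [h]
    exact q_zero Q hQ
  have hZE : Submodule.span F (Set.range fun j : ℕ => (T ^ j) v) ≤ E₂ := by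
    rw [Submodule.span_le]
    rintro _ ⟨j, rfl⟩
    exact ti_pow_mem T E₂ hET j v hv
  have hZT : (Submodule.span F (Set.range fun j : ℕ => (T ^ j) v)).map T ≤
      Submodule.span F (Set.range fun j : ℕ => (T ^ j) v) := by
    rw [Submodule.map_span, Submodule.span_le]
    rintro _ ⟨_, ⟨j, rfl⟩, rfl⟩
    apply Submodule.subset_span
    refine ⟨j + 1, ?_⟩
    show (T ^ (j + 1)) v = T ((T ^ j) v)
    rw [pow_succ', Module.End.mul_apply]
  have hvZ : v ∈ Submodule.span F (Set.range fun j : ℕ => (T ^ j) v) :=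
    Submodule.subset_span ⟨0, by simp⟩
  have hle : finrank F (Submodule.span F (Set.range fun j : ℕ => (T ^ j) v)) ≤ b := by
    have h5 := cyc_dim_le T g hgm v (hgE v hv)
    rw [hgdeg, hU₁fr] at h5
    exact h5
  have hdvd := cyc_dvd T r b hrF hTr hd _ hZT
  rw [hsubk _ hZE, finrank_bot, Nat.sub_zero] at hdvd
  have hpos : 0 < finrank F (Submodule.span F (Set.range fun j : ℕ => (T ^ j) v)) := by
    rw [Nat.pos_iff_ne_zero]
    intro h0
    have h6 := Submodule.finrank_eq_zero.mp h0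
    rw [h6] at hvZ
    exact hv0 ((Submodule.mem_bot F).mp hvZ)
  have hfr : finrank F (Submodule.span F (Set.range fun j : ℕ => (T ^ j) v)) = b :=
    le_antisymm hle (Nat.le_of_dvd hpos hdvd)
  exact hvv (oall_ts_of_ti Q hQ T hT r hrF hTr _ hZT (hsubk _ hZE)
    (fun u hu w hw => by rw [← pB_apply Q hQ]; exact hdich _ hZE hZT hfr u hu w hw) v hvZ)

/-- OATOM in all characteristics. -/
theorem oall_atom [Fintype F] (hQ : IsNondegenerateQuadraticForm Q)
    (T : Module.End F (ι → F)) (hT : OPres Q T) (r : ℕ) [Fact r.Prime] (hr2 : 2 < r)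
    (hrF : (r : F) ≠ 0) (hTr : T ^ r = 1) (i c : ℕ)
    (hi : i = orderOf ((Fintype.card F : ℕ) : ZMod r)) (hc : c = if Even i then i else 2 * i)
    (N : Submodule F (ι → F)) (hNT : N.map T ≤ N) (hN : ONd Q N) (hN0 : N ≠ ⊥)
    (hNk : N ⊓ LinearMap.ker (T - 1) = ⊥) :
    ∃ E : Submodule F (ι → F), E ≤ N ∧ E.map T ≤ E ∧ ONd Q E ∧ finrank F E = c := by
  subst hi
  have hrpr : r.Prime := Fact.out
  rcases Cfsg.Agent.Helper31.OH5992.o_hyp_pair Q hQ T hT r hrF hTr N hNT hN hN0 hNk with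
    ⟨U₁, h1, h2', h3, h4⟩ | ⟨E₂, h1, h2', h3, h4⟩
  · by_cases hie : Even (orderOf ((Fintype.card F : ℕ) : ZMod r))
    · exact ⟨U₁, h1, h2', h3, by rw [hc, if_pos hie, h4]⟩
    · exfalso
      have hodd : Odd (finrank F U₁) := by
        rw [h4]
        exact Nat.not_even_iff_odd.mp hie
      have hrodd : Odd r := hrpr.odd_of_ne_two (by omega)
      apply oall_no_odd Q hQ T hT r hrodd hTr U₁ h2' h3 hodd
      rw [eq_bot_iff]
      exact (inf_le_inf_right _ h1).trans (le_of_eq hNk)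
  · by_cases hie : Even (orderOf ((Fintype.card F : ℕ) : ZMod r))
    · have hEk : E₂ ⊓ LinearMap.ker (T - 1) = ⊥ := by
        rw [eq_bot_iff]
        exact (inf_le_inf_right _ h1).trans (le_of_eq hNk)
      obtain ⟨E, hE1, hE2, hE3, hE4⟩ :=
        oall_atom_even Q hQ T hT r hr2 hrF hTr hie E₂ h2' h3 hEk h4
      exact ⟨E, hE1.trans h1, hE2, hE3, by rw [hc, if_pos hie, hE4]⟩
    · exact ⟨E₂, h1, h2', h3, by rw [hc, if_neg hie, h4]⟩

/-- auxiliary: an invariant nondegenerate subspace without fixed vectors has dimension divisible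
by `c`. -/
theorem oall_cdvd_aux [Fintype F] (hQ : IsNondegenerateQuadraticForm Q)
    (T : Module.End F (ι → F)) (hT : OPres Q T) (r : ℕ) [Fact r.Prime] (hr2 : 2 < r)
    (hrF : (r : F) ≠ 0) (hTr : T ^ r = 1) (i c : ℕ)
    (hi : i = orderOf ((Fintype.card F : ℕ) : ZMod r)) (hc : c = if Even i then i else 2 * i)
    (k : ℕ) : ∀ P : Submodule F (ι → F), finrank F P = k → P.map T ≤ P → ONd Q P →
      P ⊓ LinearMap.ker (T - 1) = ⊥ → c ∣ finrank F P := by
  have hrpr : r.Prime := Fact.out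
  have hi0 : 0 < i := by
    rw [hi]
    exact Cfsg.Agent.Helper13.TIsp.ti_ord_pos_of_ne r hrF
  have hc0 : 0 < c := by
    rw [hc]
    split_ifs <;> omega
  induction k using Nat.strong_induction_on with
  | _ k ih =>
    intro P hPk hPT hP hPker
    by_cases hP0 : P = ⊥
    · rw [hP0, finrank_bot]
      exact dvd_zero c
    · obtain ⟨E, hEP, hET, hE, hEdim⟩ :=
        oall_atom Q hQ T hT r hr2 hrF hTr i c hi hc P hPT hP hP0 hPker
      obtain ⟨P', hP'P, hP'T, hP', -, -, -, hdim⟩ :=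
        Cfsg.Agent.Helper31.OH5992.o_perp Q hQ T hT r hrpr.pos hTr P E hP hE hEP hPT hET
      have hP'ker : P' ⊓ LinearMap.ker (T - 1) = ⊥ := by
        rw [eq_bot_iff]
        exact (inf_le_inf_right _ hP'P).trans (le_of_eq hPker)
      have hlt : finrank F P' < k := by omega
      have hd := ih (finrank F P') hlt P' rfl hP'T hP' hP'ker
      rw [← hdim, hEdim]
      exact Dvd.dvd.add hd (dvd_refl c)

/-- OCDVD in all characteristics. -/
theorem oall_cdvd [Fintype F] (hQ : IsNondegenerateQuadraticForm Q)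
    (T : Module.End F (ι → F)) (hT : OPres Q T) (r : ℕ) [Fact r.Prime] (hr2 : 2 < r)
    (hrF : (r : F) ≠ 0) (hTr : T ^ r = 1) (i c : ℕ)
    (hi : i = orderOf ((Fintype.card F : ℕ) : ZMod r)) (hc : c = if Even i then i else 2 * i)
    (N : Submodule F (ι → F)) (hNT : N.map T ≤ N) (hN : ONd Q N) :
    c ∣ finrank F N - finrank F (N ⊓ LinearMap.ker (T - 1) : Submodule F (ι → F)) := by
  have hrpr : r.Prime := Fact.out
  obtain ⟨-, P, -, hPT, hP, hPk, -, -, hdim⟩ := Cfsg.Agent.Helper31.OH5992.o_fix Q hQ T hT r hrpr.pos hrF hTr N hNT hN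
  have h1 := oall_cdvd_aux Q hQ T hT r hr2 hrF hTr i c hi hc (finrank F P) P rfl hPT hP hPk
  have h3 : finrank F N - finrank F (N ⊓ LinearMap.ker (T - 1) : Submodule F (ι → F)) =
      finrank F P := by omega
  rw [h3]
  exact h1

/-- OTYPEODD in all characteristics (helper37's proof with `oall_no_odd`, `oall_ts_of_ti`). -/
theorem oall_type_odd [Fintype F] (hQ : IsNondegenerateQuadraticForm Q)
    (T : Module.End F (ι → F)) (hT : OPres Q T) (r : ℕ) [Fact r.Prime] (hr2 : 2 < r)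
    (hrF : (r : F) ≠ 0) (hTr : T ^ r = 1)
    (hodd : Odd (orderOf ((Fintype.card F : ℕ) : ZMod r)))
    (N : Submodule F (ι → F)) (hNT : N.map T ≤ N) (hN : ONd Q N)
    (hNk : N ⊓ LinearMap.ker (T - 1) = ⊥) : OPl Q N := by
  have hrp : r.Prime := Fact.out
  have hrodd : Odd r := hrp.odd_of_ne_two (by omega)
  obtain ⟨n, hn⟩ : ∃ n, finrank F N = n := ⟨_, rfl⟩
  induction n using Nat.strong_induction_on generalizing N with
  | _ n ih =>
    by_cases hN0 : N = ⊥
    · subst hN0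
      exact Cfsg.Agent.Helper33.o_plus_bot Q hQ
    · obtain ⟨i, hi⟩ : ∃ i, i = orderOf ((Fintype.card F : ℕ) : ZMod r) := ⟨_, rfl⟩
      rw [← hi] at hodd
      have hi1 : 1 ≤ i := by
        obtain ⟨k, hk⟩ := hodd
        omega
      obtain ⟨E, hEN, hET, hE, hEdim⟩ : ∃ E : Submodule F (ι → F), E ≤ N ∧ E.map T ≤ E ∧
          ONd Q E ∧ finrank F E = 2 * i := by
        rcases Cfsg.Agent.Helper31.OH5992.o_hyp_pair Q hQ T hT r hrF hTr N hNT hN hN0 hNk with
          ⟨U₁, hU₁N, hU₁T, hU₁, hU₁dim⟩ | ⟨E₂, hE₂N, hE₂T, hE₂, hE₂dim⟩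
        · exfalso
          have hU₁k : U₁ ⊓ LinearMap.ker (T - 1) = ⊥ := by
            rw [eq_bot_iff, ← hNk]
            exact inf_le_inf_right _ hU₁N
          exact oall_no_odd Q hQ T hT r hrodd hTr U₁ hU₁T hU₁
            (by rw [hU₁dim, ← hi]; exact hodd) hU₁k
        · exact ⟨E₂, hE₂N, hE₂T, hE₂, by rw [hE₂dim, hi]⟩
      have hEk : E ⊓ LinearMap.ker (T - 1) = ⊥ := by
        rw [eq_bot_iff, ← hNk]
        exact inf_le_inf_right _ hEN
      -- an invariant subspace of dimension `i` in `E`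
      obtain ⟨A, -, hAE, hAT, hAdim⟩ := Cfsg.Agent.Helper90.BG.chain_exists T ⊥ E bot_le
        (by simp) hET (∑ j ∈ Finset.range r, (X : F[X]) ^ j)
        (Cfsg.Agent.Helper90.BG.phi_ne_zero r hrF)
        (fun v hv => by
          have h1 : aeval T (∑ j ∈ Finset.range r, (X : F[X]) ^ j) v ∈
              E ⊓ LinearMap.ker (T - 1) := by
            refine Submodule.mem_inf.2 ⟨Cfsg.Agent.Helper90.BG.aeval_mem T E hET _ hv, ?_⟩
            rw [LinearMap.mem_ker, ← Module.End.mul_apply,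
              Cfsg.Agent.Helper90.BG.sub_one_mul_aeval_phi T r hTr, LinearMap.zero_apply]
          rw [hEk] at h1
          exact h1) i
        (fun g hg hdvd => by
          rw [hi]
          exact Cfsg.Agent.Helper46.bgl_irr_factor_degree r hrF g hg hdvd) 1
        (by rw [finrank_bot, hEdim]; omega)
      rw [finrank_bot, zero_add, mul_one] at hAdim
      have hAk : A ⊓ LinearMap.ker (T - 1) = ⊥ := by
        rw [eq_bot_iff, ← hEk]
        exact inf_le_inf_right _ hAE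
      have hAts : ∀ u ∈ A, ∀ v ∈ A, QuadraticMap.polar Q u v = 0 := by
        rcases Cfsg.Agent.Helper31.OH5992.o_rad_dich Q hQ T hT r hrF hTr A hAT hAk (by rw [hAdim, hi]) with hA | hA
        · exact absurd hAk (oall_no_odd Q hQ T hT r hrodd hTr A hAT hA
            (by rw [hAdim]; exact hodd))
        · exact hA
      have hEpl : OPl Q E := by
        refine ⟨A, hAE, fun w hw => oall_ts_of_ti Q hQ T hT r hrF hTr A hAT hAk hAts w hw, ?_⟩
        rw [hAdim, hEdim]
      obtain ⟨P, hPN, hPT, hP, hEP, hsup, horth, hdim⟩ :=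
        Cfsg.Agent.Helper31.OH5992.o_perp Q hQ T hT r hrp.pos hTr N E hN hE hEN hNT hET
      have hPk : P ⊓ LinearMap.ker (T - 1) = ⊥ := by
        rw [eq_bot_iff, ← hNk]
        exact inf_le_inf_right _ hPN
      have hPpl : OPl Q P := ih (finrank F P) (by omega) P hPT hP hPk rfl
      have hPev : Even (finrank F P) := by
        obtain ⟨U, -, -, hU⟩ := hPpl
        exact ⟨finrank F U, by omega⟩
      have hmul := Cfsg.Agent.Helper33.o_type_mul Q hQ E P hE hP horth
        ⟨i, by rw [hEdim]; omega⟩ hPev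
      rw [hsup] at hmul
      exact hmul.2 ⟨fun _ => hPpl, fun _ => hEpl⟩

/-- OTYPEEVEN in all characteristics (helper88's proof; it never used `2 ≠ 0`). -/
theorem oall_type_even [Fintype F] (hQ : IsNondegenerateQuadraticForm Q)
    (T : Module.End F (ι → F)) (hT : OPres Q T) (r : ℕ) [Fact r.Prime] (hr2 : 2 < r)
    (hrF : (r : F) ≠ 0) (hTr : T ^ r = 1)
    (heven : Even (orderOf ((Fintype.card F : ℕ) : ZMod r)))
    (N : Submodule F (ι → F)) (hNT : N.map T ≤ N) (hN : ONd Q N)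
    (hNk : N ⊓ LinearMap.ker (T - 1) = ⊥) :
    OPl Q N ↔ Even (finrank F N / orderOf ((Fintype.card F : ℕ) : ZMod r)) := by
  classical
  have hrp : r.Prime := Fact.out
  obtain ⟨i, hi⟩ : ∃ i, i = orderOf ((Fintype.card F : ℕ) : ZMod r) := ⟨_, rfl⟩
  rw [← hi] at heven ⊢
  have hx0 := Cfsg.Agent.Helper88.OH5992.card_zmod_ne_zero88 (F := F) r hrF
  have hipos : 0 < i := by
    rw [hi]
    apply orderOf_pos_iff.mpr
    rw [isOfFinOrder_iff_pow_eq_one]
    exact ⟨r - 1, by have := hrp.two_le; omega, ZMod.pow_card_sub_one_eq_one hx0⟩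
  obtain ⟨k, hk⟩ := heven
  have hk0 : k ≠ 0 := by omega
  have hdvd : i ∣ finrank F N := by
    have h := Cfsg.Agent.Helper90.BG.cyc_dvd T r i hrF hTr
      (fun g hg hd => by rw [hi]; exact Cfsg.Agent.Helper46.bgl_irr_factor_degree r hrF g hg hd)
      N hNT
    rw [hNk, finrank_bot, Nat.sub_zero] at h
    exact h
  obtain ⟨t, ht⟩ := hdvd
  rw [ht, Nat.mul_div_cancel_left t hipos]
  by_cases ht0 : t = 0
  · have hN0 : N = ⊥ := by
      apply Submodule.finrank_eq_zero.mp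
      rw [ht, ht0, Nat.mul_zero]
    subst hN0
    rw [ht0]
    exact ⟨fun _ => Even.zero, fun _ => Cfsg.Agent.Helper33.o_plus_bot Q hQ⟩
  · have hl : 1 ≤ k * t := Nat.one_le_iff_ne_zero.mpr (Nat.mul_ne_zero hk0 ht0)
    have hdim : finrank F N = 2 * (k * t) := by rw [ht, hk]; ring
    obtain ⟨hplus, hminus⟩ := Cfsg.Agent.Helper33.OH5992.o_sing_count Q hQ N hN (k * t) hl hdim
    -- the free action
    have hTinj : ∀ v : ι → F, T v = 0 → v = 0 := by
      intro v hv
      have h1 : (T ^ r) v = v := by rw [hTr]; rfl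
      have h2 : (T ^ r) v = (T ^ (r - 1)) (T v) := by
        rw [← Module.End.mul_apply, ← pow_succ, Nat.sub_add_cancel hrp.pos]
      rw [← h1, h2, hv, map_zero]
    have hfree := Cfsg.Agent.Helper20.TI5954.u_free_count T r hTr
      {v : ι → F | v ∈ N ∧ Q v = 0 ∧ v ≠ 0}
      (fun v hv => ⟨hNT (Submodule.mem_map_of_mem hv.1), by rw [hT v]; exact hv.2.1,
        fun h => hv.2.2 (hTinj v h)⟩)
      (fun v hv h => hv.2.2 (by
        have hmem : v ∈ N ⊓ LinearMap.ker (T - 1) := by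
          refine Submodule.mem_inf.2 ⟨hv.1, ?_⟩
          rw [LinearMap.mem_ker, LinearMap.sub_apply, h]
          simp
        rw [hNk] at hmem
        exact (Submodule.mem_bot F).mp hmem))
    have hcard : Nat.card {v : ι → F // v ∈ N ∧ Q v = 0} =
        Nat.card ({v : ι → F | v ∈ N ∧ Q v = 0 ∧ v ≠ 0} : Set (ι → F)) + 1 := by
      have hset : ({v : ι → F | v ∈ N ∧ Q v = 0} : Set (ι → F)) =
          insert 0 {v : ι → F | v ∈ N ∧ Q v = 0 ∧ v ≠ 0} := by
        ext v
        simp only [Set.mem_ofPred_eq, Set.mem_insert_iff]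
        constructor
        · intro hv
          by_cases hv0 : v = 0
          · exact Or.inl hv0
          · exact Or.inr ⟨hv.1, hv.2, hv0⟩
        · rintro (rfl | hv)
          · exact ⟨N.zero_mem, q_zero Q hQ⟩
          · exact ⟨hv.1, hv.2.1⟩
      have h1 : Nat.card {v : ι → F // v ∈ N ∧ Q v = 0} =
          Set.ncard ({v : ι → F | v ∈ N ∧ Q v = 0} : Set (ι → F)) := rfl
      rw [h1, hset, Set.ncard_insert_of_notMem (by simp) (Set.toFinite _)]
      rfl
    have hc : ((Nat.card {v : ι → F // v ∈ N ∧ Q v = 0} : ℕ) : ZMod r) = 1 := by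
      rw [hcard, Nat.cast_add, (ZMod.natCast_eq_zero_iff _ _).mpr hfree, zero_add, Nat.cast_one]
    obtain ⟨ha, hb⟩ := Cfsg.Agent.Helper88.OH5992.type_even_arith88 r hr2 (Fintype.card F) k t
      (Nat.card {v : ι → F // v ∈ N ∧ Q v = 0}) hk0 ht0 (by rw [← hi, hk]) hc
    constructor
    · intro hpl
      exact ha (hplus hpl)
    · intro hev
      by_contra hpl
      exact hb (hminus hpl) hev

end Cfsg.Agent.Helper96.OHAll
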