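import Mathlib
import Cfsg.Agent.Helper13.TJDec
import Cfsg.Agent.Helper33.OType
import Cfsg.Agent.Helper35.ELSUBT
import Cfsg.Agent.Helper31.OHOFIX
import Cfsg.Agent.Helper31.OHOGROW
import Cfsg.Agent.Helper96.OHDefs
import Cfsg.Agent.Helper96.OHAll

set_option autoImplicit false
set_option linter.unusedSectionVars false
set_option linter.unusedVariables false

/-!
# CALL S88 (row S5988), the two GOOD stages for odd `r ≠ p` in generic form (helper96)

Generic nondegenerate `Q` on `ι → F`, `F` finite, ALL characteristics; `T` an isometry with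
`T ^ r = 1`.  `s88g_split`: `V = Fx ⊥ P`, `Fx` fixed pointwise, `P` without fixed vectors of
dimension `c ρ`, with invariant nondegenerate subspaces of every dimension `c s`, `s ≤ ρ`.
`s88g_odd_good`, `s88g_even_good`: invariant elliptic `m`-spaces under the row's conditions.
-/

namespace Cfsg.Agent.Helper96.S88G

open Module Polynomial Cfsg Cfsg.Geo
open Cfsg.Agent.Helper13.TIu Cfsg.Agent.Helper96.OH Cfsg.Agent.Helper96.OHAll

variable {ι : Type} [Fintype ι] [DecidableEq ι] {F : Type*} [Field F] (Q : (ι → F) → F)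

/-- the profile of an isometry of order `r`. -/
theorem s88g_split [Fintype F] (hQ : IsNondegenerateQuadraticForm Q)
    (T : Module.End F (ι → F)) (hT : OPres Q T) (r : ℕ) [Fact r.Prime] (hr2 : 2 < r)
    (hrF : (r : F) ≠ 0) (hTr : T ^ r = 1) (i c : ℕ)
    (hi : i = orderOf ((Fintype.card F : ℕ) : ZMod r)) (hc : c = if Even i then i else 2 * i) :
    ∃ (ρ : ℕ) (Fx P : Submodule F (ι → F)), finrank F P = c * ρ ∧
      finrank F P + finrank F Fx = Fintype.card ι ∧ ONd Q Fx ∧ ONd Q P ∧ OOrth Q Fx P ∧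
      Fx ⊔ P = ⊤ ∧ (∀ x ∈ Fx, T x = x) ∧ P.map T ≤ P ∧ P ⊓ LinearMap.ker (T - 1) = ⊥ ∧
      (T ≠ 1 → 1 ≤ ρ) ∧
      (∀ s, s ≤ ρ → ∃ N : Submodule F (ι → F), N ≤ P ∧ N.map T ≤ N ∧ ONd Q N ∧
        finrank F N = c * s ∧ N ⊓ LinearMap.ker (T - 1) = ⊥) := by
  have hrpr : r.Prime := Fact.out
  have hi0 : 0 < i := by
    rw [hi]
    exact Cfsg.Agent.Helper13.TIsp.ti_ord_pos_of_ne r hrF
  have hc0 : 0 < c := by
    rw [hc]
    split_ifs <;> omega
  obtain ⟨hFx, P, -, hPT, hP, hPk, hsup, horth, hdim⟩ :=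
    Cfsg.Agent.Helper31.OH5992.o_fix Q hQ T hT r hrpr.pos hrF hTr ⊤ le_top (ond_top Q hQ)
  have hdvd := oall_cdvd Q hQ T hT r hr2 hrF hTr i c hi hc ⊤ le_top (ond_top Q hQ)
  set Fx : Submodule F (ι → F) := ⊤ ⊓ LinearMap.ker (T - 1) with hFxdef
  have hn : finrank F P + finrank F Fx = Fintype.card ι := by
    rw [hdim, finrank_top, Module.finrank_fintype_fun_eq_card]
  have hdvdP : c ∣ finrank F P := by
    have h3 : finrank F (⊤ : Submodule F (ι → F)) - finrank F Fx = finrank F P := by omega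
    rw [← h3]
    exact hdvd
  obtain ⟨ρ, hρ⟩ := hdvdP
  have hfix : ∀ x ∈ Fx, T x = x := by
    intro x hx
    have h1 : x ∈ LinearMap.ker (T - 1) := hx.2
    rw [LinearMap.mem_ker, LinearMap.sub_apply, Module.End.one_apply, sub_eq_zero] at h1
    exact h1
  have hatom : ∀ N : Submodule F (ι → F), N ≤ P → N.map T ≤ N → ONd Q N → N ≠ ⊥ →
      ∃ E : Submodule F (ι → F), E ≤ N ∧ E.map T ≤ E ∧ ONd Q E ∧ finrank F E = c := by
    intro N hNP hNT hN hN0
    exact oall_atom Q hQ T hT r hr2 hrF hTr i c hi hc N hNT hN hN0 (by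
      rw [eq_bot_iff]
      exact (inf_le_inf_right _ hNP).trans (le_of_eq hPk))
  refine ⟨ρ, Fx, P, hρ, hn, hFx, hP, horth, hsup, hfix, hPT, hPk, ?_, ?_⟩
  · intro hT1
    by_contra hcon
    have hρ0 : ρ = 0 := by omega
    rw [hρ0, Nat.mul_zero] at hρ
    have hP0 : P = ⊥ := Submodule.finrank_eq_zero.mp hρ
    rw [hP0, sup_bot_eq] at hsup
    apply hT1
    apply LinearMap.ext
    intro v
    rw [Module.End.one_apply]
    exact hfix v (by rw [hsup]; exact Submodule.mem_top)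
  · intro s hs
    obtain ⟨N₁, hN₁P, hN₁T, hN₁, hN₁dim⟩ :=
      Cfsg.Agent.Helper31.OH5992.o_grow Q hQ T hT r hrpr.pos hTr c hc0 P hatom P le_rfl hPT hP s
        (by rw [hρ]; exact Nat.mul_le_mul_left c hs)
    refine ⟨N₁, hN₁P, hN₁T, hN₁, hN₁dim, ?_⟩
    rw [eq_bot_iff]
    exact (inf_le_inf_right _ hN₁P).trans (le_of_eq hPk)

/-- OOG, generic: `i` odd. -/
theorem s88g_odd_good [Fintype F] (hQ : IsNondegenerateQuadraticForm Q) (d m : ℕ)
    (hcard : Fintype.card ι = 2 * d) (hme : Even m) (hmd : m < d)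
    (T : Module.End F (ι → F)) (hT : OPres Q T) (r : ℕ) [Fact r.Prime] (hr2 : 2 < r)
    (hrF : (r : F) ≠ 0) (hTr : T ^ r = 1) (i : ℕ)
    (hi : i = orderOf ((Fintype.card F : ℕ) : ZMod r)) (hodd : Odd i)
    (hcond : 2 * i ≤ m ∧ 0 < m % (2 * i) ∧ m % (2 * i) < (2 * d) % (2 * i)) :
    ∃ W : Submodule F (ι → F), (finrank F W = m ∧ ONd Q W ∧ ¬ OPl Q W) ∧ W.map T ≤ W := by
  obtain ⟨c, hc2⟩ : ∃ c, c = 2 * i := ⟨_, rfl⟩
  have hc : c = if Even i then i else 2 * i := by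
    rw [if_neg (Nat.not_even_iff_odd.mpr hodd)]
    exact hc2
  rw [← hc2] at hcond
  obtain ⟨hcm, hmc0, hmc⟩ := hcond
  have hi0 : 0 < i := by
    obtain ⟨k, hk⟩ := hodd
    omega
  have hc0 : 0 < c := by omega
  have hceven : Even c := by
    rw [hc2]
    exact even_two_mul i
  obtain ⟨ρ, Fx, P, hρ, hn, hFx, hP, horth, hsup, hfix, hPT, hPk, -, hsub⟩ :=
    s88g_split Q hQ T hT r hr2 hrF hTr i c hi hc
  obtain ⟨h₁, hh₁⟩ : ∃ h₁ : ℕ, h₁ = min (m / c) ρ := ⟨_, rfl⟩
  obtain ⟨N₁, hN₁P, hN₁T, hN₁, hN₁dim, hN₁k⟩ := hsub h₁ (by rw [hh₁]; exact min_le_right _ _)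
  have hle : c * h₁ ≤ m := by
    calc c * h₁ ≤ c * (m / c) := by
          rw [hh₁]
          exact Nat.mul_le_mul_left c (min_le_left _ _)
      _ ≤ m := Nat.mul_div_le m c
  have hN₁pl : OPl Q N₁ :=
    oall_type_odd Q hQ T hT r hr2 hrF hTr (by rw [← hi]; exact hodd) N₁ hN₁T hN₁ hN₁k
  have hN₁even : Even (finrank F N₁) := by
    rw [hN₁dim]
    exact hceven.mul_right h₁
  have hdm := Nat.div_add_mod m c
  have he₁pos : 0 < m - c * h₁ := by
    rcases le_or_gt (m / c) ρ with hle' | hgt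
    · have hh : h₁ = m / c := by
        rw [hh₁]
        exact min_eq_left hle'
      rw [hh]
      omega
    · have hh : h₁ = ρ := by
        rw [hh₁]
        exact min_eq_right hgt.le
      have h1 : c * (ρ + 1) ≤ c * (m / c) := Nat.mul_le_mul_left c hgt
      rw [Nat.mul_succ] at h1
      rw [hh]
      omega
  have he₁even : Even (m - c * h₁) :=
    (Nat.even_sub hle).mpr ⟨fun _ => hceven.mul_right h₁, fun _ => hme⟩
  have he₁lt : m - c * h₁ < finrank F Fx := by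
    rcases le_or_gt (m / c) ρ with hle' | hgt
    · have hh : h₁ = m / c := by
        rw [hh₁]
        exact min_eq_left hle'
      have h1 : m - c * h₁ = m % c := by
        rw [hh]
        omega
      have h3 : (2 * d) % c ≤ finrank F Fx := by
        rw [← hcard, ← hn, hρ, Nat.mul_add_mod]
        exact Nat.mod_le _ _
      omega
    · have hh : h₁ = ρ := by
        rw [hh₁]
        exact min_eq_right hgt.le
      rw [hh] at he₁pos ⊢
      omega
  have hFxdim : finrank F Fx = 2 * (d - i * ρ) := by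
    have h1 : c * ρ = 2 * (i * ρ) := by
      rw [hc2]
      ring
    omega
  obtain ⟨X, hXFx, hX, hXdim, hXty⟩ :=
    Cfsg.Agent.Helper35.EL.el_sub Q hQ Fx hFx (d - i * ρ) hFxdim (m - c * h₁) he₁even he₁pos
      (by rw [← hFxdim]; exact he₁lt) False
  have horthX : OOrth Q X N₁ := fun u hu v hv => horth u (hXFx hu) v (hN₁P hv)
  refine ⟨X ⊔ N₁, ⟨?_, ?_, ?_⟩, ?_⟩
  · rw [Cfsg.Agent.Helper33.OType.finrank_sup_of_orth Q X N₁ hX horthX, hXdim, hN₁dim]
    omega
  · exact Cfsg.Agent.Helper33.OType.nondeg_sup Q hQ X N₁ hX hN₁ horthX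
  · intro hW
    have h1 := (Cfsg.Agent.Helper33.o_type_mul Q hQ X N₁ hX hN₁ horthX
      (by rw [hXdim]; exact he₁even) hN₁even).mp hW
    exact hXty.mp (h1.mpr hN₁pl)
  · rw [Submodule.map_sup]
    refine sup_le_sup ?_ hN₁T
    rintro _ ⟨x, hx, rfl⟩
    rw [hfix x (hXFx hx)]
    exact hx

/-- the profile arithmetic for `i` even. -/
theorem s88g_even_arith (d m i ρ : ℕ) (hi0 : 0 < i) (hm : 2 ≤ m) (hmd : m < d)
    (hρ1 : 1 ≤ ρ) (hρ : i * ρ ≤ 2 * d) (hρe : i * ρ = 2 * d → Even ρ)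
    (hcond : ((2 * d) % i = 0 ∧ (Odd ((2 * d) / i) ∨ (m % i = 0 ∧ Odd (m / i)))) ∨
      (i ≤ m ∧ ((0 < m % i ∧ m % i < (2 * d) % i) ∨
        (0 < m % i ∧ m % i = (2 * d) % i ∧ Odd ((2 * d + m - 2 * ((2 * d) % i)) / i)) ∨
        (m % i = 0 ∧ 0 < (2 * d) % i ∧ Odd (m / i))))) :
    ∃ s, s ≤ ρ ∧ i * s ≤ m ∧ m - i * s ≤ 2 * d - i * ρ ∧
      ((0 < m - i * s ∧ m - i * s < 2 * d - i * ρ) ∨ (m - i * s = 0 ∧ Odd s) ∨
        (m - i * s = 2 * d - i * ρ ∧ Odd (s + ρ))) := by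
  obtain ⟨n', hn'⟩ : ∃ n', n' = (2 * d) / i := ⟨_, rfl⟩
  obtain ⟨k, hk⟩ : ∃ k, k = (2 * d) % i := ⟨_, rfl⟩
  obtain ⟨m', hm'⟩ : ∃ m', m' = m / i := ⟨_, rfl⟩
  obtain ⟨l, hl⟩ : ∃ l, l = m % i := ⟨_, rfl⟩
  have hnk : i * n' + k = 2 * d := by rw [hn', hk]; exact Nat.div_add_mod (2 * d) i
  have hml : i * m' + l = m := by rw [hm', hl]; exact Nat.div_add_mod m i
  have hki : k < i := by rw [hk]; exact Nat.mod_lt _ hi0
  have hli : l < i := by rw [hl]; exact Nat.mod_lt _ hi0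
  rw [← hn', ← hk, ← hm', ← hl] at hcond
  have hρn : ρ ≤ n' := by
    by_contra hcon
    push Not at hcon
    have h1 : i * (n' + 1) ≤ i * ρ := Nat.mul_le_mul_left i hcon
    rw [Nat.mul_succ] at h1
    omega
  have wρ : ρ < m' → ∃ s, s ≤ ρ ∧ i * s ≤ m ∧ m - i * s ≤ 2 * d - i * ρ ∧
      ((0 < m - i * s ∧ m - i * s < 2 * d - i * ρ) ∨ (m - i * s = 0 ∧ Odd s) ∨
        (m - i * s = 2 * d - i * ρ ∧ Odd (s + ρ))) := by
    intro h
    have h1 : i * (ρ + 1) ≤ i * m' := Nat.mul_le_mul_left i h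
    rw [Nat.mul_succ] at h1
    exact ⟨ρ, le_rfl, by omega, by omega, Or.inl ⟨by omega, by omega⟩⟩
  rcases hcond with ⟨hk0, hA⟩ | ⟨him, hB⟩
  · rcases hA with hn'odd | ⟨hl0, hm'odd⟩
    · have hρn' : ρ + 1 ≤ n' := by
        by_contra hcon
        have h1 : ρ = n' := by omega
        have h3 : Even ρ := hρe (by rw [h1]; omega)
        rw [h1] at h3
        exact (Nat.not_even_iff_odd.mpr hn'odd) h3
      have h1 : i * (ρ + 1) ≤ i * n' := Nat.mul_le_mul_left i hρn'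
      rw [Nat.mul_succ] at h1
      rcases Nat.lt_or_ge ρ m' with hlt | hge
      · exact wρ hlt
      · have h3 : i * m' ≤ i * ρ := Nat.mul_le_mul_left i hge
        rcases Nat.eq_zero_or_pos l with hl0 | hlpos
        · have hm'1 : 1 ≤ m' := by
            rcases Nat.eq_zero_or_pos m' with h0 | h0
            · rw [h0] at hml; omega
            · exact h0
          rcases Nat.even_or_odd m' with hm'e | hm'o
          · have h4 : i * (m' - 1) = i * m' - i := Nat.mul_sub_one i m'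
            have h5 : i ≤ i * m' := Nat.le_mul_of_pos_right i hm'1
            rcases Nat.lt_or_ge (ρ + 1) n' with h6 | h6
            · have h7 : i * (ρ + 2) ≤ i * n' := Nat.mul_le_mul_left i h6
              have h8 : i * (ρ + 2) = i * ρ + 2 * i := by ring
              exact ⟨m' - 1, by omega, by omega, by omega, Or.inl ⟨by omega, by omega⟩⟩
            · have h7 : ρ + 1 = n' := by omega
              have h8 : i * n' = i * ρ + i := by rw [← h7, Nat.mul_succ]
              refine ⟨m' - 1, by omega, by omega, by omega, Or.inr (Or.inr ⟨by omega, ?_⟩)⟩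
              obtain ⟨a, ha⟩ := hm'e
              obtain ⟨b, hb⟩ := hn'odd
              exact ⟨a + b - 1, by omega⟩
          · exact ⟨m', hge, by omega, by omega, Or.inr (Or.inl ⟨by omega, hm'o⟩)⟩
        · exact ⟨m', hge, by omega, by omega, Or.inl ⟨by omega, by omega⟩⟩
    · rcases Nat.lt_or_ge ρ m' with hlt | hge
      · exact wρ hlt
      · have h3 : i * m' ≤ i * ρ := Nat.mul_le_mul_left i hge
        exact ⟨m', hge, by omega, by omega, Or.inr (Or.inl ⟨by omega, hm'odd⟩)⟩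
  · have h0 : i * ρ ≤ i * n' := Nat.mul_le_mul_left i hρn
    rcases hB with ⟨hl0, hlk⟩ | ⟨hl0, hlk, hodd⟩ | ⟨hl0, hk0, hm'odd⟩
    · rcases Nat.lt_or_ge ρ m' with hlt | hge
      · exact wρ hlt
      · have h3 : i * m' ≤ i * ρ := Nat.mul_le_mul_left i hge
        exact ⟨m', hge, by omega, by omega, Or.inl ⟨by omega, by omega⟩⟩
    · have hsum : (2 * d + m - 2 * k) / i = n' + m' := by
        have h1 : 2 * d + m - 2 * k = i * (n' + m') := by
          rw [Nat.mul_add]; omega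
        rw [h1, Nat.mul_div_cancel_left _ hi0]
      rw [hsum] at hodd
      rcases Nat.lt_or_ge ρ m' with hlt | hge
      · exact wρ hlt
      · have h3 : i * m' ≤ i * ρ := Nat.mul_le_mul_left i hge
        rcases Nat.lt_or_ge ρ n' with h6 | h6
        · have h7 : i * (ρ + 1) ≤ i * n' := Nat.mul_le_mul_left i h6
          rw [Nat.mul_succ] at h7
          exact ⟨m', hge, by omega, by omega, Or.inl ⟨by omega, by omega⟩⟩
        · have h7 : ρ = n' := by omega
          refine ⟨m', hge, by omega, by rw [h7]; omega, Or.inr (Or.inr ⟨by rw [h7]; omega, ?_⟩)⟩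
          rw [h7, add_comm]
          exact hodd
    · rcases Nat.lt_or_ge ρ m' with hlt | hge
      · exact wρ hlt
      · have h3 : i * m' ≤ i * ρ := Nat.mul_le_mul_left i hge
        exact ⟨m', hge, by omega, by omega, Or.inr (Or.inl ⟨by omega, hm'odd⟩)⟩

/-- OEG, generic: `i` even, `Q` of plus type, `T ≠ 1`. -/
theorem s88g_even_good [Fintype F] (hQ : IsNondegenerateQuadraticForm Q) (d m : ℕ)
    (hcard : Fintype.card ι = 2 * d) (hpl : OPl Q ⊤) (hm : 2 ≤ m) (hme : Even m) (hmd : m < d)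
    (T : Module.End F (ι → F)) (hT : OPres Q T) (r : ℕ) [Fact r.Prime] (hr2 : 2 < r)
    (hrF : (r : F) ≠ 0) (hTr : T ^ r = 1) (hT1 : T ≠ 1) (i : ℕ)
    (hi : i = orderOf ((Fintype.card F : ℕ) : ZMod r)) (heven : Even i)
    (hcond : ((2 * d) % i = 0 ∧ (Odd ((2 * d) / i) ∨ (m % i = 0 ∧ Odd (m / i)))) ∨
      (i ≤ m ∧ ((0 < m % i ∧ m % i < (2 * d) % i) ∨
        (0 < m % i ∧ m % i = (2 * d) % i ∧ Odd ((2 * d + m - 2 * ((2 * d) % i)) / i)) ∨
        (m % i = 0 ∧ 0 < (2 * d) % i ∧ Odd (m / i))))) :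
    ∃ W : Submodule F (ι → F), (finrank F W = m ∧ ONd Q W ∧ ¬ OPl Q W) ∧ W.map T ≤ W := by
  have hc : i = if Even i then i else 2 * i := by rw [if_pos heven]
  have hi0 : 0 < i := by
    rw [hi]
    exact Cfsg.Agent.Helper13.TIsp.ti_ord_pos_of_ne r hrF
  obtain ⟨ρ, Fx, P, hρ, hn, hFx, hP, horth, hsup, hfix, hPT, hPk, hρ1, hsub⟩ :=
    s88g_split Q hQ T hT r hr2 hrF hTr i i hi hc
  have hρ1' := hρ1 hT1
  have hPeven : Even (finrank F P) := by
    rw [hρ]
    exact heven.mul_right ρ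
  have hFxeven : Even (finrank F Fx) := by
    have h1 : Even (finrank F P + finrank F Fx) := by
      rw [hn, hcard]
      exact even_two_mul d
    exact (Nat.even_add.mp h1).mp hPeven
  have htyeven : ∀ (N : Submodule F (ι → F)) (s : ℕ), N.map T ≤ N → ONd Q N →
      finrank F N = i * s → N ⊓ LinearMap.ker (T - 1) = ⊥ → (OPl Q N ↔ Even s) := by
    intro N s hNT hN hNdim hNk
    have h := oall_type_even Q hQ T hT r hr2 hrF hTr (by rw [← hi]; exact heven) N hNT hN hNk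
    rw [← hi, hNdim, Nat.mul_div_cancel_left _ hi0] at h
    exact h
  have hPty : OPl Q P ↔ Even ρ := htyeven P ρ hPT hP hρ hPk
  have hFxty : OPl Q Fx ↔ Even ρ := by
    have h1 := Cfsg.Agent.Helper33.o_type_mul Q hQ Fx P hFx hP horth hFxeven hPeven
    rw [hsup] at h1
    exact (h1.mp hpl).trans hPty
  have hFxdim : finrank F Fx = 2 * d - i * ρ := by omega
  have hρle : i * ρ ≤ 2 * d := by omega
  have hρe : i * ρ = 2 * d → Even ρ := by
    intro h
    have h0 : finrank F Fx = 0 := by omega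
    have hFx0 : Fx = ⊥ := Submodule.finrank_eq_zero.mp h0
    rw [← hFxty, hFx0]
    exact Cfsg.Agent.Helper33.o_plus_bot Q hQ
  obtain ⟨s, hsρ, hsm, hwle, hcases⟩ := s88g_even_arith d m i ρ hi0 hm hmd hρ1' hρle hρe hcond
  obtain ⟨N, hNP, hNT, hN, hNdim, hNk⟩ := hsub s hsρ
  have hNty : OPl Q N ↔ Even s := htyeven N s hNT hN hNdim hNk
  have hNeven : Even (finrank F N) := by
    rw [hNdim]
    exact heven.mul_right s
  rcases hcases with ⟨hw0, hwlt⟩ | ⟨hw0, hsodd⟩ | ⟨hwf, hsodd⟩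
  · -- a proper nonzero part of the fixed space
    obtain ⟨k, hk⟩ := hFxeven
    have hweven : Even (m - i * s) :=
      (Nat.even_sub hsm).mpr ⟨fun _ => heven.mul_right s, fun _ => hme⟩
    obtain ⟨X, hXFx, hX, hXdim, hXty⟩ :=
      Cfsg.Agent.Helper35.EL.el_sub Q hQ Fx hFx k (by omega) (m - i * s) hweven hw0
        (by omega) (¬ OPl Q N)
    have horthX : OOrth Q X N := fun u hu v hv => horth u (hXFx hu) v (hNP hv)
    refine ⟨X ⊔ N, ⟨?_, ?_, ?_⟩, ?_⟩
    · rw [Cfsg.Agent.Helper33.OType.finrank_sup_of_orth Q X N hX horthX, hXdim, hNdim]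
      omega
    · exact Cfsg.Agent.Helper33.OType.nondeg_sup Q hQ X N hX hN horthX
    · intro hW
      have h1 := (Cfsg.Agent.Helper33.o_type_mul Q hQ X N hX hN horthX
        (by rw [hXdim]; exact hweven) hNeven).mp hW
      exact not_iff_self (hXty.symm.trans h1)
    · rw [Submodule.map_sup]
      refine sup_le_sup ?_ hNT
      rintro _ ⟨x, hx, rfl⟩
      rw [hfix x (hXFx hx)]
      exact hx
  · refine ⟨N, ⟨by rw [hNdim]; omega, hN, ?_⟩, hNT⟩
    rw [hNty]
    exact Nat.not_even_iff_odd.mpr hsodd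
  · have horthX : OOrth Q Fx N := fun u hu v hv => horth u hu v (hNP hv)
    refine ⟨Fx ⊔ N, ⟨?_, ?_, ?_⟩, ?_⟩
    · rw [Cfsg.Agent.Helper33.OType.finrank_sup_of_orth Q Fx N hFx horthX, hNdim]
      omega
    · exact Cfsg.Agent.Helper33.OType.nondeg_sup Q hQ Fx N hFx hN horthX
    · intro hW
      have h1 := (Cfsg.Agent.Helper33.o_type_mul Q hQ Fx N hFx hN horthX hFxeven hNeven).mp hW
      have h3 : Even ρ ↔ Even s := hFxty.symm.trans (h1.trans hNty)
      have h4 : Odd s ↔ Even ρ := Nat.odd_add.mp hsodd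
      have h5 : Odd s ↔ Even s := h4.trans h3
      rcases Nat.even_or_odd s with h6 | h6
      · exact (Nat.not_even_iff_odd.mpr (h5.mpr h6)) h6
      · exact (Nat.not_even_iff_odd.mpr h6) (h5.mp h6)
    · rw [Submodule.map_sup]
      refine sup_le_sup ?_ hNT
      rintro _ ⟨x, hx, rfl⟩
      rw [hfix x hx]
      exact hx

end Cfsg.Agent.Helper96.S88G
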