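-- helper96 library: transport of structures along a bijection of index types (part 1).
import Cfsg.Agent.Helper96.SpCore

set_option autoImplicit false
set_option linter.unusedSectionVars false
set_option linter.unusedVariables false
open Cfsg Cfsg.Geo Matrix

namespace Cfsg.Agent.Helper96.Sy

variable {κ ι : Type} [Fintype κ] [DecidableEq κ] [Fintype ι] [DecidableEq ι] {F : Type*} [Field F]

/-- Transport of vectors along a bijection of index types. -/
def pv (e : κ ≃ ι) : (ι → F) ≃ₗ[F] (κ → F) := LinearEquiv.funCongrLeft F F e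

theorem pv_apply (e : κ ≃ ι) (v : ι → F) : pv e v = v ∘ e := rfl

/-- Transport of matrices. -/
def pm (e : κ ≃ ι) : Matrix ι ι F ≃ₐ[F] Matrix κ κ F := Matrix.reindexAlgEquiv F F e.symm

theorem pm_apply (e : κ ≃ ι) (M : Matrix ι ι F) (a b : κ) : pm e M a b = M (e a) (e b) := rfl

theorem pm_mulVec (e : κ ≃ ι) (M : Matrix ι ι F) (v : ι → F) :
    pm e M *ᵥ (v ∘ e) = (M *ᵥ v) ∘ e := by
  funext a
  simp only [Matrix.mulVec, dotProduct, Function.comp_apply, pm_apply]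
  exact Equiv.sum_comp e (fun j => M (e a) j * v j)

/-- Transport of invertible matrices. -/
def pg (e : κ ≃ ι) : GL ι F ≃* GL κ F := glReindex e.symm

theorem pg_val (e : κ ≃ ι) (g : GL ι F) :
    ((pg e g : GL κ F) : Matrix κ κ F) = pm e (g : Matrix ι ι F) := rfl

theorem pg_mulVec (e : κ ≃ ι) (g : GL ι F) (v : ι → F) :
    ((pg e g : GL κ F) : Matrix κ κ F) *ᵥ (v ∘ e) = ((g : Matrix ι ι F) *ᵥ v) ∘ e :=
  pm_mulVec e _ v

/-- Transport of forms. -/
def pf (e : κ ≃ ι) (f : (ι → F) → (ι → F) → F) : (κ → F) → (κ → F) → F :=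
  fun u v => f (u ∘ e.symm) (v ∘ e.symm)

theorem comp_symm_comp (e : κ ≃ ι) (x : ι → F) : (x ∘ e) ∘ e.symm = x := by
  funext i; simp

theorem comp_comp_symm (e : κ ≃ ι) (u : κ → F) : (u ∘ e.symm) ∘ e = u := by
  funext i; simp

theorem pf_comp (e : κ ≃ ι) (f : (ι → F) → (ι → F) → F) (x y : ι → F) :
    pf e f (x ∘ e) (y ∘ e) = f x y := by
  unfold pf
  rw [comp_symm_comp, comp_symm_comp]

theorem exists_comp (e : κ ≃ ι) (u : κ → F) : ∃ x : ι → F, u = x ∘ e :=
  ⟨u ∘ e.symm, (comp_comp_symm e u).symm⟩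

theorem comp_inj (e : κ ≃ ι) {x y : ι → F} (h : x ∘ e = y ∘ e) : x = y := by
  have := congrArg (fun u : κ → F => u ∘ e.symm) h
  simpa [comp_symm_comp] using this

theorem comp_eq_zero (e : κ ≃ ι) {x : ι → F} : x ∘ e = 0 ↔ x = 0 := by
  constructor
  · intro h; exact comp_inj e (h.trans (by funext i; rfl))
  · rintro rfl; funext i; rfl

theorem pf_symm_pf (e : κ ≃ ι) (f : (ι → F) → (ι → F) → F) : pf e.symm (pf e f) = f := by
  funext u v
  show f ((u ∘ e.symm.symm) ∘ e.symm) ((v ∘ e.symm.symm) ∘ e.symm) = f u v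
  rw [Equiv.symm_symm, comp_symm_comp, comp_symm_comp]

theorem pg_symm_pg (e : κ ≃ ι) (g : GL ι F) : pg e.symm (pg e g) = g := by
  apply Units.ext
  ext i j
  show (g : Matrix ι ι F) (e (e.symm i)) (e (e.symm j)) = _
  simp

theorem map_pg_map_pg (e : κ ≃ ι) (H : Subgroup (GL ι F)) :
    (H.map (pg e).toMonoidHom).map (pg e.symm).toMonoidHom = H := by
  ext g
  constructor
  · rintro ⟨_, ⟨h, hh, rfl⟩, rfl⟩
    have h1 : pg e.symm (pg e h) = h := pg_symm_pg e h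
    show pg e.symm (pg e h) ∈ H
    rw [h1]; exact hh
  · intro hg
    exact ⟨pg e g, ⟨g, hg, rfl⟩, pg_symm_pg e g⟩

theorem map_le_of (e : κ ≃ ι) {H' S' : Subgroup (GL ι F)} {S : Subgroup (GL κ F)}
    (h : ∀ g ∈ S', pg e g ∈ S) (hH : H' ≤ S') : H'.map (pg e).toMonoidHom ≤ S := by
  rintro _ ⟨g, hg, rfl⟩
  exact h g (hH hg)

/-! ### forms -/

theorem pf_bilinear (e : κ ≃ ι) {f : (ι → F) → (ι → F) → F} (hf : IsBilinearForm f) :
    IsBilinearForm (pf e f) where
  add_left x y v := hf.add_left _ _ _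
  smul_left c x v := hf.smul_left c _ _
  add_right v x y := hf.add_right _ _ _
  smul_right c v x := hf.smul_right c _ _

theorem pf_nondeg (e : κ ≃ ι) {f : (ι → F) → (ι → F) → F} (hf : IsNondegenerateForm f) :
    IsNondegenerateForm (pf e f) := by
  intro v hv
  obtain ⟨x, rfl⟩ := exists_comp e v
  have hx : x ≠ 0 := fun h => hv ((comp_eq_zero e).mpr h)
  obtain ⟨⟨a, ha⟩, ⟨b, hb⟩⟩ := hf x hx
  exact ⟨⟨a ∘ e, by rwa [pf_comp]⟩, ⟨b ∘ e, by rwa [pf_comp]⟩⟩

theorem pf_symplectic (e : κ ≃ ι) {f : (ι → F) → (ι → F) → F} (hf : IsSymplecticForm f) :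
    IsSymplecticForm (pf e f) where
  bilinear := pf_bilinear e hf.bilinear
  skew v w := hf.skew _ _
  alternating v := hf.alternating _
  nondegenerate := pf_nondeg e hf.nondegenerate

theorem pf_unitary (e : κ ≃ ι) {σ : F ≃+* F} {f : (ι → F) → (ι → F) → F} (hf : IsUnitaryForm σ f) :
    IsUnitaryForm σ (pf e f) where
  ne_refl := hf.ne_refl
  involutive := hf.involutive
  add_left x y v := hf.add_left _ _ _
  smul_left c x v := hf.smul_left c _ _
  herm v w := hf.herm _ _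
  nondegenerate := pf_nondeg e hf.nondegenerate

/-- Transport of one-argument forms. -/
def pq (e : κ ≃ ι) (Q : (ι → F) → F) : (κ → F) → F := fun u => Q (u ∘ e.symm)

theorem pq_comp (e : κ ≃ ι) (Q : (ι → F) → F) (x : ι → F) : pq e Q (x ∘ e) = Q x := by
  unfold pq
  rw [comp_symm_comp]

theorem polar_pq (e : κ ≃ ι) (Q : (ι → F) → F) :
    QuadraticMap.polar (pq e Q) = pf e (QuadraticMap.polar Q) := rfl

theorem pq_nondeg (e : κ ≃ ι) {Q : (ι → F) → F} (hQ : IsNondegenerateQuadraticForm Q) :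
    IsNondegenerateQuadraticForm (pq e Q) where
  smul c v := hQ.smul c _
  polar_bilinear := by rw [polar_pq]; exact pf_bilinear e hQ.polar_bilinear
  nondegenerate := by rw [polar_pq]; exact pf_nondeg e hQ.nondegenerate

theorem pg_iso (e : κ ≃ ι) {f : (ι → F) → (ι → F) → F} {g : GL ι F} (hg : g ∈ isoSub f) :
    pg e g ∈ isoSub (pf e f) := by
  intro u v
  obtain ⟨x, rfl⟩ := exists_comp e u
  obtain ⟨y, rfl⟩ := exists_comp e v
  show pf e f (((pg e g : GL κ F) : Matrix κ κ F) *ᵥ (x ∘ e)) (((pg e g : GL κ F) : Matrix κ κ F) *ᵥ (y ∘ e)) = _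
  rw [pg_mulVec, pg_mulVec, pf_comp, pf_comp]
  exact hg x y

/-! ### subspaces -/

/-- Transport of subspaces. -/
def ps (e : κ ≃ ι) (W : Submodule F (ι → F)) : Submodule F (κ → F) :=
  W.map ((pv e : (ι → F) ≃ₗ[F] (κ → F)) : (ι → F) →ₗ[F] (κ → F))

theorem comp_mem_ps (e : κ ≃ ι) (W : Submodule F (ι → F)) (x : ι → F) : x ∘ e ∈ ps e W ↔ x ∈ W := by
  constructor
  · rintro ⟨y, hy, hyx⟩
    have : y = x := comp_inj e hyx
    exact this ▸ hy
  · intro hx; exact ⟨x, hx, rfl⟩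

theorem ps_ne_bot (e : κ ≃ ι) {W : Submodule F (ι → F)} (hW : W ≠ ⊥) : ps e W ≠ ⊥ := by
  intro h
  apply hW
  rw [Submodule.eq_bot_iff]
  intro x hx
  have h1 : x ∘ e ∈ ps e W := (comp_mem_ps e W x).mpr hx
  rw [h, Submodule.mem_bot] at h1
  exact (comp_eq_zero e).mp h1

theorem ps_finrank (e : κ ≃ ι) (W : Submodule F (ι → F)) :
    Module.finrank F (ps e W) = Module.finrank F W :=
  LinearEquiv.finrank_map_eq (pv e) W

theorem ps_ts (e : κ ≃ ι) {f : (ι → F) → (ι → F) → F} {W : Submodule F (ι → F)}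
    (h : IsTotallySingularFor f W) : IsTotallySingularFor (pf e f) (ps e W) := by
  intro u hu v hv
  obtain ⟨x, rfl⟩ := exists_comp e u
  obtain ⟨y, rfl⟩ := exists_comp e v
  rw [pf_comp]
  exact h x ((comp_mem_ps e W x).mp hu) y ((comp_mem_ps e W y).mp hv)

theorem ps_orth (e : κ ≃ ι) {f : (ι → F) → (ι → F) → F} {W W' : Submodule F (ι → F)}
    (h : AreOrthogonalFor f W W') : AreOrthogonalFor (pf e f) (ps e W) (ps e W') := by
  intro u hu v hv
  obtain ⟨x, rfl⟩ := exists_comp e u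
  obtain ⟨y, rfl⟩ := exists_comp e v
  rw [pf_comp]
  exact h x ((comp_mem_ps e W x).mp hu) y ((comp_mem_ps e W' y).mp hv)

theorem ps_nondeg (e : κ ≃ ι) {f : (ι → F) → (ι → F) → F} {W : Submodule F (ι → F)}
    (h : IsNondegenerateOn f W) : IsNondegenerateOn (pf e f) (ps e W) := by
  intro u hu hu0
  obtain ⟨x, rfl⟩ := exists_comp e u
  have hx : x ≠ 0 := fun h => hu0 ((comp_eq_zero e).mpr h)
  obtain ⟨⟨a, ha, ha'⟩, ⟨b, hb, hb'⟩⟩ := h x ((comp_mem_ps e W x).mp hu) hx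
  exact ⟨⟨a ∘ e, (comp_mem_ps e W a).mpr ha, by rwa [pf_comp]⟩,
    ⟨b ∘ e, (comp_mem_ps e W b).mpr hb, by rwa [pf_comp]⟩⟩

theorem ps_inf (e : κ ≃ ι) (W W' : Submodule F (ι → F)) : ps e (W ⊓ W') = ps e W ⊓ ps e W' := by
  ext u
  obtain ⟨x, rfl⟩ := exists_comp e u
  rw [Submodule.mem_inf, comp_mem_ps, comp_mem_ps, comp_mem_ps, Submodule.mem_inf]

theorem ps_bot (e : κ ≃ ι) : ps e (⊥ : Submodule F (ι → F)) = ⊥ := Submodule.map_bot _

theorem ps_top (e : κ ≃ ι) : ps e (⊤ : Submodule F (ι → F)) = ⊤ := by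
  ext u
  obtain ⟨x, rfl⟩ := exists_comp e u
  simp [comp_mem_ps]

theorem ps_sup (e : κ ≃ ι) (W W' : Submodule F (ι → F)) : ps e (W ⊔ W') = ps e W ⊔ ps e W' :=
  Submodule.map_sup _ _ _

theorem ps_map (e : κ ≃ ι) (W : Submodule F (ι → F)) (g : GL ι F) :
    (ps e W).map (Matrix.toLin' ((pg e g : GL κ F) : Matrix κ κ F)) =
      ps e (W.map (Matrix.toLin' (g : Matrix ι ι F))) := by
  ext u
  constructor
  · rintro ⟨w, hw, rfl⟩
    obtain ⟨x, rfl⟩ := exists_comp e w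
    rw [Matrix.toLin'_apply, pg_mulVec, comp_mem_ps]
    exact ⟨x, (comp_mem_ps e W x).mp hw, rfl⟩
  · obtain ⟨y, rfl⟩ := exists_comp e u
    rw [comp_mem_ps]
    rintro ⟨x, hx, rfl⟩
    refine ⟨x ∘ e, (comp_mem_ps e W x).mpr hx, ?_⟩
    rw [Matrix.toLin'_apply, pg_mulVec, Matrix.toLin'_apply]

theorem pg_stab (e : κ ≃ ι) (W : Submodule F (ι → F)) {g : GL ι F} (hg : g ∈ subspaceStabilizer W) :
    pg e g ∈ subspaceStabilizer (ps e W) := by
  rw [Helper97.Gen.mem_subspaceStabilizer_iff] at hg ⊢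
  intro u
  obtain ⟨x, rfl⟩ := exists_comp e u
  rw [pg_mulVec, comp_mem_ps, comp_mem_ps]
  exact hg x

/-! ### decompositions -/

theorem ps_decomp (e : κ ≃ ι) {t k : ℕ} {D : Fin t → Submodule F (ι → F)} (h : IsMDecomposition k D) :
    IsMDecomposition k (fun i => ps e (D i)) where
  two_le := h.two_le
  pos := h.pos
  finrank_eq i := (ps_finrank e (D i)).trans (h.finrank_eq i)
  indep := by
    have h1 := (iSupIndep_map_orderIso_iff (Submodule.orderIsoMapComap (pv e : (ι → F) ≃ₗ[F] (κ → F)))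
      (a := D)).mpr h.indep
    exact h1
  iSup_eq_top := by
    have h1 : (⨆ i, ps e (D i)) = ps e (⨆ i, D i) := (Submodule.map_iSup _ _).symm
    rw [h1, h.iSup_eq_top, ps_top]

theorem ps_ndecomp (e : κ ≃ ι) {f : (ι → F) → (ι → F) → F} {t k : ℕ} {D : Fin t → Submodule F (ι → F)}
    (h : IsNondegenerateMDecomposition f k D) :
    IsNondegenerateMDecomposition (pf e f) k (fun i => ps e (D i)) where
  decomp := ps_decomp e h.decomp
  nondegenerate i := ps_nondeg e (h.nondegenerate i)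
  orthogonal i j hij := ps_orth e (h.orthogonal i j hij)

theorem pg_dstab (e : κ ≃ ι) {t : ℕ} (D : Fin t → Submodule F (ι → F)) {g : GL ι F}
    (hg : g ∈ decompositionStabilizer D) : pg e g ∈ decompositionStabilizer (fun i => ps e (D i)) := by
  rw [Helper97.Gen.mem_decompositionStabilizer_iff] at hg ⊢
  obtain ⟨σ, hσ⟩ := hg
  refine ⟨σ, fun i => ?_⟩
  show (ps e (D i)).map _ = ps e (D (σ i))
  rw [ps_map, hσ]

end Cfsg.Agent.Helper96.Sy
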