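-- helper96 library: transport of structures along a bijection of index types (part 2).
import Cfsg.Agent.Helper96.SpTr1

set_option autoImplicit false
set_option linter.unusedSectionVars false
set_option linter.unusedVariables false
open Cfsg Cfsg.Geo Matrix

namespace Cfsg.Agent.Helper96.Sy

variable {κ ι : Type} [Fintype κ] [DecidableEq κ] [Fintype ι] [DecidableEq ι] {F : Type*} [Field F]

/-! ### subalgebras -/

/-- Transport of subalgebras of the matrix algebra. -/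
def pk (e : κ ≃ ι) (K : Subalgebra F (Matrix ι ι F)) : Subalgebra F (Matrix κ κ F) :=
  K.map ((pm e : Matrix ι ι F ≃ₐ[F] Matrix κ κ F) : Matrix ι ι F →ₐ[F] Matrix κ κ F)

theorem pm_mem_pk (e : κ ≃ ι) (K : Subalgebra F (Matrix ι ι F)) (k : Matrix ι ι F) :
    pm e k ∈ pk e K ↔ k ∈ K := by
  constructor
  · rintro ⟨y, hy, hyx⟩
    have : y = k := (pm e : Matrix ι ι F ≃ₐ[F] Matrix κ κ F).injective hyx
    exact this ▸ hy
  · intro hk; exact ⟨k, hk, rfl⟩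

theorem exists_pm (e : κ ≃ ι) (k' : Matrix κ κ F) : ∃ k : Matrix ι ι F, k' = pm e k :=
  ⟨(pm e : Matrix ι ι F ≃ₐ[F] Matrix κ κ F).symm k', ((pm e).apply_symm_apply k').symm⟩

theorem pm_eq_zero (e : κ ≃ ι) {k : Matrix ι ι F} : pm e k = 0 ↔ k = 0 :=
  (pm e : Matrix ι ι F ≃ₐ[F] Matrix κ κ F).map_eq_zero_iff

theorem pk_field (e : κ ≃ ι) {r : ℕ} {K : Subalgebra F (Matrix ι ι F)} (h : IsFieldSubalgebra r K) :
    IsFieldSubalgebra r (pk e K) where
  comm := by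
    intro x hx y hy
    obtain ⟨x, rfl⟩ := exists_pm e x
    obtain ⟨y, rfl⟩ := exists_pm e y
    rw [pm_mem_pk] at hx hy
    rw [← map_mul, ← map_mul, h.comm x hx y hy]
  inv := by
    intro x hx hx0
    obtain ⟨x, rfl⟩ := exists_pm e x
    rw [pm_mem_pk] at hx
    have hx0' : x ≠ 0 := fun h0 => hx0 ((pm_eq_zero e).mpr h0)
    obtain ⟨y, hy, hxy⟩ := h.inv x hx hx0'
    exact ⟨pm e y, (pm_mem_pk e K y).mpr hy, by rw [← map_mul, hxy, map_one]⟩
  finrank_eq := by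
    rw [← h.finrank_eq]
    exact ((pm e : Matrix ι ι F ≃ₐ[F] Matrix κ κ F).subalgebraMap K).toLinearEquiv.finrank_eq.symm

theorem pk_selfadj (e : κ ≃ ι) {f : (ι → F) → (ι → F) → F} {K : Subalgebra F (Matrix ι ι F)}
    (h : IsSelfAdjointFor f K) : IsSelfAdjointFor (pf e f) (pk e K) := by
  intro k hk u v
  obtain ⟨k, rfl⟩ := exists_pm e k
  obtain ⟨x, rfl⟩ := exists_comp e u
  obtain ⟨y, rfl⟩ := exists_comp e v
  rw [pm_mulVec, pm_mulVec, pf_comp, pf_comp]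
  exact h k ((pm_mem_pk e K k).mp hk) x y

theorem pk_selfadj_conv (e : κ ≃ ι) {f : (ι → F) → (ι → F) → F} {K : Subalgebra F (Matrix ι ι F)}
    (h : IsSelfAdjointFor (pf e f) (pk e K)) : IsSelfAdjointFor f K := by
  intro k hk x y
  have h1 := h (pm e k) ((pm_mem_pk e K k).mpr hk) (x ∘ e) (y ∘ e)
  rw [pm_mulVec, pm_mulVec, pf_comp, pf_comp] at h1
  exact h1

theorem pk_adjclosed (e : κ ≃ ι) {f : (ι → F) → (ι → F) → F} {K : Subalgebra F (Matrix ι ι F)}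
    (h : IsAdjointClosedFor f K) : IsAdjointClosedFor (pf e f) (pk e K) := by
  intro k hk
  obtain ⟨k, rfl⟩ := exists_pm e k
  obtain ⟨k', hk', hkk⟩ := h k ((pm_mem_pk e K k).mp hk)
  refine ⟨pm e k', (pm_mem_pk e K k').mpr hk', fun u v => ?_⟩
  obtain ⟨x, rfl⟩ := exists_comp e u
  obtain ⟨y, rfl⟩ := exists_comp e v
  rw [pm_mulVec, pm_mulVec, pf_comp, pf_comp]
  exact hkk x y

theorem pk_alt (e : κ ≃ ι) {f : (ι → F) → (ι → F) → F} {K : Subalgebra F (Matrix ι ι F)}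
    (h : ∀ k ∈ K, ∀ v : ι → F, f (k *ᵥ v) v = 0) :
    ∀ k ∈ pk e K, ∀ v : κ → F, pf e f (k *ᵥ v) v = 0 := by
  intro k hk v
  obtain ⟨k, rfl⟩ := exists_pm e k
  obtain ⟨x, rfl⟩ := exists_comp e v
  rw [pm_mulVec, pf_comp]
  exact h k ((pm_mem_pk e K k).mp hk) x

theorem pg_norm (e : κ ≃ ι) (K : Subalgebra F (Matrix ι ι F)) {g : GL ι F}
    (hg : g ∈ subalgebraNormalizer K) : pg e g ∈ subalgebraNormalizer (pk e K) := by
  rw [Helper97.Gen.mem_subalgebraNormalizer_iff] at hg ⊢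
  intro k
  obtain ⟨k, rfl⟩ := exists_pm e k
  have h1 : ((pg e g : GL κ F) : Matrix κ κ F) * pm e k * (((pg e g)⁻¹ : GL κ F) : Matrix κ κ F) =
      pm e ((g : Matrix ι ι F) * k * ((g⁻¹ : GL ι F) : Matrix ι ι F)) := by
    rw [← map_inv, pg_val, pg_val, map_mul, map_mul]
  rw [h1, pm_mem_pk, pm_mem_pk]
  exact hg k

/-! ### tensor structures -/

theorem pg_tensor (e : κ ≃ ι) {n₁ n₂ : ℕ} (e₁ : ι ≃ Fin n₁ × Fin n₂) (P : GL ι F) {g : GL ι F}
    (hg : g ∈ tensorProductSubgroup n₁ n₂ e₁ P) :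
    pg e g ∈ tensorProductSubgroup n₁ n₂ (e.trans e₁) (pg e P) := by
  obtain ⟨y, ⟨x, hx, rfl⟩, rfl⟩ := hg
  refine ⟨glReindex (e.trans e₁).symm x, ⟨x, hx, rfl⟩, ?_⟩
  show pg e P * glReindex (e.trans e₁).symm x * (pg e P)⁻¹ = pg e (P * glReindex e₁.symm x * P⁻¹)
  rw [map_mul, map_mul, map_inv]
  congr 2

theorem pf_tensor (e : κ ≃ ι) {f : (ι → F) → (ι → F) → F} {n₁ n₂ : ℕ}
    {f₁ : (Fin n₁ → F) → (Fin n₁ → F) → F} {f₂ : (Fin n₂ → F) → (Fin n₂ → F) → F}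
    {e₁ : ι ≃ Fin n₁ × Fin n₂} {P : GL ι F} (h : IsTensorFormStructure id f f₁ f₂ e₁ P) :
    IsTensorFormStructure id (pf e f) f₁ f₂ (e.trans e₁) (pg e P) := by
  obtain ⟨c, hc, h⟩ := h
  refine ⟨c, hc, fun x y => ?_⟩
  show pf e f (((pg e P : GL κ F) : Matrix κ κ F) *ᵥ ((x ∘ e₁) ∘ e))
    (((pg e P : GL κ F) : Matrix κ κ F) *ᵥ ((y ∘ e₁) ∘ e)) = _
  rw [pg_mulVec, pg_mulVec, pf_comp]
  exact h x y

/-! ### subfield structures -/

theorem pg_scalars (e : κ ≃ ι) {g : GL ι F} : pg e g ∈ scalars κ F ↔ g ∈ scalars ι F := by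
  rw [mem_scalars_iff, mem_scalars_iff]
  constructor
  · rintro ⟨c, hc⟩
    refine ⟨c, ?_⟩
    rw [pg_val] at hc
    apply (pm e : Matrix ι ι F ≃ₐ[F] Matrix κ κ F).injective
    rw [hc, map_smul, map_one]
  · rintro ⟨c, hc⟩
    refine ⟨c, ?_⟩
    rw [pg_val, hc, map_smul, map_one]

theorem pg_subfield (e : κ ≃ ι) (F₀ : Subfield F) (P : GL ι F) {g : GL ι F}
    (hg : g ∈ subfieldSubgroup F₀ P) : pg e g ∈ subfieldSubgroup F₀ (pg e P) := by
  obtain ⟨y, hy, rfl⟩ := hg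
  refine ⟨pg e y, ?_, ?_⟩
  · have h1 : ((Matrix.GeneralLinearGroup.map (F₀.subtype : F₀ →+* F)).range ⊔ scalars ι F :
        Subgroup (GL ι F)) ≤
        ((Matrix.GeneralLinearGroup.map (F₀.subtype : F₀ →+* F)).range ⊔ scalars κ F :
          Subgroup (GL κ F)).comap (pg e).toMonoidHom := by
      refine sup_le ?_ ?_
      · rintro _ ⟨z, rfl⟩
        refine Subgroup.mem_sup_left ⟨glReindex e.symm z, ?_⟩
        apply Units.ext
        ext a b
        rfl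
      · intro z hz
        exact Subgroup.mem_sup_right ((pg_scalars e).mpr hz)
    exact h1 hy
  · show pg e P * pg e y * (pg e P)⁻¹ = pg e (P * y * P⁻¹)
    rw [map_mul, map_mul, map_inv]

theorem pf_rational (e : κ ≃ ι) {f : (ι → F) → (ι → F) → F} {F₀ : Subfield F} {ζ : F} {P : GL ι F}
    (h : IsFormRationalStructure f F₀ ζ P) : IsFormRationalStructure (pf e f) F₀ ζ (pg e P) := by
  intro u v hu hv
  obtain ⟨x, rfl⟩ := exists_comp e u
  obtain ⟨y, rfl⟩ := exists_comp e v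
  rw [pg_mulVec, pg_mulVec, pf_comp]
  refine h x y (fun i => ?_) (fun i => ?_)
  · have := hu (e.symm i); simpa using this
  · have := hv (e.symm i); simpa using this

/-! ### quadratic forms -/

theorem pg_quad (e : κ ≃ ι) (Q : (ι → F) → F) {g : GL ι F} (hg : g ∈ quadSimilarityGroup Q) :
    pg e g ∈ quadSimilarityGroup (pq e Q) := by
  obtain ⟨c, hc⟩ := hg
  refine ⟨c, fun v => ?_⟩
  obtain ⟨x, rfl⟩ := exists_comp e v
  rw [pg_mulVec, pq_comp, pq_comp]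
  exact hc x

end Cfsg.Agent.Helper96.Sy
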