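-- helper96 library: transport of structures along a bijection of index types (part 3).
import Cfsg.Agent.Helper96.SpTr2
import Cfsg.Agent.Helper94.SpGen

set_option autoImplicit false
set_option linter.unusedSectionVars false
set_option linter.unusedVariables false
open Cfsg Cfsg.Geo Matrix

namespace Cfsg.Agent.Helper96.Sy

variable {κ ι : Type} [Fintype κ] [DecidableEq κ] [Fintype ι] [DecidableEq ι] {F : Type*} [Field F]

/-! ### the residual class -/

theorem mem_matrixSet_map (e : κ ≃ ι) (P : Subgroup (GL ι F)) (s : Matrix κ κ F) :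
    s ∈ matrixSet (P.map (pg e).toMonoidHom) ↔ ∃ s₀ ∈ matrixSet P, s = pm e s₀ := by
  constructor
  · rintro ⟨_, ⟨g, hg, rfl⟩, rfl⟩
    exact ⟨g, ⟨g, hg, rfl⟩, rfl⟩
  · rintro ⟨_, ⟨g, hg, rfl⟩, rfl⟩
    exact ⟨pg e g, ⟨g, hg, rfl⟩, rfl⟩

theorem mem_ps_symm (e : κ ≃ ι) (W : Submodule F (κ → F)) (y : ι → F) :
    y ∈ ps e.symm W ↔ y ∘ e ∈ W := by
  have h := comp_mem_ps e.symm W (y ∘ e)
  have h2 : (y ∘ e) ∘ e.symm = y := comp_symm_comp e y
  rw [h2] at h
  exact h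

theorem ps_ps_symm (e : κ ≃ ι) (W : Submodule F (κ → F)) : ps e (ps e.symm W) = W := by
  ext u
  obtain ⟨x, rfl⟩ := exists_comp e u
  rw [comp_mem_ps, mem_ps_symm]

theorem pr_absIrred (e : κ ≃ ι) {P : Subgroup (GL ι F)}
    (h : ActsAbsolutelyIrreducibly (matrixSet P)) :
    ActsAbsolutelyIrreducibly (matrixSet (P.map (pg e).toMonoidHom)) := by
  refine ⟨fun W hW => ?_, fun M hM => ?_⟩
  · have h1 : ∀ s ∈ matrixSet P, (ps e.symm W).map (Matrix.toLin' s) ≤ ps e.symm W := by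
      rintro s hs _ ⟨y, hy, rfl⟩
      have hy' : y ∘ e ∈ W := (mem_ps_symm e W y).mp hy
      apply (mem_ps_symm e W _).mpr
      rw [Matrix.toLin'_apply, ← pm_mulVec]
      exact hW (pm e s) ((mem_matrixSet_map e P _).mpr ⟨s, hs, rfl⟩) ⟨y ∘ e, hy', rfl⟩
    rcases h.1 _ h1 with h2 | h2
    · left
      rw [← ps_ps_symm e W, h2, ps_bot]
    · right
      rw [← ps_ps_symm e W, h2, ps_top]
  · obtain ⟨M, rfl⟩ := exists_pm e M
    have h1 : ∀ s ∈ matrixSet P, M * s = s * M := by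
      intro s hs
      have h2 := hM (pm e s) ((mem_matrixSet_map e P _).mpr ⟨s, hs, rfl⟩)
      rw [← map_mul, ← map_mul] at h2
      exact (pm e : Matrix ι ι F ≃ₐ[F] Matrix κ κ F).injective h2
    obtain ⟨c, hc⟩ := h.2 M h1
    exact ⟨c, by rw [hc, map_smul, map_one]⟩

theorem pr_realisable (e : κ ≃ ι) {P : Subgroup (GL ι F)} {F₀ : Subfield F}
    (h : RealisableOver F₀ (matrixSet (P.map (pg e).toMonoidHom))) :
    RealisableOver F₀ (matrixSet P) := by
  obtain ⟨B, hB⟩ := h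
  obtain ⟨B, rfl⟩ := (pg e).surjective B
  refine ⟨B, fun s hs i j => ?_⟩
  have h1 := hB (pm e s) ((mem_matrixSet_map e P _).mpr ⟨s, hs, rfl⟩) (e.symm i) (e.symm j)
  have h2 : ((pg e B : GL κ F) : Matrix κ κ F) * pm e s * (((pg e B)⁻¹ : GL κ F) : Matrix κ κ F) =
      pm e ((B : Matrix ι ι F) * s * ((B⁻¹ : GL ι F) : Matrix ι ι F)) := by
    rw [← map_inv, pg_val, pg_val, map_mul, map_mul]
  rw [h2, pm_apply, Equiv.apply_symm_apply, Equiv.apply_symm_apply] at h1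
  exact h1

theorem pr_quot (e : κ ≃ ι) (P : Subgroup (GL ι F)) :
    Nonempty ((P ⧸ (scalars ι F).subgroupOf P) ≃*
      ((P.map (pg e).toMonoidHom : Subgroup (GL κ F)) ⧸
        (scalars κ F).subgroupOf (P.map (pg e).toMonoidHom))) := by
  refine ⟨QuotientGroup.congr _ _ ((pg e).subgroupMap P) ?_⟩
  ext ⟨y, hy⟩
  constructor
  · rintro ⟨⟨x, hx⟩, hxs, hxy⟩
    rw [Subgroup.mem_subgroupOf]
    have h1 : pg e x = y := congrArg Subtype.val hxy
    show y ∈ scalars κ F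
    rw [← h1]
    exact (pg_scalars e).mpr hxs
  · intro hys
    rw [Subgroup.mem_subgroupOf] at hys
    obtain ⟨x, hx, rfl⟩ := hy
    exact ⟨⟨x, hx⟩, (pg_scalars e).mp hys, rfl⟩

theorem pr_core (e : κ ≃ ι) {H P : Subgroup (GL ι F)} (h : IsResidualCore H P) :
    IsResidualCore (H.map (pg e).toMonoidHom) (P.map (pg e).toMonoidHom) where
  le := Subgroup.map_mono h.le
  normal := by
    rintro _ ⟨a, ha, rfl⟩ _ ⟨x, hx, rfl⟩
    exact ⟨a * x * a⁻¹, h.normal a ha x hx, by simp⟩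
  perfect := by
    rw [← Subgroup.map_commutator, h.perfect]
  simple := by
    obtain ⟨E⟩ := pr_quot e P
    exact (MulEquiv.isSimpleGroup_congr E).mp h.simple
  nonabelian := by
    obtain ⟨E⟩ := pr_quot e P
    intro hc
    apply h.nonabelian
    refine ⟨⟨fun a b => E.injective ?_⟩⟩
    rw [map_mul, map_mul]
    exact hc.is_comm.comm _ _
  centralizer_scalar := by
    rintro _ ⟨a, ha, rfl⟩ hcent
    apply (pg_scalars e).mpr
    apply h.centralizer_scalar a ha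
    intro x hx
    have h1 := hcent (pg e x) ⟨x, hx, rfl⟩
    have h2 : pg e a * pg e x * (pg e a)⁻¹ * (pg e x)⁻¹ = pg e (a * x * a⁻¹ * x⁻¹) := by
      simp
    have h3 : pg e (a * x * a⁻¹ * x⁻¹) ∈ scalars κ F := h2 ▸ h1
    exact (pg_scalars e).mp h3
  absIrred := pr_absIrred e h.absIrred
  no_subfield := fun F₀ hF₀ hr => h.no_subfield F₀ hF₀ (pr_realisable e hr)

theorem pr_residual (e : κ ≃ ι) {H : Subgroup (GL ι F)} (h : InSymplecticResidualClass H) :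
    InSymplecticResidualClass (H.map (pg e).toMonoidHom) := by
  obtain ⟨P, hcore, hq, hu⟩ := h
  refine ⟨P.map (pg e).toMonoidHom, pr_core e hcore, ?_, ?_⟩
  · rintro ⟨Q, hQ, hfix⟩
    apply hq
    refine ⟨pq e.symm Q, pq_nondeg e.symm hQ, fun s hs v => ?_⟩
    show Q ((s *ᵥ v) ∘ e) = Q (v ∘ e)
    rw [← pm_mulVec]
    exact hfix (pm e s) ((mem_matrixSet_map e P _).mpr ⟨s, hs, rfl⟩) (v ∘ e)
  · rintro ⟨σ, f, hf, hfix⟩
    apply hu
    refine ⟨σ, pf e.symm f, pf_unitary e.symm hf, fun s hs u v => ?_⟩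
    show f ((s *ᵥ u) ∘ e) ((s *ᵥ v) ∘ e) = f (u ∘ e) (v ∘ e)
    rw [← pm_mulVec, ← pm_mulVec]
    exact hfix (pm e s) ((mem_matrixSet_map e P _).mpr ⟨s, hs, rfl⟩) (u ∘ e) (v ∘ e)

/-! ### the transport theorem -/

theorem sp_transport [Fintype F] (e : κ ≃ ι) {f : (ι → F) → (ι → F) → F} {H : Subgroup (GL ι F)}
    (h : SpOutcome f H) : SpOutcome (pf e f) (H.map (pg e).toMonoidHom) := by
  unfold SpOutcome at h ⊢
  rcases h with ⟨W, hW0, hts, hle⟩ | ⟨W, W', h1, h2, h3, h4, h5, h6, h7, h8, h9⟩ |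
    ⟨t, k, D, hD, hle⟩ | ⟨h2, k, D, hD, hts, hle⟩ | ⟨r, K, hr, hK, hsa, halt, hle⟩ |
    ⟨h2, K, hK, hac, hnsa, hle⟩ | ⟨h2, n₁, n₂, e₁, P, f₁, f₂, hn₂, hf₁, hf₂, hT, hle⟩ |
    ⟨h2, n₁, n₂, e₁, P, f₁, f₂, hf₁, hf₂, hT, hle⟩ | ⟨F₀, r, P, ζ, hr, hcard, hζ, hR, hle⟩ |
    ⟨h2, Q, hQ, hpol, hle⟩ | hres | ⟨r, j, hr, hcard, hrF⟩ | ⟨d, t, hd, ht, hcard⟩
  · exact Or.inl ⟨ps e W, ps_ne_bot e hW0, ps_ts e hts, map_le_of e (fun g hg => pg_stab e W hg) hle⟩
  · refine Or.inr (Or.inl ⟨ps e W, ps e W', ps_ne_bot e h1, ps_ne_bot e h2, ps_nondeg e h3,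
      ps_nondeg e h4, ps_orth e h5, ?_, ?_, map_le_of e (fun g hg => pg_stab e W hg) h8,
      map_le_of e (fun g hg => pg_stab e W' hg) h9⟩)
    · rw [← ps_inf, h6, ps_bot]
    · rw [← ps_sup, h7, ps_top]
  · exact Or.inr (Or.inr (Or.inl ⟨t, k, fun i => ps e (D i), ps_ndecomp e hD,
      map_le_of e (fun g hg => pg_dstab e D hg) hle⟩))
  · exact Or.inr (Or.inr (Or.inr (Or.inl ⟨h2, k, fun i => ps e (D i), ps_decomp e hD,
      fun i => ps_ts e (hts i), map_le_of e (fun g hg => pg_dstab e D hg) hle⟩)))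
  · exact Or.inr (Or.inr (Or.inr (Or.inr (Or.inl ⟨r, pk e K, hr, pk_field e hK, pk_selfadj e hsa,
      pk_alt e halt, map_le_of e (fun g hg => pg_norm e K hg) hle⟩))))
  · exact Or.inr (Or.inr (Or.inr (Or.inr (Or.inr (Or.inl ⟨h2, pk e K, pk_field e hK,
      pk_adjclosed e hac, fun hsa => hnsa (pk_selfadj_conv e hsa),
      map_le_of e (fun g hg => pg_norm e K hg) hle⟩)))))
  · exact Or.inr (Or.inr (Or.inr (Or.inr (Or.inr (Or.inr (Or.inl ⟨h2, n₁, n₂, e.trans e₁, pg e P,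
      f₁, f₂, hn₂, hf₁, hf₂, pf_tensor e hT,
      map_le_of e (fun g hg => pg_tensor e e₁ P hg) hle⟩))))))
  · exact Or.inr (Or.inr (Or.inr (Or.inr (Or.inr (Or.inr (Or.inr (Or.inl ⟨h2, n₁, n₂, e.trans e₁,
      pg e P, f₁, f₂, hf₁, hf₂, pf_tensor e hT,
      map_le_of e (fun g hg => pg_tensor e e₁ P hg) hle⟩)))))))
  · exact Or.inr (Or.inr (Or.inr (Or.inr (Or.inr (Or.inr (Or.inr (Or.inr (Or.inl ⟨F₀, r, pg e P, ζ,
      hr, hcard, hζ, pf_rational e hR,
      map_le_of e (fun g hg => pg_subfield e F₀ P hg) hle⟩))))))))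
  · exact Or.inr (Or.inr (Or.inr (Or.inr (Or.inr (Or.inr (Or.inr (Or.inr (Or.inr (Or.inl ⟨h2,
      pq e Q, pq_nondeg e hQ, fun u v => hpol _ _,
      map_le_of e (fun g hg => pg_quad e Q hg) hle⟩)))))))))
  · exact Or.inr (Or.inr (Or.inr (Or.inr (Or.inr (Or.inr (Or.inr (Or.inr (Or.inr (Or.inr (Or.inl
      (pr_residual e hres)))))))))))
  · exact Or.inr (Or.inr (Or.inr (Or.inr (Or.inr (Or.inr (Or.inr (Or.inr (Or.inr (Or.inr (Or.inr
      (Or.inl ⟨r, j, hr, by rw [Fintype.card_congr e]; exact hcard, hrF⟩)))))))))))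
  · exact Or.inr (Or.inr (Or.inr (Or.inr (Or.inr (Or.inr (Or.inr (Or.inr (Or.inr (Or.inr (Or.inr
      (Or.inr ⟨d, t, hd, ht, by rw [Fintype.card_congr e]; exact hcard⟩)))))))))))

/-! ### the standard symplectic form -/

theorem symp_std (m : ℕ) : IsSymplecticForm (sympForm m F) where
  bilinear :=
    { add_left := fun x y v => Helper94.sf_add_left x y v
      smul_left := fun c x v => Helper94.sf_smul_left c x v
      add_right := fun v x y => Helper94.sf_add_right v x y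
      smul_right := fun c v x => Helper94.sf_smul_right c v x }
  skew := fun v w => Helper94.sf_swap v w
  alternating := fun v => Helper94.sf_self v
  nondegenerate := by
    intro v hv
    obtain ⟨y, hy⟩ := Helper94.sf_exists_ne v hv
    refine ⟨⟨y, ?_⟩, ⟨y, hy⟩⟩
    rw [Helper94.sf_swap]
    exact neg_ne_zero.mpr hy

/-- The structures stabilised by a subgroup of the standard symplectic group. -/
theorem sp_outcome_std [Fintype F] {m : ℕ} (hm : 1 ≤ m) (H : Subgroup (GL (Fin m ⊕ Fin m) F))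
    (hH : H ≤ spGL m F) : SpOutcome (sympForm m F) H := by
  have hf : IsSymplecticForm (pf (finSumFinEquiv (m := m) (n := m)).symm (sympForm m F)) :=
    pf_symplectic _ (symp_std m)
  have hH' : H.map (pg (finSumFinEquiv (m := m) (n := m)).symm).toMonoidHom ≤
      isoSub (pf (finSumFinEquiv (m := m) (n := m)).symm (sympForm m F)) :=
    map_le_of _ (fun g hg => pg_iso _ hg) hH
  have h1 := sp_core (by omega) hf _ hH'
  have h2 := sp_transport (finSumFinEquiv (m := m) (n := m)).symm.symm h1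
  rw [pf_symm_pf, map_pg_map_pg] at h2
  exact h2

end Cfsg.Agent.Helper96.Sy
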