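-- helper96 library: the symplectic group is not contained in the stabilisers of the geometric structures.
import Cfsg.Agent.Helper96.SpTr3
import Cfsg.Agent.Helper94.SpLag
import Cfsg.Agent.Helper94.SpOrth
import Cfsg.Agent.Helper94.SpSwap
import Cfsg.Agent.Helper97.ONot

set_option autoImplicit false
set_option linter.unusedSectionVars false
set_option linter.unusedVariables false
open Cfsg Cfsg.Geo Matrix

namespace Cfsg.Agent.Helper96.Sy

variable {m : ℕ} {F : Type*} [Field F]

theorem eq_inf_of_max {H M : Subgroup (GL (Fin m ⊕ Fin m) F)} (hH : IsMaximalIn (spGL m F) H)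
    (hle : H ≤ M) (hM : ¬ spGL m F ≤ M) : H = M ⊓ spGL m F := by
  rcases hH.2 (M ⊓ spGL m F) (le_inf hle hH.1.le) inf_le_right with h | h
  · exact h.symm
  · exfalso
    apply hM
    rw [← h]
    exact inf_le_left

/-- Subspaces. -/
theorem notSp_stab (W : Submodule F (Fin m ⊕ Fin m → F)) (h0 : W ≠ ⊥) (h1 : W ≠ ⊤) :
    ¬ spGL m F ≤ subspaceStabilizer W := by
  intro hle
  obtain ⟨w, hwW, hw0⟩ := Submodule.exists_mem_ne_zero_of_ne_bot h0
  obtain ⟨v, hv⟩ : ∃ v, v ∉ W := by
    by_contra hcon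
    push Not at hcon
    exact h1 (eq_top_iff.mpr (fun x _ => hcon x))
  obtain ⟨u₀, hu₀⟩ := Helper94.sf_exists_ne w hw0
  obtain ⟨u, huW, hu⟩ : ∃ u, u ∉ W ∧ sympForm m F w u ≠ 0 := by
    by_cases h2 : u₀ ∈ W
    · by_cases h3 : sympForm m F w v = 0
      · refine ⟨u₀ + v, fun h => hv ?_, ?_⟩
        · have := W.sub_mem h h2
          simpa using this
        · rw [Helper94.sf_add_right, h3, add_zero]; exact hu₀
      · exact ⟨v, hv, h3⟩
    · exact ⟨u₀, h2, hu₀⟩
  have h4 := (Helper97.Gen.mem_subspaceStabilizer_iff W _).mp (hle (Helper94.stGL_mem u 1)) w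
  have h5 := h4.mp hwW
  rw [Helper94.stGL_mulVec, one_mul] at h5
  have h6 : sympForm m F w u • u ∈ W := by
    have := W.sub_mem h5 hwW
    simpa using this
  exact huW ((W.smul_mem_iff hu).mp h6)

/-- Decompositions: a transvection moving a block off itself. -/
theorem notSp_decomp_aux {t : ℕ} (D : Fin t → Submodule F (Fin m ⊕ Fin m → F)) (hind : iSupIndep D)
    {i j : Fin t} (hij : i ≠ j) {a b w : Fin m ⊕ Fin m → F} (ha : a ∈ D i) (hb : b ∈ D j)
    (hb0 : b ≠ 0) (hw : w ∈ D i) (hc : sympForm m F w (a + b) ≠ 0)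
    (hx : w + sympForm m F w (a + b) • a ≠ 0) :
    Helper94.stGL (a + b) 1 ∉ decompositionStabilizer D := by
  intro hmem
  obtain ⟨σ, hσ⟩ := (Helper97.Gen.mem_decompositionStabilizer_iff D _).mp hmem
  have h1 : ((Helper94.stGL (a + b) 1 : GL (Fin m ⊕ Fin m) F) : Matrix (Fin m ⊕ Fin m) (Fin m ⊕ Fin m) F)
      *ᵥ w ∈ D (σ i) := by
    rw [← hσ i]
    exact ⟨w, hw, by rw [Matrix.toLin'_apply]⟩
  rw [Helper94.stGL_mulVec, one_mul] at h1
  obtain ⟨c, hcdef⟩ : ∃ c, c = sympForm m F w (a + b) := ⟨_, rfl⟩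
  rw [← hcdef] at h1 hc hx
  have h2 : w + c • (a + b) = (w + c • a) + c • b := by rw [smul_add, add_assoc]
  rw [h2] at h1
  have hx' : w + c • a ∈ D i := (D i).add_mem hw ((D i).smul_mem c ha)
  have hy' : c • b ∈ D j := (D j).smul_mem c hb
  have hy0 : c • b ≠ 0 := smul_ne_zero hc hb0
  by_cases h3 : σ i = i
  · rw [h3] at h1
    have h5 : c • b ∈ D i := by
      have := (D i).sub_mem h1 hx'
      simpa using this
    exact hy0 (Submodule.disjoint_def.mp (iSupIndep.pairwiseDisjoint hind hij) _ h5 hy')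
  by_cases h4 : σ i = j
  · rw [h4] at h1
    have h5 : w + c • a ∈ D j := by
      have := (D j).sub_mem h1 hy'
      simpa using this
    exact hx (Submodule.disjoint_def.mp (iSupIndep.pairwiseDisjoint hind hij) _ hx' h5)
  · have hdis : Disjoint (D (σ i)) (⨆ (k) (_ : k ≠ σ i), D k) := hind (σ i)
    have hmem2 : (w + c • a) + c • b ∈ ⨆ (k) (_ : k ≠ σ i), D k := by
      apply Submodule.add_mem
      · exact Submodule.mem_iSup_of_mem i (Submodule.mem_iSup_of_mem (Ne.symm h3) hx')
      · exact Submodule.mem_iSup_of_mem j (Submodule.mem_iSup_of_mem (Ne.symm h4) hy')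
    have hz := Submodule.disjoint_def.mp hdis _ h1 hmem2
    have h5 : w + c • a ∈ D j := by
      have h6 : w + c • a = -(c • b) := eq_neg_of_add_eq_zero_left hz
      rw [h6]
      exact (D j).neg_mem hy'
    exact hx (Submodule.disjoint_def.mp (iSupIndep.pairwiseDisjoint hind hij) _ hx' h5)

theorem notSp_ndecomp {t k : ℕ} (D : Fin t → Submodule F (Fin m ⊕ Fin m → F))
    (hD : IsNondegenerateMDecomposition (sympForm m F) k D) :
    ¬ spGL m F ≤ decompositionStabilizer D := by
  intro hle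
  have ht := hD.decomp.two_le
  have hne : ∀ i, D i ≠ ⊥ := by
    intro i h
    have h1 := hD.decomp.finrank_eq i
    rw [h, finrank_bot] at h1
    have := hD.decomp.pos
    omega
  have hij : (⟨0, by omega⟩ : Fin t) ≠ ⟨1, by omega⟩ := by
    intro h
    have := congrArg Fin.val h
    simp at this
  obtain ⟨a, ha, ha0⟩ := Submodule.exists_mem_ne_zero_of_ne_bot (hne ⟨0, by omega⟩)
  obtain ⟨b, hb, hb0⟩ := Submodule.exists_mem_ne_zero_of_ne_bot (hne ⟨1, by omega⟩)
  obtain ⟨⟨w, hw, hwa⟩, -⟩ := hD.nondegenerate ⟨0, by omega⟩ a ha ha0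
  have horth : sympForm m F w b = 0 := hD.orthogonal _ _ hij w hw b hb
  have hc : sympForm m F w (a + b) = sympForm m F w a := by
    rw [Helper94.sf_add_right, horth, add_zero]
  refine notSp_decomp_aux D hD.decomp.indep hij ha hb hb0 hw (by rw [hc]; exact hwa) ?_
    (hle (Helper94.stGL_mem _ _))
  rw [hc]
  intro h0
  apply hwa
  have h1 : w = -(sympForm m F w a • a) := eq_neg_of_add_eq_zero_left h0
  rw [h1, Helper94.sf_neg_left, Helper94.sf_smul_left, Helper94.sf_self, mul_zero, neg_zero]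

theorem notSp_tsdecomp {k : ℕ} (D : Fin 2 → Submodule F (Fin m ⊕ Fin m → F))
    (hD : IsMDecomposition k D) (hts : ∀ i, IsTotallySingularFor (sympForm m F) (D i)) :
    ¬ spGL m F ≤ decompositionStabilizer D := by
  intro hle
  have hne : ∀ i, D i ≠ ⊥ := by
    intro i h
    have h1 := hD.finrank_eq i
    rw [h, finrank_bot] at h1
    have := hD.pos
    omega
  obtain ⟨b, hb, hb0⟩ := Submodule.exists_mem_ne_zero_of_ne_bot (hne 1)
  obtain ⟨w, hw, hwb⟩ : ∃ w ∈ D 0, sympForm m F w b ≠ 0 := by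
    by_contra hcon
    push Not at hcon
    obtain ⟨y, hy⟩ := Helper94.sf_exists_ne b hb0
    apply hy
    have hy' : y ∈ D 0 ⊔ D 1 := by
      have h1 : (⨆ i, D i) ≤ D 0 ⊔ D 1 := by
        refine iSup_le (fun i => ?_)
        fin_cases i
        · exact le_sup_left
        · exact le_sup_right
      exact h1 (by rw [hD.iSup_eq_top]; trivial)
    obtain ⟨y₀, hy₀, y₁, hy₁, rfl⟩ := Submodule.mem_sup.mp hy'
    rw [Helper94.sf_add_right, Helper94.sf_swap, hcon y₀ hy₀, hts 1 b hb y₁ hy₁, neg_zero, add_zero]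
  have hc : sympForm m F w (0 + b) = sympForm m F w b := by rw [zero_add]
  refine notSp_decomp_aux D hD.indep (i := 0) (j := 1) (by decide) (D 0).zero_mem hb hb0 hw
    (by rw [hc]; exact hwb) ?_ (by rw [zero_add]; exact hle (Helper94.stGL_mem _ _))
  rw [smul_zero, add_zero]
  rintro rfl
  exact hwb (Helper94.sf_zero_left b)

/-- A matrix having every vector as an eigenvector is a scalar. -/
theorem scalar_of_eigen {ι : Type} [Fintype ι] [DecidableEq ι] (k : Matrix ι ι F)
    (h : ∀ u : ι → F, ∃ c : F, k *ᵥ u = c • u) : ∃ c : F, k = c • (1 : Matrix ι ι F) := by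
  classical
  rcases isEmpty_or_nonempty ι with hι | ⟨⟨i₀⟩⟩
  · exact ⟨0, by ext i; exact (hι.false i).elim⟩
  have hcol : ∀ i, ∃ c : F, ∀ j, k j i = if j = i then c else 0 := by
    intro i
    obtain ⟨c, hc⟩ := h (Pi.single i 1)
    refine ⟨c, fun j => ?_⟩
    have := congrFun hc j
    rw [Matrix.mulVec_single_one] at this
    simpa [Pi.single_apply] using this
  choose c hc using hcol
  have hceq : ∀ i j, c i = c j := by
    intro i j
    by_cases hij : i = j
    · rw [hij]
    obtain ⟨d, hd⟩ := h (Pi.single i 1 + Pi.single j 1)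
    have h1 := congrFun hd i
    have h2 := congrFun hd j
    rw [Matrix.mulVec_add, Matrix.mulVec_single_one, Matrix.mulVec_single_one] at h1 h2
    simp only [Pi.add_apply, Matrix.col_apply, Pi.smul_apply, smul_eq_mul, Pi.single_apply] at h1 h2
    rw [hc i i, hc j i] at h1
    rw [hc i j, hc j j] at h2
    simp [hij, Ne.symm hij] at h1 h2
    rw [h1, h2]
  refine ⟨c i₀, ?_⟩
  ext j i
  rw [hc i j, Matrix.smul_apply, Matrix.one_apply, hceq i i₀]
  simp

/-- Normalisers of subfields. -/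
theorem notSp_norm (hm : 2 ≤ m) {r : ℕ} (hr : 2 ≤ r)
    (K : Subalgebra F (Matrix (Fin m ⊕ Fin m) (Fin m ⊕ Fin m) F)) (hK : IsFieldSubalgebra r K) :
    ¬ spGL m F ≤ subalgebraNormalizer K := by
  classical
  intro hle
  have hsc : ∀ k ∈ K, ∃ c : F, k = c • (1 : Matrix (Fin m ⊕ Fin m) (Fin m ⊕ Fin m) F) := by
    intro k hk
    apply scalar_of_eigen
    intro u
    by_cases hu : u = 0
    · exact ⟨0, by rw [hu]; simp⟩
    obtain ⟨x, hx⟩ := Helper94.sf_exists_ne u hu
    have hxu : sympForm m F x u ≠ 0 := by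
      rw [Helper94.sf_swap]; exact neg_ne_zero.mpr hx
    have ht := (Helper97.Gen.mem_subalgebraNormalizer_iff K _).mp (hle (Helper94.stGL_mem u 1)) k
    obtain ⟨k', hk'def⟩ : ∃ k' : Matrix (Fin m ⊕ Fin m) (Fin m ⊕ Fin m) F,
        k' = ((Helper94.stGL u 1 : GL (Fin m ⊕ Fin m) F) : Matrix (Fin m ⊕ Fin m) (Fin m ⊕ Fin m) F) * k *
          (((Helper94.stGL u 1)⁻¹ : GL (Fin m ⊕ Fin m) F) : Matrix (Fin m ⊕ Fin m) (Fin m ⊕ Fin m) F) - k :=
      ⟨_, rfl⟩
    have hk' : k' ∈ K := by rw [hk'def]; exact K.sub_mem (ht.mp hk) hk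
    have hform : ∀ y, k' *ᵥ y = (-(sympForm m F y u)) • (k *ᵥ u) +
        (sympForm m F (k *ᵥ y - sympForm m F y u • (k *ᵥ u)) u) • u := by
      intro y
      rw [hk'def, Matrix.sub_mulVec, ← Matrix.mulVec_mulVec, ← Matrix.mulVec_mulVec, Helper94.stGL_inv,
        Helper94.stGL_mulVec, Helper94.stGL_mulVec, Matrix.mulVec_add, Matrix.mulVec_smul]
      simp only [neg_mul, one_mul, neg_smul]
      rw [← sub_eq_add_neg]
      abel
    by_cases hk0 : k' = 0
    · have h1 := hform x
      rw [hk0, Matrix.zero_mulVec] at h1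
      refine ⟨(sympForm m F (k *ᵥ x - sympForm m F x u • (k *ᵥ u)) u) / sympForm m F x u, ?_⟩
      have h2 : sympForm m F x u • (k *ᵥ u) =
          (sympForm m F (k *ᵥ x - sympForm m F x u • (k *ᵥ u)) u) • u := by
        rw [neg_smul] at h1
        exact neg_add_eq_zero.mp h1.symm
      rw [div_eq_inv_mul, ← smul_smul, ← h2, smul_smul, inv_mul_cancel₀ hxu, one_smul]
    · exfalso
      obtain ⟨y, hy, hky⟩ := hK.inv _ hk' hk0
      have hspan : (⊤ : Submodule F (Fin m ⊕ Fin m → F)) ≤ Submodule.span F {u, k *ᵥ u} := by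
        intro z _
        have hz : z = k' *ᵥ (y *ᵥ z) := by rw [Matrix.mulVec_mulVec, hky, Matrix.one_mulVec]
        rw [hz, hform]
        exact Submodule.add_mem _
          (Submodule.smul_mem _ _ (Submodule.subset_span (by simp)))
          (Submodule.smul_mem _ _ (Submodule.subset_span (by simp)))
      have h2 := Submodule.finrank_mono hspan
      rw [finrank_top, Module.finrank_fintype_fun_eq_card] at h2
      have h3 : Module.finrank F (Submodule.span F ({u, k *ᵥ u} : Set (Fin m ⊕ Fin m → F))) ≤ 2 := by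
        have h4 := finrank_span_finset_le_card (R := F) ({u, k *ᵥ u} : Finset (Fin m ⊕ Fin m → F))
        have h5 : (({u, k *ᵥ u} : Finset (Fin m ⊕ Fin m → F)) : Set (Fin m ⊕ Fin m → F)) =
            {u, k *ᵥ u} := by simp
        rw [h5] at h4
        exact h4.trans Finset.card_le_two
      simp only [Fintype.card_sum, Fintype.card_fin] at h2
      omega
  have hfin : Module.finrank F K ≤ 1 := by
    apply finrank_le_one (1 : K)
    intro w
    obtain ⟨c, hc⟩ := hsc w.1 w.2
    exact ⟨c, Subtype.ext (by rw [hc]; rfl)⟩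
  rw [hK.finrank_eq] at hfin
  omega

end Cfsg.Agent.Helper96.Sy
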