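import Mathlib
import Cfsg.Agent.Helper96.OHDefs
import Cfsg.Agent.Helper31.OHOGROW
import Cfsg.Agent.Helper70.OHONONISO

set_option autoImplicit false
set_option linter.unusedSectionVars false
set_option linter.unusedVariables false

/-!
# S5992 piece OEXND (helper96): nondegenerate subspaces of every dimension.
-/

namespace Cfsg.Agent.Helper96.OH5992

open Module Polynomial Cfsg Cfsg.Geo
open Cfsg.Agent.Helper13.TIu Cfsg.Agent.Helper96.OH
open Cfsg.Agent.Helper31.OH5992 Cfsg.Agent.Helper70.OH5992

variable {ι : Type} [Fintype ι] [DecidableEq ι] {F : Type*} [Field F] (Q : (ι → F) → F)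

/-- OEXND (uses OGROW with `T = 1`, `r = 1`, `c₀ = 1`, ONONISO: `span {v}` with `Q v ≠ 0` is
nondegenerate). -/
theorem o_exists_nd (hQ : IsNondegenerateQuadraticForm Q) (h2 : (2 : F) ≠ 0)
    (E : Submodule F (ι → F)) (hE : ONd Q E) (m : ℕ) (hm : m ≤ finrank F E) :
    ∃ W : Submodule F (ι → F), W ≤ E ∧ ONd Q W ∧ finrank F W = m := by
  have hmap : ∀ N : Submodule F (ι → F), N.map (1 : Module.End F (ι → F)) ≤ N := by
    rintro N _ ⟨v, hv, rfl⟩
    simpa using hv
  obtain ⟨W, hWE, -, hWnd, hWdim⟩ := o_grow Q hQ 1 (opres_one Q) 1 Nat.one_pos (pow_one 1) 1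
    Nat.one_pos E
    (fun N hNE _ hNnd hN0 => by
      obtain ⟨v, hvN, hv⟩ := o_noniso Q hQ N hNnd hN0
      have hv0 : v ≠ 0 := by
        rintro rfl
        exact hv (q_zero Q hQ)
      refine ⟨Submodule.span F {v}, ?_, hmap _, ?_, finrank_span_singleton hv0⟩
      · rw [Submodule.span_singleton_le_iff_mem]
        exact hvN
      · rw [← und_iff Q hQ]
        intro x hx h
        obtain ⟨c, rfl⟩ := Submodule.mem_span_singleton.mp hx
        have h1 := h v (Submodule.mem_span_singleton_self v)
        rw [map_smul, LinearMap.smul_apply, smul_eq_mul, pB_self] at h1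
        have h3 : c = 0 := by
          rcases mul_eq_zero.mp h1 with h | h
          · exact h
          · rcases mul_eq_zero.mp h with h | h
            · exact absurd h h2
            · exact absurd h hv
        rw [h3, zero_smul])
    E le_rfl (hmap E) hE m (by rw [one_mul]; exact hm)
  exact ⟨W, hWE, hWnd, by rw [hWdim, one_mul]⟩

end Cfsg.Agent.Helper96.OH5992
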