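import Mathlib
import Cfsg.Agent.Helper33.OType
import Cfsg.Agent.Helper33.OHOLINE
import Cfsg.Agent.Helper96.OHDefs
import Cfsg.Agent.Helper96.OHEXND
import Cfsg.Agent.Helper31.OHOPERP
import Cfsg.Agent.Helper70.OHONONISO

set_option autoImplicit false
set_option linter.unusedSectionVars false
set_option linter.unusedVariables false

/-!
# Embedding nondegenerate quadratic spaces (helper96; generic, odd characteristic, finite field)

`oemb_main`: if `K`, `R` are nondegenerate subspaces with `finrank R + 1 ≤ finrank K`, then some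
nondegenerate `R' ≤ K` is isometric to `R`.  Also: gluing of isometries along orthogonal sums
(`oemb_iso_sup`), symmetry/transitivity of `AreIsometricFor`, isometry of nonsingular lines.
-/

namespace Cfsg.Agent.Helper96.OHEmb

open Module Polynomial Cfsg Cfsg.Geo
open Cfsg.Agent.Helper13.TIu Cfsg.Agent.Helper96.OH

variable {ι : Type} [Fintype ι] [DecidableEq ι] {F : Type*} [Field F] (Q : (ι → F) → F)

theorem oemb_iso_refl (W : Submodule F (ι → F)) : AreIsometricFor Q W W :=
  ⟨LinearEquiv.refl F W, fun _ => rfl⟩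

theorem oemb_iso_symm {W W' : Submodule F (ι → F)} (h : AreIsometricFor Q W W') :
    AreIsometricFor Q W' W := by
  obtain ⟨e, he⟩ := h
  refine ⟨e.symm, fun w => ?_⟩
  have h1 := he (e.symm w)
  rw [LinearEquiv.apply_symm_apply] at h1
  exact h1.symm

theorem oemb_iso_trans {W W' W'' : Submodule F (ι → F)} (h : AreIsometricFor Q W W')
    (h' : AreIsometricFor Q W' W'') : AreIsometricFor Q W W'' := by
  obtain ⟨e, he⟩ := h
  obtain ⟨e', he'⟩ := h'
  refine ⟨e.trans e', fun w => ?_⟩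
  rw [LinearEquiv.trans_apply, he', he]

/-- a nonsingular line is nondegenerate. -/
theorem oemb_nd_span (hQ : IsNondegenerateQuadraticForm Q) (h2 : (2 : F) ≠ 0) (v : ι → F)
    (hv : Q v ≠ 0) : ONd Q (Submodule.span F {v}) := by
  rw [← und_iff Q hQ]
  intro x hx h
  obtain ⟨c, rfl⟩ := Submodule.mem_span_singleton.mp hx
  have h1 := h v (Submodule.mem_span_singleton_self v)
  rw [map_smul, LinearMap.smul_apply, smul_eq_mul, pB_self] at h1
  have h3 : c = 0 := by
    rcases mul_eq_zero.mp h1 with h | h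
    · exact h
    · rcases mul_eq_zero.mp h with h | h
      · exact absurd h h2
      · exact absurd h hv
  rw [h3, zero_smul]

/-- two nonsingular lines with the same value are isometric. -/
theorem oemb_iso_span (hQ : IsNondegenerateQuadraticForm Q) (u v : ι → F) (hu : Q u ≠ 0)
    (huv : Q v = Q u) :
    AreIsometricFor Q (Submodule.span F {u}) (Submodule.span F {v}) := by
  have hu0 : u ≠ 0 := by
    rintro rfl
    exact hu (q_zero Q hQ)
  have hv0 : v ≠ 0 := by
    rintro rfl
    rw [q_zero Q hQ] at huv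
    exact hu huv.symm
  refine ⟨(LinearEquiv.toSpanNonzeroSingleton F (ι → F) u hu0).symm.trans
    (LinearEquiv.toSpanNonzeroSingleton F (ι → F) v hv0), fun w => ?_⟩
  obtain ⟨c, hc⟩ := Submodule.mem_span_singleton.mp w.2
  have hw : w = LinearEquiv.toSpanNonzeroSingleton F (ι → F) u hu0 c := by
    apply Subtype.ext
    rw [LinearEquiv.toSpanNonzeroSingleton_apply]
    exact hc.symm
  rw [hw, LinearEquiv.trans_apply, LinearEquiv.symm_apply_apply]
  rw [LinearEquiv.toSpanNonzeroSingleton_apply, LinearEquiv.toSpanNonzeroSingleton_apply]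
  show Q (c • v) = Q (c • u)
  rw [hQ.smul, hQ.smul, huv]

/-- gluing isometries along orthogonal sums. -/
theorem oemb_iso_sup (hQ : IsNondegenerateQuadraticForm Q) (A B A' B' : Submodule F (ι → F))
    (hA : ONd Q A) (hA' : ONd Q A') (hAB : OOrth Q A B) (hA'B' : OOrth Q A' B')
    (h1 : AreIsometricFor Q A A') (h2 : AreIsometricFor Q B B') :
    AreIsometricFor Q (A ⊔ B : Submodule F (ι → F)) (A' ⊔ B' : Submodule F (ι → F)) := by
  obtain ⟨e₁, he₁⟩ := h1
  obtain ⟨e₂, he₂⟩ := h2
  refine ⟨(Cfsg.Agent.Helper33.OType.supEquiv Q A B hA hAB).symm.trans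
    ((LinearEquiv.prodCongr e₁ e₂).trans (Cfsg.Agent.Helper33.OType.supEquiv Q A' B' hA' hA'B')),
    fun w => ?_⟩
  obtain ⟨p, rfl⟩ := (Cfsg.Agent.Helper33.OType.supEquiv Q A B hA hAB).surjective w
  rw [LinearEquiv.trans_apply, LinearEquiv.symm_apply_apply, LinearEquiv.trans_apply,
    Cfsg.Agent.Helper33.OType.supEquiv_coe, Cfsg.Agent.Helper33.OType.supEquiv_coe]
  rw [q_add Q, q_add Q, LinearEquiv.prodCongr_apply]
  show Q ((e₁ p.1 : A') : ι → F) + Q ((e₂ p.2 : B') : ι → F) +
      QuadraticMap.polar Q ((e₁ p.1 : A') : ι → F) ((e₂ p.2 : B') : ι → F) =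
    Q (p.1 : ι → F) + Q (p.2 : ι → F) + QuadraticMap.polar Q (p.1 : ι → F) (p.2 : ι → F)
  rw [he₁, he₂, hAB _ p.1.2 _ p.2.2, hA'B' _ (e₁ p.1).2 _ (e₂ p.2).2]

theorem oemb_map_one (N : Submodule F (ι → F)) : N.map (1 : Module.End F (ι → F)) ≤ N := by
  rintro _ ⟨v, hv, rfl⟩
  simpa using hv

/-- **Embedding**: a nondegenerate space embeds isometrically into every nondegenerate space of
strictly larger dimension (finite field, odd characteristic). -/
theorem oemb_aux [Fintype F] (hQ : IsNondegenerateQuadraticForm Q) (h2 : (2 : F) ≠ 0) (n : ℕ) :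
    ∀ K R : Submodule F (ι → F), finrank F R = n → ONd Q K → ONd Q R →
      finrank F R + 1 ≤ finrank F K →
      ∃ R' : Submodule F (ι → F), R' ≤ K ∧ ONd Q R' ∧ AreIsometricFor Q R R' := by
  induction n with
  | zero =>
    intro K R hn hK hR hlt
    have hR0 : R = ⊥ := Submodule.finrank_eq_zero.mp hn
    subst hR0
    exact ⟨⊥, bot_le, hR, oemb_iso_refl Q ⊥⟩
  | succ n ih =>
    intro K R hn hK hR hlt
    have hR0 : R ≠ ⊥ := by
      rintro rfl
      rw [finrank_bot] at hn
      omega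
    obtain ⟨u, huR, hu⟩ := Cfsg.Agent.Helper70.OH5992.o_noniso Q hQ R hR hR0
    have hu0 : u ≠ 0 := by
      rintro rfl
      exact hu (q_zero Q hQ)
    have hA := oemb_nd_span Q hQ h2 u hu
    have hAR : Submodule.span F {u} ≤ R := by
      rw [Submodule.span_singleton_le_iff_mem]
      exact huR
    obtain ⟨R₁, hR₁R, -, hR₁, -, hsupR, horthR, hdimR⟩ :=
      Cfsg.Agent.Helper31.OH5992.o_perp Q hQ 1 (opres_one Q) 1 Nat.one_pos (pow_one 1) R
        (Submodule.span F {u}) hR hA hAR (oemb_map_one R) (oemb_map_one _)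
    rw [finrank_span_singleton hu0] at hdimR
    -- a vector of `K` with the same value
    obtain ⟨Pi, hPiK, hPi, hPidim⟩ :=
      Cfsg.Agent.Helper96.OH5992.o_exists_nd Q hQ h2 K hK 2 (by omega)
    obtain ⟨v, hvPi, hv⟩ := Cfsg.Agent.Helper33.OH5992.ol_universal Q hQ h2 Pi hPi hPidim (Q u)
    have hv' : Q v ≠ 0 := by
      rw [hv]
      exact hu
    have hv0 : v ≠ 0 := by
      rintro rfl
      exact hv' (q_zero Q hQ)
    have hB := oemb_nd_span Q hQ h2 v hv'
    have hBK : Submodule.span F {v} ≤ K := by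
      rw [Submodule.span_singleton_le_iff_mem]
      exact hPiK hvPi
    obtain ⟨K₁, hK₁K, -, hK₁, -, hsupK, horthK, hdimK⟩ :=
      Cfsg.Agent.Helper31.OH5992.o_perp Q hQ 1 (opres_one Q) 1 Nat.one_pos (pow_one 1) K
        (Submodule.span F {v}) hK hB hBK (oemb_map_one K) (oemb_map_one _)
    rw [finrank_span_singleton hv0] at hdimK
    obtain ⟨R₁', hR₁'K₁, hR₁', hiso⟩ := ih K₁ R₁ (by omega) hK₁ hR₁ (by omega)
    have horth' : OOrth Q (Submodule.span F {v}) R₁' := fun a ha b hb => horthK a ha b (hR₁'K₁ hb)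
    refine ⟨Submodule.span F {v} ⊔ R₁', sup_le hBK (hR₁'K₁.trans hK₁K),
      Cfsg.Agent.Helper33.OType.nondeg_sup Q hQ _ _ hB hR₁' horth', ?_⟩
    have h5 := oemb_iso_sup Q hQ (Submodule.span F {u}) R₁ (Submodule.span F {v}) R₁' hA hB horthR
      horth' (oemb_iso_span Q hQ u v hu hv) hiso
    rw [hsupR] at h5
    exact h5

/-- **Embedding** (final form): both directions of the isometry and the dimension. -/
theorem oemb_main [Fintype F] (hQ : IsNondegenerateQuadraticForm Q) (h2 : (2 : F) ≠ 0)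
    (K R : Submodule F (ι → F)) (hK : ONd Q K) (hR : ONd Q R)
    (hlt : finrank F R + 1 ≤ finrank F K) :
    ∃ R' : Submodule F (ι → F), R' ≤ K ∧ ONd Q R' ∧ finrank F R' = finrank F R ∧
      AreIsometricFor Q R R' ∧ AreIsometricFor Q R' R := by
  obtain ⟨R', h1, h3, h4⟩ := oemb_aux Q hQ h2 (finrank F R) K R rfl hK hR hlt
  obtain ⟨e, he⟩ := h4
  exact ⟨R', h1, h3, e.finrank_eq.symm, ⟨e, he⟩, oemb_iso_symm Q ⟨e, he⟩⟩

end Cfsg.Agent.Helper96.OHEmb
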