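-- helper96 library: Burnside's theorem on matrix algebras (irreducible + scalar centraliser => everything).
import Mathlib
import Cfsg.Prelude.Def_GeometricClasses
import Cfsg.Agent.Helper97.Clifford

set_option autoImplicit false
open Cfsg Cfsg.Geo Matrix

namespace Cfsg.Agent.Helper96

variable {F : Type*} [Field F] {n : ℕ}

theorem single_eq_vecMulVec (i j : Fin n) :
    (Matrix.single i j (1 : F)) = vecMulVec (Pi.single i (1 : F)) (Pi.single j (1 : F)) := by
  classical
  ext a b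
  rw [Matrix.vecMulVec_apply, Matrix.single_apply, Pi.single_apply, Pi.single_apply]
  by_cases h1 : a = i <;> by_cases h2 : b = j
  · subst h1; subst h2; simp
  · subst h1; simp [h2, Ne.symm h2]
  · subst h2; simp [h1, Ne.symm h1]
  · simp [h1, h2, Ne.symm h1]

/-- Burnside's theorem: a subalgebra of the matrix algebra acting irreducibly, whose centraliser consists
of scalars, is the whole matrix algebra. -/
theorem burnside (A : Subalgebra F (Matrix (Fin n) (Fin n) F))
    (hirr : ∀ W : Submodule F (Fin n → F), (∀ a ∈ A, ∀ w ∈ W, a *ᵥ w ∈ W) → W = ⊥ ∨ W = ⊤)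
    (hcent : ∀ M : Matrix (Fin n) (Fin n) F, (∀ a ∈ A, M * a = a * M) →
      ∃ c : F, M = c • (1 : Matrix (Fin n) (Fin n) F)) :
    A = ⊤ := by
  classical
  by_cases hn : n = 0
  · subst hn
    rw [eq_top_iff]
    intro x _
    have : x = 1 := Subsingleton.elim _ _
    rw [this]; exact A.one_mem
  have hne : NeZero n := ⟨hn⟩
  have htrans : ∀ w : Fin n → F, w ≠ 0 → ∀ v : Fin n → F, ∃ a ∈ A, a *ᵥ w = v := by
    intro w hw v
    let W : Submodule F (Fin n → F) := (Subalgebra.toSubmodule A).map (Helper97.evalAt w)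
    have hW : ∀ a ∈ A, ∀ x ∈ W, a *ᵥ x ∈ W := by
      rintro a ha _ ⟨b, hb, rfl⟩
      refine ⟨a * b, A.mul_mem ha hb, ?_⟩
      rw [Helper97.evalAt_apply, Helper97.evalAt_apply, Matrix.mulVec_mulVec]
    have hwW : w ∈ W := ⟨1, A.one_mem, by rw [Helper97.evalAt_apply, Matrix.one_mulVec]⟩
    rcases hirr W hW with h | h
    · rw [h] at hwW; exact absurd ((Submodule.mem_bot F).mp hwW) hw
    · have : v ∈ W := by rw [h]; trivial
      obtain ⟨a, ha, hav⟩ := this
      exact ⟨a, ha, by rw [← hav, Helper97.evalAt_apply]⟩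
  have h10 : (1 : Matrix (Fin n) (Fin n) F) ≠ 0 := one_ne_zero
  have hex : ∃ r, ∃ T ∈ A, T ≠ 0 ∧ T.rank = r := ⟨_, 1, A.one_mem, h10, rfl⟩
  obtain ⟨T, hTA, hT0, hTr⟩ := Nat.find_spec hex
  have hmin : ∀ T' ∈ A, T' ≠ 0 → T.rank ≤ T'.rank := by
    intro T' hT' hT'0
    rw [hTr]
    exact Nat.find_min' hex ⟨T', hT', hT'0, rfl⟩
  -- key: killing one vector outside the kernel kills everything
  have hkey : ∀ a ∈ A, ∀ x : Fin n → F, T *ᵥ x ≠ 0 → a *ᵥ (T *ᵥ x) = 0 → a * T = 0 := by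
    intro a ha x hx hax
    by_contra hne0
    have h1 := hmin (a * T) (A.mul_mem ha hTA) hne0
    have hle : LinearMap.ker T.mulVecLin ≤ LinearMap.ker (a * T).mulVecLin := by
      intro y hy
      rw [LinearMap.mem_ker, Matrix.mulVecLin_apply] at hy ⊢
      rw [← Matrix.mulVec_mulVec, hy, Matrix.mulVec_zero]
    have hlt : LinearMap.ker T.mulVecLin < LinearMap.ker (a * T).mulVecLin := by
      refine lt_of_le_of_ne hle ?_
      intro heq
      have hx' : x ∈ LinearMap.ker (a * T).mulVecLin := by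
        rw [LinearMap.mem_ker, Matrix.mulVecLin_apply, ← Matrix.mulVec_mulVec, hax]
      rw [← heq, LinearMap.mem_ker, Matrix.mulVecLin_apply] at hx'
      exact hx hx'
    have h2 := Submodule.finrank_lt_finrank_of_lt hlt
    have h3 := LinearMap.finrank_range_add_finrank_ker T.mulVecLin
    have h4 := LinearMap.finrank_range_add_finrank_ker (a * T).mulVecLin
    have h5 : T.rank = Module.finrank F (LinearMap.range T.mulVecLin) := rfl
    have h6 : (a * T).rank = Module.finrank F (LinearMap.range (a * T).mulVecLin) := rfl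
    omega
  have hkey2 : ∀ B ∈ A, ∀ x : Fin n → F, T *ᵥ x ≠ 0 →
      ∃ c : F, T *ᵥ (B *ᵥ (T *ᵥ x)) = c • (T *ᵥ x) := by
    intro B hB x hx
    obtain ⟨w, hw⟩ : ∃ w, w = T *ᵥ x := ⟨_, rfl⟩
    rw [← hw] at hx ⊢
    obtain ⟨u, hu⟩ : ∃ u, u = T *ᵥ (B *ᵥ w) := ⟨_, rfl⟩
    rw [← hu]
    choose g hgA hg using htrans w hx
    have hk0 : ∀ a ∈ A, a *ᵥ w = 0 → a *ᵥ u = 0 := by
      intro a ha haw
      have h1 := hkey a ha x (by rw [← hw]; exact hx) (by rw [← hw]; exact haw)
      rw [hu, Matrix.mulVec_mulVec, h1, Matrix.zero_mulVec]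
    have hk1 : ∀ a ∈ A, ∀ v, a *ᵥ w = v → g v *ᵥ u = a *ᵥ u := by
      intro a ha v hav
      have h1 := hk0 (g v - a) (A.sub_mem (hgA v) ha) (by rw [Matrix.sub_mulVec, hg, hav, sub_self])
      rw [Matrix.sub_mulVec, sub_eq_zero] at h1
      exact h1
    let θ : (Fin n → F) →ₗ[F] (Fin n → F) :=
      { toFun := fun v => g v *ᵥ u
        map_add' := by
          intro v v'
          show g (v + v') *ᵥ u = g v *ᵥ u + g v' *ᵥ u
          rw [hk1 (g v + g v') (A.add_mem (hgA v) (hgA v')) (v + v')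
            (by rw [Matrix.add_mulVec, hg, hg]), Matrix.add_mulVec]
        map_smul' := by
          intro c v
          show g (c • v) *ᵥ u = c • (g v *ᵥ u)
          rw [hk1 (c • g v) (A.smul_mem (hgA v) c) (c • v)
            (by rw [Matrix.smul_mulVec, hg]), Matrix.smul_mulVec] }
    have hθ : ∀ v, (LinearMap.toMatrix' θ) *ᵥ v = g v *ᵥ u := by
      intro v
      rw [← Matrix.toLin'_apply, Matrix.toLin'_toMatrix']
      rfl
    have hcomm : ∀ a ∈ A, (LinearMap.toMatrix' θ) * a = a * (LinearMap.toMatrix' θ) := by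
      intro a ha
      apply Helper97.eq_zero_of_mulVec_eq_zero (a := LinearMap.toMatrix' θ * a - a * LinearMap.toMatrix' θ) |> fun h => sub_eq_zero.mp (h ?_)
      intro v
      rw [Matrix.sub_mulVec, ← Matrix.mulVec_mulVec, ← Matrix.mulVec_mulVec, hθ, hθ,
        hk1 (a * g v) (A.mul_mem ha (hgA v)) (a *ᵥ v) (by rw [← Matrix.mulVec_mulVec, hg]),
        ← Matrix.mulVec_mulVec, sub_self]
    obtain ⟨c, hc⟩ := hcent _ hcomm
    refine ⟨c, ?_⟩
    have h1 := hθ w
    rw [hc, Matrix.smul_mulVec, Matrix.one_mulVec,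
      hk1 1 A.one_mem w (Matrix.one_mulVec w), Matrix.one_mulVec] at h1
    exact h1.symm
  -- T has rank one
  obtain ⟨x₁, hx₁⟩ : ∃ x₁, T *ᵥ x₁ ≠ 0 := by
    by_contra hcon
    push Not at hcon
    exact hT0 (Helper97.eq_zero_of_mulVec_eq_zero hcon)
  obtain ⟨w₁, hw₁⟩ : ∃ w₁, w₁ = T *ᵥ x₁ := ⟨_, rfl⟩
  rw [← hw₁] at hx₁
  have hrank1 : ∀ y, ∃ c : F, T *ᵥ y = c • w₁ := by
    intro y
    obtain ⟨B, hB, hBy⟩ := htrans w₁ hx₁ y
    obtain ⟨c, hc⟩ := hkey2 B hB x₁ (by rw [← hw₁]; exact hx₁)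
    rw [← hw₁, hBy] at hc
    exact ⟨c, hc⟩
  choose φ hφ using hrank1
  obtain ⟨ψ₀, hψ₀⟩ : ∃ ψ₀ : Fin n → F, ψ₀ = fun j => φ (Pi.single j 1) := ⟨_, rfl⟩
  have hTeq : T = vecMulVec w₁ ψ₀ := by
    ext i j
    have h1 := congrFun (hφ (Pi.single j 1)) i
    rw [Matrix.mulVec_single_one] at h1
    rw [Matrix.vecMulVec_apply, hψ₀]
    simp only [Matrix.col_apply, Pi.smul_apply, smul_eq_mul] at h1
    rw [h1, mul_comm]
  let J : Submodule F (Fin n → F) :=
    { carrier := {ψ | vecMulVec w₁ ψ ∈ A}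
      add_mem' := by
        intro a b ha hb
        show vecMulVec w₁ (a + b) ∈ A
        rw [Matrix.vecMulVec_add]
        exact A.add_mem ha hb
      zero_mem' := by
        show vecMulVec w₁ (0 : Fin n → F) ∈ A
        rw [Matrix.vecMulVec_zero]
        exact A.zero_mem
      smul_mem' := by
        intro c a ha
        show vecMulVec w₁ (c • a) ∈ A
        rw [Matrix.vecMulVec_smul]
        exact A.smul_mem ha c }
  have hJmem : ∀ ψ, ψ ∈ J ↔ vecMulVec w₁ ψ ∈ A := fun ψ => Iff.rfl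
  have hψ₀J : ψ₀ ∈ J := by rw [hJmem, ← hTeq]; exact hTA
  have hJB : ∀ B ∈ A, ∀ ψ ∈ J, ψ ᵥ* B ∈ J := by
    intro B hB ψ hψ
    rw [hJmem] at hψ ⊢
    rw [← Matrix.vecMulVec_mul]
    exact A.mul_mem hψ hB
  have hJtop : J = ⊤ := by
    by_contra hJ
    obtain ⟨f, hf0, hJf⟩ := Submodule.exists_le_ker_of_lt_top J (lt_top_iff_ne_top.mpr hJ)
    obtain ⟨v₀, hv₀⟩ : ∃ v₀ : Fin n → F, v₀ = fun i => f (Pi.single i 1) := ⟨_, rfl⟩
    have hfv : ∀ ψ : Fin n → F, f ψ = ψ ⬝ᵥ v₀ := by
      intro ψ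
      rw [LinearMap.pi_apply_eq_sum_univ f ψ, dotProduct, hv₀]
      apply Finset.sum_congr rfl
      intro i _
      rw [smul_eq_mul]
      congr 2
      ext j
      rw [Pi.single_apply]
      by_cases h : i = j
      · simp [h]
      · simp [h, Ne.symm h]
    have hv₀0 : v₀ ≠ 0 := by
      intro h
      apply hf0
      apply LinearMap.ext
      intro ψ
      rw [hfv, h, dotProduct_zero, LinearMap.zero_apply]
    let W : Submodule F (Fin n → F) :=
      { carrier := {u | ∀ ψ ∈ J, ψ ⬝ᵥ u = 0}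
        add_mem' := by
          intro a b ha hb ψ hψ
          rw [dotProduct_add, ha ψ hψ, hb ψ hψ, add_zero]
        zero_mem' := by
          intro ψ _
          rw [dotProduct_zero]
        smul_mem' := by
          intro c a ha ψ hψ
          rw [dotProduct_smul, ha ψ hψ, smul_zero] }
    have hW : ∀ a ∈ A, ∀ u ∈ W, a *ᵥ u ∈ W := by
      intro a ha u hu ψ hψ
      rw [Matrix.dotProduct_mulVec]
      exact hu _ (hJB a ha ψ hψ)
    have hv₀W : v₀ ∈ W := by
      intro ψ hψ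
      rw [← hfv]
      exact hJf hψ
    rcases hirr W hW with h | h
    · rw [h] at hv₀W
      exact hv₀0 ((Submodule.mem_bot F).mp hv₀W)
    · apply hT0
      have hz : ψ₀ = 0 := by
        ext j
        have : (Pi.single j 1 : Fin n → F) ∈ W := by rw [h]; trivial
        have h2 := this ψ₀ hψ₀J
        rw [dotProduct_single_one] at h2
        exact h2
      rw [hTeq, hz, Matrix.vecMulVec_zero]
  have hall : ∀ u ψ : Fin n → F, vecMulVec u ψ ∈ A := by
    intro u ψ
    obtain ⟨B, hB, hBu⟩ := htrans w₁ hx₁ u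
    have hψ : ψ ∈ J := by rw [hJtop]; trivial
    rw [hJmem] at hψ
    rw [← hBu, ← Matrix.mul_vecMulVec]
    exact A.mul_mem hB hψ
  rw [eq_top_iff]
  intro M _
  rw [Matrix.matrix_eq_sum_single M]
  refine A.sum_mem fun i _ => A.sum_mem fun j _ => ?_
  have : Matrix.single i j (M i j) = M i j • Matrix.single i j (1 : F) := by
    rw [Matrix.smul_single, smul_eq_mul, mul_one]
  rw [this, single_eq_vecMulVec]
  exact A.smul_mem (hall _ _) _

/-- The matrices of a subgroup form a submonoid, so their span is a subalgebra. -/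
theorem adjoin_matrixSet_toSubmodule (N : Subgroup (GL (Fin n) F)) :
    Subalgebra.toSubmodule (Algebra.adjoin F (matrixSet N)) = Submodule.span F (matrixSet N) := by
  rw [Algebra.adjoin_eq_span]
  congr 1
  have h : matrixSet N = ((N.toSubmonoid.map (Units.coeHom (Matrix (Fin n) (Fin n) F)) :
      Submonoid (Matrix (Fin n) (Fin n) F)) : Set (Matrix (Fin n) (Fin n) F)) := by
    ext x
    constructor
    · rintro ⟨g, hg, rfl⟩
      exact ⟨g, hg, rfl⟩
    · rintro ⟨g, hg, rfl⟩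
      exact ⟨g, hg, rfl⟩
  rw [h, Submonoid.closure_eq]

theorem adjoin_eq_top_of_absIrred (S : Set (Matrix (Fin n) (Fin n) F))
    (habs : ActsAbsolutelyIrreducibly S) : Algebra.adjoin F S = ⊤ := by
  apply burnside
  · intro W hW
    apply habs.1
    intro s hs
    rintro _ ⟨w, hw, rfl⟩
    rw [Matrix.toLin'_apply]
    exact hW s (Algebra.subset_adjoin hs) w hw
  · intro M hM
    exact habs.2 M (fun s hs => hM s (Algebra.subset_adjoin hs))

theorem span_matrixSet_eq_top (N : Subgroup (GL (Fin n) F))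
    (habs : ActsAbsolutelyIrreducibly (matrixSet N)) :
    Submodule.span F (matrixSet N) = ⊤ := by
  rw [← adjoin_matrixSet_toSubmodule, adjoin_eq_top_of_absIrred _ habs]
  rfl

end Cfsg.Agent.Helper96
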