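-- helper96 library: Kronecker-coordinate lemmas (centralisers, normaliser of 1 ⊗ M_k, tensor subgroup).
import Cfsg.Agent.Helper96.Burnside
import Cfsg.Agent.Helper98.Tensor2

set_option autoImplicit false
open Cfsg Cfsg.Geo Matrix
open scoped Kronecker

namespace Cfsg.Agent.Helper96

variable {F : Type*} [Field F] {d k : ℕ}

theorem mul_kron_one_apply (M : Matrix (Fin d × Fin k) (Fin d × Fin k) F)
    (x : Matrix (Fin d) (Fin d) F) (a a' : Fin d) (j j' : Fin k) :
    (M * (x ⊗ₖ (1 : Matrix (Fin k) (Fin k) F))) (a, j) (a', j') = ∑ b, M (a, j) (b, j') * x b a' := by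
  rw [Matrix.mul_apply, Fintype.sum_prod_type]
  apply Finset.sum_congr rfl
  intro b _
  rw [Finset.sum_eq_single j']
  · rw [Matrix.kronecker_apply, Matrix.one_apply_eq, mul_one]
  · intro l _ hl
    rw [Matrix.kronecker_apply, Matrix.one_apply_ne hl, mul_zero, mul_zero]
  · intro h; exact absurd (Finset.mem_univ _) h

theorem kron_one_mul_apply (M : Matrix (Fin d × Fin k) (Fin d × Fin k) F)
    (x : Matrix (Fin d) (Fin d) F) (a a' : Fin d) (j j' : Fin k) :
    ((x ⊗ₖ (1 : Matrix (Fin k) (Fin k) F)) * M) (a, j) (a', j') = ∑ b, x a b * M (b, j) (a', j') := by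
  rw [Matrix.mul_apply, Fintype.sum_prod_type]
  apply Finset.sum_congr rfl
  intro b _
  rw [Finset.sum_eq_single j]
  · rw [Matrix.kronecker_apply, Matrix.one_apply_eq, mul_one]
  · intro l _ hl
    rw [Matrix.kronecker_apply, Matrix.one_apply_ne (Ne.symm hl), mul_zero, zero_mul]
  · intro h; exact absurd (Finset.mem_univ _) h

theorem mul_one_kron_apply (M : Matrix (Fin d × Fin k) (Fin d × Fin k) F)
    (y : Matrix (Fin k) (Fin k) F) (a a' : Fin d) (j j' : Fin k) :
    (M * ((1 : Matrix (Fin d) (Fin d) F) ⊗ₖ y)) (a, j) (a', j') = ∑ l, M (a, j) (a', l) * y l j' := by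
  rw [Matrix.mul_apply, Fintype.sum_prod_type, Finset.sum_eq_single a']
  · apply Finset.sum_congr rfl
    intro l _
    rw [Matrix.kronecker_apply, Matrix.one_apply_eq, one_mul]
  · intro b _ hb
    apply Finset.sum_eq_zero
    intro l _
    rw [Matrix.kronecker_apply, Matrix.one_apply_ne hb, zero_mul, mul_zero]
  · intro h; exact absurd (Finset.mem_univ _) h

theorem one_kron_mul_apply (M : Matrix (Fin d × Fin k) (Fin d × Fin k) F)
    (y : Matrix (Fin k) (Fin k) F) (a a' : Fin d) (j j' : Fin k) :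
    (((1 : Matrix (Fin d) (Fin d) F) ⊗ₖ y) * M) (a, j) (a', j') = ∑ l, y j l * M (a, l) (a', j') := by
  rw [Matrix.mul_apply, Fintype.sum_prod_type, Finset.sum_eq_single a]
  · apply Finset.sum_congr rfl
    intro l _
    rw [Matrix.kronecker_apply, Matrix.one_apply_eq, one_mul]
  · intro b _ hb
    apply Finset.sum_eq_zero
    intro l _
    rw [Matrix.kronecker_apply, Matrix.one_apply_ne (Ne.symm hb), zero_mul, zero_mul]
  · intro h; exact absurd (Finset.mem_univ _) h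

/-- A matrix commuting with `x ⊗ 1` for all `x` in a set with scalar centraliser is of the form `1 ⊗ Y`. -/
theorem comm_kron_one (X : Set (Matrix (Fin d) (Fin d) F))
    (hX : ∀ M : Matrix (Fin d) (Fin d) F, (∀ x ∈ X, M * x = x * M) →
      ∃ c : F, M = c • (1 : Matrix (Fin d) (Fin d) F))
    (M : Matrix (Fin d × Fin k) (Fin d × Fin k) F)
    (hM : ∀ x ∈ X, M * (x ⊗ₖ (1 : Matrix (Fin k) (Fin k) F)) = (x ⊗ₖ 1) * M) :
    ∃ Y : Matrix (Fin k) (Fin k) F, M = (1 : Matrix (Fin d) (Fin d) F) ⊗ₖ Y := by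
  have hblock : ∀ j j' : Fin k, ∃ c : F,
      (Matrix.of fun a a' => M (a, j) (a', j') : Matrix (Fin d) (Fin d) F) = c • 1 := by
    intro j j'
    apply hX
    intro x hx
    ext a a'
    have h1 := congrFun (congrFun (hM x hx) (a, j)) (a', j')
    rw [mul_kron_one_apply, kron_one_mul_apply] at h1
    rw [Matrix.mul_apply, Matrix.mul_apply]
    exact h1
  choose c hc using hblock
  refine ⟨Matrix.of c, ?_⟩
  ext ⟨a, j⟩ ⟨a', j'⟩
  have h1 := congrFun (congrFun (hc j j') a) a'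
  rw [Matrix.of_apply, Matrix.smul_apply, smul_eq_mul] at h1
  rw [h1, Matrix.kronecker_apply, Matrix.of_apply, mul_comm]

/-- A matrix commuting with all `1 ⊗ e_{jj'}` is of the form `A ⊗ 1`. -/
theorem comm_one_kron (M : Matrix (Fin d × Fin k) (Fin d × Fin k) F)
    (hM : ∀ j j' : Fin k, M * ((1 : Matrix (Fin d) (Fin d) F) ⊗ₖ Matrix.single j j' (1 : F)) =
      ((1 : Matrix (Fin d) (Fin d) F) ⊗ₖ Matrix.single j j' (1 : F)) * M) :
    ∃ A : Matrix (Fin d) (Fin d) F, M = A ⊗ₖ (1 : Matrix (Fin k) (Fin k) F) := by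
  classical
  by_cases hk : k = 0
  · subst hk
    refine ⟨0, ?_⟩
    ext ⟨a, j⟩
    exact j.elim0
  let j₀ : Fin k := ⟨0, Nat.pos_of_ne_zero hk⟩
  refine ⟨Matrix.of fun a a' => M (a, j₀) (a', j₀), ?_⟩
  ext ⟨a, j⟩ ⟨a', j'⟩
  have h1 := congrFun (congrFun (hM j' j₀) (a, j)) (a', j₀)
  rw [mul_one_kron_apply, one_kron_mul_apply, Finset.sum_eq_single j', Finset.sum_eq_single j₀] at h1
  · rw [Matrix.single_apply_same, mul_one] at h1
    rw [h1, Matrix.kronecker_apply, Matrix.of_apply, Matrix.single_apply, Matrix.one_apply]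
    by_cases hjj : j = j'
    · subst hjj; simp
    · simp [hjj, Ne.symm hjj]
  · intro l _ hl
    rw [Matrix.single_apply_of_ne, zero_mul]
    intro h; exact hl h.2.symm
  · intro h; exact absurd (Finset.mem_univ _) h
  · intro l _ hl
    rw [Matrix.single_apply_of_ne, mul_zero]
    intro h; exact hl h.1.symm
  · intro h; exact absurd (Finset.mem_univ _) h

theorem one_kron_injective (hd : 0 < d) {Y Y' : Matrix (Fin k) (Fin k) F}
    (h : (1 : Matrix (Fin d) (Fin d) F) ⊗ₖ Y = (1 : Matrix (Fin d) (Fin d) F) ⊗ₖ Y') : Y = Y' := by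
  ext j j'
  have h1 := congrFun (congrFun h (⟨0, hd⟩, j)) (⟨0, hd⟩, j')
  rw [Matrix.kronecker_apply, Matrix.kronecker_apply, Matrix.one_apply_eq, one_mul, one_mul] at h1
  exact h1

theorem kron_one_injective (hk : 0 < k) {X X' : Matrix (Fin d) (Fin d) F}
    (h : X ⊗ₖ (1 : Matrix (Fin k) (Fin k) F) = X' ⊗ₖ (1 : Matrix (Fin k) (Fin k) F)) : X = X' := by
  ext a a'
  have h1 := congrFun (congrFun h (a, ⟨0, hk⟩)) (a', ⟨0, hk⟩)
  rw [Matrix.kronecker_apply, Matrix.kronecker_apply, Matrix.one_apply_eq, mul_one, mul_one] at h1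
  exact h1

/-- Skolem–Noether for `1 ⊗ M_k`: an invertible matrix normalising `1 ⊗ M_k` is a Kronecker product. -/
theorem eq_kron_of_normalizes (hd : 0 < d) (hk : 0 < k)
    (g ginv : Matrix (Fin d × Fin k) (Fin d × Fin k) F) (hg1 : g * ginv = 1) (hg2 : ginv * g = 1)
    (hnorm : ∀ Y : Matrix (Fin k) (Fin k) F, ∃ Y' : Matrix (Fin k) (Fin k) F,
      g * ((1 : Matrix (Fin d) (Fin d) F) ⊗ₖ Y) = ((1 : Matrix (Fin d) (Fin d) F) ⊗ₖ Y') * g) :
    ∃ (a : Matrix (Fin d) (Fin d) F) (b : Matrix (Fin k) (Fin k) F),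
      g = a ⊗ₖ b ∧ a.det ≠ 0 ∧ b.det ≠ 0 := by
  classical
  choose E' hE' using fun j j' : Fin k => hnorm (Matrix.single j j' (1 : F))
  let j₀ : Fin k := ⟨0, hk⟩
  -- conjugation formula
  have hconj : ∀ j j', (1 : Matrix (Fin d) (Fin d) F) ⊗ₖ E' j j' =
      g * ((1 : Matrix (Fin d) (Fin d) F) ⊗ₖ Matrix.single j j' (1 : F)) * ginv := by
    intro j j'
    rw [hE', mul_assoc, hg1, mul_one]
  have hmul : ∀ j l l' m, E' j l * E' l' m = if l = l' then E' j m else 0 := by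
    intro j l l' m
    apply one_kron_injective (F := F) hd
    have h1 : (1 : Matrix (Fin d) (Fin d) F) ⊗ₖ (E' j l * E' l' m) =
        g * ((1 : Matrix (Fin d) (Fin d) F) ⊗ₖ (Matrix.single j l (1 : F) * Matrix.single l' m (1 : F))) * ginv := by
      have e1 : (1 : Matrix (Fin d) (Fin d) F) ⊗ₖ (E' j l * E' l' m) =
          ((1 : Matrix (Fin d) (Fin d) F) ⊗ₖ E' j l) * ((1 : Matrix (Fin d) (Fin d) F) ⊗ₖ E' l' m) := by
        rw [← Matrix.mul_kronecker_mul, mul_one]
      have e2 : (1 : Matrix (Fin d) (Fin d) F) ⊗ₖ (Matrix.single j l (1 : F) * Matrix.single l' m (1 : F)) =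
          ((1 : Matrix (Fin d) (Fin d) F) ⊗ₖ Matrix.single j l (1 : F)) *
            ((1 : Matrix (Fin d) (Fin d) F) ⊗ₖ Matrix.single l' m (1 : F)) := by
        rw [← Matrix.mul_kronecker_mul, mul_one]
      rw [e1, e2, hconj, hconj]
      calc g * (1 ⊗ₖ Matrix.single j l (1 : F)) * ginv * (g * (1 ⊗ₖ Matrix.single l' m (1 : F)) * ginv)
          = g * (1 ⊗ₖ Matrix.single j l (1 : F)) * (ginv * g) * (1 ⊗ₖ Matrix.single l' m (1 : F)) * ginv := by
            simp only [mul_assoc]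
        _ = g * ((1 ⊗ₖ Matrix.single j l (1 : F)) * (1 ⊗ₖ Matrix.single l' m (1 : F))) * ginv := by
            rw [hg2, mul_one]; simp only [mul_assoc]
    rw [h1]
    by_cases hll : l = l'
    · subst hll
      rw [if_pos rfl, Matrix.single_mul_single_same, mul_one, hconj]
    · rw [if_neg hll, Matrix.single_mul_single_of_ne (1 : F) j l l' hll (1 : F), Matrix.kronecker_zero,
        mul_zero, zero_mul]
  have hE0 : E' j₀ j₀ ≠ 0 := by
    intro h0
    have h1 := hconj j₀ j₀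
    rw [h0, Matrix.kronecker_zero] at h1
    have h2 : (1 : Matrix (Fin d) (Fin d) F) ⊗ₖ Matrix.single j₀ j₀ (1 : F) = 0 := by
      calc (1 : Matrix (Fin d) (Fin d) F) ⊗ₖ Matrix.single j₀ j₀ (1 : F)
          = ginv * (g * ((1 : Matrix (Fin d) (Fin d) F) ⊗ₖ Matrix.single j₀ j₀ (1 : F)) * ginv) * g := by
            simp only [mul_assoc]
            rw [hg2, mul_one, ← mul_assoc, hg2, one_mul]
        _ = 0 := by rw [← h1, mul_zero, zero_mul]
    have h3 := congrFun (congrFun h2 (⟨0, hd⟩, j₀)) (⟨0, hd⟩, j₀)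
    rw [Matrix.kronecker_apply, Matrix.one_apply_eq, Matrix.single_apply_same, one_mul] at h3
    exact one_ne_zero h3
  obtain ⟨v₀, hv₀⟩ : ∃ v₀, E' j₀ j₀ *ᵥ v₀ ≠ 0 := by
    by_contra hcon
    push Not at hcon
    exact hE0 (Helper97.eq_zero_of_mulVec_eq_zero hcon)
  obtain ⟨u, hu⟩ : ∃ u, u = E' j₀ j₀ *ᵥ v₀ := ⟨_, rfl⟩
  rw [← hu] at hv₀
  have huu : E' j₀ j₀ *ᵥ u = u := by
    rw [hu, Matrix.mulVec_mulVec, hmul, if_pos rfl]
  obtain ⟨β, hβ⟩ : ∃ β : Matrix (Fin k) (Fin k) F, β = Matrix.of fun i c => (E' c j₀ *ᵥ u) i := ⟨_, rfl⟩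
  have hβcol : ∀ c, β *ᵥ (Pi.single c 1) = E' c j₀ *ᵥ u := by
    intro c
    rw [Matrix.mulVec_single_one]
    ext i
    rw [hβ]
    rfl
  have hβE : ∀ l m, E' l m * β = β * Matrix.single l m (1 : F) := by
    intro l m
    apply Helper98.matrix_ext_mulVec
    intro x
    have hx : x = ∑ c, x c • (Pi.single c (1 : F) : Fin k → F) := by
      ext i
      simp [Finset.sum_apply, Pi.single_apply]
    rw [hx, Matrix.mulVec_sum, Matrix.mulVec_sum]
    apply Finset.sum_congr rfl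
    intro c _
    rw [Matrix.mulVec_smul, Matrix.mulVec_smul, ← Matrix.mulVec_mulVec, ← Matrix.mulVec_mulVec, hβcol,
      Matrix.mulVec_mulVec, hmul]
    congr 1
    by_cases hmc : m = c
    · subst hmc
      rw [if_pos rfl]
      have : Matrix.single l m (1 : F) *ᵥ (Pi.single m (1 : F) : Fin k → F) = Pi.single l 1 := by
        rw [Matrix.mulVec_single_one]
        ext i
        simp [Matrix.single_apply, Pi.single_apply, eq_comm]
      rw [this, hβcol]
    · rw [if_neg hmc, Matrix.zero_mulVec]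
      have : Matrix.single l m (1 : F) *ᵥ (Pi.single c (1 : F) : Fin k → F) = 0 := by
        rw [Matrix.mulVec_single_one]
        ext i
        simp [hmc]
      rw [this, Matrix.mulVec_zero]
  have hβinj : ∀ x : Fin k → F, β *ᵥ x = 0 → x = 0 := by
    intro x hx
    ext c'
    have h1 : E' j₀ c' *ᵥ (β *ᵥ x) = x c' • u := by
      rw [Matrix.mulVec_mulVec, hβE, ← Matrix.mulVec_mulVec]
      have : Matrix.single j₀ c' (1 : F) *ᵥ x = x c' • (Pi.single j₀ (1 : F) : Fin k → F) := by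
        ext i
        rw [Matrix.mulVec, dotProduct]
        simp only [Matrix.single_apply, Pi.smul_apply, Pi.single_apply, smul_eq_mul]
        by_cases hi : i = j₀
        · subst hi
          simp
        · simp [hi, Ne.symm hi]
      rw [this, Matrix.mulVec_smul, hβcol, huu]
    rw [hx, Matrix.mulVec_zero] at h1
    rcases smul_eq_zero.mp h1.symm with h | h
    · exact h
    · exact absurd h hv₀
  have hβdet : β.det ≠ 0 := Helper97.det_ne_zero_of_injective β hβinj
  have hβu : IsUnit β.det := isUnit_iff_ne_zero.mpr hβdet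
  have hβ1 : β * β⁻¹ = 1 := Matrix.mul_nonsing_inv β hβu
  have hβ2 : β⁻¹ * β = 1 := Matrix.nonsing_inv_mul β hβu
  have hβE' : ∀ l m, β⁻¹ * E' l m = Matrix.single l m (1 : F) * β⁻¹ := by
    intro l m
    calc β⁻¹ * E' l m = β⁻¹ * (E' l m * β) * β⁻¹ := by
          rw [mul_assoc, mul_assoc, hβ1, mul_one]
      _ = Matrix.single l m (1 : F) * β⁻¹ := by
          rw [hβE, ← mul_assoc, hβ2, one_mul]
  obtain ⟨g', hg'⟩ : ∃ g', g' = ((1 : Matrix (Fin d) (Fin d) F) ⊗ₖ β⁻¹) * g := ⟨_, rfl⟩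
  have hg'comm : ∀ j j' : Fin k, g' * ((1 : Matrix (Fin d) (Fin d) F) ⊗ₖ Matrix.single j j' (1 : F)) =
      ((1 : Matrix (Fin d) (Fin d) F) ⊗ₖ Matrix.single j j' (1 : F)) * g' := by
    intro j j'
    rw [hg', mul_assoc, hE', ← mul_assoc, ← mul_assoc, ← Matrix.mul_kronecker_mul,
      ← Matrix.mul_kronecker_mul, hβE']
  obtain ⟨a, ha⟩ := comm_one_kron g' hg'comm
  have hgab : g = a ⊗ₖ β := by
    have h1 : ((1 : Matrix (Fin d) (Fin d) F) ⊗ₖ β) * g' = g := by
      rw [hg', ← mul_assoc, ← Matrix.mul_kronecker_mul, hβ1, mul_one, Matrix.one_kronecker_one, one_mul]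
    rw [← h1, ha, ← Matrix.mul_kronecker_mul, one_mul, mul_one]
  refine ⟨a, β, hgab, ?_, hβdet⟩
  intro hdet
  have h1 : g.det * ginv.det = 1 := by rw [← Matrix.det_mul, hg1, Matrix.det_one]
  rw [hgab, Matrix.det_kronecker, hdet, Fintype.card_fin, zero_pow hk.ne', zero_mul, zero_mul] at h1
  exact zero_ne_one h1

theorem conjReindex_surjective {n : ℕ} {κ : Type} [Fintype κ] [DecidableEq κ] (e : Fin n ≃ κ)
    (P : GL (Fin n) F) (M : Matrix (Fin n) (Fin n) F) :
    ∃ x : Matrix κ κ F, Helper98.conjReindex e P x = M := by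
  refine ⟨Matrix.reindexAlgEquiv F F e (((P⁻¹ : GL (Fin n) F) : Matrix (Fin n) (Fin n) F) * M *
    (P : Matrix (Fin n) (Fin n) F)), ?_⟩
  rw [Helper98.conjReindex_apply]
  have h : Matrix.reindexAlgEquiv F F e.symm (Matrix.reindexAlgEquiv F F e
      (((P⁻¹ : GL (Fin n) F) : Matrix (Fin n) (Fin n) F) * M * (P : Matrix (Fin n) (Fin n) F))) =
      ((P⁻¹ : GL (Fin n) F) : Matrix (Fin n) (Fin n) F) * M * (P : Matrix (Fin n) (Fin n) F) := by
    ext i j
    simp [Matrix.coe_reindexAlgEquiv]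
  rw [h]
  simp only [mul_assoc, Units.mul_inv_cancel_left, Units.mul_inv, mul_one]

/-- Membership in the tensor product subgroup from the Kronecker form. -/
theorem mem_tensorProductSubgroup_of_eq {n : ℕ} (e : Fin n ≃ Fin d × Fin k) (P : GL (Fin n) F)
    (g : GL (Fin n) F) (a : Matrix (Fin d) (Fin d) F) (b : Matrix (Fin k) (Fin k) F)
    (ha : a.det ≠ 0) (hb : b.det ≠ 0)
    (hg : (g : Matrix (Fin n) (Fin n) F) = Helper98.conjReindex e P (a ⊗ₖ b)) :
    g ∈ tensorProductSubgroup d k e P := by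
  have hdet : (a ⊗ₖ b).det ≠ 0 := by
    rw [Matrix.det_kronecker]
    exact mul_ne_zero (pow_ne_zero _ ha) (pow_ne_zero _ hb)
  let x : GL (Fin d × Fin k) F := Matrix.GeneralLinearGroup.mkOfDetNeZero (a ⊗ₖ b) hdet
  have hx : x ∈ kroneckerSubgroup d k F :=
    ⟨Matrix.GeneralLinearGroup.mkOfDetNeZero a ha, Matrix.GeneralLinearGroup.mkOfDetNeZero b hb, rfl⟩
  refine Subgroup.mem_map.mpr ⟨(glReindex e.symm).toMonoidHom x, Subgroup.mem_map_of_mem _ hx, ?_⟩
  apply Units.ext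
  rw [hg, Helper98.conjReindex_apply]
  rfl

end Cfsg.Agent.Helper96
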