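-- helper96 library: homogeneous (isotypic) structure of a completely reducible set of matrices.
import Cfsg.Agent.Helper96.Kron

set_option autoImplicit false
open Cfsg Cfsg.Geo Matrix
open scoped Kronecker

namespace Cfsg.Agent.Helper96

variable {F : Type*} [Field F] {n : ℕ}

/-- `M` commutes with every member of `T`. -/
def Cent (T : Set (Matrix (Fin n) (Fin n) F)) (M : Matrix (Fin n) (Fin n) F) : Prop :=
  ∀ s ∈ T, M * s = s * M

/-- `M` lies in the centre of the centraliser of `T`. -/
def ZCent (T : Set (Matrix (Fin n) (Fin n) F)) (M : Matrix (Fin n) (Fin n) F) : Prop :=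
  Cent T M ∧ ∀ c, Cent T c → M * c = c * M

theorem inv_adjoin (T : Set (Matrix (Fin n) (Fin n) F)) (W : Submodule F (Fin n → F))
    (hW : Helper97.IsInv T W) : ∀ a ∈ Algebra.adjoin F T, ∀ w ∈ W, a *ᵥ w ∈ W := by
  intro a ha
  induction ha using Algebra.adjoin_induction with
  | mem s hs => exact hW s hs
  | algebraMap c =>
    intro w hw
    rw [Algebra.algebraMap_eq_smul_one, Matrix.smul_mulVec, Matrix.one_mulVec]
    exact W.smul_mem c hw
  | add x y _ _ hx hy =>
    intro w hw
    rw [Matrix.add_mulVec]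
    exact W.add_mem (hx w hw) (hy w hw)
  | mul x y _ _ hx hy =>
    intro w hw
    rw [← Matrix.mulVec_mulVec]
    exact hx _ (hy w hw)

theorem cent_adjoin (T : Set (Matrix (Fin n) (Fin n) F)) (M : Matrix (Fin n) (Fin n) F)
    (hM : Cent T M) : ∀ a ∈ Algebra.adjoin F T, M * a = a * M := by
  intro a ha
  induction ha using Algebra.adjoin_induction with
  | mem s hs => exact hM s hs
  | algebraMap c =>
    rw [Algebra.algebraMap_eq_smul_one, Matrix.mul_smul, Matrix.smul_mul, Matrix.mul_one, Matrix.one_mul]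
  | add x y _ _ hx hy => rw [mul_add, add_mul, hx, hy]
  | mul x y _ _ hx hy => rw [← mul_assoc, hx, mul_assoc, hy, mul_assoc]

/-- The `adjoin`-submodule with the same carrier as an invariant subspace. -/
def toR (T : Set (Matrix (Fin n) (Fin n) F)) (W : Submodule F (Fin n → F)) (hW : Helper97.IsInv T W) :
    Submodule (Algebra.adjoin F T) (Fin n → F) where
  carrier := W
  add_mem' := W.add_mem
  zero_mem' := W.zero_mem
  smul_mem' := fun a _ hw => inv_adjoin T W hW a.1 a.2 _ hw

theorem mem_toR (T : Set (Matrix (Fin n) (Fin n) F)) (W : Submodule F (Fin n → F)) (hW : Helper97.IsInv T W)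
    (v : Fin n → F) : v ∈ toR T W hW ↔ v ∈ W := Iff.rfl

theorem isInv_restrict (T : Set (Matrix (Fin n) (Fin n) F)) (m : Submodule (Algebra.adjoin F T) (Fin n → F)) :
    Helper97.IsInv T (m.restrictScalars F) := by
  intro s hs w hw
  exact m.smul_mem (⟨s, Algebra.subset_adjoin hs⟩ : Algebra.adjoin F T) hw

theorem isSimple_toR (T : Set (Matrix (Fin n) (Fin n) F)) (U : Submodule F (Fin n → F))
    (hU : Helper97.IsMinInv T U) : IsSimpleModule (Algebra.adjoin F T) (toR T U hU.2.1) := by
  rw [isSimpleModule_iff_isAtom]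
  constructor
  · intro h
    apply hU.1
    rw [eq_bot_iff]
    intro w hw
    have : w ∈ toR T U hU.2.1 := hw
    rw [h] at this
    exact this
  · intro m' hm'
    rcases hU.2.2 (m'.restrictScalars F) (isInv_restrict T m') (fun w hw => hm'.le hw) with h | h
    · rw [eq_bot_iff]
      intro w hw
      have : w ∈ m'.restrictScalars F := hw
      rw [h] at this
      exact this
    · exfalso
      apply hm'.ne
      apply le_antisymm hm'.le
      intro w hw
      have : w ∈ m'.restrictScalars F := by rw [h]; exact hw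
      exact this

theorem semisimple_of_iSup {ι' : Type*} (T : Set (Matrix (Fin n) (Fin n) F))
    (U : ι' → Submodule F (Fin n → F)) (hU : ∀ i, Helper97.IsMinInv T (U i)) (hsup : ⨆ i, U i = ⊤) :
    IsSemisimpleModule (Algebra.adjoin F T) (Fin n → F) := by
  apply IsSemisimpleModule.of_sSup_simples_eq_top
  rw [eq_top_iff]
  intro v _
  have hle : (⨆ i, U i) ≤ (sSup {m : Submodule (Algebra.adjoin F T) (Fin n → F) |
      IsSimpleModule (Algebra.adjoin F T) m}).restrictScalars F := by
    apply iSup_le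
    intro i w hw
    have h1 : toR T (U i) (hU i).2.1 ≤ sSup {m : Submodule (Algebra.adjoin F T) (Fin n → F) |
      IsSimpleModule (Algebra.adjoin F T) m} := le_sSup (isSimple_toR T (U i) (hU i))
    exact h1 hw
  have : v ∈ ⨆ i, U i := by rw [hsup]; trivial
  exact hle this

/-- If the centre of the centraliser has no non-zero singular element, the module is isotypic. -/
theorem isotypic_of_zcent [NeZero n] (T : Set (Matrix (Fin n) (Fin n) F))
    [IsSemisimpleModule (Algebra.adjoin F T) (Fin n → F)]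
    (hZ : ∀ M, ZCent T M → M ≠ 0 → ∀ v, M *ᵥ v = 0 → v = 0) :
    IsIsotypic (Algebra.adjoin F T) (Fin n → F) := by
  classical
  obtain ⟨S, hS⟩ := IsAtomic.exists_atom (Submodule (Algebra.adjoin F T) (Fin n → F))
  rw [← isSimpleModule_iff_isAtom] at hS
  have hc : isotypicComponent (Algebra.adjoin F T) (Fin n → F) S = ⊤ := by
    by_contra hne
    obtain ⟨c, hc_def⟩ : ∃ c, c = isotypicComponent (Algebra.adjoin F T) (Fin n → F) S := ⟨_, rfl⟩
    rw [← hc_def] at hne
    have hcmem : c ∈ isotypicComponents (Algebra.adjoin F T) (Fin n → F) := ⟨S, hS, hc_def⟩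
    obtain ⟨c', hc'_def⟩ : ∃ c', c' = sSup (isotypicComponents (Algebra.adjoin F T) (Fin n → F) \ {c}) :=
      ⟨_, rfl⟩
    have hdisj : Disjoint c c' := by
      rw [hc'_def]
      exact (sSupIndep_isotypicComponents (Algebra.adjoin F T) (Fin n → F)) hcmem
    have hsup' : c ⊔ c' = ⊤ := by
      rw [hc'_def, ← sSup_insert, Set.insert_sdiff_singleton, Set.insert_eq_of_mem hcmem,
        sSup_isotypicComponents]
    have hfc : c.IsFullyInvariant := by
      rw [hc_def]
      exact Submodule.IsFullyInvariant.isotypicComponent (Algebra.adjoin F T) (Fin n → F) S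
    have hfc' : c'.IsFullyInvariant := by
      rw [hc'_def]
      intro f
      exact sSup_le fun N hN =>
        ((Submodule.IsFullyInvariant.of_mem_isotypicComponents hN.1) f).trans
          (Submodule.comap_mono (le_sSup hN))
    have hcompl : IsCompl c c' := ⟨hdisj, codisjoint_iff.mpr hsup'⟩
    obtain ⟨ε, hε⟩ : ∃ ε : (Fin n → F) →ₗ[Algebra.adjoin F T] (Fin n → F),
        ε = c.subtype ∘ₗ (Submodule.projectionOnto c c' hcompl) := ⟨_, rfl⟩
    have hεc : ∀ x ∈ c, ε x = x := by
      intro x hx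
      rw [hε, LinearMap.comp_apply]
      have := Submodule.projectionOnto_apply_left hcompl ⟨x, hx⟩
      rw [this]
      rfl
    have hεc' : ∀ y ∈ c', ε y = 0 := by
      intro y hy
      rw [hε, LinearMap.comp_apply]
      have : Submodule.projectionOnto c c' hcompl y = 0 := by
        rw [← LinearMap.mem_ker, Submodule.ker_projectionOnto]
        exact hy
      rw [this, map_zero]
    have hεmem : ∀ v, ε v ∈ c := by
      intro v
      rw [hε, LinearMap.comp_apply]
      exact (Submodule.projectionOnto c c' hcompl v).2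
    have hεsub : ∀ v, v - ε v ∈ c' := by
      intro v
      have : Submodule.projectionOnto c c' hcompl (v - ε v) = 0 := by
        rw [map_sub]
        have h1 := Submodule.projectionOnto_apply_left hcompl ⟨ε v, hεmem v⟩
        rw [h1, sub_eq_zero]
        apply Subtype.ext
        show ((Submodule.projectionOnto c c' hcompl v : c) : Fin n → F) = ε v
        subst hε
        rfl
      rw [← LinearMap.mem_ker, Submodule.ker_projectionOnto] at this
      exact this
    obtain ⟨Mε, hMε_def⟩ : ∃ Mε, Mε = LinearMap.toMatrix' (ε.restrictScalars F) := ⟨_, rfl⟩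
    have hMε : ∀ v, Mε *ᵥ v = ε v := by
      intro v
      rw [hMε_def, ← Matrix.toLin'_apply, Matrix.toLin'_toMatrix']
      rfl
    have hcomm_of_inv : ∀ f : Module.End (Algebra.adjoin F T) (Fin n → F), ∀ v, ε (f v) = f (ε v) := by
      intro f v
      have h1 : f v = f (ε v) + f (v - ε v) := by rw [← map_add]; congr 1; abel
      have h2 : f (ε v) ∈ c := hfc f (hεmem v)
      have h3 : f (v - ε v) ∈ c' := hfc' f (hεsub v)
      rw [h1, map_add, hεc _ h2, hεc' _ h3, add_zero]
    have hZε : ZCent T Mε := by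
      constructor
      · intro s hs
        apply Helper98.matrix_ext_mulVec
        intro v
        rw [← Matrix.mulVec_mulVec, ← Matrix.mulVec_mulVec, hMε, hMε]
        exact ε.map_smul (⟨s, Algebra.subset_adjoin hs⟩ : Algebra.adjoin F T) v
      · intro M hM
        have hMA := cent_adjoin T M hM
        let f : Module.End (Algebra.adjoin F T) (Fin n → F) :=
          { toFun := fun v => M *ᵥ v
            map_add' := fun v w => Matrix.mulVec_add M v w
            map_smul' := by
              intro a v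
              show M *ᵥ ((a : Matrix (Fin n) (Fin n) F) *ᵥ v) = (a : Matrix (Fin n) (Fin n) F) *ᵥ (M *ᵥ v)
              rw [Matrix.mulVec_mulVec, Matrix.mulVec_mulVec, hMA a.1 a.2] }
        apply Helper98.matrix_ext_mulVec
        intro v
        rw [← Matrix.mulVec_mulVec, ← Matrix.mulVec_mulVec, hMε, hMε]
        exact hcomm_of_inv f v
    have hcne : c ≠ ⊥ := by
      rw [hc_def]
      exact (bot_lt_isotypicComponent S).ne'
    obtain ⟨x, hxc, hx0⟩ := Submodule.exists_mem_ne_zero_of_ne_bot hcne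
    have hMε0 : Mε ≠ 0 := by
      intro h0
      have := hMε x
      rw [h0, Matrix.zero_mulVec, hεc x hxc] at this
      exact hx0 this.symm
    have hc'ne : c' ≠ ⊥ := by
      intro h0
      rw [h0, sup_bot_eq] at hsup'
      exact hne hsup'
    obtain ⟨y, hyc, hy0⟩ := Submodule.exists_mem_ne_zero_of_ne_bot hc'ne
    exact hy0 (hZ Mε hZε hMε0 y (by rw [hMε, hεc' y hyc]))
  exact (isotypicComponent_eq_top_iff.mp hc).isIsotypic

theorem irr_aux {A S : Type*} [Ring A] [AddCommGroup S] [Module F S] [Module A S]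
    [IsSimpleModule A S] {d : ℕ} (u : Module.Basis (Fin d) F S) (ρ : A → Matrix (Fin d) (Fin d) F)
    (hκ : ∀ (r : A) (x : S), ⇑(u.repr (r • x)) = ρ r *ᵥ ⇑(u.repr x))
    (W : Submodule F (Fin d → F)) (hW : ∀ (r : A), ∀ w ∈ W, ρ r *ᵥ w ∈ W) : W = ⊥ ∨ W = ⊤ := by
  let WS : Submodule A S :=
    { carrier := {x | ⇑(u.repr x) ∈ W}
      add_mem' := by
        intro x y hx hy
        show ⇑(u.repr (x + y)) ∈ W
        rw [map_add]
        exact W.add_mem hx hy
      zero_mem' := by
        show ⇑(u.repr (0 : S)) ∈ W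
        rw [map_zero]
        exact W.zero_mem
      smul_mem' := by
        intro r x hx
        show ⇑(u.repr (r • x)) ∈ W
        rw [hκ]
        exact hW r _ hx }
  have hWS : ∀ x, x ∈ WS ↔ ⇑(u.repr x) ∈ W := fun x => Iff.rfl
  have hsymm : ∀ w : Fin d → F, ⇑(u.repr (u.equivFun.symm w)) = w := by
    intro w
    have := u.equivFun.apply_symm_apply w
    rwa [Module.Basis.equivFun_apply] at this
  rcases eq_bot_or_eq_top WS with h | h
  · left
    rw [eq_bot_iff]
    intro w hw
    have h1 : u.equivFun.symm w ∈ WS := (hWS _).mpr (by rw [hsymm]; exact hw)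
    rw [h] at h1
    have h2 : u.equivFun.symm w = 0 := (Submodule.mem_bot A).mp h1
    have h3 := hsymm w
    rw [h2, map_zero] at h3
    rw [← h3]
    exact Submodule.zero_mem _
  · right
    rw [eq_top_iff]
    intro w _
    have h1 : u.equivFun.symm w ∈ WS := by rw [h]; trivial
    have h2 := (hWS _).mp h1
    rwa [hsymm] at h2

/-- Coordinates from an isomorphism with a power of a simple submodule (abstract version). -/
theorem coords_abstract {A V : Type*} [Ring A] [Algebra F A] [AddCommGroup V] [Module F V] [Module A V]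
    [IsScalarTower F A V] [Module.Finite F V]
    (S : Submodule A V) [hS : IsSimpleModule A S] (k : ℕ) [NeZero k]
    (e : V ≃ₗ[A] (Fin k → S)) :
    ∃ (d : ℕ) (b : Module.Basis (Fin d × Fin k) F V)
      (ρ : A →ₐ[F] Matrix (Fin d) (Fin d) F),
      0 < d ∧ (∀ (r : A) a j, r • b (a, j) = ∑ a', ρ r a' a • b (a', j)) ∧
      (∀ W : Submodule F (Fin d → F), (∀ (r : A), ∀ w ∈ W, ρ r *ᵥ w ∈ W) → W = ⊥ ∨ W = ⊤) := by
  classical
  have hSfin : Module.Finite F S :=
    Module.Finite.of_injective (S.subtype.restrictScalars F) Subtype.val_injective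
  obtain ⟨d, hd⟩ : ∃ d, d = Module.finrank F S := ⟨_, rfl⟩
  have hSfree : Module.Free F S := Module.Free.of_divisionRing F S
  obtain ⟨u⟩ : Nonempty (Module.Basis (Fin d) F S) := ⟨Module.finBasisOfFinrankEq F S hd.symm⟩
  have hSnt : Nontrivial S := IsSimpleModule.nontrivial A S
  have hd0 : 0 < d := by rw [hd]; exact Module.finrank_pos (R := F) (M := S)
  obtain ⟨eF, heF⟩ : ∃ eF : V ≃ₗ[F] (Fin k → S), ∀ y, eF.symm y = e.symm y :=
    ⟨e.restrictScalars F, fun _ => rfl⟩
  obtain ⟨b, hb⟩ : ∃ b : Module.Basis (Fin d × Fin k) F V,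
      ∀ a j, b (a, j) = e.symm (Pi.single j (u a)) := by
    refine ⟨((Pi.basis (fun _ : Fin k => u)).map eF.symm).reindex
      ((Equiv.sigmaEquivProd (Fin k) (Fin d)).trans (Equiv.prodComm _ _)), ?_⟩
    intro a j
    rw [Module.Basis.reindex_apply, Module.Basis.map_apply, heF]
    show e.symm (Pi.basis (fun _ : Fin k => u) ⟨j, a⟩) = _
    rw [Pi.basis_apply]
  have hact : ∀ (r : A) a j, r • b (a, j) =
      ∑ a', (u.repr (r • u a)) a' • b (a', j) := by
    intro r a j
    rw [hb]
    have h1 : r • e.symm (Pi.single j (u a)) =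
        e.symm (r • (Pi.single j (u a) : Fin k → S)) := (e.symm.map_smul r _).symm
    rw [h1]
    have h2 : r • (Pi.single j (u a) : Fin k → S) = Pi.single j (r • u a) := by
      ext i
      by_cases hi : i = j
      · subst hi; simp
      · simp [hi]
    rw [h2]
    have h3 : r • u a = ∑ a', (u.repr (r • u a)) a' • u a' := (u.sum_repr (r • u a)).symm
    have h4 : (Pi.single j (r • u a) : Fin k → S) =
        ∑ a', (u.repr (r • u a)) a' • (Pi.single j (u a') : Fin k → S) := by
      conv_lhs => rw [h3]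
      have := map_sum (LinearMap.single F (fun _ : Fin k => S) j)
        (fun a' => (u.repr (r • u a)) a' • u a') Finset.univ
      rw [LinearMap.coe_single] at this
      rw [this]
      apply Finset.sum_congr rfl
      intro a' _
      exact (LinearMap.single F (fun _ : Fin k => S) j).map_smul _ _
    rw [h4, ← heF, map_sum]
    apply Finset.sum_congr rfl
    intro a' _
    rw [hb, eF.symm.map_smul, heF]
  obtain ⟨ρ, hρdef⟩ : ∃ ρ : A →ₐ[F] Matrix (Fin d) (Fin d) F,
      ∀ r : A, ρ r = LinearMap.toMatrix u u (Algebra.lsmul F F S r) :=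
    ⟨(LinearMap.toMatrixAlgEquiv u).toAlgHom.comp (Algebra.lsmul F F S), fun _ => rfl⟩
  have hρr : ∀ (r : A) a' a, ρ r a' a = (u.repr (r • u a)) a' := by
    intro r a' a
    rw [hρdef, LinearMap.toMatrix_apply]
    rfl
  refine ⟨d, b, ρ, hd0, ?_, ?_⟩
  · intro r a j
    rw [hact r a j]
    apply Finset.sum_congr rfl
    intro a' _
    rw [hρr]
  · intro W hW
    have hκ : ∀ (r : A) (x : S), ⇑(u.repr (r • x)) = ρ r *ᵥ ⇑(u.repr x) := by
      intro r x
      rw [hρdef]
      exact (LinearMap.toMatrix_mulVec_repr u u (Algebra.lsmul F F S r) x).symm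
    exact irr_aux u (fun r => ρ r) hκ W hW

/-- Homogeneous coordinates: if `F^n` is a sum of minimal `T`-invariant subspaces and the centre of the
centraliser of `T` has no non-zero singular element, there is a basis indexed by `Fin d × Fin k` in
which every member `s` of `T` acts as `ρ s ⊗ 1`, with `ρ '' T` irreducible. -/
theorem homog_coords {ι' : Type*} (hn : 0 < n) (T : Set (Matrix (Fin n) (Fin n) F))
    (U : ι' → Submodule F (Fin n → F)) (hU : ∀ i, Helper97.IsMinInv T (U i)) (hsup : ⨆ i, U i = ⊤)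
    (hZ : ∀ M, ZCent T M → M ≠ 0 → ∀ v, M *ᵥ v = 0 → v = 0) :
    ∃ (d k : ℕ) (b : Module.Basis (Fin d × Fin k) F (Fin n → F))
      (ρ : Matrix (Fin n) (Fin n) F → Matrix (Fin d) (Fin d) F),
      0 < d ∧ 0 < k ∧ (∀ s ∈ T, ∀ a j, s *ᵥ b (a, j) = ∑ a', ρ s a' a • b (a', j)) ∧
      (∀ W : Submodule F (Fin d → F), (∀ s ∈ T, ∀ w ∈ W, ρ s *ᵥ w ∈ W) → W = ⊥ ∨ W = ⊤) := by
  classical
  have hne : NeZero n := ⟨hn.ne'⟩
  have hss := semisimple_of_iSup T U hU hsup
  have hiso := isotypic_of_zcent T hZ
  have hfin : Module.Finite (Algebra.adjoin F T) (Fin n → F) :=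
    Module.Finite.of_restrictScalars_finite F _ _
  obtain ⟨k, hk, S, hS, ⟨e⟩⟩ := hiso.linearEquiv_fun
  obtain ⟨d, b, ρ, hd0, hact, hirr⟩ := coords_abstract (F := F) S k e
  obtain ⟨ρ', hρ'⟩ : ∃ ρ' : Matrix (Fin n) (Fin n) F → Matrix (Fin d) (Fin d) F,
      ∀ s (h : s ∈ Algebra.adjoin F T), ρ' s = ρ ⟨s, h⟩ :=
    ⟨fun s => if h : s ∈ Algebra.adjoin F T then ρ ⟨s, h⟩ else 0, fun s h => dif_pos h⟩
  refine ⟨d, k, b, ρ', hd0, Nat.pos_of_ne_zero hk.out, ?_, ?_⟩
  · intro s hs a j
    have h1 : s *ᵥ b (a, j) = ∑ a', ρ ⟨s, Algebra.subset_adjoin hs⟩ a' a • b (a', j) :=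
      hact ⟨s, Algebra.subset_adjoin hs⟩ a j
    rw [h1]
    apply Finset.sum_congr rfl
    intro a' _
    rw [hρ' s (Algebra.subset_adjoin hs)]
  · intro W hW
    apply hirr
    have key : ∀ a (ha : a ∈ Algebra.adjoin F T), ∀ w ∈ W, ρ ⟨a, ha⟩ *ᵥ w ∈ W := by
      intro a ha
      induction ha using Algebra.adjoin_induction with
      | mem s hs =>
        intro w hw
        have := hW s hs w hw
        rwa [hρ' s (Algebra.subset_adjoin hs)] at this
      | algebraMap c =>
        intro w hw
        have h1 : (⟨algebraMap F (Matrix (Fin n) (Fin n) F) c, Subalgebra.algebraMap_mem _ c⟩ :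
            Algebra.adjoin F T) = algebraMap F (Algebra.adjoin F T) c := rfl
        rw [h1, AlgHom.commutes, Algebra.algebraMap_eq_smul_one, Matrix.smul_mulVec, Matrix.one_mulVec]
        exact W.smul_mem c hw
      | add x y hx hy ihx ihy =>
        intro w hw
        have h1 : (⟨x + y, Subalgebra.add_mem _ hx hy⟩ : Algebra.adjoin F T) = ⟨x, hx⟩ + ⟨y, hy⟩ := rfl
        rw [h1, map_add, Matrix.add_mulVec]
        exact W.add_mem (ihx w hw) (ihy w hw)
      | mul x y hx hy ihx ihy =>
        intro w hw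
        have h1 : (⟨x * y, Subalgebra.mul_mem _ hx hy⟩ : Algebra.adjoin F T) = ⟨x, hx⟩ * ⟨y, hy⟩ := rfl
        rw [h1, map_mul, ← Matrix.mulVec_mulVec]
        exact ihx _ (ihy w hw)
    intro r w hw
    exact key r.1 r.2 w hw

end Cfsg.Agent.Helper96
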