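-- helper96 library: general Clifford theorem for a normal subgroup of an irreducible linear group.
import Cfsg.Agent.Helper96.Homog
import Cfsg.Agent.Helper97.PrimeDim

set_option autoImplicit false
open Cfsg Cfsg.Geo Matrix
open scoped Kronecker

namespace Cfsg.Agent.Helper96

variable {F : Type*} [Field F] {n : ℕ}

/-! ### The centre of the centraliser -/

/-- The centre of the centraliser of `T`, as a subalgebra. -/
def zc (T : Set (Matrix (Fin n) (Fin n) F)) : Subalgebra F (Matrix (Fin n) (Fin n) F) where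
  carrier := {M | ZCent T M}
  mul_mem' := by
    rintro a b ⟨ha, ha'⟩ ⟨hb, hb'⟩
    exact ⟨fun s hs => by rw [mul_assoc, hb s hs, ← mul_assoc, ha s hs, mul_assoc],
      fun c hc => by rw [mul_assoc, hb' c hc, ← mul_assoc, ha' c hc, mul_assoc]⟩
  add_mem' := by
    rintro a b ⟨ha, ha'⟩ ⟨hb, hb'⟩
    exact ⟨fun s hs => by rw [add_mul, mul_add, ha s hs, hb s hs],
      fun c hc => by rw [add_mul, mul_add, ha' c hc, hb' c hc]⟩
  algebraMap_mem' := by
    intro c
    exact ⟨fun s _ => by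
        rw [Algebra.algebraMap_eq_smul_one, Matrix.smul_mul, Matrix.mul_smul, Matrix.one_mul, Matrix.mul_one],
      fun c' _ => by
        rw [Algebra.algebraMap_eq_smul_one, Matrix.smul_mul, Matrix.mul_smul, Matrix.one_mul, Matrix.mul_one]⟩

theorem mem_zc (T : Set (Matrix (Fin n) (Fin n) F)) (M : Matrix (Fin n) (Fin n) F) :
    M ∈ zc T ↔ ZCent T M := Iff.rfl

theorem inv_comm_of_comm (x y : Matrix (Fin n) (Fin n) F) (hdet : x.det ≠ 0) (h : x * y = y * x) :
    x⁻¹ * y = y * x⁻¹ := by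
  have hu : IsUnit x.det := isUnit_iff_ne_zero.mpr hdet
  calc x⁻¹ * y = x⁻¹ * y * (x * x⁻¹) := by rw [Matrix.mul_nonsing_inv x hu, mul_one]
    _ = x⁻¹ * (y * x) * x⁻¹ := by simp only [mul_assoc]
    _ = x⁻¹ * (x * y) * x⁻¹ := by rw [h]
    _ = (x⁻¹ * x) * y * x⁻¹ := by simp only [mul_assoc]
    _ = y * x⁻¹ := by rw [Matrix.nonsing_inv_mul x hu, one_mul]

theorem isFS_zc (T : Set (Matrix (Fin n) (Fin n) F))
    (hZ : ∀ M, ZCent T M → M ≠ 0 → ∀ v, M *ᵥ v = 0 → v = 0) : Helper98.IsFS (zc T) := by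
  constructor
  · intro x hx y hy
    exact hx.2 y hy.1
  · intro x hx hx0
    have hdet : x.det ≠ 0 := Helper97.det_ne_zero_of_injective x (hZ x hx hx0)
    have hu : IsUnit x.det := isUnit_iff_ne_zero.mpr hdet
    refine ⟨x⁻¹, ⟨fun s hs => inv_comm_of_comm x s hdet (hx.1 s hs),
      fun c hc => inv_comm_of_comm x c hdet (hx.2 c hc)⟩, Matrix.mul_nonsing_inv x hu⟩

/-- Conjugation by an element normalising `T` preserves the centraliser. -/
theorem cent_conj (T : Set (Matrix (Fin n) (Fin n) F)) (g : GL (Fin n) F)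
    (hg : ∀ s ∈ T, ((g⁻¹ : GL (Fin n) F) : Matrix (Fin n) (Fin n) F) * s * (g : Matrix (Fin n) (Fin n) F) ∈ T)
    (M : Matrix (Fin n) (Fin n) F) (hM : Cent T M) :
    Cent T ((g : Matrix (Fin n) (Fin n) F) * M * ((g⁻¹ : GL (Fin n) F) : Matrix (Fin n) (Fin n) F)) := by
  intro s hs
  have h1 := hM _ (hg s hs)
  have hgi : (g : Matrix (Fin n) (Fin n) F) * ((g⁻¹ : GL (Fin n) F) : Matrix (Fin n) (Fin n) F) = 1 := by
    rw [← Units.val_mul, mul_inv_cancel, Units.val_one]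
  have hig : ((g⁻¹ : GL (Fin n) F) : Matrix (Fin n) (Fin n) F) * (g : Matrix (Fin n) (Fin n) F) = 1 := by
    rw [← Units.val_mul, inv_mul_cancel, Units.val_one]
  calc (g : Matrix (Fin n) (Fin n) F) * M * ((g⁻¹ : GL (Fin n) F) : Matrix (Fin n) (Fin n) F) * s
      = (g : Matrix (Fin n) (Fin n) F) * (M * (((g⁻¹ : GL (Fin n) F) : Matrix (Fin n) (Fin n) F) * s *
          (g : Matrix (Fin n) (Fin n) F))) * ((g⁻¹ : GL (Fin n) F) : Matrix (Fin n) (Fin n) F) := by
        simp only [mul_assoc]; rw [hgi, mul_one]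
    _ = (g : Matrix (Fin n) (Fin n) F) * ((((g⁻¹ : GL (Fin n) F) : Matrix (Fin n) (Fin n) F) * s *
          (g : Matrix (Fin n) (Fin n) F)) * M) * ((g⁻¹ : GL (Fin n) F) : Matrix (Fin n) (Fin n) F) := by
        rw [h1]
    _ = s * ((g : Matrix (Fin n) (Fin n) F) * M * ((g⁻¹ : GL (Fin n) F) : Matrix (Fin n) (Fin n) F)) := by
        simp only [mul_assoc]; rw [← mul_assoc (g : Matrix (Fin n) (Fin n) F), hgi, one_mul]

theorem zcent_conj (T : Set (Matrix (Fin n) (Fin n) F)) (g : GL (Fin n) F)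
    (hg : ∀ s ∈ T, ((g⁻¹ : GL (Fin n) F) : Matrix (Fin n) (Fin n) F) * s * (g : Matrix (Fin n) (Fin n) F) ∈ T)
    (hg' : ∀ s ∈ T, (g : Matrix (Fin n) (Fin n) F) * s * ((g⁻¹ : GL (Fin n) F) : Matrix (Fin n) (Fin n) F) ∈ T)
    (M : Matrix (Fin n) (Fin n) F) (hM : ZCent T M) :
    ZCent T ((g : Matrix (Fin n) (Fin n) F) * M * ((g⁻¹ : GL (Fin n) F) : Matrix (Fin n) (Fin n) F)) := by
  refine ⟨cent_conj T g hg M hM.1, ?_⟩
  intro c hc
  have hgi : (g : Matrix (Fin n) (Fin n) F) * ((g⁻¹ : GL (Fin n) F) : Matrix (Fin n) (Fin n) F) = 1 := by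
    rw [← Units.val_mul, mul_inv_cancel, Units.val_one]
  have hig : ((g⁻¹ : GL (Fin n) F) : Matrix (Fin n) (Fin n) F) * (g : Matrix (Fin n) (Fin n) F) = 1 := by
    rw [← Units.val_mul, inv_mul_cancel, Units.val_one]
  have hc' : Cent T (((g⁻¹ : GL (Fin n) F) : Matrix (Fin n) (Fin n) F) * c * (g : Matrix (Fin n) (Fin n) F)) := by
    have := cent_conj T g⁻¹ (by simpa using hg') c hc
    simpa using this
  have h1 := hM.2 _ hc'
  calc (g : Matrix (Fin n) (Fin n) F) * M * ((g⁻¹ : GL (Fin n) F) : Matrix (Fin n) (Fin n) F) * c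
      = (g : Matrix (Fin n) (Fin n) F) * (M * (((g⁻¹ : GL (Fin n) F) : Matrix (Fin n) (Fin n) F) * c *
          (g : Matrix (Fin n) (Fin n) F))) * ((g⁻¹ : GL (Fin n) F) : Matrix (Fin n) (Fin n) F) := by
        simp only [mul_assoc]; rw [hgi, mul_one]
    _ = (g : Matrix (Fin n) (Fin n) F) * ((((g⁻¹ : GL (Fin n) F) : Matrix (Fin n) (Fin n) F) * c *
          (g : Matrix (Fin n) (Fin n) F)) * M) * ((g⁻¹ : GL (Fin n) F) : Matrix (Fin n) (Fin n) F) := by
        rw [h1]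
    _ = c * ((g : Matrix (Fin n) (Fin n) F) * M * ((g⁻¹ : GL (Fin n) F) : Matrix (Fin n) (Fin n) F)) := by
        simp only [mul_assoc]; rw [← mul_assoc (g : Matrix (Fin n) (Fin n) F), hgi, one_mul]

theorem matrixSet_conj (N : Subgroup (GL (Fin n) F)) (g : GL (Fin n) F)
    (hg : ∀ x ∈ N, g * x * g⁻¹ ∈ N) :
    ∀ s ∈ matrixSet N, (g : Matrix (Fin n) (Fin n) F) * s *
      ((g⁻¹ : GL (Fin n) F) : Matrix (Fin n) (Fin n) F) ∈ matrixSet N := by
  rintro _ ⟨x, hx, rfl⟩
  exact ⟨g * x * g⁻¹, hg x hx, by show ((g * x * g⁻¹ : GL (Fin n) F) : Matrix (Fin n) (Fin n) F) = _; rw [Units.val_mul, Units.val_mul]⟩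

theorem le_normalizer_zc (H N : Subgroup (GL (Fin n) F))
    (hNn : ∀ h ∈ H, ∀ x ∈ N, h * x * h⁻¹ ∈ N) : H ≤ subalgebraNormalizer (zc (matrixSet N)) := by
  intro g hg k
  have h1 : ∀ s ∈ matrixSet N, (g : Matrix (Fin n) (Fin n) F) * s *
      ((g⁻¹ : GL (Fin n) F) : Matrix (Fin n) (Fin n) F) ∈ matrixSet N := matrixSet_conj N g (hNn g hg)
  have h2 : ∀ s ∈ matrixSet N, ((g⁻¹ : GL (Fin n) F) : Matrix (Fin n) (Fin n) F) * s *
      (g : Matrix (Fin n) (Fin n) F) ∈ matrixSet N := by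
    have := matrixSet_conj N g⁻¹ (hNn g⁻¹ (H.inv_mem hg))
    simpa using this
  constructor
  · intro hk
    exact zcent_conj _ g h2 h1 k hk
  · intro hk
    have h3 := zcent_conj _ g⁻¹ (by simpa using h1) (by simpa using h2) _ hk
    have h4 : ((g⁻¹ : GL (Fin n) F) : Matrix (Fin n) (Fin n) F) * ((g : Matrix (Fin n) (Fin n) F) * k *
        ((g⁻¹ : GL (Fin n) F) : Matrix (Fin n) (Fin n) F)) *
        (((g⁻¹)⁻¹ : GL (Fin n) F) : Matrix (Fin n) (Fin n) F) = k := by
      rw [inv_inv]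
      simp only [mul_assoc, Units.inv_mul, mul_one]
      rw [← mul_assoc, Units.inv_mul, one_mul]
    rw [h4] at h3
    exact h3

/-! ### Subfields of prime degree -/

theorem finrank_frobFix_ge [Fintype F] [NeZero n] {K K₀ : Subalgebra F (Matrix (Fin n) (Fin n) F)}
    (hK : Helper98.IsFS K) (hK₀fs : Helper98.IsFS K₀) {r s : ℕ} (hr : Module.finrank F K = r)
    (hs : s ∣ r) (hs0 : 0 < s)
    (hK₀ : ∀ x, x ∈ K₀ ↔ x ∈ K ∧ x ^ (Fintype.card F ^ s) = x) : s ≤ Module.finrank F K₀ := by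
  classical
  have : Nonempty (Fin n) := ⟨0⟩
  let _i := hK.field
  let _j := hK₀fs.field
  set q := Fintype.card F with hq
  have hq2 : 2 ≤ q := Fintype.one_lt_card
  have hcardK : Nat.card ↥K = q ^ r := by
    rw [Module.natCard_eq_pow_finrank (K := F) (V := ↥K), hr, Nat.card_eq_fintype_card]
  have hunits : Nat.card (↥K)ˣ = q ^ r - 1 := by rw [Nat.card_units, hcardK]
  obtain ⟨ζ, hζ⟩ := IsCyclic.exists_generator (α := (↥K)ˣ)
  have hord : orderOf ζ = q ^ r - 1 := by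
    rw [orderOf_eq_card_of_forall_mem_zpowers hζ, hunits]
  have hr0 : 0 < r := by rw [← hr]; exact Module.finrank_pos
  obtain ⟨t, rfl⟩ := hs
  have ht0 : 0 < t := Nat.pos_of_mul_pos_left hr0 |> fun h => by
    rcases Nat.eq_zero_or_pos t with h0 | h0
    · rw [h0, mul_zero] at hr0; omega
    · exact h0
  have hdvd : q ^ s - 1 ∣ q ^ (s * t) - 1 := by
    have h := Nat.sub_dvd_pow_sub_pow (q ^ s) 1 t
    rwa [one_pow, ← pow_mul] at h
  obtain ⟨e, he⟩ := hdvd
  have hqs1 : 1 < q ^ s := Nat.one_lt_pow hs0.ne' (by omega)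
  have hqst : q ^ s ≤ q ^ (s * t) := Nat.pow_le_pow_right (by omega) (Nat.le_mul_of_pos_right s ht0)
  have he0 : e ≠ 0 := by
    rintro rfl
    rw [mul_zero] at he
    omega
  have hordz : orderOf (ζ ^ e) = q ^ s - 1 := by
    rw [orderOf_pow_of_dvd he0 (by rw [hord, he]; exact dvd_mul_left e _), hord, he,
      Nat.mul_div_cancel _ (Nat.pos_of_ne_zero he0)]
  obtain ⟨zm, hzm⟩ : ∃ zm : Matrix (Fin n) (Fin n) F,
      zm = (((ζ ^ e : (↥K)ˣ) : ↥K) : Matrix (Fin n) (Fin n) F) := ⟨_, rfl⟩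
  have hzmK₀ : zm ∈ K₀ := by
    rw [hK₀]
    refine ⟨by rw [hzm]; exact Subtype.property _, ?_⟩
    have hpow1 : ζ ^ ((q ^ s - 1) * e) = 1 := by rw [← he, ← hord, pow_orderOf_eq_one]
    have hpow : (ζ ^ e) ^ (q ^ s) = ζ ^ e := by
      have h1 : e * q ^ s = (q ^ s - 1) * e + e := by
        have : q ^ s = (q ^ s - 1) + 1 := by omega
        nlinarith
      rw [← pow_mul, h1, pow_add, hpow1, one_mul]
    have h2 := congrArg (fun u : (↥K)ˣ => ((u : ↥K) : Matrix (Fin n) (Fin n) F)) hpow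
    rw [hzm]
    simp only [Units.val_pow_eq_pow_val, Subalgebra.coe_pow] at h2 ⊢
    exact h2
  have hord1 : orderOf zm = q ^ s - 1 := by
    rw [hzm, ← hordz]
    exact orderOf_injective ((K.subtype.toMonoidHom : ↥K →* Matrix (Fin n) (Fin n) F).comp
      (Units.coeHom ↥K)) (by intro a b h; exact Units.ext (Subtype.ext h)) (ζ ^ e)
  have hz0 : (⟨zm, hzmK₀⟩ : ↥K₀) ≠ 0 := by
    intro h
    have h1 : zm = 0 := congrArg Subtype.val h
    rw [h1] at hord1
    have h2 : orderOf (0 : Matrix (Fin n) (Fin n) F) = 0 := by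
      rw [orderOf_eq_zero_iff']
      intro m hm
      rw [zero_pow hm.ne']
      exact zero_ne_one
    omega
  obtain ⟨u₀, hu₀⟩ : ∃ u₀ : (↥K₀)ˣ, ((u₀ : ↥K₀) : Matrix (Fin n) (Fin n) F) = zm :=
    ⟨Units.mk0 ⟨zm, hzmK₀⟩ hz0, rfl⟩
  have hord2 : orderOf u₀ = q ^ s - 1 := by
    rw [← hord1, ← hu₀]
    exact (orderOf_injective ((K₀.subtype.toMonoidHom : ↥K₀ →* Matrix (Fin n) (Fin n) F).comp
      (Units.coeHom ↥K₀)) (by intro a b h; exact Units.ext (Subtype.ext h)) u₀).symm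
  have hcard0 : Nat.card ↥K₀ = q ^ Module.finrank F ↥K₀ := by
    rw [Module.natCard_eq_pow_finrank (K := F) (V := ↥K₀), Nat.card_eq_fintype_card]
  have hunits0 : Nat.card (↥K₀)ˣ = q ^ Module.finrank F ↥K₀ - 1 := by rw [Nat.card_units, hcard0]
  have hdvd2 : q ^ s - 1 ∣ q ^ Module.finrank F ↥K₀ - 1 := by
    rw [← hord2, ← hunits0]
    exact orderOf_dvd_natCard u₀
  have hf1 : 1 < q ^ Module.finrank F ↥K₀ := by
    rw [← hcard0]
    exact Finite.one_lt_card
  obtain ⟨f, hf⟩ : ∃ f, f = Module.finrank F ↥K₀ := ⟨_, rfl⟩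
  rw [← hf] at hdvd2 hf1 ⊢
  by_contra hlt
  have h4 : q ^ f < q ^ s := Nat.pow_lt_pow_right (by omega) (by omega)
  obtain ⟨A, hA⟩ : ∃ A, A = q ^ s := ⟨_, rfl⟩
  obtain ⟨B, hB⟩ : ∃ B, B = q ^ f := ⟨_, rfl⟩
  rw [← hA] at hdvd2 h4 hqs1
  rw [← hB] at hdvd2 h4 hf1
  have h3 := Nat.le_of_dvd (by omega) hdvd2
  omega

/-- A field subalgebra with a non-scalar element contains a subfield of prime degree, normalised by
everything normalising the field. -/
theorem exists_prime_subfield [Fintype F] [NeZero n] (K : Subalgebra F (Matrix (Fin n) (Fin n) F))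
    (hK : Helper98.IsFS K) (hns : ∃ k ∈ K, ∀ c : F, k ≠ c • (1 : Matrix (Fin n) (Fin n) F)) :
    ∃ (r : ℕ) (K₀ : Subalgebra F (Matrix (Fin n) (Fin n) F)), r.Prime ∧ IsFieldSubalgebra r K₀ ∧
      subalgebraNormalizer K ≤ subalgebraNormalizer K₀ := by
  classical
  have : Nonempty (Fin n) := ⟨0⟩
  obtain ⟨e, he⟩ : ∃ e, Module.finrank F K = e := ⟨_, rfl⟩
  have he2 : 2 ≤ e := by
    by_contra hlt
    have hpos : 0 < e := by
      rw [← he]
      let _i := hK.field
      exact Module.finrank_pos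
    have h1 : e = 1 := by omega
    obtain ⟨k, hk, hkns⟩ := hns
    obtain ⟨c, hc⟩ := Helper97.eq_smul_one_of_finrank_one K (he.trans h1) k hk
    exact hkns c hc
  by_cases hprime : e.Prime
  · exact ⟨e, K, hprime, ⟨hK.comm, hK.inv, he⟩, le_refl _⟩
  · have hr : (e.minFac).Prime := Nat.minFac_prime (by omega)
    have hrd : e.minFac ∣ e := Nat.minFac_dvd e
    have hrlt : e.minFac < e := by
      have h1 := Nat.minFac_le (show 0 < e by omega)
      rcases h1.lt_or_eq with h | h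
      · exact h
      · rw [h] at hr
        exact absurd hr hprime
    obtain ⟨p, hp⟩ := CharP.exists F
    have := hp
    have : Fact p.Prime := ⟨CharP.char_is_prime F p⟩
    obtain ⟨f, -, hf⟩ := FiniteField.card F p
    have hN : Fintype.card F ^ e.minFac = p ^ ((f : ℕ) * e.minFac) := by rw [hf, pow_mul]
    have hadd : ∀ x ∈ K, ∀ y ∈ K, (x + y) ^ (Fintype.card F ^ e.minFac) =
        x ^ (Fintype.card F ^ e.minFac) + y ^ (Fintype.card F ^ e.minFac) := by
      intro x hx y hy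
      rw [hN]
      exact add_pow_char_pow_of_commute p _ (hK.comm x hx y hy)
    have hm : ∀ c : F, c ^ (Fintype.card F ^ e.minFac) = c := fun c => FiniteField.pow_card_pow e.minFac c
    have hK₀ : Helper98.IsFS (Helper98.frobFix K hK (Fintype.card F ^ e.minFac) hadd hm) :=
      Helper98.isFS_frobFix
    obtain ⟨-, -, hfr⟩ := Helper98.frobFix_facts hK he hrd hr.two_le hrlt
      (Helper98.frobFix K hK (Fintype.card F ^ e.minFac) hadd hm) (fun x => Helper98.mem_frobFix)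
    have hge := finrank_frobFix_ge hK hK₀ he hrd hr.pos (fun x => Helper98.mem_frobFix)
    exact ⟨e.minFac, _, hr, ⟨hK₀.comm, hK₀.inv, le_antisymm hfr hge⟩, Helper98.normalizer_le_frobFix⟩

/-! ### From an adapted basis to conjugation -/

theorem exists_conj_of_basis {d k : ℕ} (b : Module.Basis (Fin d × Fin k) F (Fin n → F)) :
    ∃ (e : Fin n ≃ Fin d × Fin k) (P : GL (Fin n) F), ∀ (s : Matrix (Fin n) (Fin n) F)
      (X : Matrix (Fin d × Fin k) (Fin d × Fin k) F),
      (∀ q, s *ᵥ b q = ∑ q', X q' q • b q') → s = Helper98.conjReindex e P X := by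
  classical
  have hcard : Fintype.card (Fin n) = Fintype.card (Fin d × Fin k) := by
    have h1 := Module.finrank_eq_card_basis b
    rw [Module.finrank_fin_fun] at h1
    rw [Fintype.card_fin]
    exact h1
  obtain ⟨e⟩ : Nonempty (Fin n ≃ Fin d × Fin k) := ⟨Fintype.equivOfCardEq hcard⟩
  obtain ⟨Pm, hPmdef⟩ : ∃ Pm : Matrix (Fin n) (Fin n) F, Pm = Matrix.of fun i' i => b (e i) i' := ⟨_, rfl⟩
  have hPm : ∀ x : Fin n → F, Pm *ᵥ x = ∑ i, x i • b (e i) := by
    intro x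
    ext i'
    rw [hPmdef, Matrix.mulVec, dotProduct, Finset.sum_apply]
    apply Finset.sum_congr rfl
    intro i _
    rw [Matrix.of_apply, Pi.smul_apply, smul_eq_mul, mul_comm]
  have hinj : ∀ x, Pm *ᵥ x = 0 → x = 0 := by
    intro x hx
    rw [hPm] at hx
    have hli := (b.reindex e.symm).linearIndependent
    have h1 := Fintype.linearIndependent_iff.mp hli x (by
      rw [← hx]
      apply Finset.sum_congr rfl
      intro i _
      rw [Module.Basis.reindex_apply, Equiv.symm_symm])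
    exact funext h1
  have hdet := Helper97.det_ne_zero_of_injective Pm hinj
  obtain ⟨P, hP⟩ : ∃ P : GL (Fin n) F, (P : Matrix (Fin n) (Fin n) F) = Pm :=
    ⟨Matrix.GeneralLinearGroup.mkOfDetNeZero Pm hdet, rfl⟩
  refine ⟨e, P, fun s X hs => ?_⟩
  have hR : ∀ (x : Fin n → F) (i' : Fin n), (Matrix.reindexAlgEquiv F F e.symm X *ᵥ x) i' =
      ∑ i, X (e i') (e i) * x i := by
    intro x i'
    rw [Matrix.mulVec, dotProduct]
    rfl
  have hkey : s * Pm = Pm * Matrix.reindexAlgEquiv F F e.symm X := by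
    apply Helper98.matrix_ext_mulVec
    intro x
    calc (s * Pm) *ᵥ x = ∑ i, x i • ∑ q', X q' (e i) • b q' := by
          rw [← Matrix.mulVec_mulVec, hPm, Matrix.mulVec_sum]
          exact Finset.sum_congr rfl (fun i _ => by rw [Matrix.mulVec_smul, hs])
      _ = ∑ i', ∑ i, (X (e i') (e i) * x i) • b (e i') := by
          simp_rw [Finset.smul_sum, smul_smul]
          rw [Finset.sum_comm, ← Equiv.sum_comp e]
          apply Finset.sum_congr rfl
          intro i' _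
          apply Finset.sum_congr rfl
          intro i _
          rw [mul_comm]
      _ = (Pm * Matrix.reindexAlgEquiv F F e.symm X) *ᵥ x := by
          rw [← Matrix.mulVec_mulVec, hPm]
          apply Finset.sum_congr rfl
          intro i' _
          rw [← Finset.sum_smul, hR]
  rw [Helper98.conjReindex_apply, hP, ← hkey, mul_assoc, ← hP, ← Units.val_mul, mul_inv_cancel,
    Units.val_one, mul_one]

end Cfsg.Agent.Helper96
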