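-- helper96 library: general Clifford theorem (decomposition / field / tensor coordinates).
import Cfsg.Agent.Helper96.Clifford
import Cfsg.Agent.Helper96.Kron

set_option autoImplicit false
open Cfsg Cfsg.Geo Matrix
open scoped Kronecker

namespace Cfsg.Agent.Helper96

variable {F : Type*} [Field F] {n : ℕ}

/-- Schur + Wedderburn: the centraliser of an irreducible set of matrices over a finite field is
commutative. -/
theorem schur_comm [Finite F] {d : ℕ} (hd : 0 < d) (X : Set (Matrix (Fin d) (Fin d) F))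
    (hirr : ∀ W : Submodule F (Fin d → F), (∀ x ∈ X, ∀ w ∈ W, x *ᵥ w ∈ W) → W = ⊥ ∨ W = ⊤)
    (a b : Matrix (Fin d) (Fin d) F) (ha : ∀ x ∈ X, a * x = x * a) (hb : ∀ x ∈ X, b * x = x * b) :
    a * b = b * a := by
  classical
  have hne : NeZero d := ⟨hd.ne'⟩
  obtain ⟨C, hCdef⟩ : ∃ C : Subalgebra F (Matrix (Fin d) (Fin d) F),
      C = Subalgebra.centralizer F X := ⟨_, rfl⟩
  have hmemC : ∀ c : Matrix (Fin d) (Fin d) F, c ∈ C ↔ ∀ x ∈ X, c * x = x * c := by
    intro c
    rw [hCdef, Subalgebra.mem_centralizer_iff]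
    constructor
    · intro h x hx
      exact (h x hx).symm
    · intro h x hx
      exact (h x hx).symm
  have hCinj : ∀ c ∈ C, c ≠ 0 → ∀ v : Fin d → F, c *ᵥ v = 0 → v = 0 := by
    intro c hc hc0 v hv
    have hkinv : ∀ x ∈ X, ∀ w ∈ LinearMap.ker (Matrix.toLin' c), x *ᵥ w ∈ LinearMap.ker (Matrix.toLin' c) := by
      intro x hx w hw
      rw [LinearMap.mem_ker, Matrix.toLin'_apply] at hw ⊢
      rw [Matrix.mulVec_mulVec, (hmemC c).mp hc x hx, ← Matrix.mulVec_mulVec, hw, Matrix.mulVec_zero]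
    rcases hirr _ hkinv with h | h
    · have : v ∈ LinearMap.ker (Matrix.toLin' c) := by
        rw [LinearMap.mem_ker, Matrix.toLin'_apply]; exact hv
      rw [h] at this
      exact (Submodule.mem_bot F).mp this
    · exfalso
      apply hc0
      apply Helper97.eq_zero_of_mulVec_eq_zero
      intro w
      have : w ∈ LinearMap.ker (Matrix.toLin' c) := by rw [h]; exact Submodule.mem_top
      rwa [LinearMap.mem_ker, Matrix.toLin'_apply] at this
  have hnt : Nontrivial C := by
    refine ⟨0, 1, ?_⟩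
    intro h
    have h2 : ((0 : C) : Matrix (Fin d) (Fin d) F) = ((1 : C) : Matrix (Fin d) (Fin d) F) := by rw [h]
    have h3 := congrFun (congrFun h2 0) 0
    simp at h3
  have hnzd : NoZeroDivisors C := by
    refine ⟨?_⟩
    intro a b hab'
    by_cases ha0 : a = 0
    · exact Or.inl ha0
    right
    have ha0' : (a : Matrix (Fin d) (Fin d) F) ≠ 0 := fun h => ha0 (Subtype.ext h)
    apply Subtype.ext
    apply Helper97.eq_zero_of_mulVec_eq_zero
    intro w
    apply hCinj _ a.2 ha0'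
    rw [Matrix.mulVec_mulVec]
    have : (a : Matrix (Fin d) (Fin d) F) * (b : Matrix (Fin d) (Fin d) F) = 0 := by
      have := congrArg Subtype.val hab'
      exact this
    rw [this, Matrix.zero_mulVec]
  have hdom : IsDomain C := NoZeroDivisors.to_isDomain C
  have hfield := Finite.isDomain_to_isField C
  have := hfield.mul_comm ⟨a, (hmemC a).mpr ha⟩ ⟨b, (hmemC b).mpr hb⟩
  exact congrArg Subtype.val this

/-- The blocks of a matrix commuting with `x ⊗ 1` commute with `x`. -/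
theorem block_comm {d k : ℕ} (x : Matrix (Fin d) (Fin d) F)
    (M : Matrix (Fin d × Fin k) (Fin d × Fin k) F)
    (hM : M * (x ⊗ₖ (1 : Matrix (Fin k) (Fin k) F)) = (x ⊗ₖ 1) * M) (j j' : Fin k) :
    (Matrix.of fun a a' => M (a, j) (a', j') : Matrix (Fin d) (Fin d) F) * x =
      x * (Matrix.of fun a a' => M (a, j) (a', j') : Matrix (Fin d) (Fin d) F) := by
  ext a a'
  have h1 := congrFun (congrFun hM (a, j)) (a', j')
  rw [mul_kron_one_apply, kron_one_mul_apply] at h1
  rw [Matrix.mul_apply, Matrix.mul_apply]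
  exact h1

/-- If `x` commutes with all blocks of `M` then `x ⊗ 1` commutes with `M`. -/
theorem comm_of_block_comm {d k : ℕ} (x : Matrix (Fin d) (Fin d) F)
    (M : Matrix (Fin d × Fin k) (Fin d × Fin k) F)
    (h : ∀ j j' : Fin k, (Matrix.of fun a a' => M (a, j) (a', j') : Matrix (Fin d) (Fin d) F) * x =
      x * (Matrix.of fun a a' => M (a, j) (a', j') : Matrix (Fin d) (Fin d) F)) :
    M * (x ⊗ₖ (1 : Matrix (Fin k) (Fin k) F)) = (x ⊗ₖ 1) * M := by
  ext ⟨a, j⟩ ⟨a', j'⟩
  rw [mul_kron_one_apply, kron_one_mul_apply]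
  have h1 := congrFun (congrFun (h j j') a) a'
  rw [Matrix.mul_apply, Matrix.mul_apply] at h1
  exact h1

/-- Tensor coordinates for a subgroup `N`: `N` acts as `ρ ⊗ 1` with `ρ` absolutely irreducible. -/
structure TensorData (N : Subgroup (GL (Fin n) F)) (d k : ℕ) (e : Fin n ≃ Fin d × Fin k)
    (P : GL (Fin n) F) (ρ : Matrix (Fin n) (Fin n) F → Matrix (Fin d) (Fin d) F) : Prop where
  hd : 0 < d
  hk : 0 < k
  eq : ∀ s ∈ matrixSet N, s = Helper98.conjReindex e P (ρ s ⊗ₖ (1 : Matrix (Fin k) (Fin k) F))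
  irr : ∀ W : Submodule F (Fin d → F), (∀ s ∈ matrixSet N, ∀ w ∈ W, ρ s *ᵥ w ∈ W) → W = ⊥ ∨ W = ⊤
  cent : ∀ M : Matrix (Fin d) (Fin d) F, (∀ s ∈ matrixSet N, M * ρ s = ρ s * M) →
    ∃ c : F, M = c • (1 : Matrix (Fin d) (Fin d) F)

/-- Tensor coordinates when the centre of the centraliser of `N` consists of scalars. -/
theorem tensorData_of_zcent_scalar [Fintype F] (hn : 0 < n) (H N : Subgroup (GL (Fin n) F))
    (hirr : ActsIrreducibly (matrixSet H)) (hNn : ∀ h ∈ H, ∀ x ∈ N, h * x * h⁻¹ ∈ N)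
    (hsc : ∀ k, ZCent (matrixSet N) k → ∃ c : F, k = c • (1 : Matrix (Fin n) (Fin n) F)) :
    ∃ (d k : ℕ) (e : Fin n ≃ Fin d × Fin k) (P : GL (Fin n) F)
      (ρ : Matrix (Fin n) (Fin n) F → Matrix (Fin d) (Fin d) F), TensorData N d k e P ρ := by
  classical
  have hne : NeZero n := ⟨hn.ne'⟩
  obtain ⟨T, hT⟩ : ∃ T, T = matrixSet N := ⟨_, rfl⟩
  rw [← hT] at hsc
  have hZ : ∀ M, ZCent T M → M ≠ 0 → ∀ v : Fin n → F, M *ᵥ v = 0 → v = 0 := by
    intro M hM hM0 v hv
    obtain ⟨c, rfl⟩ := hsc M hM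
    have hc : c ≠ 0 := by
      rintro rfl
      exact hM0 (zero_smul _ _)
    rw [Matrix.smul_mulVec, Matrix.one_mulVec] at hv
    exact (smul_eq_zero.mp hv).resolve_left hc
  have htop : (⊤ : Submodule F (Fin n → F)) ≠ ⊥ := by
    intro h
    have h1 : (Pi.single 0 1 : Fin n → F) ∈ (⊤ : Submodule F (Fin n → F)) := Submodule.mem_top
    rw [h] at h1
    have h2 := congrFun ((Submodule.mem_bot F).mp h1) 0
    simp at h2
  obtain ⟨U, -, hU⟩ := Helper97.exists_minInv (matrixSet N) ⊤ htop (Helper97.isInv_top _)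
  obtain ⟨-, hsup⟩ := Helper97.finrank_minInv_dvd H N hirr hNn U hU
  have hUg : ∀ g : H, Helper97.IsMinInv T
      (U.map (Matrix.toLin' ((g : GL (Fin n) F) : Matrix (Fin n) (Fin n) F))) := by
    intro g
    rw [hT]
    refine Helper97.isMinInv_map_of_normalizes N g ?_ (hNn g g.2) hU
    intro s hs
    have := hNn g⁻¹ (H.inv_mem g.2) s hs
    simpa using this
  obtain ⟨d, k, b, ρ, hd, hk, hact, hρirr⟩ := homog_coords hn T _ hUg hsup hZ
  obtain ⟨e, P, hconj⟩ := exists_conj_of_basis b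
  have heq : ∀ s ∈ T, s = Helper98.conjReindex e P (ρ s ⊗ₖ (1 : Matrix (Fin k) (Fin k) F)) := by
    intro s hs
    apply hconj
    rintro ⟨a, j⟩
    rw [hact s hs a j, Fintype.sum_prod_type]
    apply Finset.sum_congr rfl
    intro a' _
    rw [Finset.sum_eq_single j]
    · rw [Matrix.kronecker_apply, Matrix.one_apply_eq, mul_one]
    · intro j' _ hj'
      rw [Matrix.kronecker_apply, Matrix.one_apply_ne hj', mul_zero, zero_smul]
    · intro h; exact absurd (Finset.mem_univ _) h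
  have hDcomm : ∀ a b' : Matrix (Fin d) (Fin d) F, (∀ s ∈ T, a * ρ s = ρ s * a) →
      (∀ s ∈ T, b' * ρ s = ρ s * b') → a * b' = b' * a := by
    intro a b' ha hb
    apply schur_comm hd (ρ '' T)
    · intro W hW
      apply hρirr
      intro s hs w hw
      exact hW _ ⟨s, hs, rfl⟩ w hw
    · rintro _ ⟨s, hs, rfl⟩
      exact ha s hs
    · rintro _ ⟨s, hs, rfl⟩
      exact hb s hs
  have hcent : ∀ M : Matrix (Fin d) (Fin d) F, (∀ s ∈ T, M * ρ s = ρ s * M) →
      ∃ c : F, M = c • (1 : Matrix (Fin d) (Fin d) F) := by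
    intro x hx
    have hZC : ZCent T (Helper98.conjReindex e P (x ⊗ₖ (1 : Matrix (Fin k) (Fin k) F))) := by
      constructor
      · intro s hs
        rw [heq s hs, ← map_mul, ← map_mul, ← Matrix.mul_kronecker_mul, ← Matrix.mul_kronecker_mul, hx s hs]
      · intro c hc
        obtain ⟨c', rfl⟩ := conjReindex_surjective e P c
        rw [← map_mul, ← map_mul]
        congr 1
        symm
        apply comm_of_block_comm
        intro j j'
        symm
        apply hDcomm _ _ hx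
        intro s hs
        apply block_comm
        apply Helper98.conjReindex_injective e P
        rw [map_mul, map_mul, ← heq s hs]
        exact hc s hs
    obtain ⟨c, hc⟩ := hsc _ hZC
    refine ⟨c, ?_⟩
    apply kron_one_injective hk
    apply Helper98.conjReindex_injective e P
    rw [hc, Matrix.smul_kronecker, Matrix.one_kronecker_one, map_smul, map_one]
  refine ⟨d, k, e, P, ρ, hd, hk, ?_, ?_, ?_⟩
  · rw [← hT]; exact heq
  · rw [← hT]; exact hρirr
  · rw [← hT]; exact hcent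

/-- The general Clifford theorem: for `N` normalised by the irreducible group `H`, either `H`
preserves a decomposition, or `H` normalises a field of prime degree, or `N` has tensor
coordinates. -/
theorem general_clifford [Fintype F] (hn : 0 < n) (H N : Subgroup (GL (Fin n) F))
    (hirr : ActsIrreducibly (matrixSet H)) (hNn : ∀ h ∈ H, ∀ x ∈ N, h * x * h⁻¹ ∈ N) :
    (∃ (t m : ℕ) (D : Fin t → Submodule F (Fin n → F)),
      IsMDecomposition m D ∧ H ≤ decompositionStabilizer D) ∨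
    (∃ (r : ℕ) (K : Subalgebra F (Matrix (Fin n) (Fin n) F)), r.Prime ∧ IsFieldSubalgebra r K ∧
      H ≤ subalgebraNormalizer K) ∨
    (∃ (d k : ℕ) (e : Fin n ≃ Fin d × Fin k) (P : GL (Fin n) F)
      (ρ : Matrix (Fin n) (Fin n) F → Matrix (Fin d) (Fin d) F), TensorData N d k e P ρ) := by
  classical
  have hne : NeZero n := ⟨hn.ne'⟩
  obtain ⟨T, hT⟩ : ∃ T, T = matrixSet N := ⟨_, rfl⟩
  have hconj1 : ∀ g ∈ H, ∀ s ∈ T, (g : Matrix (Fin n) (Fin n) F) * s *
      ((g⁻¹ : GL (Fin n) F) : Matrix (Fin n) (Fin n) F) ∈ T := by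
    intro g hg
    rw [hT]
    exact matrixSet_conj N g (hNn g hg)
  have hconj2 : ∀ g ∈ H, ∀ s ∈ T, ((g⁻¹ : GL (Fin n) F) : Matrix (Fin n) (Fin n) F) * s *
      (g : Matrix (Fin n) (Fin n) F) ∈ T := by
    intro g hg
    rw [hT]
    have := matrixSet_conj N g⁻¹ (hNn g⁻¹ (H.inv_mem hg))
    simpa using this
  by_cases hsing : ∃ M, ZCent T M ∧ M ≠ 0 ∧ ∃ v : Fin n → F, v ≠ 0 ∧ M *ᵥ v = 0
  · left
    obtain ⟨M, hM, hM0, v, hv0, hMv⟩ := hsing
    exact Helper97.exists_decomp_of_comm_stable H hirr {M | ZCent T M}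
      (fun a ha b hb => ha.2 b hb.1)
      (fun g hg a ha => zcent_conj T g (hconj2 g hg) (hconj1 g hg) a ha)
      M hM hM0 v hv0 hMv
  have hZ : ∀ M, ZCent T M → M ≠ 0 → ∀ v : Fin n → F, M *ᵥ v = 0 → v = 0 := by
    intro M hM hM0 v hv
    by_contra hv0
    exact hsing ⟨M, hM, hM0, v, hv0, hv⟩
  have hFS := isFS_zc T hZ
  by_cases hns : ∃ k ∈ zc T, ∀ c : F, k ≠ c • (1 : Matrix (Fin n) (Fin n) F)
  · right; left
    obtain ⟨r, K₀, hr, hK₀, hle⟩ := exists_prime_subfield (zc T) hFS hns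
    refine ⟨r, K₀, hr, hK₀, ?_⟩
    have := le_normalizer_zc H N hNn
    rw [← hT] at this
    exact this.trans hle
  right; right
  apply tensorData_of_zcent_scalar hn H N hirr hNn
  rw [← hT]
  intro k hk
  by_contra hcon
  exact hns ⟨k, hk, fun c hc => hcon ⟨c, hc⟩⟩

/-! ### Consequences of tensor coordinates -/

/-- `x ↦ x ⊗ 1` as an algebra map. -/
noncomputable def kronL (F : Type*) [Field F] (d k : ℕ) :
    Matrix (Fin d) (Fin d) F →ₐ[F] Matrix (Fin d × Fin k) (Fin d × Fin k) F where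
  toFun m := m ⊗ₖ (1 : Matrix (Fin k) (Fin k) F)
  map_one' := Matrix.one_kronecker_one
  map_mul' x y := by
    rw [← Matrix.mul_kronecker_mul, mul_one]
  map_zero' := Matrix.zero_kronecker _
  map_add' x y := Matrix.add_kronecker _ _ _
  commutes' c := by
    rw [Algebra.algebraMap_eq_smul_one, Algebra.algebraMap_eq_smul_one, Matrix.smul_kronecker,
      Matrix.one_kronecker_one]

theorem kronL_apply {d k : ℕ} (m : Matrix (Fin d) (Fin d) F) :
    kronL F d k m = m ⊗ₖ (1 : Matrix (Fin k) (Fin k) F) := rfl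

/-- A subspace invariant under all matrices is trivial. -/
theorem eq_bot_or_top_of_all_inv (W : Submodule F (Fin n → F))
    (hW : ∀ (M : Matrix (Fin n) (Fin n) F), ∀ w ∈ W, M *ᵥ w ∈ W) : W = ⊥ ∨ W = ⊤ := by
  classical
  by_cases h : W = ⊥
  · exact Or.inl h
  right
  obtain ⟨w, hw, hw0⟩ := (Submodule.ne_bot_iff W).mp h
  obtain ⟨i, hi⟩ : ∃ i, w i ≠ 0 := by
    by_contra hcon
    apply hw0
    funext j
    by_contra hj
    exact hcon ⟨j, hj⟩
  rw [eq_top_iff]
  intro v _
  have h1 := hW (Matrix.of fun a b => if b = i then v a * (w i)⁻¹ else 0) w hw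
  have h2 : (Matrix.of fun a b => if b = i then v a * (w i)⁻¹ else 0 : Matrix (Fin n) (Fin n) F) *ᵥ w = v := by
    ext a
    rw [Matrix.mulVec, dotProduct, Finset.sum_eq_single i]
    · rw [Matrix.of_apply, if_pos rfl, mul_assoc, inv_mul_cancel₀ hi, mul_one]
    · intro b _ hb
      rw [Matrix.of_apply, if_neg hb, zero_mul]
    · intro h; exact absurd (Finset.mem_univ _) h
  rwa [h2] at h1

namespace TensorData

variable {N : Subgroup (GL (Fin n) F)} {d k : ℕ} {e : Fin n ≃ Fin d × Fin k} {P : GL (Fin n) F}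
  {ρ : Matrix (Fin n) (Fin n) F → Matrix (Fin d) (Fin d) F}

theorem card_eq (D : TensorData N d k e P ρ) : d * k = n := by
  have h := Fintype.card_congr e
  rw [Fintype.card_fin, Fintype.card_prod, Fintype.card_fin, Fintype.card_fin] at h
  exact h.symm

/-- The centraliser of `N` is `1 ⊗ M_k`. -/
theorem cent_eq (D : TensorData N d k e P ρ) (M : Matrix (Fin n) (Fin n) F)
    (hM : ∀ s ∈ matrixSet N, M * s = s * M) :
    ∃ Y : Matrix (Fin k) (Fin k) F,
      M = Helper98.conjReindex e P ((1 : Matrix (Fin d) (Fin d) F) ⊗ₖ Y) := by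
  obtain ⟨M', rfl⟩ := conjReindex_surjective e P M
  obtain ⟨Y, hY⟩ := comm_kron_one (ρ '' matrixSet N) (by
      intro x hx
      apply D.cent
      intro s hs
      exact hx _ ⟨s, hs, rfl⟩) M' (by
      rintro _ ⟨s, hs, rfl⟩
      apply Helper98.conjReindex_injective e P
      rw [map_mul, map_mul, ← D.eq s hs]
      exact hM s hs)
  exact ⟨Y, by rw [hY]⟩

theorem one_kron_comm (D : TensorData N d k e P ρ) (Y : Matrix (Fin k) (Fin k) F)
    (s : Matrix (Fin n) (Fin n) F) (hs : s ∈ matrixSet N) :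
    Helper98.conjReindex e P ((1 : Matrix (Fin d) (Fin d) F) ⊗ₖ Y) * s =
      s * Helper98.conjReindex e P ((1 : Matrix (Fin d) (Fin d) F) ⊗ₖ Y) := by
  have h := D.eq s hs
  calc Helper98.conjReindex e P ((1 : Matrix (Fin d) (Fin d) F) ⊗ₖ Y) * s
      = Helper98.conjReindex e P ((1 : Matrix (Fin d) (Fin d) F) ⊗ₖ Y) *
          Helper98.conjReindex e P (ρ s ⊗ₖ (1 : Matrix (Fin k) (Fin k) F)) := by rw [← h]
    _ = Helper98.conjReindex e P (ρ s ⊗ₖ (1 : Matrix (Fin k) (Fin k) F)) *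
          Helper98.conjReindex e P ((1 : Matrix (Fin d) (Fin d) F) ⊗ₖ Y) := by
        rw [← map_mul, ← map_mul, ← Matrix.mul_kronecker_mul, ← Matrix.mul_kronecker_mul, one_mul,
          mul_one, mul_one, one_mul]
    _ = s * Helper98.conjReindex e P ((1 : Matrix (Fin d) (Fin d) F) ⊗ₖ Y) := by rw [← h]

/-- Everything normalising `N` lies in the tensor product subgroup. -/
theorem normalizer_mem (D : TensorData N d k e P ρ) (h : GL (Fin n) F)
    (h1 : ∀ x ∈ N, h * x * h⁻¹ ∈ N) (h2 : ∀ x ∈ N, h⁻¹ * x * h ∈ N) :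
    h ∈ tensorProductSubgroup d k e P := by
  obtain ⟨g, hg⟩ := conjReindex_surjective e P (h : Matrix (Fin n) (Fin n) F)
  obtain ⟨ginv, hginv⟩ := conjReindex_surjective e P ((h⁻¹ : GL (Fin n) F) : Matrix (Fin n) (Fin n) F)
  have hg1 : g * ginv = 1 := by
    apply Helper98.conjReindex_injective e P
    rw [map_mul, hg, hginv, map_one, ← Units.val_mul, mul_inv_cancel, Units.val_one]
  have hg2 : ginv * g = 1 := by
    apply Helper98.conjReindex_injective e P
    rw [map_mul, hg, hginv, map_one, ← Units.val_mul, inv_mul_cancel, Units.val_one]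
  have hnorm : ∀ Y : Matrix (Fin k) (Fin k) F, ∃ Y' : Matrix (Fin k) (Fin k) F,
      g * ((1 : Matrix (Fin d) (Fin d) F) ⊗ₖ Y) = ((1 : Matrix (Fin d) (Fin d) F) ⊗ₖ Y') * g := by
    intro Y
    have hc : Cent (matrixSet N) ((h : Matrix (Fin n) (Fin n) F) *
        Helper98.conjReindex e P ((1 : Matrix (Fin d) (Fin d) F) ⊗ₖ Y) *
        ((h⁻¹ : GL (Fin n) F) : Matrix (Fin n) (Fin n) F)) := by
      apply cent_conj (matrixSet N) h
      · have := matrixSet_conj N h⁻¹ (by simpa using h2)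
        simpa using this
      · intro s hs
        exact D.one_kron_comm Y s hs
    obtain ⟨Y', hY'⟩ := D.cent_eq _ hc
    refine ⟨Y', ?_⟩
    apply Helper98.conjReindex_injective e P
    rw [map_mul, map_mul, hg, ← hY']
    simp only [mul_assoc]
    rw [← Units.val_mul, inv_mul_cancel, Units.val_one, mul_one]
  obtain ⟨a, b', hgab, ha, hb⟩ := eq_kron_of_normalizes D.hd D.hk g ginv hg1 hg2 hnorm
  exact mem_tensorProductSubgroup_of_eq e P h a b' ha hb (by rw [← hg, hgab])

theorem le_scalars_of_one (D : TensorData N d k e P ρ) (hd1 : d = 1) : N ≤ scalars (Fin n) F := by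
  subst hd1
  intro g hg
  rw [Helper97.scalar_mem_scalars_iff]
  have hs : (g : Matrix (Fin n) (Fin n) F) ∈ matrixSet N := Helper97.coe_mem_matrixSet hg
  refine ⟨ρ (g : Matrix (Fin n) (Fin n) F) 0 0, ?_⟩
  have h1 : ρ (g : Matrix (Fin n) (Fin n) F) =
      (ρ (g : Matrix (Fin n) (Fin n) F) 0 0) • (1 : Matrix (Fin 1) (Fin 1) F) := by
    ext i j
    fin_cases i; fin_cases j; simp
  have h2 := D.eq _ hs
  rw [h1, Matrix.smul_kronecker, Matrix.one_kronecker_one, map_smul, map_one] at h2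
  exact h2

theorem absIrred_image (D : TensorData N d k e P ρ) :
    ActsAbsolutelyIrreducibly (ρ '' matrixSet N) := by
  constructor
  · intro W hW
    apply D.irr
    intro s hs w hw
    have := hW _ ⟨s, hs, rfl⟩ (Submodule.mem_map_of_mem hw)
    rwa [Matrix.toLin'_apply] at this
  · intro M hM
    apply D.cent
    intro s hs
    exact hM _ ⟨s, hs, rfl⟩

/-- The algebra generated by `N` is `M_d ⊗ 1`. -/
theorem kron_mem_adjoin (D : TensorData N d k e P ρ) (x : Matrix (Fin d) (Fin d) F) :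
    Helper98.conjReindex e P (x ⊗ₖ (1 : Matrix (Fin k) (Fin k) F)) ∈
      Algebra.adjoin F (matrixSet N) := by
  have htop := adjoin_eq_top_of_absIrred _ D.absIrred_image
  have hx : x ∈ Algebra.adjoin F (ρ '' matrixSet N) := by rw [htop]; exact Algebra.mem_top
  induction hx using Algebra.adjoin_induction with
  | mem y hy =>
    obtain ⟨s, hs, rfl⟩ := hy
    rw [← D.eq s hs]
    exact Algebra.subset_adjoin hs
  | algebraMap c =>
    rw [Algebra.algebraMap_eq_smul_one, Matrix.smul_kronecker, Matrix.one_kronecker_one, map_smul,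
      map_one]
    exact Subalgebra.smul_mem _ (Subalgebra.one_mem _) c
  | add x y _ _ hx hy =>
    rw [Matrix.add_kronecker, map_add]
    exact Subalgebra.add_mem _ hx hy
  | mul x y _ _ hx hy =>
    have : (x * y) ⊗ₖ (1 : Matrix (Fin k) (Fin k) F) = (x ⊗ₖ 1) * (y ⊗ₖ 1) := by
      rw [← Matrix.mul_kronecker_mul, mul_one]
    rw [this, map_mul]
    exact Subalgebra.mul_mem _ hx hy

theorem adjoin_eq_range (D : TensorData N d k e P ρ) :
    Algebra.adjoin F (matrixSet N) = ((Helper98.conjReindex e P).comp (kronL F d k)).range := by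
  apply le_antisymm
  · apply Algebra.adjoin_le
    intro s hs
    exact ⟨ρ s, (D.eq s hs).symm⟩
  · rintro _ ⟨x, rfl⟩
    exact D.kron_mem_adjoin x

theorem absIrred_of_one (D : TensorData N d k e P ρ) (hk1 : k = 1) :
    ActsAbsolutelyIrreducibly (matrixSet N) := by
  subst hk1
  constructor
  · intro W hW
    have hinv := inv_adjoin (matrixSet N) W (Helper97.isInv_iff_map.mpr hW)
    apply eq_bot_or_top_of_all_inv
    intro M w hw
    obtain ⟨M', rfl⟩ := conjReindex_surjective e P M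
    have hM' : M' = (Matrix.of fun a a' => M' (a, 0) (a', 0) : Matrix (Fin d) (Fin d) F) ⊗ₖ
        (1 : Matrix (Fin 1) (Fin 1) F) := by
      ext ⟨a, j⟩ ⟨a', j'⟩
      fin_cases j; fin_cases j'
      simp
    rw [hM']
    exact hinv _ (D.kron_mem_adjoin _) w hw
  · intro M hM
    obtain ⟨Y, hY⟩ := D.cent_eq M hM
    obtain ⟨c, hc⟩ : ∃ c : F, Y = c • (1 : Matrix (Fin 1) (Fin 1) F) :=
      ⟨Y 0 0, by ext i j; fin_cases i; fin_cases j; simp⟩
    refine ⟨c, ?_⟩
    rw [hY, hc, Matrix.kronecker_smul, Matrix.one_kronecker_one, map_smul, map_one]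

end TensorData

end Cfsg.Agent.Helper96
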