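-- helper96 library: structure of a perfect minimal non-central normal subgroup (central product of conjugates).
import Cfsg.Agent.Helper97.GroupLemmas

set_option autoImplicit false

namespace Cfsg.Agent.Helper96

open Cfsg.Agent.Helper97
open scoped commutatorElement

variable {G : Type*} [Group G]

theorem cj_mul (a b : G) (S : Subgroup G) : cj (a * b) S = cj a (cj b S) := by
  ext x
  rw [mem_cj, mem_cj, mem_cj]
  have : (a * b)⁻¹ * x * (a * b) = b⁻¹ * (a⁻¹ * x * a) * b := by group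
  rw [this]

theorem cj_one (S : Subgroup G) : cj (1 : G) S = S := by
  ext x
  rw [mem_cj]
  simp

/-- A perfect minimal non-central `H`-normal subgroup `P` is either simple modulo the central
subgroup `Z`, or is generated by the `H`-conjugates of a perfect non-central `P`-normal subgroup `S`,
distinct conjugates commuting elementwise, with at least two conjugates. -/
theorem perfect_structure [Finite G] (Z H P : Subgroup G)
    (hZ : ∀ z ∈ Z, ∀ g : G, z * g = g * z)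
    (hPn : ∀ h ∈ H, ∀ x ∈ P, h * x * h⁻¹ ∈ P) (hPZ : ¬ P ≤ Z)
    (hPmin : ∀ N : Subgroup G, N ≤ P → (∀ h ∈ H, ∀ x ∈ N, h * x * h⁻¹ ∈ N) → N ≤ Z ∨ N = P)
    (hperf : ⁅P, P⁆ = P) :
    (∀ K : Subgroup G, K ≤ P → (∀ x ∈ P, ∀ k ∈ K, x * k * x⁻¹ ∈ K) → K ≤ Z ∨ K = P) ∨
    ∃ S : Subgroup G, S ≤ P ∧ (∀ x ∈ P, ∀ s ∈ S, x * s * x⁻¹ ∈ S) ∧ ¬ S ≤ Z ∧ ⁅S, S⁆ = S ∧
      (∃ h₀ ∈ H, cj h₀ S ≠ S) ∧
      (∀ h ∈ H, cj h S = S ∨ ∀ s ∈ S, ∀ t ∈ cj h S, s * t = t * s) ∧
      Subgroup.closure {x | ∃ h ∈ H, x ∈ cj h S} = P := by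
  classical
  by_cases hsimple : ∀ K : Subgroup G, K ≤ P → (∀ x ∈ P, ∀ k ∈ K, x * k * x⁻¹ ∈ K) → K ≤ Z ∨ K = P
  · exact Or.inl hsimple
  right
  obtain ⟨K, hKP, hKn, hKZ, hKne⟩ : ∃ K : Subgroup G, K ≤ P ∧ (∀ x ∈ P, ∀ k ∈ K, x * k * x⁻¹ ∈ K) ∧
      ¬ K ≤ Z ∧ K ≠ P := by
    by_contra hcon
    apply hsimple
    intro K hKP hKn
    by_contra hK
    rw [not_or] at hK
    exact hcon ⟨K, hKP, hKn, hK.1, hK.2⟩
  have hZn : Z.Normal := normal_of_central Z hZ
  let q : Subgroup G → Prop := fun S => S ≤ P ∧ (∀ x ∈ P, ∀ s ∈ S, x * s * x⁻¹ ∈ S) ∧ ¬ S ≤ Z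
  obtain ⟨S, hSK, hSmin⟩ := Finite.exists_le_minimal (p := q) ⟨hKP, hKn, hKZ⟩
  have hSP : S ≠ P := fun h => hKne (le_antisymm hKP (h ▸ hSK))
  have hqS : q S := hSmin.1
  have hqc : ∀ h ∈ H, ∀ S' : Subgroup G, q S' → q (cj h S') := by
    intro h hh S' hS'
    refine ⟨?_, ?_, ?_⟩
    · intro x hx
      rw [mem_cj] at hx
      have h1 := hPn h hh _ (hS'.1 hx)
      have h2 : h * (h⁻¹ * x * h) * h⁻¹ = x := by group
      rwa [h2] at h1
    · intro x hx y hy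
      rw [mem_cj] at hy ⊢
      have hx' : h⁻¹ * x * h ∈ P := by
        have := hPn h⁻¹ (H.inv_mem hh) x hx
        simpa using this
      have h1 := hS'.2.1 _ hx' _ hy
      have h2 : h⁻¹ * x * h * (h⁻¹ * y * h) * (h⁻¹ * x * h)⁻¹ = h⁻¹ * (x * y * x⁻¹) * h := by group
      rwa [h2] at h1
    · intro hle
      apply hS'.2.2
      intro s hs
      have h1 := hle (conj_mem_cj (h := h) hs)
      have h2 := hZn.conj_mem _ h1 h⁻¹
      have h3 : h⁻¹ * (h * s * h⁻¹) * h⁻¹⁻¹ = s := by group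
      rwa [h3] at h2
  have hminc : ∀ h ∈ H, ∀ S'' : Subgroup G, q S'' → S'' ≤ cj h S → cj h S ≤ S'' := by
    intro h hh S'' hS'' hle
    have h1 : cj h⁻¹ S'' ≤ S := by
      intro x hx
      rw [mem_cj, inv_inv] at hx
      have h2 := hle hx
      rw [mem_cj] at h2
      have h3 : h⁻¹ * (h * x * h⁻¹) * h = x := by group
      rwa [h3] at h2
    have h2 : S ≤ cj h⁻¹ S'' := hSmin.2 (hqc h⁻¹ (H.inv_mem hh) S'' hS'') h1
    intro x hx
    rw [mem_cj] at hx
    have h3 := h2 hx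
    rw [mem_cj, inv_inv] at h3
    have h4 : h * (h⁻¹ * x * h) * h⁻¹ = x := by group
    rwa [h4] at h3
  have hA : ∀ h ∈ H, cj h S = S ∨ ∀ s ∈ S, ∀ t ∈ cj h S, s * t * s⁻¹ * t⁻¹ ∈ Z := by
    intro h hh
    have hqh := hqc h hh S hqS
    by_cases hle : S ⊓ cj h S ≤ Z
    · right
      intro s hs t ht
      apply hle
      refine ⟨?_, ?_⟩
      · have h1 := hqS.2.1 t (hqh.1 ht) s⁻¹ (S.inv_mem hs)
        have h2 : s * t * s⁻¹ * t⁻¹ = s * (t * s⁻¹ * t⁻¹) := by group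
        rw [h2]
        exact S.mul_mem hs h1
      · have h1 := hqh.2.1 s (hqS.1 hs) t ht
        exact (cj h S).mul_mem h1 ((cj h S).inv_mem ht)
    · left
      have hq' : q (S ⊓ cj h S) := by
        refine ⟨inf_le_left.trans hqS.1, ?_, hle⟩
        intro x hx s hs
        exact ⟨hqS.2.1 x hx s hs.1, hqh.2.1 x hx s hs.2⟩
      have h1 : S ≤ cj h S := (hSmin.2 hq' inf_le_left).trans inf_le_right
      exact le_antisymm (hminc h hh S hqS h1) h1
  have hall' : ∃ h₀ ∈ H, cj h₀ S ≠ S := by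
    by_contra hc
    have hall : ∀ h ∈ H, cj h S = S := by
      intro h hh
      by_contra hne
      exact hc ⟨h, hh, hne⟩
    have hSn : ∀ h ∈ H, ∀ x ∈ S, h * x * h⁻¹ ∈ S := by
      intro h hh x hx
      have := conj_mem_cj (h := h) hx
      rwa [hall h hh] at this
    rcases hPmin S hqS.1 hSn with h | h
    · exact hqS.2.2 h
    · exact hSP h
  let U : Set G := {x | ∃ h ∈ H, x ∈ cj h S}
  have hMP : Subgroup.closure U ≤ P := by
    rw [Subgroup.closure_le]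
    rintro x ⟨h, hh, hx⟩
    exact (hqc h hh S hqS).1 hx
  have hMn : ∀ h ∈ H, ∀ x ∈ Subgroup.closure U, h * x * h⁻¹ ∈ Subgroup.closure U := by
    intro h hh x hx
    induction hx using Subgroup.closure_induction with
    | mem x hx =>
      obtain ⟨k, hk, hxk⟩ := hx
      apply Subgroup.subset_closure
      refine ⟨h * k, H.mul_mem hh hk, ?_⟩
      rw [mem_cj] at hxk ⊢
      have : (h * k)⁻¹ * (h * x * h⁻¹) * (h * k) = k⁻¹ * x * k := by group
      rw [this]; exact hxk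
    | one => simp
    | mul x y _ _ hx hy =>
      have : h * (x * y) * h⁻¹ = (h * x * h⁻¹) * (h * y * h⁻¹) := by group
      rw [this]; exact Subgroup.mul_mem _ hx hy
    | inv x _ hx =>
      have : h * x⁻¹ * h⁻¹ = (h * x * h⁻¹)⁻¹ := by group
      rw [this]; exact Subgroup.inv_mem _ hx
  have hSM : S ≤ Subgroup.closure U := by
    intro s hs
    apply Subgroup.subset_closure
    refine ⟨1, H.one_mem, ?_⟩
    rw [mem_cj]
    simpa using hs
  have hMZ : ¬ Subgroup.closure U ≤ Z := fun hle => hqS.2.2 (hSM.trans hle)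
  have hMeq : Subgroup.closure U = P := by
    rcases hPmin _ hMP hMn with h | h
    · exact absurd h hMZ
    · exact h
  have hCS : ⁅S, S⁆ ≤ S := by
    rw [Subgroup.commutator_le]
    intro a ha b hb
    rw [commutatorElement_def]
    exact S.mul_mem (S.mul_mem (S.mul_mem ha hb) (S.inv_mem ha)) (S.inv_mem hb)
  have hSperf : ⁅S, S⁆ = S := by
    by_contra hne
    have hZ' : ⁅S, S⁆ ≤ Z := by
      by_contra hnz
      have hq' : q ⁅S, S⁆ := ⟨hCS.trans hqS.1, commutator_normalized P S hqS.2.1, hnz⟩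
      exact hne (le_antisymm hCS (hSmin.2 hq' hCS))
    have hB : ∀ a ∈ S, ∀ b ∈ S, a * b * a⁻¹ * b⁻¹ ∈ Z := by
      intro a ha b hb
      have := hZ' (Subgroup.commutator_mem_commutator ha hb)
      rwa [commutatorElement_def] at this
    have hC : ∀ h ∈ H, ∀ h' ∈ H, ∀ x ∈ cj h S, ∀ y ∈ cj h' S, x * y * x⁻¹ * y⁻¹ ∈ Z := by
      intro h hh h' hh' x hx y hy
      rw [mem_cj] at hx hy
      have hk : h⁻¹ * h' ∈ H := H.mul_mem (H.inv_mem hh) hh'
      have hy' : h⁻¹ * y * h ∈ cj (h⁻¹ * h') S := by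
        rw [mem_cj]
        have : (h⁻¹ * h')⁻¹ * (h⁻¹ * y * h) * (h⁻¹ * h') = h'⁻¹ * y * h' := by group
        rw [this]; exact hy
      have h1 : (h⁻¹ * x * h) * (h⁻¹ * y * h) * (h⁻¹ * x * h)⁻¹ * (h⁻¹ * y * h)⁻¹ ∈ Z := by
        rcases hA _ hk with h2 | h2
        · rw [h2] at hy'
          exact hB _ hx _ hy'
        · exact h2 _ hx _ hy'
      have h2 := hZn.conj_mem _ h1 h
      have h3 : h * ((h⁻¹ * x * h) * (h⁻¹ * y * h) * (h⁻¹ * x * h)⁻¹ * (h⁻¹ * y * h)⁻¹) * h⁻¹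
          = x * y * x⁻¹ * y⁻¹ := by group
      rwa [h3] at h2
    have hUcomm : ∀ x ∈ U, ∀ y ∈ U, x * y * x⁻¹ * y⁻¹ ∈ Z := by
      rintro x ⟨h, hh, hx⟩ y ⟨h', hh', hy⟩
      exact hC h hh h' hh' x hx y hy
    have hcommM : ∀ x ∈ Subgroup.closure U, ∀ y ∈ Subgroup.closure U,
        Commute (x : G ⧸ Z) (y : G ⧸ Z) := by
      intro x hx y hy
      induction hx, hy using Subgroup.closure_induction₂ with
      | mem x y hx hy =>
        have h1 := (QuotientGroup.eq_one_iff (N := Z) (x * y * x⁻¹ * y⁻¹)).mpr (hUcomm x hx y hy)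
        have h2 : ((x * y * x⁻¹ * y⁻¹ : G) : G ⧸ Z)
            = (x : G ⧸ Z) * (y : G ⧸ Z) * (x : G ⧸ Z)⁻¹ * (y : G ⧸ Z)⁻¹ := rfl
        rw [h2] at h1
        have h3 : (x : G ⧸ Z) * (y : G ⧸ Z) = (y : G ⧸ Z) * (x : G ⧸ Z) := by
          calc (x : G ⧸ Z) * (y : G ⧸ Z)
              = ((x : G ⧸ Z) * (y : G ⧸ Z) * (x : G ⧸ Z)⁻¹ * (y : G ⧸ Z)⁻¹) * ((y : G ⧸ Z) * (x : G ⧸ Z)) := by
                group
            _ = (y : G ⧸ Z) * (x : G ⧸ Z) := by rw [h1, one_mul]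
        exact h3
      | one_left x _ => exact Commute.one_left _
      | one_right x _ => exact Commute.one_right _
      | mul_left x y z _ _ _ h1 h2 => exact Commute.mul_left h1 h2
      | mul_right y z x _ _ _ h1 h2 => exact Commute.mul_right h1 h2
      | inv_left x y _ _ h1 => exact Commute.inv_left h1
      | inv_right x y _ _ h1 => exact Commute.inv_right h1
    apply hPZ
    rw [← hperf, Subgroup.commutator_le]
    intro x hx y hy
    rw [← hMeq] at hx hy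
    have h1 := (hcommM x hx y hy).eq
    rw [← QuotientGroup.eq_one_iff (N := Z), commutatorElement_def]
    have h2 : ((x * y * x⁻¹ * y⁻¹ : G) : G ⧸ Z)
        = (x : G ⧸ Z) * (y : G ⧸ Z) * (x : G ⧸ Z)⁻¹ * (y : G ⧸ Z)⁻¹ := rfl
    rw [h2, h1]
    group
  refine ⟨S, hqS.1, hqS.2.1, hqS.2.2, hSperf, hall', ?_, hMeq⟩
  intro h hh
  rcases hA h hh with h1 | h1
  · exact Or.inl h1
  right
  have hTS : ⁅cj h S, S⁆ ≤ Z := by
    rw [Subgroup.commutator_le]
    intro t ht s hs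
    have h2 := Z.inv_mem (h1 s hs t ht)
    have h3 : (s * t * s⁻¹ * t⁻¹)⁻¹ = ⁅t, s⁆ := by rw [commutatorElement_def]; group
    rwa [h3] at h2
  have hST : ⁅S, cj h S⁆ ≤ Z := by
    rw [Subgroup.commutator_comm]; exact hTS
  have hZc : ∀ T : Subgroup G, Z ≤ Subgroup.centralizer (T : Set G) := by
    intro T z hz
    rw [Subgroup.mem_centralizer_iff]
    intro t _
    exact (hZ z hz t).symm
  have h1' : ⁅⁅S, cj h S⁆, S⁆ = ⊥ :=
    Subgroup.commutator_eq_bot_iff_le_centralizer.mpr (hST.trans (hZc _))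
  have h2' : ⁅⁅cj h S, S⁆, S⁆ = ⊥ :=
    Subgroup.commutator_eq_bot_iff_le_centralizer.mpr (hTS.trans (hZc _))
  have h3 : ⁅⁅S, S⁆, cj h S⁆ = ⊥ := Subgroup.commutator_commutator_eq_bot_of_rotate h1' h2'
  rw [hSperf] at h3
  intro s hs t ht
  have h4 := Subgroup.commutator_eq_bot_iff_le_centralizer.mp h3 hs
  exact (Subgroup.mem_centralizer_iff.mp h4 t ht).symm

end Cfsg.Agent.Helper96
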