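-- helper96 library: dimension count for a central product of conjugate tensor factors.
import Cfsg.Agent.Helper96.Clifford2
import Cfsg.Agent.Helper96.PerfectGroup

set_option autoImplicit false
open Cfsg Cfsg.Geo Matrix
open scoped Kronecker

namespace Cfsg.Agent.Helper96

variable {F : Type*} [Field F] {n : ℕ}

/-! ### Matrix units -/

/-- The map `(y_ab) ↦ ∑ E_ab y_ab` attached to a system of matrix units. -/
noncomputable def muMap {d : ℕ} (φ : Matrix (Fin d) (Fin d) F →ₐ[F] Matrix (Fin n) (Fin n) F)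
    (B : Subalgebra F (Matrix (Fin n) (Fin n) F)) :
    (Fin d × Fin d → B) →ₗ[F] Matrix (Fin n) (Fin n) F where
  toFun y := ∑ ab : Fin d × Fin d, φ (Matrix.single ab.1 ab.2 1) * (y ab : Matrix (Fin n) (Fin n) F)
  map_add' y y' := by
    rw [← Finset.sum_add_distrib]
    apply Finset.sum_congr rfl
    intro ab _
    rw [Pi.add_apply, Subalgebra.coe_add, mul_add]
  map_smul' c y := by
    rw [RingHom.id_apply, Finset.smul_sum]
    apply Finset.sum_congr rfl
    intro ab _
    rw [Pi.smul_apply, Subalgebra.coe_smul, Matrix.mul_smul]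

theorem muMap_apply {d : ℕ} (φ : Matrix (Fin d) (Fin d) F →ₐ[F] Matrix (Fin n) (Fin n) F)
    (B : Subalgebra F (Matrix (Fin n) (Fin n) F)) (y : Fin d × Fin d → B) :
    muMap φ B y = ∑ ab : Fin d × Fin d, φ (Matrix.single ab.1 ab.2 1) * (y ab : Matrix (Fin n) (Fin n) F) :=
  rfl

theorem mu_mul_same {d : ℕ} (φ : Matrix (Fin d) (Fin d) F →ₐ[F] Matrix (Fin n) (Fin n) F)
    (a b c : Fin d) : φ (Matrix.single a b 1) * φ (Matrix.single b c 1) = φ (Matrix.single a c 1) := by
  rw [← map_mul, Matrix.single_mul_single_same, mul_one]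

theorem mu_mul_ne {d : ℕ} (φ : Matrix (Fin d) (Fin d) F →ₐ[F] Matrix (Fin n) (Fin n) F)
    (a b b' c : Fin d) (h : b ≠ b') : φ (Matrix.single a b 1) * φ (Matrix.single b' c 1) = 0 := by
  rw [← map_mul, Matrix.single_mul_single_of_ne _ _ _ _ h, map_zero]

theorem mu_sum {d : ℕ} (φ : Matrix (Fin d) (Fin d) F →ₐ[F] Matrix (Fin n) (Fin n) F) :
    ∑ c : Fin d, φ (Matrix.single c c 1) = 1 := by
  rw [← map_sum, Matrix.sum_single_one, map_one]

theorem muMap_injective {d : ℕ} (φ : Matrix (Fin d) (Fin d) F →ₐ[F] Matrix (Fin n) (Fin n) F)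
    (B : Subalgebra F (Matrix (Fin n) (Fin n) F))
    (hcomm : ∀ x, ∀ y ∈ B, φ x * y = y * φ x) : Function.Injective (muMap φ B) := by
  classical
  have key : ∀ (y : Fin d × Fin d → B) (a' b' : Fin d),
      ∑ c : Fin d, φ (Matrix.single c a' 1) * muMap φ B y * φ (Matrix.single b' c 1) =
        (y (a', b') : Matrix (Fin n) (Fin n) F) := by
    intro y a' b'
    have h1 : ∀ c : Fin d, φ (Matrix.single c a' 1) * muMap φ B y * φ (Matrix.single b' c 1) =
        φ (Matrix.single c c 1) * (y (a', b') : Matrix (Fin n) (Fin n) F) := by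
      intro c
      rw [muMap_apply, Finset.mul_sum, Finset.sum_mul, Finset.sum_eq_single (a', b')]
      · rw [← mul_assoc, mu_mul_same, mul_assoc, ← hcomm _ _ (y (a', b')).2, ← mul_assoc, mu_mul_same]
      · rintro ⟨a, b⟩ _ hab
        by_cases ha : a = a'
        · subst ha
          have hb : b ≠ b' := fun hb => hab (by rw [hb])
          rw [← mul_assoc, mu_mul_same, mul_assoc, ← hcomm _ _ (y (a, b)).2, ← mul_assoc,
            mu_mul_ne φ c b b' c hb, zero_mul]
        · rw [← mul_assoc, mu_mul_ne φ c a' a b (Ne.symm ha), zero_mul, zero_mul]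
      · intro h; exact absurd (Finset.mem_univ _) h
    rw [Finset.sum_congr rfl (fun c _ => h1 c), ← Finset.sum_mul, mu_sum, one_mul]
  intro y y' h
  funext ab
  obtain ⟨a', b'⟩ := ab
  apply Subtype.ext
  rw [← key y a' b', ← key y' a' b', h]

theorem mu_term_mem {d : ℕ} (φ : Matrix (Fin d) (Fin d) F →ₐ[F] Matrix (Fin n) (Fin n) F)
    (B : Subalgebra F (Matrix (Fin n) (Fin n) F)) (a b : Fin d) (z : Matrix (Fin n) (Fin n) F)
    (hz : z ∈ B) : φ (Matrix.single a b 1) * z ∈ LinearMap.range (muMap φ B) := by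
  classical
  refine ⟨Pi.single (a, b) ⟨z, hz⟩, ?_⟩
  rw [muMap_apply, Finset.sum_eq_single (a, b)]
  · rw [Pi.single_eq_same]
  · intro ab _ hab
    rw [Pi.single_eq_of_ne hab, Subalgebra.coe_zero, mul_zero]
  · intro h; exact absurd (Finset.mem_univ _) h

theorem muMap_range {d : ℕ} (φ : Matrix (Fin d) (Fin d) F →ₐ[F] Matrix (Fin n) (Fin n) F)
    (B : Subalgebra F (Matrix (Fin n) (Fin n) F))
    (hcomm : ∀ x, ∀ y ∈ B, φ x * y = y * φ x) :
    LinearMap.range (muMap φ B) = Subalgebra.toSubmodule (φ.range ⊔ B) := by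
  classical
  apply le_antisymm
  · rintro _ ⟨y, rfl⟩
    rw [muMap_apply]
    apply Submodule.sum_mem
    intro ab _
    apply Subalgebra.mul_mem
    · exact (le_sup_left : φ.range ≤ φ.range ⊔ B) ⟨_, rfl⟩
    · exact (le_sup_right : B ≤ φ.range ⊔ B) (y ab).2
  · have hB : ∀ z ∈ B, z ∈ LinearMap.range (muMap φ B) := by
      intro z hz
      have : z = ∑ c : Fin d, φ (Matrix.single c c 1) * z := by
        rw [← Finset.sum_mul, mu_sum, one_mul]
      rw [this]
      apply Submodule.sum_mem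
      intro c _
      exact mu_term_mem φ B c c z hz
    have hφ : ∀ m : Matrix (Fin d) (Fin d) F, φ m ∈ LinearMap.range (muMap φ B) := by
      intro m
      have h1 : m = ∑ a, ∑ b, Matrix.single a b (m a b) := Matrix.matrix_eq_sum_single m
      rw [h1, map_sum]
      apply Submodule.sum_mem
      intro a _
      rw [map_sum]
      apply Submodule.sum_mem
      intro b _
      have h2 : φ (Matrix.single a b (m a b)) = φ (Matrix.single a b 1) *
          (m a b • (1 : Matrix (Fin n) (Fin n) F)) := by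
        rw [Matrix.mul_smul, mul_one, ← map_smul, Matrix.smul_single, smul_eq_mul, mul_one]
      rw [h2]
      exact mu_term_mem φ B a b _ (Subalgebra.smul_mem _ (Subalgebra.one_mem _) _)
    have hmul : ∀ u ∈ LinearMap.range (muMap φ B), ∀ v ∈ LinearMap.range (muMap φ B),
        u * v ∈ LinearMap.range (muMap φ B) := by
      rintro _ ⟨y, rfl⟩ _ ⟨y', rfl⟩
      rw [muMap_apply, muMap_apply, Finset.sum_mul]
      apply Submodule.sum_mem
      intro ab _
      rw [Finset.mul_sum]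
      apply Submodule.sum_mem
      intro ab' _
      have h1 : φ (Matrix.single ab.1 ab.2 1) * (y ab : Matrix (Fin n) (Fin n) F) *
          (φ (Matrix.single ab'.1 ab'.2 1) * (y' ab' : Matrix (Fin n) (Fin n) F)) =
          φ (Matrix.single ab.1 ab.2 1) * φ (Matrix.single ab'.1 ab'.2 1) *
            ((y ab : Matrix (Fin n) (Fin n) F) * (y' ab' : Matrix (Fin n) (Fin n) F)) := by
        rw [mul_assoc, ← mul_assoc (y ab : Matrix (Fin n) (Fin n) F), ← hcomm _ _ (y ab).2]
        simp only [mul_assoc]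
      rw [h1]
      by_cases hb : ab.2 = ab'.1
      · rw [hb, mu_mul_same]
        exact mu_term_mem φ B _ _ _ (Subalgebra.mul_mem _ (y ab).2 (y' ab').2)
      · rw [mu_mul_ne φ _ _ _ _ hb, zero_mul]
        exact Submodule.zero_mem _
    intro x hx
    have hx' : x ∈ Algebra.adjoin F ((φ.range : Set (Matrix (Fin n) (Fin n) F)) ∪ B) := by
      rw [Algebra.adjoin_union, Algebra.adjoin_eq, Algebra.adjoin_eq]
      exact hx
    induction hx' using Algebra.adjoin_induction with
    | mem z hz =>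
      rcases hz with ⟨m, rfl⟩ | hz
      · exact hφ m
      · exact hB z hz
    | algebraMap c => exact hB _ (Subalgebra.algebraMap_mem _ c)
    | add u v hu hv hu' hv' =>
      have hu2 : u ∈ φ.range ⊔ B := by
        rw [← Algebra.adjoin_eq φ.range, ← Algebra.adjoin_eq B, ← Algebra.adjoin_union]; exact hu
      have hv2 : v ∈ φ.range ⊔ B := by
        rw [← Algebra.adjoin_eq φ.range, ← Algebra.adjoin_eq B, ← Algebra.adjoin_union]; exact hv
      exact Submodule.add_mem _ (hu' hu2) (hv' hv2)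
    | mul u v hu hv hu' hv' =>
      have hu2 : u ∈ φ.range ⊔ B := by
        rw [← Algebra.adjoin_eq φ.range, ← Algebra.adjoin_eq B, ← Algebra.adjoin_union]; exact hu
      have hv2 : v ∈ φ.range ⊔ B := by
        rw [← Algebra.adjoin_eq φ.range, ← Algebra.adjoin_eq B, ← Algebra.adjoin_union]; exact hv
      exact hmul _ (hu' hu2) _ (hv' hv2)

/-- Matrix units: if `B` commutes with the image of `φ : M_d(F) → M_n(F)`, the subalgebra generated by
the image and `B` has dimension `d² · dim B`. -/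
theorem finrank_range_sup {d : ℕ} (φ : Matrix (Fin d) (Fin d) F →ₐ[F] Matrix (Fin n) (Fin n) F)
    (B : Subalgebra F (Matrix (Fin n) (Fin n) F))
    (hcomm : ∀ x, ∀ y ∈ B, φ x * y = y * φ x) :
    Module.finrank F ↥(φ.range ⊔ B) = d * d * Module.finrank F B := by
  rw [← Subalgebra.finrank_toSubmodule, ← muMap_range φ B hcomm,
    LinearMap.finrank_range_of_inj (muMap_injective φ B hcomm), Module.finrank_pi_fintype,
    Finset.sum_const, Finset.card_univ, Fintype.card_prod, Fintype.card_fin, smul_eq_mul]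

/-! ### Conjugates of tensor coordinates -/

theorem conjReindex_mul {κ : Type} [Fintype κ] [DecidableEq κ] (e : Fin n ≃ κ)
    (h P : GL (Fin n) F) (X : Matrix κ κ F) :
    Helper98.conjReindex e (h * P) X = (h : Matrix (Fin n) (Fin n) F) * Helper98.conjReindex e P X *
      ((h⁻¹ : GL (Fin n) F) : Matrix (Fin n) (Fin n) F) := by
  rw [Helper98.conjReindex_apply, Helper98.conjReindex_apply, Units.val_mul, _root_.mul_inv_rev, Units.val_mul]
  simp only [mul_assoc]

theorem mem_matrixSet_cj {S : Subgroup (GL (Fin n) F)} {h : GL (Fin n) F}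
    {s : Matrix (Fin n) (Fin n) F} (hs : s ∈ matrixSet (Helper97.cj h S)) :
    ((h⁻¹ : GL (Fin n) F) : Matrix (Fin n) (Fin n) F) * s * (h : Matrix (Fin n) (Fin n) F) ∈ matrixSet S := by
  obtain ⟨x, hx, rfl⟩ := hs
  have hx' : x ∈ Helper97.cj h S := hx
  rw [Helper97.mem_cj] at hx'
  exact ⟨h⁻¹ * x * h, hx', by
    show ((h⁻¹ * x * h : GL (Fin n) F) : Matrix (Fin n) (Fin n) F) = _
    rw [Units.val_mul, Units.val_mul]⟩

theorem conj_mem_matrixSet_cj {S : Subgroup (GL (Fin n) F)} (h : GL (Fin n) F)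
    {s : Matrix (Fin n) (Fin n) F} (hs : s ∈ matrixSet S) :
    (h : Matrix (Fin n) (Fin n) F) * s * ((h⁻¹ : GL (Fin n) F) : Matrix (Fin n) (Fin n) F) ∈
      matrixSet (Helper97.cj h S) := by
  obtain ⟨x, hx, rfl⟩ := hs
  exact ⟨h * x * h⁻¹, Helper97.conj_mem_cj hx, by
    show ((h * x * h⁻¹ : GL (Fin n) F) : Matrix (Fin n) (Fin n) F) = _
    rw [Units.val_mul, Units.val_mul]⟩

theorem val_inv_conj_cancel (h : GL (Fin n) F) (s : Matrix (Fin n) (Fin n) F) :
    ((h⁻¹ : GL (Fin n) F) : Matrix (Fin n) (Fin n) F) * ((h : Matrix (Fin n) (Fin n) F) * s *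
      ((h⁻¹ : GL (Fin n) F) : Matrix (Fin n) (Fin n) F)) * (h : Matrix (Fin n) (Fin n) F) = s := by
  have h1 : ((h⁻¹ : GL (Fin n) F) : Matrix (Fin n) (Fin n) F) * (h : Matrix (Fin n) (Fin n) F) = 1 := by
    rw [← Units.val_mul, inv_mul_cancel, Units.val_one]
  calc ((h⁻¹ : GL (Fin n) F) : Matrix (Fin n) (Fin n) F) * ((h : Matrix (Fin n) (Fin n) F) * s *
      ((h⁻¹ : GL (Fin n) F) : Matrix (Fin n) (Fin n) F)) * (h : Matrix (Fin n) (Fin n) F)
      = (((h⁻¹ : GL (Fin n) F) : Matrix (Fin n) (Fin n) F) * (h : Matrix (Fin n) (Fin n) F)) * s *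
        (((h⁻¹ : GL (Fin n) F) : Matrix (Fin n) (Fin n) F) * (h : Matrix (Fin n) (Fin n) F)) := by
        simp only [mul_assoc]
    _ = s := by rw [h1, one_mul, mul_one]

theorem val_conj_inv_cancel (h : GL (Fin n) F) (s : Matrix (Fin n) (Fin n) F) :
    (h : Matrix (Fin n) (Fin n) F) * (((h⁻¹ : GL (Fin n) F) : Matrix (Fin n) (Fin n) F) * s *
      (h : Matrix (Fin n) (Fin n) F)) * ((h⁻¹ : GL (Fin n) F) : Matrix (Fin n) (Fin n) F) = s := by
  have h1 : (h : Matrix (Fin n) (Fin n) F) * ((h⁻¹ : GL (Fin n) F) : Matrix (Fin n) (Fin n) F) = 1 := by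
    rw [← Units.val_mul, mul_inv_cancel, Units.val_one]
  calc (h : Matrix (Fin n) (Fin n) F) * (((h⁻¹ : GL (Fin n) F) : Matrix (Fin n) (Fin n) F) * s *
      (h : Matrix (Fin n) (Fin n) F)) * ((h⁻¹ : GL (Fin n) F) : Matrix (Fin n) (Fin n) F)
      = ((h : Matrix (Fin n) (Fin n) F) * ((h⁻¹ : GL (Fin n) F) : Matrix (Fin n) (Fin n) F)) * s *
        ((h : Matrix (Fin n) (Fin n) F) * ((h⁻¹ : GL (Fin n) F) : Matrix (Fin n) (Fin n) F)) := by
        simp only [mul_assoc]
    _ = s := by rw [h1, one_mul, mul_one]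

/-- Tensor coordinates of a conjugate. -/
theorem TensorData.conj {S : Subgroup (GL (Fin n) F)} {d k : ℕ} {e : Fin n ≃ Fin d × Fin k}
    {P : GL (Fin n) F} {ρ : Matrix (Fin n) (Fin n) F → Matrix (Fin d) (Fin d) F}
    (D : TensorData S d k e P ρ) (h : GL (Fin n) F) :
    TensorData (Helper97.cj h S) d k e (h * P)
      (fun s => ρ (((h⁻¹ : GL (Fin n) F) : Matrix (Fin n) (Fin n) F) * s * (h : Matrix (Fin n) (Fin n) F))) where
  hd := D.hd
  hk := D.hk
  eq := by
    intro s hs
    have h1 := D.eq _ (mem_matrixSet_cj hs)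
    rw [conjReindex_mul, ← h1, val_conj_inv_cancel]
  irr := by
    intro W hW
    apply D.irr
    intro s hs w hw
    have h1 := hW _ (conj_mem_matrixSet_cj h hs) w hw
    simp only [val_inv_conj_cancel] at h1
    exact h1
  cent := by
    intro M hM
    apply D.cent
    intro s hs
    have h1 := hM _ (conj_mem_matrixSet_cj h hs)
    simp only [val_inv_conj_cancel] at h1
    exact h1

/-! ### The dimension count -/

/-- The algebra generated by a finite set of subgroups. -/
noncomputable def algOf (𝒯 : Finset (Subgroup (GL (Fin n) F))) :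
    Subalgebra F (Matrix (Fin n) (Fin n) F) :=
  Algebra.adjoin F (⋃ S' ∈ 𝒯, matrixSet S')

theorem finrank_algOf [NeZero n] (H S : Subgroup (GL (Fin n) F)) {d k : ℕ} {e : Fin n ≃ Fin d × Fin k}
    {P : GL (Fin n) F} {ρ : Matrix (Fin n) (Fin n) F → Matrix (Fin d) (Fin d) F}
    (D : TensorData S d k e P ρ)
    (hcomm : ∀ h ∈ H, Helper97.cj h S = S ∨ ∀ s ∈ S, ∀ t ∈ Helper97.cj h S, s * t = t * s)
    (𝒯 : Finset (Subgroup (GL (Fin n) F))) (h𝒯 : ∀ S' ∈ 𝒯, ∃ h ∈ H, S' = Helper97.cj h S) :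
    Module.finrank F (algOf 𝒯) = (d * d) ^ 𝒯.card := by
  classical
  induction 𝒯 using Finset.induction_on with
  | empty =>
    have h1 : algOf (∅ : Finset (Subgroup (GL (Fin n) F))) = ⊥ := by
      unfold algOf
      simp
    rw [h1, Subalgebra.finrank_bot, Finset.card_empty, pow_zero]
  | insert S₁ 𝒯 hS₁ ih =>
    obtain ⟨h₁, hh₁, rfl⟩ := h𝒯 _ (Finset.mem_insert_self _ _)
    have ih' := ih (fun S' hS' => h𝒯 S' (Finset.mem_insert_of_mem hS'))
    have D₁ := D.conj h₁
    have hrange := D₁.adjoin_eq_range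
    have h1 : algOf (insert (Helper97.cj h₁ S) 𝒯) =
        ((Helper98.conjReindex e (h₁ * P)).comp (kronL F d k)).range ⊔ algOf 𝒯 := by
      unfold algOf
      rw [Finset.set_biUnion_insert, Algebra.adjoin_union, hrange]
    -- generators commute
    have hgen : ∀ s₁ ∈ Helper97.cj h₁ S, ∀ S' ∈ 𝒯, ∀ s' ∈ S', s₁ * s' = s' * s₁ := by
      intro s₁ hs₁ S' hS' s' hs'
      obtain ⟨h', hh', rfl⟩ := h𝒯 _ (Finset.mem_insert_of_mem hS')
      have hk : h₁⁻¹ * h' ∈ H := H.mul_mem (H.inv_mem hh₁) hh'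
      rcases hcomm _ hk with h2 | h2
      · exfalso
        apply hS₁
        have h3 : Helper97.cj h' S = Helper97.cj h₁ S := by
          have h4 : h' = h₁ * (h₁⁻¹ * h') := by group
          rw [h4, cj_mul, h2]
        rw [← h3]
        exact hS'
      · rw [Helper97.mem_cj] at hs₁
        have h3 : h₁⁻¹ * s' * h₁ ∈ Helper97.cj (h₁⁻¹ * h') S := by
          rw [Helper97.mem_cj] at hs' ⊢
          have : (h₁⁻¹ * h')⁻¹ * (h₁⁻¹ * s' * h₁) * (h₁⁻¹ * h') = h'⁻¹ * s' * h' := by group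
          rw [this]; exact hs'
        have h4 := h2 _ hs₁ _ h3
        have h5 : s₁ * s' = h₁ * ((h₁⁻¹ * s₁ * h₁) * (h₁⁻¹ * s' * h₁)) * h₁⁻¹ := by group
        rw [h5, h4]
        group
    have hle1 : algOf 𝒯 ≤ Subalgebra.centralizer F (matrixSet (Helper97.cj h₁ S)) := by
      apply Algebra.adjoin_le
      intro y hy
      rw [Set.mem_iUnion₂] at hy
      obtain ⟨S', hS', s', hs', rfl⟩ := hy
      rw [SetLike.mem_coe, Subalgebra.mem_centralizer_iff]
      rintro _ ⟨s₁, hs₁, rfl⟩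
      rw [← Units.val_mul, ← Units.val_mul, hgen s₁ hs₁ S' hS' s' hs']
    have hc : ∀ x, ∀ y ∈ algOf 𝒯,
        ((Helper98.conjReindex e (h₁ * P)).comp (kronL F d k)) x * y =
          y * ((Helper98.conjReindex e (h₁ * P)).comp (kronL F d k)) x := by
      intro x y hy
      have hy' := hle1 hy
      have h2 : Algebra.adjoin F (matrixSet (Helper97.cj h₁ S)) ≤ Subalgebra.centralizer F {y} := by
        apply Algebra.adjoin_le
        intro s hs
        rw [SetLike.mem_coe, Subalgebra.mem_centralizer_iff]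
        intro g hg
        rw [Set.mem_singleton_iff] at hg
        subst hg
        exact ((Subalgebra.mem_centralizer_iff F).mp hy' s hs).symm
      have h3 : ((Helper98.conjReindex e (h₁ * P)).comp (kronL F d k)) x ∈
          Subalgebra.centralizer F {y} := by
        apply h2
        rw [hrange]
        exact ⟨x, rfl⟩
      exact ((Subalgebra.mem_centralizer_iff F).mp h3 y rfl).symm
    rw [h1, finrank_range_sup _ _ hc, ih', Finset.card_insert_of_notMem hS₁, pow_succ, mul_comm]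

/-- The dimension count: if the absolutely irreducible group `P` is generated by the `H`-conjugates
of `S` (at least two, distinct ones commuting), and `S` has tensor coordinates with first factor of
dimension `d`, then `n = d ^ t` with `t ≥ 2`. -/
theorem eq_pow_of_central_product [NeZero n] [Finite F] (H P S : Subgroup (GL (Fin n) F)) {d k : ℕ}
    {e : Fin n ≃ Fin d × Fin k} {Pm : GL (Fin n) F}
    {ρ : Matrix (Fin n) (Fin n) F → Matrix (Fin d) (Fin d) F}
    (D : TensorData S d k e Pm ρ)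
    (habs : ActsAbsolutelyIrreducibly (matrixSet P))
    (hne : ∃ h₀ ∈ H, Helper97.cj h₀ S ≠ S)
    (hcomm : ∀ h ∈ H, Helper97.cj h S = S ∨ ∀ s ∈ S, ∀ t ∈ Helper97.cj h S, s * t = t * s)
    (hgen : Subgroup.closure {x | ∃ h ∈ H, x ∈ Helper97.cj h S} = P) :
    ∃ t : ℕ, 2 ≤ t ∧ n = d ^ t := by
  classical
  have hfin : Fintype H := Fintype.ofFinite H
  obtain ⟨𝒮, h𝒮⟩ : ∃ 𝒮 : Finset (Subgroup (GL (Fin n) F)),
      𝒮 = Finset.univ.image (fun h : H => Helper97.cj (h : GL (Fin n) F) S) := ⟨_, rfl⟩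
  have hmem : ∀ S', S' ∈ 𝒮 ↔ ∃ h ∈ H, S' = Helper97.cj h S := by
    intro S'
    rw [h𝒮, Finset.mem_image]
    constructor
    · rintro ⟨h, -, rfl⟩
      exact ⟨h, h.2, rfl⟩
    · rintro ⟨h, hh, rfl⟩
      exact ⟨⟨h, hh⟩, Finset.mem_univ _, rfl⟩
  have hcount := finrank_algOf H S D hcomm 𝒮 (fun S' hS' => (hmem S').mp hS')
  have hcard : 2 ≤ 𝒮.card := by
    obtain ⟨h₀, hh₀, hne'⟩ := hne
    apply Finset.one_lt_card.mpr
    exact ⟨Helper97.cj h₀ S, (hmem _).mpr ⟨h₀, hh₀, rfl⟩, S,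
      (hmem _).mpr ⟨1, H.one_mem, (cj_one S).symm⟩, hne'⟩
  have key : ∀ x ∈ Subgroup.closure {x | ∃ h ∈ H, x ∈ Helper97.cj h S},
      (x : Matrix (Fin n) (Fin n) F) ∈ algOf 𝒮 ∧
        ((x⁻¹ : GL (Fin n) F) : Matrix (Fin n) (Fin n) F) ∈ algOf 𝒮 := by
    intro x hx'
    induction hx' using Subgroup.closure_induction with
    | mem y hy =>
      obtain ⟨h, hh, hy'⟩ := hy
      constructor
      · apply Algebra.subset_adjoin
        rw [Set.mem_iUnion₂]
        exact ⟨Helper97.cj h S, (hmem _).mpr ⟨h, hh, rfl⟩, y, hy', rfl⟩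
      · apply Algebra.subset_adjoin
        rw [Set.mem_iUnion₂]
        exact ⟨Helper97.cj h S, (hmem _).mpr ⟨h, hh, rfl⟩, y⁻¹, Subgroup.inv_mem _ hy', rfl⟩
    | one =>
      rw [inv_one, Units.val_one]
      exact ⟨Subalgebra.one_mem _, Subalgebra.one_mem _⟩
    | mul y z _ _ hy hz =>
      rw [_root_.mul_inv_rev, Units.val_mul, Units.val_mul]
      exact ⟨Subalgebra.mul_mem _ hy.1 hz.1, Subalgebra.mul_mem _ hz.2 hy.2⟩
    | inv y _ hy =>
      rw [inv_inv]
      exact ⟨hy.2, hy.1⟩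
  have htop : algOf 𝒮 = ⊤ := by
    rw [eq_top_iff, ← adjoin_eq_top_of_absIrred _ habs]
    apply Algebra.adjoin_le
    rintro _ ⟨x, hx, rfl⟩
    exact (key x (by rw [hgen]; exact hx)).1
  have hfr : Module.finrank F (algOf 𝒮) = n * n := by
    rw [htop, (Subalgebra.topEquiv (R := F) (A := Matrix (Fin n) (Fin n) F)).toLinearEquiv.finrank_eq,
      Module.finrank_matrix, Fintype.card_fin, Module.finrank_self, mul_one]
  refine ⟨𝒮.card, hcard, ?_⟩
  have h1 : n ^ 2 = (d ^ 𝒮.card) ^ 2 := by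
    rw [sq, ← hfr, hcount, ← sq, ← pow_mul, ← pow_mul, mul_comm]
  exact Nat.pow_left_injective (by norm_num : (2 : ℕ) ≠ 0) h1

end Cfsg.Agent.Helper96
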