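-- helper96 library: small-field exceptions (lines and planes over small fields, 2 ⊗ k over F_2), tensor subgroups.
import Cfsg.Agent.Helper96.Clifford2

set_option autoImplicit false
open Cfsg Cfsg.Geo Matrix
open scoped Kronecker

namespace Cfsg.Agent.Helper96

variable {F : Type*} [Field F] {n : ℕ}

/-! ### Lines over the field with two elements -/

theorem small_two' [Fintype F] (hn : 2 ≤ n) (hq : Fintype.card F = 2) (H : Subgroup (GL (Fin n) F))
    (D : Fin n → Submodule F (Fin n → F)) (hD : IsMDecomposition 1 D)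
    (hH : H ≤ decompositionStabilizer D) :
    ∃ W : Submodule F (Fin n → F), W ≠ ⊥ ∧ W ≠ ⊤ ∧ H ≤ subspaceStabilizer W := by
  classical
  have hn0 : NeZero n := ⟨by omega⟩
  obtain ⟨b, hb⟩ := Helper97.exists_adapted_basis D hD
  obtain ⟨s, hs⟩ : ∃ s : Fin n → F, s = ∑ i, b i := ⟨_, rfl⟩
  have hs0 : s ≠ 0 := by
    intro h0
    have h1 : b.repr s (0 : Fin n) = 1 := by
      rw [hs, map_sum, Finsupp.finsetSum_apply, Finset.sum_eq_single (0 : Fin n)]
      · rw [Module.Basis.repr_self, Finsupp.single_eq_same]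
      · intro j _ hj
        rw [Module.Basis.repr_self, Finsupp.single_eq_of_ne (Ne.symm hj)]
      · intro h; exact absurd (Finset.mem_univ _) h
    rw [h0, LinearEquiv.map_zero, Finsupp.zero_apply] at h1
    exact zero_ne_one h1
  refine ⟨Submodule.span F {s}, ?_, ?_, ?_⟩
  · intro h
    apply hs0
    have : s ∈ Submodule.span F {s} := Submodule.mem_span_singleton_self s
    rw [h] at this
    exact (Submodule.mem_bot F).mp this
  · intro h
    have h1 : Module.finrank F (Submodule.span F {s}) = 1 := finrank_span_singleton hs0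
    rw [h, finrank_top, Module.finrank_fin_fun] at h1
    omega
  · apply Helper97.le_subspaceStabilizer
    intro g hg v hv
    obtain ⟨σ, c, hc0, hc⟩ := hb g (hH hg)
    have hc1 : ∀ i, c i = 1 := by
      intro i
      have := FiniteField.pow_card_sub_one_eq_one (c i) (hc0 i)
      rw [hq] at this
      simpa using this
    have hgs : (g : Matrix (Fin n) (Fin n) F) *ᵥ s = s := by
      rw [hs, Matrix.mulVec_sum]
      simp_rw [hc, hc1, one_smul]
      exact Equiv.sum_comp σ (fun i => b i)
    obtain ⟨a, rfl⟩ := Submodule.mem_span_singleton.mp hv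
    rw [Matrix.mulVec_smul, hgs]
    exact Submodule.smul_mem _ _ (Submodule.mem_span_singleton_self s)

/-! ### Planes over the field with two elements -/

/-- The block-determinant form attached to a basis indexed by `Fin t × Fin 2`. -/
noncomputable def blockForm {t : ℕ} (b : Module.Basis (Fin t × Fin 2) F (Fin n → F))
    (x y : Fin n → F) : F :=
  ∑ i : Fin t, (b.repr x (i, 0) * b.repr y (i, 1) - b.repr x (i, 1) * b.repr y (i, 0))

theorem blockForm_apply {t : ℕ} (b : Module.Basis (Fin t × Fin 2) F (Fin n → F)) (x y : Fin n → F) :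
    blockForm b x y =
      ∑ i : Fin t, (b.repr x (i, 0) * b.repr y (i, 1) - b.repr x (i, 1) * b.repr y (i, 0)) := rfl

theorem blockForm_symplectic {t : ℕ} (b : Module.Basis (Fin t × Fin 2) F (Fin n → F)) :
    IsSymplecticForm (blockForm b) := by
  classical
  have hskew : ∀ v w, blockForm b v w = - blockForm b w v := by
    intro v w
    rw [blockForm_apply, blockForm_apply, ← Finset.sum_neg_distrib]
    apply Finset.sum_congr rfl
    intro i _
    ring
  have hbil : IsBilinearForm (blockForm b) := by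
    refine ⟨?_, ?_, ?_, ?_⟩
    · intro x y v
      rw [blockForm_apply, blockForm_apply, blockForm_apply, ← Finset.sum_add_distrib]
      apply Finset.sum_congr rfl
      intro i _
      rw [map_add, Finsupp.add_apply, Finsupp.add_apply]
      ring
    · intro c x v
      rw [blockForm_apply, blockForm_apply, Finset.mul_sum]
      apply Finset.sum_congr rfl
      intro i _
      rw [map_smul, Finsupp.smul_apply, Finsupp.smul_apply, smul_eq_mul, smul_eq_mul]
      ring
    · intro v x y
      rw [blockForm_apply, blockForm_apply, blockForm_apply, ← Finset.sum_add_distrib]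
      apply Finset.sum_congr rfl
      intro i _
      rw [map_add, Finsupp.add_apply, Finsupp.add_apply]
      ring
    · intro c v x
      rw [blockForm_apply, blockForm_apply, Finset.mul_sum]
      apply Finset.sum_congr rfl
      intro i _
      rw [map_smul, Finsupp.smul_apply, Finsupp.smul_apply, smul_eq_mul, smul_eq_mul]
      ring
  have hnd : ∀ v : Fin n → F, v ≠ 0 → ∃ x, blockForm b x v ≠ 0 := by
    intro v hv
    obtain ⟨⟨i, a⟩, hia⟩ : ∃ q, b.repr v q ≠ 0 := by
      by_contra hcon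
      apply hv
      have h0 : b.repr v = 0 := by
        ext q
        by_contra h
        exact hcon ⟨q, h⟩
      exact b.repr.map_eq_zero_iff.mp h0
    have key0 : blockForm b (b (i, 0)) v = b.repr v (i, 1) := by
      rw [blockForm_apply, Finset.sum_eq_single i]
      · rw [Module.Basis.repr_self, Finsupp.single_eq_same, Finsupp.single_eq_of_ne (by simp), one_mul,
          zero_mul, sub_zero]
      · intro j _ hj
        rw [Module.Basis.repr_self, Finsupp.single_eq_of_ne (by simp [hj]),
          Finsupp.single_eq_of_ne (by simp [hj]), zero_mul, zero_mul, sub_zero]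
      · intro h; exact absurd (Finset.mem_univ _) h
    have key1 : blockForm b (b (i, 1)) v = - b.repr v (i, 0) := by
      rw [blockForm_apply, Finset.sum_eq_single i]
      · rw [Module.Basis.repr_self, Finsupp.single_eq_same, Finsupp.single_eq_of_ne (by simp), one_mul,
          zero_mul, zero_sub]
      · intro j _ hj
        rw [Module.Basis.repr_self, Finsupp.single_eq_of_ne (by simp [hj]),
          Finsupp.single_eq_of_ne (by simp [hj]), zero_mul, zero_mul, sub_zero]
      · intro h; exact absurd (Finset.mem_univ _) h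
    fin_cases a
    · exact ⟨b (i, 1), by rw [key1]; exact neg_ne_zero.mpr hia⟩
    · exact ⟨b (i, 0), by rw [key0]; exact hia⟩
  refine ⟨hbil, hskew, ?_, ?_⟩
  · intro v
    rw [blockForm_apply]
    apply Finset.sum_eq_zero
    intro i _
    ring
  · intro v hv
    obtain ⟨x, hx⟩ := hnd v hv
    exact ⟨⟨x, hx⟩, ⟨x, by rw [hskew]; exact neg_ne_zero.mpr hx⟩⟩

/-- A basis adapted to a decomposition into planes. -/
theorem exists_plane_basis {t : ℕ} (D : Fin t → Submodule F (Fin n → F)) (hD : IsMDecomposition 2 D) :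
    ∃ b : Module.Basis (Fin t × Fin 2) F (Fin n → F), (∀ i a, b (i, a) ∈ D i) ∧ ∀ i, ∀ w ∈ D i,
      ∃ c₀ c₁ : F, w = c₀ • b (i, 0) + c₁ • b (i, 1) := by
  classical
  have hint := DirectSum.isInternal_submodule_of_iSupIndep_of_iSup_eq_top hD.indep hD.iSup_eq_top
  obtain ⟨v, -⟩ : ∃ v : (i : Fin t) → Module.Basis (Fin 2) F (D i), True :=
    ⟨fun i => Module.finBasisOfFinrankEq F (D i) (hD.finrank_eq i), trivial⟩
  have hbv : ∀ i a, ((hint.collectedBasis v).reindex (Equiv.sigmaEquivProd (Fin t) (Fin 2))) (i, a) =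
      ((v i a : D i) : Fin n → F) := by
    intro i a
    rw [Module.Basis.reindex_apply, DirectSum.IsInternal.collectedBasis_coe]
    rfl
  refine ⟨(hint.collectedBasis v).reindex (Equiv.sigmaEquivProd (Fin t) (Fin 2)), ?_, ?_⟩
  · intro i a
    rw [hbv]
    exact (v i a).2
  · intro i w hw
    refine ⟨(v i).repr ⟨w, hw⟩ 0, (v i).repr ⟨w, hw⟩ 1, ?_⟩
    have h1 := (v i).sum_repr ⟨w, hw⟩
    rw [Fin.sum_univ_two] at h1
    have h2 := congrArg Subtype.val h1
    rw [hbv, hbv]
    exact h2.symm

theorem planes_two [Fintype F] (hq : Fintype.card F = 2) {t : ℕ}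
    (D : Fin t → Submodule F (Fin n → F)) (hD : IsMDecomposition 2 D) :
    ∃ f : (Fin n → F) → (Fin n → F) → F, IsSymplecticForm f ∧
      decompositionStabilizer D ≤ similarityGroup f := by
  classical
  obtain ⟨b, hbD, hb⟩ := exists_plane_basis D hD
  refine ⟨blockForm b, blockForm_symplectic b, ?_⟩
  intro g hg
  obtain ⟨σ, hσ⟩ := (Helper97.mem_decompositionStabilizer_iff D g).mp hg
  have hmem : ∀ i a, (g : Matrix (Fin n) (Fin n) F) *ᵥ b (i, a) ∈ D (σ i) := by
    intro i a
    rw [← hσ i]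
    exact ⟨b (i, a), hbD i a, by rw [Matrix.toLin'_apply]⟩
  choose α β hαβ using fun i => hb (σ i) _ (hmem i 0)
  choose γ δ hγδ using fun i => hb (σ i) _ (hmem i 1)
  -- coordinates of `g x`
  have hrepr : ∀ (x : Fin n → F) (i : Fin t),
      b.repr ((g : Matrix (Fin n) (Fin n) F) *ᵥ x) (σ i, 0) =
        α i * b.repr x (i, 0) + γ i * b.repr x (i, 1) ∧
      b.repr ((g : Matrix (Fin n) (Fin n) F) *ᵥ x) (σ i, 1) =
        β i * b.repr x (i, 0) + δ i * b.repr x (i, 1) := by
    intro x i
    obtain ⟨c, hc⟩ : ∃ c : Fin t × Fin 2 → F, c = fun q =>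
        if q.2 = 0 then α (σ.symm q.1) * b.repr x (σ.symm q.1, 0) + γ (σ.symm q.1) * b.repr x (σ.symm q.1, 1)
        else β (σ.symm q.1) * b.repr x (σ.symm q.1, 0) + δ (σ.symm q.1) * b.repr x (σ.symm q.1, 1) :=
      ⟨_, rfl⟩
    have hgx : (g : Matrix (Fin n) (Fin n) F) *ᵥ x = ∑ q, c q • b q := by
      have hR : ∑ q, c q • b q = ∑ j, (c (σ j, 0) • b (σ j, 0) + c (σ j, 1) • b (σ j, 1)) := by
        rw [Fintype.sum_prod_type, ← Equiv.sum_comp σ]
        apply Finset.sum_congr rfl
        intro j _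
        rw [Fin.sum_univ_two]
      have hL : (g : Matrix (Fin n) (Fin n) F) *ᵥ x =
          ∑ j, (b.repr x (j, 0) • (g : Matrix (Fin n) (Fin n) F) *ᵥ b (j, 0) +
            b.repr x (j, 1) • (g : Matrix (Fin n) (Fin n) F) *ᵥ b (j, 1)) := by
        conv_lhs => rw [← b.sum_repr x]
        rw [Matrix.mulVec_sum, Fintype.sum_prod_type]
        apply Finset.sum_congr rfl
        intro j _
        rw [Fin.sum_univ_two, Matrix.mulVec_smul, Matrix.mulVec_smul]
      rw [hL, hR]
      apply Finset.sum_congr rfl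
      intro j _
      rw [hαβ, hγδ, hc]
      simp only [Equiv.symm_apply_apply, ↓reduceIte, Fin.isValue, one_ne_zero]
      module
    have h1 := b.repr_sum_self c
    rw [← hgx] at h1
    constructor
    · rw [h1, hc]
      simp
    · rw [h1, hc]
      simp
  -- the determinant of each block is non-zero
  have hdet : ∀ i, α i * δ i - γ i * β i ≠ 0 := by
    intro i hdet0
    have hinj := Helper97.mulVec_injective g
    have hli := b.linearIndependent
    have h1 : (g : Matrix (Fin n) (Fin n) F) *ᵥ (δ i • b (i, 0) - β i • b (i, 1)) = 0 := by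
      rw [Matrix.mulVec_sub, Matrix.mulVec_smul, Matrix.mulVec_smul, hαβ, hγδ]
      have e1 : δ i • (α i • b (σ i, 0) + β i • b (σ i, 1)) - β i • (γ i • b (σ i, 0) + δ i • b (σ i, 1)) =
          (α i * δ i - γ i * β i) • b (σ i, 0) := by module
      rw [e1, hdet0, zero_smul]
    have h2 : (g : Matrix (Fin n) (Fin n) F) *ᵥ (γ i • b (i, 0) - α i • b (i, 1)) = 0 := by
      rw [Matrix.mulVec_sub, Matrix.mulVec_smul, Matrix.mulVec_smul, hαβ, hγδ]
      have e1 : γ i • (α i • b (σ i, 0) + β i • b (σ i, 1)) - α i • (γ i • b (σ i, 0) + δ i • b (σ i, 1)) =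
          (-(α i * δ i - γ i * β i)) • b (σ i, 1) := by module
      rw [e1, hdet0, neg_zero, zero_smul]
    have h3 : δ i • b (i, 0) - β i • b (i, 1) = 0 :=
      hinj (by
        show (g : Matrix (Fin n) (Fin n) F) *ᵥ _ = (g : Matrix (Fin n) (Fin n) F) *ᵥ 0
        rw [h1, Matrix.mulVec_zero])
    have h4 : γ i • b (i, 0) - α i • b (i, 1) = 0 :=
      hinj (by
        show (g : Matrix (Fin n) (Fin n) F) *ᵥ _ = (g : Matrix (Fin n) (Fin n) F) *ᵥ 0
        rw [h2, Matrix.mulVec_zero])
    have hr3 := congrArg (fun w => b.repr w (i, 1)) h3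
    have hr4 := congrArg (fun w => b.repr w (i, 1)) h4
    simp only [map_sub, map_smul, Module.Basis.repr_self, Finsupp.sub_apply, Finsupp.smul_apply,
      Finsupp.single_eq_same, map_zero, Finsupp.zero_apply, smul_eq_mul, mul_one] at hr3 hr4
    rw [Finsupp.single_eq_of_ne (by simp), mul_zero, zero_sub, neg_eq_zero] at hr3 hr4
    -- so `α i = β i = 0`, hence `g b(i,0) = 0`
    have h5 : (g : Matrix (Fin n) (Fin n) F) *ᵥ b (i, 0) = 0 := by
      rw [hαβ, hr3, hr4, zero_smul, zero_smul, add_zero]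
    have h6 : b (i, 0) = 0 := hinj (by
      show (g : Matrix (Fin n) (Fin n) F) *ᵥ _ = (g : Matrix (Fin n) (Fin n) F) *ᵥ 0
      rw [h5, Matrix.mulVec_zero])
    exact b.ne_zero (i, 0) h6
  have hdet1 : ∀ i, α i * δ i - γ i * β i = 1 := by
    intro i
    have := FiniteField.pow_card_sub_one_eq_one _ (hdet i)
    rw [hq] at this
    simpa using this
  rw [Helper97.mem_similarityGroup_iff]
  refine ⟨1, fun u v => ?_⟩
  rw [Units.val_one, one_mul, blockForm_apply, blockForm_apply,
    ← Equiv.sum_comp σ (fun i => b.repr ((g : Matrix (Fin n) (Fin n) F) *ᵥ u) (i, 0) *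
      b.repr ((g : Matrix (Fin n) (Fin n) F) *ᵥ v) (i, 1) -
      b.repr ((g : Matrix (Fin n) (Fin n) F) *ᵥ u) (i, 1) *
      b.repr ((g : Matrix (Fin n) (Fin n) F) *ᵥ v) (i, 0))]
  apply Finset.sum_congr rfl
  intro i _
  rw [(hrepr u i).1, (hrepr u i).2, (hrepr v i).1, (hrepr v i).2]
  have e : (α i * b.repr u (i, 0) + γ i * b.repr u (i, 1)) * (β i * b.repr v (i, 0) + δ i * b.repr v (i, 1)) -
      (β i * b.repr u (i, 0) + δ i * b.repr u (i, 1)) * (α i * b.repr v (i, 0) + γ i * b.repr v (i, 1)) =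
      (α i * δ i - γ i * β i) * (b.repr u (i, 0) * b.repr v (i, 1) - b.repr u (i, 1) * b.repr v (i, 0)) := by
    ring
  rw [e, hdet1, one_mul]

/-! ### Tensor products with a 2-dimensional factor over the field with two elements -/

/-- `v ↦ v₀ + v₁ ω`. -/
noncomputable def s2Lin (F : Type*) [Field F] : (Fin 2 → F) →ₗ[F] Matrix (Fin 2) (Fin 2) F where
  toFun v := v 0 • (1 : Matrix (Fin 2) (Fin 2) F) + v 1 • Helper98.om2 F
  map_add' v w := by
    rw [Pi.add_apply, Pi.add_apply, add_smul, add_smul]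
    abel
  map_smul' c v := by
    rw [Pi.smul_apply, Pi.smul_apply, RingHom.id_apply, smul_add, smul_smul, smul_smul, smul_eq_mul,
      smul_eq_mul]

theorem s2Lin_apply (v : Fin 2 → F) :
    s2Lin F v = v 0 • (1 : Matrix (Fin 2) (Fin 2) F) + v 1 • Helper98.om2 F := rfl

theorem s2Lin_entries (v : Fin 2 → F) : s2Lin F v 0 0 = v 0 ∧ s2Lin F v 0 1 = v 1 := by
  rw [s2Lin_apply]
  constructor <;> simp [Helper98.om2]

theorem tensor_two_le_field [Fintype F] (hq : Fintype.card F = 2) {k : ℕ} (hk : 0 < k)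
    (e : Fin n ≃ Fin 2 × Fin k) (P : GL (Fin n) F) :
    ∃ K : Subalgebra F (Matrix (Fin n) (Fin n) F), IsFieldSubalgebra 2 K ∧
      tensorProductSubgroup 2 k e P ≤ subalgebraNormalizer K := by
  classical
  have hne : Nonempty (Fin k) := ⟨⟨0, hk⟩⟩
  let Ψ : Matrix (Fin 2) (Fin 2) F →ₐ[F] Matrix (Fin n) (Fin n) F :=
    (Helper98.conjReindex (F := F) e P).comp (Helper98.kronOne F (Fin k))
  have hΨ : ∀ m, Ψ m = Helper98.conjReindex e P (m ⊗ₖ (1 : Matrix (Fin k) (Fin k) F)) := fun m => rfl
  have hΨinj : Function.Injective Ψ :=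
    (Helper98.conjReindex_injective e P).comp Helper98.kronOne_injective
  have hS : Helper98.IsFS ((Helper98.S2 F).map Ψ) := (Helper98.isFS_S2 hq).map Ψ
  refine ⟨(Helper98.S2 F).map Ψ, ⟨hS.comm, hS.inv, ?_⟩, ?_⟩
  · -- dimension two
    have hrange : LinearMap.range (Ψ.toLinearMap ∘ₗ s2Lin F) =
        Subalgebra.toSubmodule ((Helper98.S2 F).map Ψ) := by
      ext x
      constructor
      · rintro ⟨v, rfl⟩
        refine Subalgebra.mem_map.mpr ⟨s2Lin F v, ?_, rfl⟩
        rw [s2Lin_apply]
        exact Subalgebra.add_mem _ (Subalgebra.smul_mem _ (Subalgebra.one_mem _) _)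
          (Subalgebra.smul_mem _ Helper98.om2_mem _)
      · intro hx
        obtain ⟨m, hm, rfl⟩ := Subalgebra.mem_map.mp hx
        refine ⟨![m 0 0, m 0 1], ?_⟩
        have h1 : s2Lin F ![m 0 0, m 0 1] = m := by
          rw [s2Lin_apply]
          conv_rhs => rw [Helper98.S2_eq hm]
          ext i j
          fin_cases i <;> fin_cases j <;> simp [Helper98.om2]
        show Ψ (s2Lin F ![m 0 0, m 0 1]) = Ψ m
        rw [h1]
    have hinj : Function.Injective (Ψ.toLinearMap ∘ₗ s2Lin F) := by
      intro v w h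
      have h1 : s2Lin F v = s2Lin F w := hΨinj h
      funext i
      fin_cases i
      · have := congrFun (congrFun h1 0) 0
        rw [(s2Lin_entries v).1, (s2Lin_entries w).1] at this
        exact this
      · have := congrFun (congrFun h1 0) 1
        rw [(s2Lin_entries v).2, (s2Lin_entries w).2] at this
        exact this
    rw [← Subalgebra.finrank_toSubmodule, ← hrange, LinearMap.finrank_range_of_inj hinj,
      Module.finrank_fin_fun]
  · intro g hg
    obtain ⟨a, b, hab⟩ := Helper98.mem_tensorProductSubgroup hg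
    apply Helper98.mem_normalizer_of_twist
    · intro k hk
      obtain ⟨m, hm, rfl⟩ := Subalgebra.mem_map.mp hk
      obtain ⟨m', hm', hmm⟩ := Helper98.S2_conj hq a hm
      refine ⟨Ψ m', Subalgebra.mem_map.mpr ⟨m', hm', rfl⟩, ?_⟩
      rw [hab, hΨ, hΨ, ← map_mul, ← map_mul, ← Matrix.mul_kronecker_mul,
        ← Matrix.mul_kronecker_mul, hmm, mul_one, one_mul]
    · intro k hk
      obtain ⟨m, hm, rfl⟩ := Subalgebra.mem_map.mp hk
      obtain ⟨m', hm', hmm⟩ := Helper98.S2_conj' hq a hm
      refine ⟨Ψ m', Subalgebra.mem_map.mpr ⟨m', hm', rfl⟩, ?_⟩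
      rw [hab, hΨ, hΨ, ← map_mul, ← map_mul, ← Matrix.mul_kronecker_mul,
        ← Matrix.mul_kronecker_mul, hmm, mul_one, one_mul]

/-! ### Tensor product subgroups -/

theorem notSL_tensor [Finite F] {d k : ℕ} (hd : 2 ≤ d) (hk : 2 ≤ k) (e : Fin n ≃ Fin d × Fin k)
    (P : GL (Fin n) F) : ¬ specialLinear (Fin n) F ≤ tensorProductSubgroup d k e P := by
  classical
  intro hle
  have hn : n = d * k := by
    have h := Fintype.card_congr e
    rw [Fintype.card_fin, Fintype.card_prod, Fintype.card_fin, Fintype.card_fin] at h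
    exact h
  have hn0 : 0 < n := by
    rw [hn]
    exact Nat.mul_pos (by omega) (by omega)
  have hne : Nonempty (Fin n) := ⟨⟨0, hn0⟩⟩
  let a₀ : Fin d := ⟨0, by omega⟩
  let a₁ : Fin d := ⟨1, by omega⟩
  let j₀ : Fin k := ⟨0, by omega⟩
  let j₁ : Fin k := ⟨1, by omega⟩
  have ha : a₀ ≠ a₁ := by
    intro h
    have := congrArg Fin.val h
    simp [a₀, a₁] at this
  have hj : j₀ ≠ j₁ := by
    intro h
    have := congrArg Fin.val h
    simp [j₀, j₁] at this
  obtain ⟨N, hNdef⟩ : ∃ N : Matrix (Fin d × Fin k) (Fin d × Fin k) F,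
      N = Matrix.single (a₀, j₀) (a₀, j₁) (1 : F) := ⟨_, rfl⟩
  have hNN : N * N = 0 := by
    rw [hNdef, Matrix.single_mul_single_of_ne]
    intro h
    exact hj (congrArg Prod.snd h).symm
  have hAA : Helper98.conjReindex e P N * Helper98.conjReindex e P N = 0 := by
    rw [← map_mul, hNN, map_zero]
  obtain ⟨g₀, hg₀, hg₀S⟩ := Helper98.exists_unipotent (Helper98.conjReindex e P N) hAA
  obtain ⟨a, b, hab⟩ := Helper98.mem_tensorProductSubgroup (hle hg₀S)
  have h1 : Helper98.conjReindex e P (1 + N) =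
      Helper98.conjReindex e P ((a : Matrix (Fin d) (Fin d) F) ⊗ₖ (b : Matrix (Fin k) (Fin k) F)) := by
    rw [map_add, map_one, ← hg₀, hab]
  have h2 : 1 + N = (a : Matrix (Fin d) (Fin d) F) ⊗ₖ (b : Matrix (Fin k) (Fin k) F) :=
    Helper98.conjReindex_injective e P h1
  have e1 := congrFun (congrFun h2 (a₀, j₀)) (a₀, j₁)
  have e2 := congrFun (congrFun h2 (a₁, j₀)) (a₁, j₁)
  have e3 := congrFun (congrFun h2 (a₁, j₀)) (a₁, j₀)
  rw [Matrix.add_apply, Matrix.kronecker_apply, hNdef] at e1 e2 e3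
  rw [Matrix.one_apply_ne (by intro h; exact hj (congrArg Prod.snd h)), Matrix.single_apply_same,
    zero_add] at e1
  have hz2 : Matrix.single (a₀, j₀) (a₀, j₁) (1 : F) (a₁, j₀) (a₁, j₁) = 0 := by
    rw [Matrix.single_apply_of_ne]
    intro h
    exact ha (congrArg Prod.fst h.1)
  have hz3 : Matrix.single (a₀, j₀) (a₀, j₁) (1 : F) (a₁, j₀) (a₁, j₀) = 0 := by
    rw [Matrix.single_apply_of_ne]
    intro h
    exact ha (congrArg Prod.fst h.1)
  rw [Matrix.one_apply_ne (by intro h; exact hj (congrArg Prod.snd h)), hz2, zero_add] at e2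
  rw [Matrix.one_apply_eq, hz3, add_zero] at e3
  have hb01 : b j₀ j₁ ≠ 0 := by
    intro h
    rw [h, mul_zero] at e1
    exact one_ne_zero e1
  have ha11 : a a₁ a₁ = 0 := by
    rcases mul_eq_zero.mp e2.symm with h | h
    · exact h
    · exact absurd h hb01
  rw [ha11, zero_mul] at e3
  exact one_ne_zero e3

theorem conjReindex_swap {d k : ℕ} (e : Fin n ≃ Fin d × Fin k) (P : GL (Fin n) F)
    (a : Matrix (Fin d) (Fin d) F) (b : Matrix (Fin k) (Fin k) F) :
    Helper98.conjReindex (e.trans (Equiv.prodComm (Fin d) (Fin k))) P (b ⊗ₖ a) =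
      Helper98.conjReindex e P (a ⊗ₖ b) := by
  rw [Helper98.conjReindex_apply, Helper98.conjReindex_apply]
  congr 2
  ext i j
  simp [Matrix.kronecker_apply, mul_comm]

theorem tensor_swap_le {d k : ℕ} (e : Fin n ≃ Fin d × Fin k) (P : GL (Fin n) F) :
    tensorProductSubgroup d k e P ≤
      tensorProductSubgroup k d (e.trans (Equiv.prodComm (Fin d) (Fin k))) P := by
  intro g hg
  obtain ⟨a, b, hab⟩ := Helper98.mem_tensorProductSubgroup hg
  refine mem_tensorProductSubgroup_of_eq _ P g (b : Matrix (Fin k) (Fin k) F)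
    (a : Matrix (Fin d) (Fin d) F) ?_ ?_ ?_
  · exact (Matrix.GeneralLinearGroup.det b).ne_zero
  · exact (Matrix.GeneralLinearGroup.det a).ne_zero
  · rw [hab, conjReindex_swap]

end Cfsg.Agent.Helper96
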