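-- helper96 library: tensor-wreath subgroups with two factors.
import Cfsg.Agent.Helper96.SmallQ
import Cfsg.Agent.Helper96.Perfect

set_option autoImplicit false
open Cfsg Cfsg.Geo Matrix
open scoped Kronecker

namespace Cfsg.Agent.Helper96

variable {F : Type*} [Field F] {n : ℕ}

/-- Pairs as functions on `Fin 2`. -/
def eps (m : ℕ) : Fin m × Fin m ≃ (Fin 2 → Fin m) := (piFinTwoEquiv (fun _ => Fin m)).symm

theorem eps_symm_apply (m : ℕ) (x : Fin 2 → Fin m) : (eps m).symm x = (x 0, x 1) := rfl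

theorem conjReindex_trans {κ κ' : Type} [Fintype κ] [DecidableEq κ] [Fintype κ'] [DecidableEq κ']
    (e : Fin n ≃ κ) (ε : κ ≃ κ') (P : GL (Fin n) F) (X : Matrix κ κ F) :
    Helper98.conjReindex (e.trans ε) P (Matrix.reindexAlgEquiv F F ε X) =
      Helper98.conjReindex e P X := by
  rw [Helper98.conjReindex_apply, Helper98.conjReindex_apply]
  congr 2
  ext i j
  simp [Matrix.coe_reindexAlgEquiv, Matrix.reindex_apply]

theorem mem_tensorWreath_of_eq {m t : ℕ} (e' : Fin n ≃ (Fin t → Fin m)) (P : GL (Fin n) F)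
    (g : GL (Fin n) F) (u : GL (Fin t → Fin m) F) (hu : u ∈ tensorWreathStandard m t F)
    (hg : (g : Matrix (Fin n) (Fin n) F) =
      Helper98.conjReindex e' P (u : Matrix (Fin t → Fin m) (Fin t → Fin m) F)) :
    g ∈ tensorWreathSubgroup m t e' P := by
  refine Subgroup.mem_map.mpr ⟨(glReindex e'.symm).toMonoidHom u, Subgroup.mem_map_of_mem _ hu, ?_⟩
  apply Units.ext
  rw [hg, Helper98.conjReindex_apply]
  rfl

theorem mem_tensorWreath {m t : ℕ} {e' : Fin n ≃ (Fin t → Fin m)} {P : GL (Fin n) F}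
    {g : GL (Fin n) F} (hg : g ∈ tensorWreathSubgroup m t e' P) :
    ∃ u ∈ tensorWreathStandard m t F, (g : Matrix (Fin n) (Fin n) F) =
      Helper98.conjReindex e' P (u : Matrix (Fin t → Fin m) (Fin t → Fin m) F) := by
  obtain ⟨y, hy, rfl⟩ := Subgroup.mem_map.mp hg
  obtain ⟨x, hx, rfl⟩ := Subgroup.mem_map.mp hy
  exact ⟨x, hx, by rw [Helper98.conjReindex_apply]; rfl⟩

/-- The unit of `GL (Fin 2 → Fin m)` attached to an invertible matrix on pairs. -/
theorem exists_unit_reindex {m : ℕ} (X Xinv : Matrix (Fin m × Fin m) (Fin m × Fin m) F)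
    (h1 : X * Xinv = 1) (h2 : Xinv * X = 1) :
    ∃ u : GL (Fin 2 → Fin m) F, (u : Matrix (Fin 2 → Fin m) (Fin 2 → Fin m) F) =
      Matrix.reindexAlgEquiv F F (eps m) X :=
  ⟨⟨Matrix.reindexAlgEquiv F F (eps m) X, Matrix.reindexAlgEquiv F F (eps m) Xinv,
    by rw [← map_mul, h1, map_one], by rw [← map_mul, h2, map_one]⟩, rfl⟩

theorem pure_mem_std {m : ℕ} (a b : GL (Fin m) F) (u : GL (Fin 2 → Fin m) F)
    (hu : (u : Matrix (Fin 2 → Fin m) (Fin 2 → Fin m) F) = Matrix.reindexAlgEquiv F F (eps m)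
      ((a : Matrix (Fin m) (Fin m) F) ⊗ₖ (b : Matrix (Fin m) (Fin m) F))) :
    u ∈ tensorWreathStandard m 2 F := by
  apply Subgroup.subset_closure
  left
  refine ⟨![a, b], fun x y => ?_⟩
  rw [hu, Fin.prod_univ_two]
  simp [Matrix.coe_reindexAlgEquiv, Matrix.reindex_apply, eps_symm_apply]

/-- The matrix swapping the two tensor factors. -/
def swapMat (m : ℕ) (F : Type*) [Field F] : Matrix (Fin m × Fin m) (Fin m × Fin m) F :=
  Matrix.of fun p q => if q = (p.2, p.1) then (1 : F) else 0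

theorem swapMat_mul_apply {m : ℕ} (M : Matrix (Fin m × Fin m) (Fin m × Fin m) F)
    (p q : Fin m × Fin m) : (swapMat m F * M) p q = M (p.2, p.1) q := by
  rw [Matrix.mul_apply, Finset.sum_eq_single (p.2, p.1)]
  · simp [swapMat]
  · intro b _ hb
    simp [swapMat, hb]
  · intro h; exact absurd (Finset.mem_univ _) h

theorem mul_swapMat_apply {m : ℕ} (M : Matrix (Fin m × Fin m) (Fin m × Fin m) F)
    (p q : Fin m × Fin m) : (M * swapMat m F) p q = M p (q.2, q.1) := by
  rw [Matrix.mul_apply, Finset.sum_eq_single (q.2, q.1)]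
  · simp [swapMat]
  · intro b _ hb
    have : q ≠ (b.2, b.1) := by
      intro h
      apply hb
      rw [h]
    simp [swapMat, this]
  · intro h; exact absurd (Finset.mem_univ _) h

theorem swapMat_mul_self (m : ℕ) : swapMat m F * swapMat m F = 1 := by
  ext p q
  rw [swapMat_mul_apply]
  by_cases h : p = q
  · subst h; simp [swapMat]
  · rw [Matrix.one_apply_ne h]
    have : q ≠ p := fun h' => h h'.symm
    simp [swapMat, this]

theorem swapMat_mul_kron {m : ℕ} (x y : Matrix (Fin m) (Fin m) F) :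
    swapMat m F * (x ⊗ₖ y) = (y ⊗ₖ x) * swapMat m F := by
  ext p q
  rw [swapMat_mul_apply, mul_swapMat_apply, Matrix.kronecker_apply, Matrix.kronecker_apply, mul_comm]

theorem swap_mem_std {m : ℕ} (u : GL (Fin 2 → Fin m) F)
    (hu : (u : Matrix (Fin 2 → Fin m) (Fin 2 → Fin m) F) =
      Matrix.reindexAlgEquiv F F (eps m) (swapMat m F)) :
    u ∈ tensorWreathStandard m 2 F := by
  apply Subgroup.subset_closure
  right
  refine ⟨Equiv.swap 0 1, fun x y => ?_⟩
  rw [hu]
  have h1 : (y = x ∘ (Equiv.swap 0 1 : Equiv.Perm (Fin 2))) ↔ (y 0, y 1) = (x 1, x 0) := by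
    constructor
    · intro h
      rw [h]
      simp
    · intro h
      funext i
      have h0 := congrArg Prod.fst h
      have h1 := congrArg Prod.snd h
      simp only at h0 h1
      fin_cases i
      · simpa using h0
      · simpa using h1
  simp only [Matrix.coe_reindexAlgEquiv, Matrix.reindex_apply, Matrix.submatrix_apply,
    eps_symm_apply, swapMat, Matrix.of_apply]
  by_cases h : y = x ∘ (Equiv.swap 0 1 : Equiv.Perm (Fin 2))
  · rw [if_pos h, if_pos (h1.mp h)]
  · rw [if_neg h, if_neg (fun h' => h (h1.mpr h'))]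

/-- The tensor product subgroup with equal factors lies in the tensor-wreath subgroup. -/
theorem tensor_le_wreath {m : ℕ} (e : Fin n ≃ Fin m × Fin m) (P : GL (Fin n) F) :
    tensorProductSubgroup m m e P ≤ tensorWreathSubgroup m 2 (e.trans (eps m)) P := by
  intro g hg
  obtain ⟨a, b, hab⟩ := Helper98.mem_tensorProductSubgroup hg
  obtain ⟨u, hu⟩ := exists_unit_reindex
    ((a : Matrix (Fin m) (Fin m) F) ⊗ₖ (b : Matrix (Fin m) (Fin m) F))
    (((a⁻¹ : GL (Fin m) F) : Matrix (Fin m) (Fin m) F) ⊗ₖ ((b⁻¹ : GL (Fin m) F) : Matrix (Fin m) (Fin m) F))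
    (by rw [← Matrix.mul_kronecker_mul, Units.mul_inv, Units.mul_inv, Matrix.one_kronecker_one])
    (by rw [← Matrix.mul_kronecker_mul, Units.inv_mul, Units.inv_mul, Matrix.one_kronecker_one])
  refine mem_tensorWreath_of_eq _ P g u (pure_mem_std a b u hu) ?_
  rw [hu, conjReindex_trans, hab]

/-- Pure vectors of the tensor square. -/
def IsPureVec {m : ℕ} (w : (Fin 2 → Fin m) → F) : Prop :=
  ∃ u v : Fin m → F, ∀ x, w x = u (x 0) * v (x 1)

theorem std_pure [Finite F] {m : ℕ} (g : GL (Fin 2 → Fin m) F)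
    (hg : g ∈ tensorWreathStandard m 2 F) :
    ∀ w : (Fin 2 → Fin m) → F, IsPureVec w →
      IsPureVec ((g : Matrix (Fin 2 → Fin m) (Fin 2 → Fin m) F) *ᵥ w) := by
  classical
  induction hg using Subgroup.closure_induction with
  | mem g hg =>
    rcases hg with ⟨gs, hgs⟩ | ⟨σ, hσ⟩
    · rintro w ⟨u, v, huv⟩
      refine ⟨(gs 0 : Matrix (Fin m) (Fin m) F) *ᵥ u, (gs 1 : Matrix (Fin m) (Fin m) F) *ᵥ v,
        fun x => ?_⟩
      simp only [Matrix.mulVec, dotProduct]
      rw [Finset.sum_mul_sum, ← Fintype.sum_prod_type',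
        ← (piFinTwoEquiv (fun _ => Fin m)).symm.sum_comp]
      apply Finset.sum_congr rfl
      intro p _
      rw [hgs, huv, Fin.prod_univ_two]
      simp only [piFinTwoEquiv_symm_apply, Fin.cons_zero, Fin.cons_one]
      ring
    · rintro w ⟨u, v, huv⟩
      have hval : ∀ x, ((g : Matrix (Fin 2 → Fin m) (Fin 2 → Fin m) F) *ᵥ w) x = w (x ∘ σ) := by
        intro x
        rw [Matrix.mulVec, dotProduct, Finset.sum_eq_single (x ∘ σ)]
        · rw [hσ, if_pos rfl, one_mul]
        · intro y _ hy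
          rw [hσ, if_neg hy, zero_mul]
        · intro h; exact absurd (Finset.mem_univ _) h
      have hdec : ∀ a b : Fin 2, a ≠ b → (a = 0 ∧ b = 1) ∨ (a = 1 ∧ b = 0) := by decide
      have hne : σ 0 ≠ σ 1 := fun h => absurd (σ.injective h) (by decide)
      rcases hdec _ _ hne with ⟨h0, h1⟩ | ⟨h0, h1⟩
      · refine ⟨u, v, fun x => ?_⟩
        rw [hval, huv, Function.comp_apply, Function.comp_apply, h0, h1]
      · refine ⟨v, u, fun x => ?_⟩
        rw [hval, huv, Function.comp_apply, Function.comp_apply, h0, h1, mul_comm]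
  | one =>
    intro w hw
    rwa [Units.val_one, Matrix.one_mulVec]
  | mul x y _ _ hx hy =>
    intro w hw
    rw [Units.val_mul, ← Matrix.mulVec_mulVec]
    exact hx _ (hy w hw)
  | inv x _ hx =>
    intro w hw
    have hpow : ∀ k : ℕ, IsPureVec
        (((x ^ k : GL (Fin 2 → Fin m) F) : Matrix (Fin 2 → Fin m) (Fin 2 → Fin m) F) *ᵥ w) := by
      intro k
      induction k with
      | zero => simpa using hw
      | succ k ih =>
        rw [pow_succ', Units.val_mul, ← Matrix.mulVec_mulVec]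
        exact hx _ ih
    have hfin : Finite (GL (Fin 2 → Fin m) F) := inferInstance
    have hinv : x⁻¹ = x ^ (orderOf x - 1) := by
      have h1 : x * x ^ (orderOf x - 1) = 1 := by
        rw [← pow_succ', Nat.sub_add_cancel (orderOf_pos x), pow_orderOf_eq_one]
      exact inv_eq_of_mul_eq_one_right h1
    rw [hinv]
    exact hpow _

/-- The tensor-wreath subgroup with two factors does not contain the special linear group. -/
theorem notSL_tensorWreath [Finite F] {m : ℕ} (hm : 2 ≤ m) (e' : Fin n ≃ (Fin 2 → Fin m))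
    (P : GL (Fin n) F) : ¬ specialLinear (Fin n) F ≤ tensorWreathSubgroup m 2 e' P := by
  classical
  intro hle
  obtain ⟨x₀, hx₀⟩ : ∃ x₀ : Fin 2 → Fin m, x₀ = fun _ => ⟨0, by omega⟩ := ⟨_, rfl⟩
  obtain ⟨y₀, hy₀⟩ : ∃ y₀ : Fin 2 → Fin m, y₀ = fun _ => ⟨1, by omega⟩ := ⟨_, rfl⟩
  obtain ⟨z₀, hz₀⟩ : ∃ z₀ : Fin 2 → Fin m, z₀ = ![⟨0, by omega⟩, ⟨1, by omega⟩] := ⟨_, rfl⟩
  have hne : Nonempty (Fin n) := ⟨e'.symm x₀⟩
  have hxy : x₀ ≠ y₀ := by
    intro h
    have := congrArg Fin.val (congrFun h 0)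
    rw [hx₀, hy₀] at this
    simp at this
  have hzx : z₀ ≠ x₀ := by
    intro h
    have := congrArg Fin.val (congrFun h 1)
    rw [hx₀, hz₀] at this
    simp at this
  have hzy : z₀ ≠ y₀ := by
    intro h
    have := congrArg Fin.val (congrFun h 0)
    rw [hy₀, hz₀] at this
    simp at this
  obtain ⟨N, hN⟩ : ∃ N : Matrix (Fin 2 → Fin m) (Fin 2 → Fin m) F,
      N = Matrix.single x₀ y₀ (1 : F) := ⟨_, rfl⟩
  have hNN : N * N = 0 := by
    rw [hN, Matrix.single_mul_single_of_ne]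
    exact hxy.symm
  have hAA : Helper98.conjReindex e' P N * Helper98.conjReindex e' P N = 0 := by
    rw [← map_mul, hNN, map_zero]
  obtain ⟨g₀, hg₀, hg₀S⟩ := Helper98.exists_unipotent (Helper98.conjReindex e' P N) hAA
  obtain ⟨u, hu, hgu⟩ := mem_tensorWreath (hle hg₀S)
  have h1 : (u : Matrix (Fin 2 → Fin m) (Fin 2 → Fin m) F) = 1 + N := by
    apply Helper98.conjReindex_injective e' P
    rw [← hgu, hg₀, map_add, map_one]
  obtain ⟨w, hw⟩ : ∃ w : (Fin 2 → Fin m) → F, w = fun x => if x = y₀ then 1 else 0 := ⟨_, rfl⟩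
  have hwp : IsPureVec w := by
    refine ⟨fun i => if i = ⟨1, by omega⟩ then 1 else 0, fun i => if i = ⟨1, by omega⟩ then 1 else 0,
      fun x => ?_⟩
    rw [hw]
    simp only
    by_cases hx : x = y₀
    · rw [if_pos hx, hx, hy₀]
      simp
    · rw [if_neg hx]
      have : ¬ (x 0 = ⟨1, by omega⟩ ∧ x 1 = ⟨1, by omega⟩) := by
        rintro ⟨h0, h1⟩
        apply hx
        rw [hy₀]
        funext i
        fin_cases i
        · exact h0
        · exact h1
      by_cases h0 : x 0 = ⟨1, by omega⟩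
      · have h1 : ¬ x 1 = ⟨1, by omega⟩ := fun h => this ⟨h0, h⟩
        rw [if_neg h1, mul_zero]
      · rw [if_neg h0, zero_mul]
  obtain ⟨a, b, hab⟩ := std_pure u hu w hwp
  rw [h1] at hab
  have hv : ∀ x, ((1 + N) *ᵥ w) x = w x + (if x = x₀ then 1 else 0) := by
    intro x
    rw [Matrix.add_mulVec, Matrix.one_mulVec, Pi.add_apply]
    congr 1
    rw [Matrix.mulVec, dotProduct, Finset.sum_eq_single y₀]
    · rw [hN, hw, Matrix.single_apply]
      simp only [if_true, and_true, mul_one]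
      by_cases hx : x = x₀
      · rw [if_pos hx, if_pos hx.symm]
      · rw [if_neg hx, if_neg (fun h => hx h.symm)]
    · intro y _ hy
      rw [hw]
      simp only [if_neg hy, mul_zero]
    · intro h; exact absurd (Finset.mem_univ _) h
  have e1 := hab x₀
  have e2 := hab y₀
  have e3 := hab z₀
  rw [hv] at e1 e2 e3
  rw [hw] at e1 e2 e3
  simp only [if_neg hxy, if_true, zero_add] at e1
  simp only [if_true, if_neg hxy.symm, add_zero] at e2
  simp only [if_neg hzy, if_neg hzx, add_zero] at e3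
  have hz0 : z₀ 0 = x₀ 0 := by rw [hz₀, hx₀]; rfl
  have hz1 : z₀ 1 = y₀ 1 := by rw [hz₀, hy₀]; rfl
  rw [hz0, hz1] at e3
  have ha0 : a (x₀ 0) ≠ 0 := by
    intro h
    rw [h, zero_mul] at e1
    exact one_ne_zero e1
  have hb1 : b (y₀ 1) ≠ 0 := by
    intro h
    rw [h, mul_zero] at e2
    exact one_ne_zero e2
  exact mul_ne_zero ha0 hb1 e3.symm

/-- An element conjugating the tensor factor `S` to a subgroup commuting with it is a swap times a
pure tensor. -/
theorem cp_swap_mem {m : ℕ} (S : Subgroup (GL (Fin n) F)) (e : Fin n ≃ Fin m × Fin m)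
    (Pm : GL (Fin n) F) (ρ : Matrix (Fin n) (Fin n) F → Matrix (Fin m) (Fin m) F)
    (D : TensorData S m m e Pm ρ) (h : GL (Fin n) F)
    (hcomm : ∀ s ∈ S, ∀ t ∈ Helper97.cj h S, s * t = t * s) :
    h ∈ tensorWreathSubgroup m 2 (e.trans (eps m)) Pm := by
  classical
  have hcent : ∀ M ∈ Algebra.adjoin F (matrixSet S), ∀ s ∈ matrixSet S,
      ((h : Matrix (Fin n) (Fin n) F) * M * ((h⁻¹ : GL (Fin n) F) : Matrix (Fin n) (Fin n) F)) * s =
      s * ((h : Matrix (Fin n) (Fin n) F) * M * ((h⁻¹ : GL (Fin n) F) : Matrix (Fin n) (Fin n) F)) := by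
    intro M hM
    induction hM using Algebra.adjoin_induction with
    | mem t ht =>
      obtain ⟨t', ht', rfl⟩ := ht
      rintro _ ⟨s', hs', rfl⟩
      have := hcomm s' hs' (h * t' * h⁻¹) (Helper97.conj_mem_cj ht')
      rw [← Units.val_mul, ← Units.val_mul, ← Units.val_mul, ← Units.val_mul, this]
    | algebraMap c =>
      intro s hs
      rw [Algebra.algebraMap_eq_smul_one, Matrix.mul_smul, Matrix.mul_one, Matrix.smul_mul,
        Units.mul_inv, Matrix.smul_mul, Matrix.one_mul, Matrix.mul_smul, Matrix.mul_one]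
    | add x y _ _ hx hy =>
      intro s hs
      rw [Matrix.mul_add, Matrix.add_mul, Matrix.add_mul, Matrix.mul_add, hx s hs, hy s hs]
    | mul x y _ _ hx hy =>
      intro s hs
      have e1 : (h : Matrix (Fin n) (Fin n) F) * (x * y) *
          ((h⁻¹ : GL (Fin n) F) : Matrix (Fin n) (Fin n) F) =
          ((h : Matrix (Fin n) (Fin n) F) * x * ((h⁻¹ : GL (Fin n) F) : Matrix (Fin n) (Fin n) F)) *
          ((h : Matrix (Fin n) (Fin n) F) * y * ((h⁻¹ : GL (Fin n) F) : Matrix (Fin n) (Fin n) F)) := by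
        simp only [Matrix.mul_assoc, Units.inv_mul_cancel_left]
      rw [e1, Matrix.mul_assoc, hy s hs, ← Matrix.mul_assoc, hx s hs, Matrix.mul_assoc]
  have hstep1 : ∀ x : Matrix (Fin m) (Fin m) F, ∃ Y : Matrix (Fin m) (Fin m) F,
      (h : Matrix (Fin n) (Fin n) F) *
        Helper98.conjReindex e Pm (x ⊗ₖ (1 : Matrix (Fin m) (Fin m) F)) *
        ((h⁻¹ : GL (Fin n) F) : Matrix (Fin n) (Fin n) F) =
      Helper98.conjReindex e Pm ((1 : Matrix (Fin m) (Fin m) F) ⊗ₖ Y) := by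
    intro x
    exact D.cent_eq _ (hcent _ (D.kron_mem_adjoin x))
  obtain ⟨g, hg⟩ := conjReindex_surjective e Pm (h : Matrix (Fin n) (Fin n) F)
  obtain ⟨ginv, hginv⟩ := conjReindex_surjective e Pm ((h⁻¹ : GL (Fin n) F) : Matrix (Fin n) (Fin n) F)
  have hg1 : g * ginv = 1 := by
    apply Helper98.conjReindex_injective e Pm
    rw [map_mul, hg, hginv, map_one, ← Units.val_mul, mul_inv_cancel, Units.val_one]
  have hg2 : ginv * g = 1 := by
    apply Helper98.conjReindex_injective e Pm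
    rw [map_mul, hg, hginv, map_one, ← Units.val_mul, inv_mul_cancel, Units.val_one]
  have hstep2 : ∀ x : Matrix (Fin m) (Fin m) F, ∃ Y : Matrix (Fin m) (Fin m) F,
      g * (x ⊗ₖ (1 : Matrix (Fin m) (Fin m) F)) = ((1 : Matrix (Fin m) (Fin m) F) ⊗ₖ Y) * g := by
    intro x
    obtain ⟨Y, hY⟩ := hstep1 x
    refine ⟨Y, ?_⟩
    apply Helper98.conjReindex_injective e Pm
    rw [map_mul, map_mul, hg, ← hY, Matrix.mul_assoc, Units.inv_mul, Matrix.mul_one]
  have hw2 := swapMat_mul_self (F := F) m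
  have hnorm : ∀ Y : Matrix (Fin m) (Fin m) F, ∃ Y' : Matrix (Fin m) (Fin m) F,
      (g * swapMat m F) * ((1 : Matrix (Fin m) (Fin m) F) ⊗ₖ Y) =
        ((1 : Matrix (Fin m) (Fin m) F) ⊗ₖ Y') * (g * swapMat m F) := by
    intro Y
    obtain ⟨Y', hY'⟩ := hstep2 Y
    refine ⟨Y', ?_⟩
    rw [Matrix.mul_assoc, swapMat_mul_kron, ← Matrix.mul_assoc, hY', Matrix.mul_assoc]
  obtain ⟨a, b, hab, ha, hb⟩ := eq_kron_of_normalizes D.hd D.hk (g * swapMat m F)
    (swapMat m F * ginv)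
    (by rw [Matrix.mul_assoc, ← Matrix.mul_assoc (swapMat m F), hw2, Matrix.one_mul, hg1])
    (by rw [Matrix.mul_assoc, ← Matrix.mul_assoc ginv, hg2, Matrix.one_mul, hw2]) hnorm
  have hgeq : g = (a ⊗ₖ b) * swapMat m F := by
    rw [← hab, Matrix.mul_assoc, hw2, Matrix.mul_one]
  obtain ⟨a', ha'⟩ : ∃ a' : GL (Fin m) F, (a' : Matrix (Fin m) (Fin m) F) = a :=
    ⟨Matrix.GeneralLinearGroup.mkOfDetNeZero a ha, rfl⟩
  obtain ⟨b', hb'⟩ : ∃ b' : GL (Fin m) F, (b' : Matrix (Fin m) (Fin m) F) = b :=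
    ⟨Matrix.GeneralLinearGroup.mkOfDetNeZero b hb, rfl⟩
  obtain ⟨u₁, hu₁⟩ := exists_unit_reindex
    ((a' : Matrix (Fin m) (Fin m) F) ⊗ₖ (b' : Matrix (Fin m) (Fin m) F))
    (((a'⁻¹ : GL (Fin m) F) : Matrix (Fin m) (Fin m) F) ⊗ₖ ((b'⁻¹ : GL (Fin m) F) : Matrix (Fin m) (Fin m) F))
    (by rw [← Matrix.mul_kronecker_mul, Units.mul_inv, Units.mul_inv, Matrix.one_kronecker_one])
    (by rw [← Matrix.mul_kronecker_mul, Units.inv_mul, Units.inv_mul, Matrix.one_kronecker_one])
  obtain ⟨u₂, hu₂⟩ := exists_unit_reindex (swapMat m F) (swapMat m F) hw2 hw2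
  refine mem_tensorWreath_of_eq _ Pm h (u₁ * u₂)
    (Subgroup.mul_mem _ (pure_mem_std a' b' u₁ hu₁) (swap_mem_std u₂ hu₂)) ?_
  rw [Units.val_mul, hu₁, hu₂, ← map_mul, conjReindex_trans, ← hg, hgeq, ha', hb']

end Cfsg.Agent.Helper96
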