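import Mathlib
import Cfsg.Agent.Helper98.C3A

/-!
# Definitions for the symplectic extension-field maximality theorem (CALL S5664)

`F` a field, `K` an extension field, `V` a `K`-vector space with a `K`-bilinear alternating form `φ`.
The `F`-form is `fT φ = Tr_{K/F} ∘ φ`.  All maps are `F`-endomorphisms of `V` (`Module.End F V`),
the subgroup `M` is a group-like predicate `P` (`Helper98.C3P`).
-/

set_option autoImplicit false

namespace Cfsg.Agent.Helper96.C3S

open Module

variable {F K V : Type*} [Field F] [Field K] [Algebra F K] [AddCommGroup V] [Module F V]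
  [Module K V] [IsScalarTower F K V]

/-- the `F`-bilinear form `Tr ∘ φ` -/
noncomputable def fT (φ : LinearMap.BilinForm K V) : LinearMap.BilinForm F V :=
  LinearMap.mk₂ F (fun u v => Algebra.trace F K (φ u v))
    (fun u u' v => by simp)
    (fun c u v => by
      rw [← algebraMap_smul K c u, map_smul, LinearMap.smul_apply, smul_eq_mul,
        ← Algebra.smul_def, map_smul])
    (fun u v v' => by simp)
    (fun c u v => by
      rw [← algebraMap_smul K c v, map_smul, smul_eq_mul, ← Algebra.smul_def, map_smul])

theorem fT_apply (φ : LinearMap.BilinForm K V) (u v : V) :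
    fT (F := F) φ u v = Algebra.trace F K (φ u v) := rfl

/-- `K`-transvection `v ↦ v + (c * φ v a) • a` (a `K`-linear map) -/
noncomputable def kT (φ : LinearMap.BilinForm K V) (a : V) (c : K) : V →ₗ[K] V :=
  LinearMap.id + (c • φ.flip a).smulRight a

theorem kT_apply (φ : LinearMap.BilinForm K V) (a : V) (c : K) (v : V) :
    kT φ a c v = v + (c * φ v a) • a := by
  simp [kT]

/-- `K`-Siegel element `v ↦ v + φ v a • a' + φ v a' • a` -/
noncomputable def kS (φ : LinearMap.BilinForm K V) (a a' : V) : V →ₗ[K] V :=
  LinearMap.id + (φ.flip a).smulRight a' + (φ.flip a').smulRight a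

theorem kS_apply (φ : LinearMap.BilinForm K V) (a a' : V) (v : V) :
    kS φ a a' v = v + φ v a • a' + φ v a' • a := by
  simp [kS]

/-- torus element `a ↦ l • a`, `b ↦ l⁻¹ • b` for a hyperbolic pair `φ a b = 1` -/
noncomputable def kH (φ : LinearMap.BilinForm K V) (a b : V) (l : K) : V →ₗ[K] V :=
  LinearMap.id + ((l - 1) • φ.flip b).smulRight a - ((l⁻¹ - 1) • φ.flip a).smulRight b

theorem kH_apply (φ : LinearMap.BilinForm K V) (a b : V) (l : K) (v : V) :
    kH φ a b l v = v + ((l - 1) * φ v b) • a - ((l⁻¹ - 1) * φ v a) • b := by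
  simp [kH]

/-- `F`-transvection `v ↦ v + (s * fT φ v u) • u` -/
noncomputable def tF (φ : LinearMap.BilinForm K V) (u : V) (s : F) : Module.End F V :=
  LinearMap.id + (s • (fT (F := F) φ).flip u).smulRight u

theorem tF_apply (φ : LinearMap.BilinForm K V) (u : V) (s : F) (v : V) :
    tF φ u s v = v + (s * fT (F := F) φ v u) • u := by
  simp [tF]

/-- `F`-Siegel element `v ↦ v + fT φ v u • w + fT φ v w • u` -/
noncomputable def eF (φ : LinearMap.BilinForm K V) (u w : V) : Module.End F V :=
  LinearMap.id + ((fT (F := F) φ).flip u).smulRight w + ((fT (F := F) φ).flip w).smulRight u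

theorem eF_apply (φ : LinearMap.BilinForm K V) (u w : V) (v : V) :
    eF (F := F) φ u w v = v + fT (F := F) φ v u • w + fT (F := F) φ v w • u := by
  simp [eF]

/-- the `K`-line through `a`, as a set -/
def Kline (K : Type*) {V : Type*} [Field K] [AddCommGroup V] [Module K V] (a : V) : Set V :=
  {x | ∃ k : K, x = k • a}

/-- the members of the orbit: images of `K`-lines under elements of `P` -/
def InW (K : Type*) {F V : Type*} [Field F] [Field K] [AddCommGroup V] [Module F V] [Module K V]
    (P : Module.End F V → Prop) (X : Set V) : Prop :=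
  ∃ (g : Module.End F V) (a : V), P g ∧ a ≠ 0 ∧ X = {x | ∃ k : K, x = g (k • a)}

/-- the special subspace `H₀ a + F b`, `H₀ = ker Tr` -/
def Wstar (F K : Type*) {V : Type*} [Field F] [Field K] [Algebra F K] [AddCommGroup V] [Module F V]
    [Module K V] (a b : V) : Set V :=
  {x | ∃ (z : K) (t : F), Algebra.trace F K z = 0 ∧ x = z • a + t • b}

/-- standing hypotheses: `φ` alternating nondegenerate, `P` a group of `fT φ`-isometries containing
all `K`-linear `φ`-isometries -/
structure Hyp (φ : LinearMap.BilinForm K V) (P : Module.End F V → Prop) : Prop where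
  alt : ∀ v, φ v v = 0
  nd : ∀ u, (∀ v, φ u v = 0) → u = 0
  grp : Helper98.C3P P
  iso : ∀ g, P g → ∀ u v, fT (F := F) φ (g u) (g v) = fT (F := F) φ u v
  lin : ∀ g : V →ₗ[K] V, (∀ u v, φ (g u) (g v) = φ u v) → P (g.restrictScalars F)

theorem skew {φ : LinearMap.BilinForm K V} (alt : ∀ v, φ v v = 0) (u v : V) : φ u v = - φ v u := by
  have h := alt (u + v)
  simp only [map_add, LinearMap.add_apply, alt, zero_add, add_zero] at h
  exact eq_neg_of_add_eq_zero_right h

/-- the trace form of a finite field extension is nondegenerate -/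
theorem trace_nd [Finite F] [Finite K] (x : K) (h : ∀ k : K, Algebra.trace F K (k * x) = 0) :
    x = 0 := by
  haveI : Module.Finite F K := Module.Finite.of_finite
  haveI : Algebra.IsSeparable F K := inferInstance
  have hnd := traceForm_nondegenerate F K
  by_contra hx
  obtain ⟨y, hy⟩ : ∃ y, Algebra.traceForm F K x y ≠ 0 := by
    by_contra hcon
    push Not at hcon
    exact hx (hnd.1 x hcon)
  apply hy
  rw [Algebra.traceForm_apply, mul_comm]
  exact h y

/-- the trace of a finite field extension is onto -/
theorem trace_surj [Finite F] [Finite K] (s : F) : ∃ e : K, Algebra.trace F K e = s := by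
  haveI : Module.Finite F K := Module.Finite.of_finite
  exact Algebra.trace_surjective F K s

end Cfsg.Agent.Helper96.C3S
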