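-- helper96 library: abstract symplectic forms on `F^ι` — perpendiculars, adjoints, isometries.
import Cfsg.Agent.Helper97.GForms
import Cfsg.Agent.Helper97.GClifford2

set_option autoImplicit false
set_option linter.unusedSectionVars false
set_option linter.unusedVariables false
open Cfsg Cfsg.Geo Matrix

namespace Cfsg.Agent.Helper96.Sy

variable {ι : Type} [Fintype ι] [DecidableEq ι] {F : Type*} [Field F]
variable {f : (ι → F) → (ι → F) → F}

theorem zero_left (hf : IsSymplecticForm f) (v : ι → F) : f 0 v = 0 :=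
  (Helper97.Gen.isSesq_of_bilinear hf.bilinear).zero_left v

theorem zero_right (hf : IsSymplecticForm f) (v : ι → F) : f v 0 = 0 :=
  (Helper97.Gen.isSesq_of_bilinear hf.bilinear).zero_right v

theorem neg_left (hf : IsSymplecticForm f) (u v : ι → F) : f (-u) v = - f u v := by
  have := hf.bilinear.smul_left (-1) u v
  simpa using this

theorem neg_right (hf : IsSymplecticForm f) (u v : ι → F) : f u (-v) = - f u v := by
  have := hf.bilinear.smul_right (-1) u v
  simpa using this

theorem sub_left (hf : IsSymplecticForm f) (u u' v : ι → F) : f (u - u') v = f u v - f u' v := by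
  rw [sub_eq_add_neg, hf.bilinear.add_left, neg_left hf, ← sub_eq_add_neg]

theorem sub_right (hf : IsSymplecticForm f) (u v v' : ι → F) : f u (v - v') = f u v - f u v' := by
  rw [sub_eq_add_neg, hf.bilinear.add_right, neg_right hf, ← sub_eq_add_neg]

theorem sep_right (hf : IsSymplecticForm f) {v : ι → F} (h : ∀ x, f x v = 0) : v = 0 := by
  by_contra hv
  obtain ⟨⟨x, hx⟩, -⟩ := hf.nondegenerate v hv
  exact hx (h x)

theorem sep_left (hf : IsSymplecticForm f) {v : ι → F} (h : ∀ x, f v x = 0) : v = 0 := by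
  by_contra hv
  obtain ⟨-, ⟨x, hx⟩⟩ := hf.nondegenerate v hv
  exact hx (h x)

theorem eq_zero_symm (hf : IsSymplecticForm f) {u v : ι → F} (h : f u v = 0) : f v u = 0 := by
  rw [hf.skew, h, neg_zero]

/-- The bundled bilinear form. -/
noncomputable def toB (hf : IsSymplecticForm f) : LinearMap.BilinForm F (ι → F) :=
  LinearMap.mk₂ F f hf.bilinear.add_left hf.bilinear.smul_left hf.bilinear.add_right
    hf.bilinear.smul_right

theorem toB_apply (hf : IsSymplecticForm f) (u v : ι → F) : toB hf u v = f u v := rfl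

theorem toB_alt (hf : IsSymplecticForm f) : (toB hf).IsAlt := fun x => hf.alternating x

theorem toB_refl (hf : IsSymplecticForm f) : (toB hf).IsRefl := (toB_alt hf).isRefl

theorem toB_nondeg (hf : IsSymplecticForm f) : (toB hf).Nondegenerate :=
  ⟨fun _ h => sep_left hf h, fun _ h => sep_right hf h⟩

/-- The perpendicular subspace. -/
noncomputable def perp (hf : IsSymplecticForm f) (X : Submodule F (ι → F)) : Submodule F (ι → F) :=
  (toB hf).orthogonal X

theorem mem_perp (hf : IsSymplecticForm f) (X : Submodule F (ι → F)) (v : ι → F) :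
    v ∈ perp hf X ↔ ∀ w ∈ X, f w v = 0 := Iff.rfl

theorem mem_perp' (hf : IsSymplecticForm f) (X : Submodule F (ι → F)) (v : ι → F) :
    v ∈ perp hf X ↔ ∀ w ∈ X, f v w = 0 := by
  rw [mem_perp]
  exact ⟨fun h w hw => eq_zero_symm hf (h w hw), fun h w hw => eq_zero_symm hf (h w hw)⟩

theorem perp_perp (hf : IsSymplecticForm f) (X : Submodule F (ι → F)) : perp hf (perp hf X) = X :=
  LinearMap.BilinForm.orthogonal_orthogonal (toB_nondeg hf) (toB_refl hf) X

theorem perp_anti (hf : IsSymplecticForm f) {X Y : Submodule F (ι → F)} (h : X ≤ Y) :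
    perp hf Y ≤ perp hf X := fun _ hv w hw => hv w (h hw)

theorem finrank_perp (hf : IsSymplecticForm f) (X : Submodule F (ι → F)) :
    Module.finrank F X + Module.finrank F (perp hf X) = Fintype.card ι := by
  have h1 := LinearMap.BilinForm.finrank_orthogonal (toB_nondeg hf) X
  have h2 := Submodule.finrank_le X
  rw [Module.finrank_fintype_fun_eq_card] at h1 h2
  rw [perp, h1]
  omega

theorem disjoint_perp (hf : IsSymplecticForm f) (X : Submodule F (ι → F))
    (hX : IsNondegenerateOn f X) : Disjoint X (perp hf X) := by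
  rw [Submodule.disjoint_def]
  intro x hx hx'
  by_contra h0
  obtain ⟨⟨y, hy, hyx⟩, -⟩ := hX x hx h0
  exact hyx (hx' y hy)

theorem isCompl_perp (hf : IsSymplecticForm f) (X : Submodule F (ι → F))
    (hX : IsNondegenerateOn f X) : IsCompl X (perp hf X) :=
  (LinearMap.BilinForm.isCompl_orthogonal_iff_disjoint (toB_refl hf)).mpr (disjoint_perp hf X hX)

theorem nondeg_of_inf (hf : IsSymplecticForm f) (X : Submodule F (ι → F))
    (h : X ⊓ perp hf X = ⊥) : IsNondegenerateOn f X := by
  have key : ∀ w ∈ X, w ≠ 0 → ∃ x ∈ X, f x w ≠ 0 := by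
    intro w hw hw0
    by_contra hcon
    push Not at hcon
    apply hw0
    have : w ∈ X ⊓ perp hf X := ⟨hw, hcon⟩
    rw [h] at this
    exact (Submodule.mem_bot F).mp this
  intro w hw hw0
  obtain ⟨x, hx, hxw⟩ := key w hw hw0
  exact ⟨⟨x, hx, hxw⟩, ⟨x, hx, by rw [hf.skew]; exact neg_ne_zero.mpr hxw⟩⟩

theorem nondeg_perp (hf : IsSymplecticForm f) (X : Submodule F (ι → F))
    (hX : IsNondegenerateOn f X) : IsNondegenerateOn f (perp hf X) := by
  apply nondeg_of_inf hf
  rw [perp_perp, inf_comm]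
  exact (disjoint_perp hf X hX).eq_bot

theorem ts_iff (hf : IsSymplecticForm f) (X : Submodule F (ι → F)) :
    IsTotallySingularFor f X ↔ X ≤ perp hf X :=
  ⟨fun h v hv w hw => h w hw v hv, fun h u hu v hv => h hv u hu⟩

theorem finrank_ts (hf : IsSymplecticForm f) (X : Submodule F (ι → F))
    (hX : IsTotallySingularFor f X) : 2 * Module.finrank F X ≤ Fintype.card ι := by
  have h1 := Submodule.finrank_mono ((ts_iff hf X).mp hX)
  have h2 := finrank_perp hf X
  omega

/-- The isometry group of a form, inside `GL`. -/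
def isoSub (f : (ι → F) → (ι → F) → F) : Subgroup (GL ι F) := preserving (glToMat ι F) f

theorem mem_isoSub (g : GL ι F) : g ∈ isoSub f ↔
    ∀ u v : ι → F, f ((g : Matrix ι ι F) *ᵥ u) ((g : Matrix ι ι F) *ᵥ v) = f u v := Iff.rfl

theorem iso_apply {g : GL ι F} (hg : g ∈ isoSub f) (u v : ι → F) :
    f ((g : Matrix ι ι F) *ᵥ u) ((g : Matrix ι ι F) *ᵥ v) = f u v := (mem_isoSub g).mp hg u v

theorem iso_apply_left {g : GL ι F} (hg : g ∈ isoSub f) (u v : ι → F) :
    f ((g : Matrix ι ι F) *ᵥ u) v = f u (((g⁻¹ : GL ι F) : Matrix ι ι F) *ᵥ v) := by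
  have := (mem_isoSub g).mp hg u (((g⁻¹ : GL ι F) : Matrix ι ι F) *ᵥ v)
  rwa [Helper97.Gen.mulVec_cancel_inv] at this

/-- The perpendicular of an invariant subspace is invariant. -/
theorem perp_inv (hf : IsSymplecticForm f) (H : Subgroup (GL ι F)) (hH : H ≤ isoSub f)
    (W : Submodule F (ι → F)) (hW : ∀ h ∈ H, ∀ w ∈ W, (h : Matrix ι ι F) *ᵥ w ∈ W) :
    ∀ h ∈ H, ∀ w ∈ perp hf W, (h : Matrix ι ι F) *ᵥ w ∈ perp hf W := by
  intro h hh w hw x hx
  show f x ((h : Matrix ι ι F) *ᵥ w) = 0
  have h1 := (mem_isoSub h).mp (hH hh) (((h⁻¹ : GL ι F) : Matrix ι ι F) *ᵥ x) w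
  rw [Helper97.Gen.mulVec_cancel_inv] at h1
  rw [h1]
  exact hw _ (hW h⁻¹ (H.inv_mem hh) x hx)

/-! ### Gram matrix and adjoints -/

theorem apply_eq (hf : IsSymplecticForm f) (u v : ι → F) :
    f u v = u ⬝ᵥ (Helper97.Gen.gram f *ᵥ v) := by
  have := (Helper97.Gen.isSesq_of_bilinear hf.bilinear).apply_eq u v
  simpa using this

theorem det_gram_ne_zero (hf : IsSymplecticForm f) : (Helper97.Gen.gram f).det ≠ 0 :=
  (Helper97.Gen.isSesq_of_bilinear hf.bilinear).det_gram_ne_zero
    (fun v hv => (hf.nondegenerate v hv).1)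

/-- The adjoint of a matrix for the form `f`. -/
noncomputable def adj (f : (ι → F) → (ι → F) → F) (k : Matrix ι ι F) : Matrix ι ι F :=
  (Helper97.Gen.gram f)⁻¹ * kᵀ * Helper97.Gen.gram f

theorem adj_spec (hf : IsSymplecticForm f) (k : Matrix ι ι F) (u v : ι → F) :
    f (k *ᵥ u) v = f u (adj f k *ᵥ v) := by
  have hu : IsUnit (Helper97.Gen.gram f).det := isUnit_iff_ne_zero.mpr (det_gram_ne_zero hf)
  rw [apply_eq hf, apply_eq hf, adj, Matrix.mulVec_mulVec, ← mul_assoc, ← mul_assoc,
    Matrix.mul_nonsing_inv _ hu, one_mul, ← Matrix.mulVec_mulVec, Matrix.dotProduct_mulVec u kᵀ,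
    Matrix.vecMul_transpose]

theorem adj_spec' (hf : IsSymplecticForm f) (k : Matrix ι ι F) (u v : ι → F) :
    f u (k *ᵥ v) = f (adj f k *ᵥ u) v := by
  rw [hf.skew u (k *ᵥ v), adj_spec hf, ← hf.skew]

theorem mat_eq (hf : IsSymplecticForm f) {A B : Matrix ι ι F}
    (h : ∀ u v, f u (A *ᵥ v) = f u (B *ᵥ v)) : A = B := by
  have h1 : A - B = 0 := by
    apply Helper97.Gen.eq_zero_of_mulVec_eq_zero
    intro w
    apply sep_right hf
    intro x
    rw [Matrix.sub_mulVec, sub_right hf, h, sub_self]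
  exact sub_eq_zero.mp h1

theorem adj_unique (hf : IsSymplecticForm f) {k k' : Matrix ι ι F}
    (h : ∀ u v, f (k *ᵥ u) v = f u (k' *ᵥ v)) : adj f k = k' :=
  mat_eq hf (fun u v => by rw [← adj_spec hf, h])

theorem adj_mul (hf : IsSymplecticForm f) (a b : Matrix ι ι F) :
    adj f (a * b) = adj f b * adj f a :=
  adj_unique hf (fun u v => by
    rw [← Matrix.mulVec_mulVec, adj_spec hf, adj_spec hf, Matrix.mulVec_mulVec])

theorem adj_add (a b : Matrix ι ι F) : adj f (a + b) = adj f a + adj f b := by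
  simp only [adj, Matrix.transpose_add, mul_add, add_mul]

theorem adj_sub (a b : Matrix ι ι F) : adj f (a - b) = adj f a - adj f b := by
  simp only [adj, Matrix.transpose_sub, mul_sub, sub_mul]

theorem adj_smul (c : F) (a : Matrix ι ι F) : adj f (c • a) = c • adj f a := by
  simp only [adj, Matrix.transpose_smul, Matrix.mul_smul, Matrix.smul_mul]

theorem adj_neg (a : Matrix ι ι F) : adj f (-a) = - adj f a := by
  simp only [adj, Matrix.transpose_neg, mul_neg, neg_mul]

theorem adj_zero : adj f (0 : Matrix ι ι F) = 0 := by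
  simp only [adj, Matrix.transpose_zero, mul_zero, zero_mul]

theorem adj_one (hf : IsSymplecticForm f) : adj f (1 : Matrix ι ι F) = 1 :=
  adj_unique hf (fun u v => by rw [Matrix.one_mulVec, Matrix.one_mulVec])

theorem adj_adj (hf : IsSymplecticForm f) (k : Matrix ι ι F) : adj f (adj f k) = k :=
  adj_unique hf (fun u v => (adj_spec' hf k u v).symm)

theorem adj_iso (hf : IsSymplecticForm f) {g : GL ι F} (hg : g ∈ isoSub f) :
    adj f (g : Matrix ι ι F) = ((g⁻¹ : GL ι F) : Matrix ι ι F) :=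
  adj_unique hf (fun u v => iso_apply_left hg u v)

theorem adj_conj (hf : IsSymplecticForm f) {g : GL ι F} (hg : g ∈ isoSub f) (k : Matrix ι ι F) :
    adj f ((g : Matrix ι ι F) * k * ((g⁻¹ : GL ι F) : Matrix ι ι F))
      = (g : Matrix ι ι F) * adj f k * ((g⁻¹ : GL ι F) : Matrix ι ι F) := by
  have h1 := adj_iso hf hg
  have h2 := adj_iso hf ((isoSub f).inv_mem hg)
  rw [inv_inv] at h2
  rw [adj_mul hf, adj_mul hf, h1, h2, mul_assoc]

theorem adj_smul_one (hf : IsSymplecticForm f) (c : F) :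
    adj f (c • (1 : Matrix ι ι F)) = c • (1 : Matrix ι ι F) := by
  rw [adj_smul, adj_one hf]

end Cfsg.Agent.Helper96.Sy
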