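-- helper96 library: small general lemmas on stabilisers and decompositions (general index type).
import Cfsg.Agent.Helper96.SpBasic

set_option autoImplicit false
set_option linter.unusedSectionVars false
set_option linter.unusedVariables false
open Cfsg Cfsg.Geo Matrix

namespace Cfsg.Agent.Helper96.Sy

variable {ι : Type} [Fintype ι] [DecidableEq ι] {F : Type*} [Field F]

theorem le_stab (H : Subgroup (GL ι F)) (W : Submodule F (ι → F))
    (h : ∀ g ∈ H, ∀ v ∈ W, (g : Matrix ι ι F) *ᵥ v ∈ W) : H ≤ subspaceStabilizer W := by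
  intro g hg
  rw [Helper97.Gen.mem_subspaceStabilizer_iff]
  intro v
  refine ⟨h g hg v, fun hv => ?_⟩
  have := h g⁻¹ (H.inv_mem hg) _ hv
  rwa [Helper97.Gen.mulVec_inv_cancel] at this

theorem stab_maps {g : GL ι F} {W : Submodule F (ι → F)} (hg : g ∈ subspaceStabilizer W)
    {v : ι → F} (hv : v ∈ W) : (g : Matrix ι ι F) *ᵥ v ∈ W :=
  ((Helper97.Gen.mem_subspaceStabilizer_iff W g).mp hg v).mp hv

theorem gl_toLin_inj (g : GL ι F) : Function.Injective (Matrix.toLin' (g : Matrix ι ι F)) := by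
  intro x y hxy
  rw [Matrix.toLin'_apply, Matrix.toLin'_apply] at hxy
  exact Helper97.Gen.mulVec_injective g hxy

/-- Membership in the decomposition stabiliser from mapping members into members. -/
theorem stab_decomp_of_maps {t k : ℕ} (D : Fin t → Submodule F (ι → F))
    (hfr : ∀ l, Module.finrank F (D l) = k) (g : GL ι F) (σ : Equiv.Perm (Fin t))
    (h : ∀ l, ∀ x ∈ D l, (g : Matrix ι ι F) *ᵥ x ∈ D (σ l)) : g ∈ decompositionStabilizer D := by
  refine ⟨σ, fun l => ?_⟩
  apply Submodule.eq_of_le_of_finrank_eq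
  · rintro _ ⟨x, hx, rfl⟩
    rw [Matrix.toLin'_apply]
    exact h l x hx
  · rw [← (Submodule.equivMapOfInjective _ (gl_toLin_inj g) (D l)).finrank_eq, hfr, hfr]

/-- An injective endomorphism of a subspace is surjective on it. -/
theorem surj_of_inj_on (s : Matrix ι ι F) (W : Submodule F (ι → F))
    (hmap : ∀ w ∈ W, s *ᵥ w ∈ W) (hinj : ∀ w ∈ W, s *ᵥ w = 0 → w = 0) :
    ∀ v ∈ W, ∃ v' ∈ W, s *ᵥ v' = v := by
  intro v hv
  have hmap' : ∀ x ∈ W, Matrix.toLin' s x ∈ W := by
    intro x hx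
    rw [Matrix.toLin'_apply]
    exact hmap x hx
  have hi : Function.Injective ((Matrix.toLin' s).restrict hmap') := by
    rw [← LinearMap.ker_eq_bot, LinearMap.ker_eq_bot']
    intro x hx
    have h1 := congrArg Subtype.val hx
    simp only [LinearMap.coe_restrict_apply, Matrix.toLin'_apply, ZeroMemClass.coe_zero] at h1
    exact Subtype.ext (hinj x.1 x.2 h1)
  obtain ⟨w, hw⟩ := (LinearMap.injective_iff_surjective.mp hi) ⟨v, hv⟩
  have h1 := congrArg Subtype.val hw
  simp only [LinearMap.coe_restrict_apply, Matrix.toLin'_apply] at h1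
  exact ⟨w.1, w.2, h1⟩

/-- The pair decomposition. -/
def pairD (A B : Submodule F (ι → F)) : Fin 2 → Submodule F (ι → F) := ![A, B]

theorem pairD_zero (A B : Submodule F (ι → F)) : pairD A B 0 = A := rfl

theorem pairD_one (A B : Submodule F (ι → F)) : pairD A B 1 = B := rfl

theorem fin2_cases (i : Fin 2) : i = 0 ∨ i = 1 := by
  revert i
  decide

theorem pair_decomp (A B : Submodule F (ι → F)) (hinf : A ⊓ B = ⊥) (hsup : A ⊔ B = ⊤) (k : ℕ)
    (hA : Module.finrank F A = k) (hB : Module.finrank F B = k) (hk : 0 < k) :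
    IsMDecomposition k (pairD A B) := by
  refine ⟨le_refl 2, hk, ?_, ?_, ?_⟩
  · intro i
    rcases fin2_cases i with rfl | rfl
    · exact hA
    · exact hB
  · rw [iSupIndep_pair (i := (0 : Fin 2)) (j := 1) (by decide) fin2_cases]
    rw [pairD_zero, pairD_one]
    exact disjoint_iff.mpr hinf
  · rw [eq_top_iff, ← hsup]
    exact sup_le (le_iSup (pairD A B) 0) (le_iSup (pairD A B) 1)

theorem pair_stab_fix (A B : Submodule F (ι → F)) (k : ℕ)
    (hA : Module.finrank F A = k) (hB : Module.finrank F B = k) (g : GL ι F)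
    (h0 : ∀ x ∈ A, (g : Matrix ι ι F) *ᵥ x ∈ A) (h1 : ∀ x ∈ B, (g : Matrix ι ι F) *ᵥ x ∈ B) :
    g ∈ decompositionStabilizer (pairD A B) := by
  refine stab_decomp_of_maps (pairD A B) (k := k) ?_ g 1 ?_
  · intro i
    rcases fin2_cases i with rfl | rfl
    · exact hA
    · exact hB
  · intro i x hx
    rcases fin2_cases i with rfl | rfl
    · exact h0 x hx
    · exact h1 x hx

theorem pair_stab_swap (A B : Submodule F (ι → F)) (k : ℕ)
    (hA : Module.finrank F A = k) (hB : Module.finrank F B = k) (g : GL ι F)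
    (h0 : ∀ x ∈ A, (g : Matrix ι ι F) *ᵥ x ∈ B) (h1 : ∀ x ∈ B, (g : Matrix ι ι F) *ᵥ x ∈ A) :
    g ∈ decompositionStabilizer (pairD A B) := by
  refine stab_decomp_of_maps (pairD A B) (k := k) ?_ g (Equiv.swap 0 1) ?_
  · intro i
    rcases fin2_cases i with rfl | rfl
    · exact hA
    · exact hB
  · intro i x hx
    rcases fin2_cases i with rfl | rfl
    · rw [Equiv.swap_apply_left]
      exact h0 x hx
    · rw [Equiv.swap_apply_right]
      exact h1 x hx

/-- Reducible isometry groups: a totally singular or a non-degenerate invariant subspace. -/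
theorem reducible_cases {f : (ι → F) → (ι → F) → F} (hf : IsSymplecticForm f)
    (H : Subgroup (GL ι F)) (hH : H ≤ isoSub f) (hred : ¬ ActsIrreducibly (matrixSet H)) :
    (∃ W : Submodule F (ι → F), W ≠ ⊥ ∧ IsTotallySingularFor f W ∧ H ≤ subspaceStabilizer W) ∨
    (∃ W W' : Submodule F (ι → F), W ≠ ⊥ ∧ W' ≠ ⊥ ∧ IsNondegenerateOn f W ∧
      IsNondegenerateOn f W' ∧ AreOrthogonalFor f W W' ∧ W ⊓ W' = ⊥ ∧ W ⊔ W' = ⊤ ∧
      H ≤ subspaceStabilizer W ∧ H ≤ subspaceStabilizer W') := by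
  have hex : ∃ W : Submodule F (ι → F),
      (∀ s ∈ matrixSet H, W.map (Matrix.toLin' s) ≤ W) ∧ W ≠ ⊥ ∧ W ≠ ⊤ := by
    by_contra hcon
    apply hred
    intro W hW
    by_contra hW'
    rw [not_or] at hW'
    exact hcon ⟨W, hW, hW'.1, hW'.2⟩
  obtain ⟨W, hW, hW0, hW1⟩ := hex
  have hWinv : ∀ g ∈ H, ∀ v ∈ W, (g : Matrix ι ι F) *ᵥ v ∈ W := fun g hg v hv =>
    hW _ (Helper97.Gen.coe_mem_matrixSet hg) ⟨v, hv, by rw [Matrix.toLin'_apply]⟩
  have hPinv := perp_inv hf H hH W hWinv
  by_cases hR : W ⊓ perp hf W = ⊥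
  · right
    have hnd := nondeg_of_inf hf W hR
    refine ⟨W, perp hf W, hW0, ?_, hnd, nondeg_perp hf W hnd, ?_, hR,
      (isCompl_perp hf W hnd).sup_eq_top, le_stab H W hWinv, le_stab H _ hPinv⟩
    · intro hbot
      apply hW1
      have h1 := perp_perp hf W
      rw [hbot] at h1
      rw [← h1, eq_top_iff]
      intro v _
      rw [mem_perp]
      intro w hw
      rw [(Submodule.mem_bot F).mp hw, zero_left hf]
    · intro u hu v hv
      exact (mem_perp hf W v).mp hv u hu
  · left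
    refine ⟨W ⊓ perp hf W, hR, ?_, le_stab H _ ?_⟩
    · intro u hu v hv
      exact (mem_perp hf W v).mp hv.2 u hu.1
    · intro g hg v hv
      exact ⟨hWinv g hg v hv.1, hPinv g hg v hv.2⟩

end Cfsg.Agent.Helper96.Sy
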