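-- helper96 library: a self-adjoint alternating field of degree r forces 2r ∣ n.
import Cfsg.Agent.Helper96.SpBasic
import Cfsg.Agent.Helper97.GClifford

set_option autoImplicit false
set_option linter.unusedSectionVars false
set_option linter.unusedVariables false
open Cfsg Cfsg.Geo Matrix

namespace Cfsg.Agent.Helper96.Sy

variable {ι : Type} [Fintype ι] [DecidableEq ι] {F : Type*} [Field F]
variable {f : (ι → F) → (ι → F) → F}

/-- The cyclic `K`-submodule generated by `v`. -/
def orb (K : Subalgebra F (Matrix ι ι F)) (v : ι → F) : Submodule F (ι → F) :=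
  (Subalgebra.toSubmodule K).map (Helper97.Gen.evalAt v)

theorem mem_orb (K : Subalgebra F (Matrix ι ι F)) (v w : ι → F) :
    w ∈ orb K v ↔ ∃ k ∈ K, k *ᵥ v = w := by
  unfold orb
  rw [Submodule.mem_map]
  rfl

theorem self_mem_orb (K : Subalgebra F (Matrix ι ι F)) (v : ι → F) : v ∈ orb K v :=
  (mem_orb K v v).mpr ⟨1, K.one_mem, Matrix.one_mulVec _⟩

theorem orb_min (K : Subalgebra F (Matrix ι ι F))
    (hinv : ∀ x ∈ K, x ≠ 0 → ∃ y ∈ K, x * y = 1) (v : ι → F) (hv : v ≠ 0) :
    Helper97.Gen.IsMinInv (K : Set (Matrix ι ι F)) (orb K v) ∧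
      Module.finrank F (orb K v) = Module.finrank F K := by
  refine ⟨⟨?_, ?_, ?_⟩, ?_⟩
  · intro hbot
    apply hv
    have := self_mem_orb K v
    rw [hbot] at this
    exact (Submodule.mem_bot F).mp this
  · intro s hs w hw
    obtain ⟨k, hk, rfl⟩ := (mem_orb K v w).mp hw
    exact (mem_orb K v _).mpr ⟨s * k, K.mul_mem hs hk, (Matrix.mulVec_mulVec _ _ _).symm⟩
  · intro U' hU' hle
    by_cases h0 : U' = ⊥
    · exact Or.inl h0
    right
    apply le_antisymm hle
    obtain ⟨w, hwU', hw0⟩ := (Submodule.ne_bot_iff U').mp h0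
    obtain ⟨k₀, hk₀, rfl⟩ := (mem_orb K v w).mp (hle hwU')
    have hk₀0 : k₀ ≠ 0 := by
      rintro rfl
      exact hw0 (Matrix.zero_mulVec _)
    obtain ⟨y, hy, hky⟩ := hinv k₀ hk₀ hk₀0
    have hyk : y * k₀ = 1 := mul_eq_one_comm.mp hky
    intro w' hw'
    obtain ⟨k, hk, rfl⟩ := (mem_orb K v w').mp hw'
    have h1 : k *ᵥ v = (k * y) *ᵥ (k₀ *ᵥ v) := by
      rw [Matrix.mulVec_mulVec, mul_assoc, hyk, mul_one]
    rw [h1]
    exact hU' (k * y) (K.mul_mem hk hy) _ hwU'
  · have hinj : Function.Injective ((Helper97.Gen.evalAt v).domRestrict (Subalgebra.toSubmodule K)) := by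
      intro a b hab
      have h1 : ((a : Matrix ι ι F) - (b : Matrix ι ι F)) *ᵥ v = 0 := by
        rw [Matrix.sub_mulVec]
        have : (a : Matrix ι ι F) *ᵥ v = (b : Matrix ι ι F) *ᵥ v := hab
        rw [this, sub_self]
      have h2 := Helper97.Gen.eq_zero_of_mulVec_eq_zero_of_inv K hinv (K.sub_mem a.2 b.2) hv h1
      exact Subtype.ext (sub_eq_zero.mp h2)
    have h3 := LinearMap.finrank_range_of_inj hinj
    rw [LinearMap.range_domRestrict] at h3
    exact h3

/-- The dimension of a `K`-invariant subspace is divisible by the degree of `K`. -/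
theorem dvd_finrank_of_inv [Finite F] (K : Subalgebra F (Matrix ι ι F))
    (hinv : ∀ x ∈ K, x ≠ 0 → ∃ y ∈ K, x * y = 1) (U : Submodule F (ι → F))
    (hU : ∀ k ∈ K, ∀ u ∈ U, k *ᵥ u ∈ U) : Module.finrank F K ∣ Module.finrank F U := by
  classical
  have hfin : Fintype {v : ι → F // v ≠ 0} := Fintype.ofFinite _
  have h1 := Helper97.Gen.finrank_sup_dvd (T := (K : Set (Matrix ι ι F))) (Module.finrank F K)
    (fun v : {v : ι → F // v ≠ 0} => orb K v.1) (fun v => orb_min K hinv v.1 v.2)
    (Finset.univ.filter (fun v : {v : ι → F // v ≠ 0} => v.1 ∈ U))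
  have h2 : (Finset.univ.filter (fun v : {v : ι → F // v ≠ 0} => v.1 ∈ U)).sup
      (fun v : {v : ι → F // v ≠ 0} => orb K v.1) = U := by
    apply le_antisymm
    · apply Finset.sup_le
      intro v hv w hw
      rw [Finset.mem_filter] at hv
      obtain ⟨k, hk, rfl⟩ := (mem_orb K v.1 w).mp hw
      exact hU k hk _ hv.2
    · intro w hw
      by_cases hw0 : w = 0
      · rw [hw0]; exact Submodule.zero_mem _
      · exact (Finset.le_sup (f := fun v : {v : ι → F // v ≠ 0} => orb K v.1)
          (Finset.mem_filter.mpr ⟨Finset.mem_univ (⟨w, hw0⟩ : {v : ι → F // v ≠ 0}), hw⟩))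
          (self_mem_orb K w)
  rwa [h2] at h1

/-- A self-adjoint field of degree `r` all of whose elements `k` satisfy `f (k v) v = 0`
forces `2 r ∣ n`. -/
theorem two_mul_dvd_of_selfadj [Finite F] (hf : IsSymplecticForm f) {r : ℕ}
    (K : Subalgebra F (Matrix ι ι F)) (hK : IsFieldSubalgebra r K) (hsa : IsSelfAdjointFor f K)
    (halt : ∀ k ∈ K, ∀ v : ι → F, f (k *ᵥ v) v = 0) : 2 * r ∣ Fintype.card ι := by
  have key : ∀ d : ℕ, ∀ U : Submodule F (ι → F), (∀ k ∈ K, ∀ u ∈ U, k *ᵥ u ∈ U) →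
      IsTotallySingularFor f U → Fintype.card ι - Module.finrank F U = d →
      ∃ U' : Submodule F (ι → F), (∀ k ∈ K, ∀ u ∈ U', k *ᵥ u ∈ U') ∧
        IsTotallySingularFor f U' ∧ perp hf U' ≤ U' := by
    intro d
    induction d using Nat.strong_induction_on with
    | _ d ih =>
      intro U hU hts hd
      by_cases hle : perp hf U ≤ U
      · exact ⟨U, hU, hts, hle⟩
      obtain ⟨v, hvp, hvU⟩ := SetLike.not_le_iff_exists.mp hle
      have hU1 : ∀ k ∈ K, ∀ u ∈ U ⊔ orb K v, k *ᵥ u ∈ U ⊔ orb K v := by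
        intro k hk u hu
        obtain ⟨a, ha, b, hb, rfl⟩ := Submodule.mem_sup.mp hu
        obtain ⟨k', hk', rfl⟩ := (mem_orb K v b).mp hb
        rw [Matrix.mulVec_add]
        exact Submodule.add_mem _ (Submodule.mem_sup_left (hU k hk a ha))
          (Submodule.mem_sup_right ((mem_orb K v _).mpr
            ⟨k * k', K.mul_mem hk hk', (Matrix.mulVec_mulVec _ _ _).symm⟩))
      have hts1 : IsTotallySingularFor f (U ⊔ orb K v) := by
        intro x hx y hy
        obtain ⟨a, ha, b, hb, rfl⟩ := Submodule.mem_sup.mp hx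
        obtain ⟨k, hk, rfl⟩ := (mem_orb K v b).mp hb
        obtain ⟨a', ha', b', hb', rfl⟩ := Submodule.mem_sup.mp hy
        obtain ⟨k', hk', rfl⟩ := (mem_orb K v b').mp hb'
        rw [hf.bilinear.add_left, hf.bilinear.add_right, hf.bilinear.add_right, hts a ha a' ha']
        have e1 : f a (k' *ᵥ v) = 0 := by
          rw [← hsa k' hk']
          exact (mem_perp hf U v).mp hvp _ (hU k' hk' a ha)
        have e2 : f (k *ᵥ v) a' = 0 := by
          rw [hsa k hk]
          exact (mem_perp' hf U v).mp hvp _ (hU k hk a' ha')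
        have e3 : f (k *ᵥ v) (k' *ᵥ v) = 0 := by
          rw [← hsa k' hk', Matrix.mulVec_mulVec]
          exact halt (k' * k) (K.mul_mem hk' hk) v
        rw [e1, e2, e3]
        ring
      have hlt : U < U ⊔ orb K v := by
        refine lt_of_le_of_ne le_sup_left (fun h => hvU ?_)
        rw [h]
        exact Submodule.mem_sup_right (self_mem_orb K v)
      have h1 := Submodule.finrank_lt_finrank_of_lt hlt
      have h2 := Submodule.finrank_le (U ⊔ orb K v)
      rw [Module.finrank_fintype_fun_eq_card] at h2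
      exact ih (Fintype.card ι - Module.finrank F (U ⊔ orb K v : Submodule F (ι → F))) (by omega) _
        hU1 hts1 rfl
  obtain ⟨U, hU, hts, hle⟩ := key _ ⊥ (fun k _ u hu => by
      rw [(Submodule.mem_bot F).mp hu, Matrix.mulVec_zero]; exact Submodule.zero_mem _)
    (fun u hu v hv => by rw [(Submodule.mem_bot F).mp hu]; exact zero_left hf v) rfl
  have heq : perp hf U = U := le_antisymm hle (fun u hu => (mem_perp hf U u).mpr (fun w hw => hts w hw u hu))
  have h1 := finrank_perp hf U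
  rw [heq] at h1
  have h2 := dvd_finrank_of_inv K hK.inv U hU
  rw [hK.finrank_eq] at h2
  obtain ⟨c, hc⟩ := h2
  exact ⟨c, by rw [← h1, hc]; ring⟩

end Cfsg.Agent.Helper96.Sy
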