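-- helper96 library: the symplectic group is not contained in tensor, subfield or quadratic stabilisers.
import Cfsg.Agent.Helper96.SpNot

set_option autoImplicit false
set_option linter.unusedSectionVars false
set_option linter.unusedVariables false
open Cfsg Cfsg.Geo Matrix
open scoped Kronecker

namespace Cfsg.Agent.Helper96.Sy

variable {m : ℕ} {F : Type*} [Field F]

theorem gl_col_ne_zero (P : GL (Fin m ⊕ Fin m) F) (p : Fin m ⊕ Fin m) :
    (P : Matrix (Fin m ⊕ Fin m) (Fin m ⊕ Fin m) F) *ᵥ Pi.single p 1 ≠ 0 := by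
  intro h
  have h1 := Helper97.Gen.mulVec_inv_cancel P (Pi.single p (1 : F))
  rw [h, Matrix.mulVec_zero] at h1
  have h2 := congrFun h1 p
  simp at h2

/-- Tensor product subgroups. -/
theorem notSp_tensor (hm : 1 ≤ m) {n₁ n₂ : ℕ} (h1 : 2 ≤ n₁) (h2 : 2 ≤ n₂)
    (e : (Fin m ⊕ Fin m) ≃ Fin n₁ × Fin n₂) (P : GL (Fin m ⊕ Fin m) F) :
    ¬ spGL m F ≤ tensorProductSubgroup n₁ n₂ e P := by
  classical
  intro hle
  obtain ⟨p₀⟩ : Nonempty (Fin m ⊕ Fin m) := ⟨Sum.inl ⟨0, by omega⟩⟩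
  obtain ⟨u, hu⟩ : ∃ u, u = (P : Matrix (Fin m ⊕ Fin m) (Fin m ⊕ Fin m) F) *ᵥ Pi.single p₀ 1 := ⟨_, rfl⟩
  have hu0 : u ≠ 0 := by rw [hu]; exact gl_col_ne_zero P p₀
  obtain ⟨a, b, hab⟩ := Helper98.mem_tensorProductSubgroup (hle (Helper94.stGL_mem u 1))
  obtain ⟨R, hR⟩ : ∃ R : Matrix (Fin m ⊕ Fin m) (Fin m ⊕ Fin m) F,
      R = Matrix.reindexAlgEquiv F F e.symm
        ((a : Matrix (Fin n₁) (Fin n₁) F) ⊗ₖ (b : Matrix (Fin n₂) (Fin n₂) F)) := ⟨_, rfl⟩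
  have hRapply : ∀ p q, R p q = (a : Matrix (Fin n₁) (Fin n₁) F) (e p).1 (e q).1 *
      (b : Matrix (Fin n₂) (Fin n₂) F) (e p).2 (e q).2 := by
    intro p q
    rw [hR]
    rfl
  have htR : ((Helper94.stGL u 1 : GL (Fin m ⊕ Fin m) F) : Matrix (Fin m ⊕ Fin m) (Fin m ⊕ Fin m) F) *
      (P : Matrix (Fin m ⊕ Fin m) (Fin m ⊕ Fin m) F) = (P : Matrix (Fin m ⊕ Fin m) (Fin m ⊕ Fin m) F) * R := by
    rw [hab, Helper98.conjReindex_apply, ← hR, mul_assoc, ← Units.val_mul, inv_mul_cancel,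
      Units.val_one, mul_one]
  have hcol : ∀ q p, p ≠ p₀ → R p q = if p = q then 1 else 0 := by
    intro q p hp
    have h3 : (P : Matrix (Fin m ⊕ Fin m) (Fin m ⊕ Fin m) F) *ᵥ (R *ᵥ Pi.single q 1) =
        (P : Matrix (Fin m ⊕ Fin m) (Fin m ⊕ Fin m) F) *ᵥ (Pi.single q 1 +
          sympForm m F ((P : Matrix (Fin m ⊕ Fin m) (Fin m ⊕ Fin m) F) *ᵥ Pi.single q 1) u •
            Pi.single p₀ 1) := by
      rw [Matrix.mulVec_mulVec, ← htR, ← Matrix.mulVec_mulVec, Helper94.stGL_mulVec, one_mul,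
        Matrix.mulVec_add, Matrix.mulVec_smul, ← hu]
    have h4 := Helper97.Gen.mulVec_injective P h3
    have h5 := congrFun h4 p
    rw [Matrix.mulVec_single_one] at h5
    simp only [Matrix.col_apply, Pi.add_apply, Pi.smul_apply, Pi.single_apply, smul_eq_mul] at h5
    rw [h5]
    simp [hp]
  -- a second index in each factor
  obtain ⟨i₁, hi₁⟩ : ∃ i₁ : Fin n₁, i₁ ≠ (e p₀).1 := by
    by_cases h : (e p₀).1 = ⟨0, by omega⟩
    · exact ⟨⟨1, by omega⟩, fun h' => by rw [h] at h'; simpa using congrArg Fin.val h'⟩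
    · exact ⟨⟨0, by omega⟩, fun h' => h h'.symm⟩
  obtain ⟨j₁, hj₁⟩ : ∃ j₁ : Fin n₂, j₁ ≠ (e p₀).2 := by
    by_cases h : (e p₀).2 = ⟨0, by omega⟩
    · exact ⟨⟨1, by omega⟩, fun h' => by rw [h] at h'; simpa using congrArg Fin.val h'⟩
    · exact ⟨⟨0, by omega⟩, fun h' => h h'.symm⟩
  have hb : ∀ j j', (a : Matrix (Fin n₁) (Fin n₁) F) i₁ i₁ * (b : Matrix (Fin n₂) (Fin n₂) F) j j' =
      if j = j' then 1 else 0 := by
    intro j j'
    have h3 := hcol (e.symm (i₁, j')) (e.symm (i₁, j)) (by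
      intro h
      apply hi₁
      rw [← h, Equiv.apply_symm_apply])
    rw [hRapply] at h3
    simp only [Equiv.apply_symm_apply] at h3
    rw [h3]
    simp
  have ha : ∀ i i', (a : Matrix (Fin n₁) (Fin n₁) F) i i' * (b : Matrix (Fin n₂) (Fin n₂) F) j₁ j₁ =
      if i = i' then 1 else 0 := by
    intro i i'
    have h3 := hcol (e.symm (i', j₁)) (e.symm (i, j₁)) (by
      intro h
      apply hj₁
      rw [← h, Equiv.apply_symm_apply])
    rw [hRapply] at h3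
    simp only [Equiv.apply_symm_apply] at h3
    rw [h3]
    simp
  have hαβ : (a : Matrix (Fin n₁) (Fin n₁) F) i₁ i₁ * (b : Matrix (Fin n₂) (Fin n₂) F) j₁ j₁ = 1 := by
    have := hb j₁ j₁
    simpa using this
  have hR1 : R = 1 := by
    ext p q
    rw [hRapply, Matrix.one_apply]
    have h3 : (a : Matrix (Fin n₁) (Fin n₁) F) (e p).1 (e q).1 *
        (b : Matrix (Fin n₂) (Fin n₂) F) (e p).2 (e q).2 =
        ((a : Matrix (Fin n₁) (Fin n₁) F) (e p).1 (e q).1 * (b : Matrix (Fin n₂) (Fin n₂) F) j₁ j₁) *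
        ((a : Matrix (Fin n₁) (Fin n₁) F) i₁ i₁ * (b : Matrix (Fin n₂) (Fin n₂) F) (e p).2 (e q).2) := by
      linear_combination (-(a : Matrix (Fin n₁) (Fin n₁) F) (e p).1 (e q).1 *
        (b : Matrix (Fin n₂) (Fin n₂) F) (e p).2 (e q).2) * hαβ
    rw [h3, ha, hb]
    by_cases hpq : p = q
    · subst hpq; simp
    · have : ¬ ((e p).1 = (e q).1 ∧ (e p).2 = (e q).2) := by
        rintro ⟨h4, h5⟩
        exact hpq (e.injective (Prod.ext h4 h5))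
      rw [if_neg hpq]
      by_cases h4 : (e p).1 = (e q).1
      · have h5 : (e p).2 ≠ (e q).2 := fun h5 => this ⟨h4, h5⟩
        simp [h5]
      · simp [h4]
  rw [hR1, mul_one] at htR
  obtain ⟨x, hx⟩ := Helper94.sf_exists_ne u hu0
  have hxu : sympForm m F x u ≠ 0 := by
    rw [Helper94.sf_swap]; exact neg_ne_zero.mpr hx
  have h6 : (((Helper94.stGL u 1 : GL (Fin m ⊕ Fin m) F) : Matrix (Fin m ⊕ Fin m) (Fin m ⊕ Fin m) F) *
      (P : Matrix (Fin m ⊕ Fin m) (Fin m ⊕ Fin m) F)) *ᵥ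
        (((P⁻¹ : GL (Fin m ⊕ Fin m) F) : Matrix (Fin m ⊕ Fin m) (Fin m ⊕ Fin m) F) *ᵥ x) =
      (P : Matrix (Fin m ⊕ Fin m) (Fin m ⊕ Fin m) F) *ᵥ
        (((P⁻¹ : GL (Fin m ⊕ Fin m) F) : Matrix (Fin m ⊕ Fin m) (Fin m ⊕ Fin m) F) *ᵥ x) := by
    rw [htR]
  rw [← Matrix.mulVec_mulVec, Helper97.Gen.mulVec_cancel_inv, Helper94.stGL_mulVec, one_mul] at h6
  have h7 : sympForm m F x u • u = 0 := by
    have := sub_eq_zero.mpr h6
    simpa using this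
  rcases smul_eq_zero.mp h7 with h8 | h8
  · exact hxu h8
  · exact hu0 h8

theorem stGL_pow_mulVec (u : Fin m ⊕ Fin m → F) (c : F) (k : ℕ) (x : Fin m ⊕ Fin m → F) :
    ((Helper94.stGL u c ^ k : GL (Fin m ⊕ Fin m) F) : Matrix (Fin m ⊕ Fin m) (Fin m ⊕ Fin m) F) *ᵥ x =
      x + ((k : F) * c * sympForm m F x u) • u := by
  induction k generalizing x with
  | zero => simp
  | succ k ih =>
    rw [pow_succ, Units.val_mul, ← Matrix.mulVec_mulVec, Helper94.stGL_mulVec, ih,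
      Helper94.sf_add_left, Helper94.sf_smul_left, Helper94.sf_self, mul_zero, add_zero]
    push_cast
    rw [add_assoc, ← add_smul]
    congr 2
    ring

/-- Subfield subgroups. -/
theorem notSp_subfield [Fintype F] (hm : 1 ≤ m) (F₀ : Subfield F) (hF₀ : F₀ ≠ ⊤)
    (P : GL (Fin m ⊕ Fin m) F) : ¬ spGL m F ≤ subfieldSubgroup F₀ P := by
  classical
  intro hle
  obtain ⟨p, hchar⟩ := CharP.exists F
  have hp : p.Prime :=
    (CharP.char_is_prime_or_zero F p).resolve_right (CharP.char_ne_zero_of_finite F p)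
  have : Fact p.Prime := ⟨hp⟩
  have hne : Nonempty (Fin m ⊕ Fin m) := ⟨Sum.inl ⟨0, by omega⟩⟩
  obtain ⟨p₀⟩ := id hne
  obtain ⟨u, hu⟩ : ∃ u, u = (P : Matrix (Fin m ⊕ Fin m) (Fin m ⊕ Fin m) F) *ᵥ Pi.single p₀ 1 := ⟨_, rfl⟩
  have hu0 : u ≠ 0 := by rw [hu]; exact gl_col_ne_zero P p₀
  obtain ⟨j, hj⟩ : ∃ j, sympForm m F
      ((P : Matrix (Fin m ⊕ Fin m) (Fin m ⊕ Fin m) F) *ᵥ Pi.single j 1) u ≠ 0 := by
    by_contra hcon
    push Not at hcon
    obtain ⟨y, hy⟩ := Helper94.sf_exists_ne u hu0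
    apply hy
    rw [Helper94.sf_swap, neg_eq_zero]
    have h1 : y = (P : Matrix (Fin m ⊕ Fin m) (Fin m ⊕ Fin m) F) *ᵥ
        (((P⁻¹ : GL (Fin m ⊕ Fin m) F) : Matrix (Fin m ⊕ Fin m) (Fin m ⊕ Fin m) F) *ᵥ y) :=
      (Helper97.Gen.mulVec_cancel_inv P y).symm
    rw [h1, Helper97.Gen.vec_eq_sum_single
      (((P⁻¹ : GL (Fin m ⊕ Fin m) F) : Matrix (Fin m ⊕ Fin m) (Fin m ⊕ Fin m) F) *ᵥ y),
      Matrix.mulVec_sum, Helper94.sf_sum_left]
    refine Finset.sum_eq_zero (fun i _ => ?_)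
    rw [Matrix.mulVec_smul, Helper94.sf_smul_left, hcon i, mul_zero]
  have hrat : ∀ c : F, ∀ i j, ((P⁻¹ * Helper94.stGL u c * P : GL (Fin m ⊕ Fin m) F) :
      Matrix (Fin m ⊕ Fin m) (Fin m ⊕ Fin m) F) i j ∈ F₀ := by
    intro c
    refine Helper97.Gen.unipotent_rational F₀ P (Helper94.stGL u c) ?_ (hle (Helper94.stGL_mem u c))
    apply Helper97.Gen.gl_ext
    intro x
    rw [stGL_pow_mulVec, CharP.cast_eq_zero, zero_mul, zero_mul, zero_smul, add_zero, Units.val_one,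
      Matrix.one_mulVec]
  have hentry : ∀ c : F, ((P⁻¹ * Helper94.stGL u c * P : GL (Fin m ⊕ Fin m) F) :
      Matrix (Fin m ⊕ Fin m) (Fin m ⊕ Fin m) F) p₀ j = (if p₀ = j then 1 else 0) +
        c * sympForm m F ((P : Matrix (Fin m ⊕ Fin m) (Fin m ⊕ Fin m) F) *ᵥ Pi.single j 1) u := by
    intro c
    have e1 : ((P⁻¹ * Helper94.stGL u c * P : GL (Fin m ⊕ Fin m) F) :
        Matrix (Fin m ⊕ Fin m) (Fin m ⊕ Fin m) F) p₀ j =
        (((P⁻¹ : GL (Fin m ⊕ Fin m) F) : Matrix (Fin m ⊕ Fin m) (Fin m ⊕ Fin m) F) *ᵥ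
          (((Helper94.stGL u c : GL (Fin m ⊕ Fin m) F) : Matrix (Fin m ⊕ Fin m) (Fin m ⊕ Fin m) F) *ᵥ
            ((P : Matrix (Fin m ⊕ Fin m) (Fin m ⊕ Fin m) F) *ᵥ Pi.single j 1))) p₀ := by
      rw [Matrix.mulVec_mulVec, Matrix.mulVec_mulVec, ← Units.val_mul, ← Units.val_mul,
        Matrix.mulVec_single_one]
      rfl
    rw [e1, Helper94.stGL_mulVec, Matrix.mulVec_add, Matrix.mulVec_smul, Helper97.Gen.mulVec_inv_cancel,
      hu, Helper97.Gen.mulVec_inv_cancel]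
    simp [Pi.single_apply]
  have key : ∀ c : F, c * sympForm m F
      ((P : Matrix (Fin m ⊕ Fin m) (Fin m ⊕ Fin m) F) *ᵥ Pi.single j 1) u ∈ F₀ := by
    intro c
    have h1 := hrat c p₀ j
    have h0 := hrat 0 p₀ j
    rw [hentry] at h1 h0
    have h2 := F₀.sub_mem h1 h0
    simpa using h2
  apply hF₀
  rw [eq_top_iff]
  intro x _
  have h3 := key (x / sympForm m F
      ((P : Matrix (Fin m ⊕ Fin m) (Fin m ⊕ Fin m) F) *ᵥ Pi.single j 1) u)
  rwa [div_mul_cancel₀ _ hj] at h3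

/-- Quadratic forms. -/
theorem notSp_quad [Fintype F] (hm : 2 ≤ m) (heven : ¬ Odd (Fintype.card F))
    (Q : (Fin m ⊕ Fin m → F) → F) (hQ : IsNondegenerateQuadraticForm Q)
    (hpol : ∀ u v, QuadraticMap.polar Q u v = sympForm m F u v) :
    ¬ spGL m F ≤ quadSimilarityGroup Q := by
  intro hle
  have h1 := Helper94.qs_lt (Helper94.qs_of heven hQ hpol) (by omega)
  exact absurd (inf_eq_right.mpr hle) (ne_of_lt h1)

end Cfsg.Agent.Helper96.Sy
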