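-- helper96 library: over the field with two elements the stabiliser of a decomposition into
-- non-degenerate planes preserves a quadratic form.
import Cfsg.Agent.Helper96.SpNot2

set_option autoImplicit false
set_option linter.unusedSectionVars false
set_option linter.unusedVariables false
open Cfsg Cfsg.Geo Matrix

namespace Cfsg.Agent.Helper96.Sy

variable {m : ℕ} {F : Type*} [Field F]

theorem f2_cases [Fintype F] (hq : Fintype.card F = 2) (x : F) : x = 0 ∨ x = 1 := by
  have h := FiniteField.pow_card x
  rw [hq] at h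
  have h1 : x * (x - 1) = 0 := by linear_combination h
  rcases mul_eq_zero.mp h1 with h2 | h2
  · exact Or.inl h2
  · exact Or.inr (sub_eq_zero.mp h2)

theorem f2_two [Fintype F] (hq : Fintype.card F = 2) : (2 : F) = 0 := by
  rcases f2_cases hq 2 with h | h
  · exact h
  · exfalso
    have : (1 : F) = 0 := by linear_combination h
    exact one_ne_zero this

theorem f2_quad_zero [Fintype F] (hq : Fintype.card F = 2) (x y : F) :
    x ^ 2 + x * y + y ^ 2 = 0 ↔ x = 0 ∧ y = 0 := by
  have h2 := f2_two hq
  constructor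
  · intro h
    rcases f2_cases hq x with rfl | rfl <;> rcases f2_cases hq y with rfl | rfl
    · exact ⟨rfl, rfl⟩
    · exfalso; apply one_ne_zero (α := F); linear_combination h
    · exfalso; apply one_ne_zero (α := F); linear_combination h
    · exfalso; apply one_ne_zero (α := F); linear_combination h - h2
  · rintro ⟨rfl, rfl⟩
    ring

theorem quad_of_blocks [Fintype F] (hq : Fintype.card F = 2) {t : ℕ}
    (D : Fin t → Submodule F (Fin m ⊕ Fin m → F))
    (hD : IsNondegenerateMDecomposition (sympForm m F) 2 D) :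
    ∃ Q : (Fin m ⊕ Fin m → F) → F, IsNondegenerateQuadraticForm Q ∧
      (∀ u v, QuadraticMap.polar Q u v = sympForm m F u v) ∧
      decompositionStabilizer D ⊓ spGL m F ≤ quadSimilarityGroup Q := by
  classical
  have h2 := f2_two hq
  have hpair : ∀ i, ∃ a b : Fin m ⊕ Fin m → F, a ∈ D i ∧ b ∈ D i ∧ sympForm m F a b = 1 ∧
      D i = Submodule.span F {a, b} := fun i =>
    Helper94.exists_symp_pair (D i) (hD.decomp.finrank_eq i) (hD.nondegenerate i)
  choose a b ha hb hab hspan using hpair
  have hAA : ∀ i j, sympForm m F (a i) (a j) = 0 := by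
    intro i j
    by_cases hij : i = j
    · rw [hij]; exact Helper94.sf_self _
    · exact hD.orthogonal i j hij _ (ha i) _ (ha j)
  have hBB : ∀ i j, sympForm m F (b i) (b j) = 0 := by
    intro i j
    by_cases hij : i = j
    · rw [hij]; exact Helper94.sf_self _
    · exact hD.orthogonal i j hij _ (hb i) _ (hb j)
  have hAB : ∀ i j, sympForm m F (a i) (b j) = if i = j then 1 else 0 := by
    intro i j
    by_cases hij : i = j
    · rw [if_pos hij, hij]; exact hab j
    · rw [if_neg hij]; exact hD.orthogonal i j hij _ (ha i) _ (hb j)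
  have hBA : ∀ i j, sympForm m F (b i) (a j) = if i = j then -1 else 0 := by
    intro i j
    rw [Helper94.sf_swap, hAB]
    by_cases hij : i = j
    · rw [if_pos hij, if_pos hij.symm]
    · rw [if_neg hij, if_neg (Ne.symm hij), neg_zero]
  -- expansion in the adapted basis
  have hexp : ∀ u : Fin m ⊕ Fin m → F,
      u = ∑ i, (sympForm m F u (b i) • a i + sympForm m F (a i) u • b i) := by
    intro u
    obtain ⟨u', hu'⟩ : ∃ u' : Fin m ⊕ Fin m → F,
        u' = ∑ i, (sympForm m F u (b i) • a i + sympForm m F (a i) u • b i) := ⟨_, rfl⟩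
    rw [← hu']
    have hA : ∀ j, sympForm m F u' (a j) = sympForm m F u (a j) := by
      intro j
      rw [hu', Helper94.sf_sum_left, Finset.sum_eq_single j]
      · rw [Helper94.sf_add_left, Helper94.sf_smul_left, Helper94.sf_smul_left, hAA, hBA, if_pos rfl,
          Helper94.sf_swap u (a j)]
        ring
      · intro i _ hij
        rw [Helper94.sf_add_left, Helper94.sf_smul_left, Helper94.sf_smul_left, hAA, hBA, if_neg hij]
        ring
      · intro h; exact absurd (Finset.mem_univ j) h
    have hB : ∀ j, sympForm m F u' (b j) = sympForm m F u (b j) := by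
      intro j
      rw [hu', Helper94.sf_sum_left, Finset.sum_eq_single j]
      · rw [Helper94.sf_add_left, Helper94.sf_smul_left, Helper94.sf_smul_left, hAB, hBB, if_pos rfl]
        ring
      · intro i _ hij
        rw [Helper94.sf_add_left, Helper94.sf_smul_left, Helper94.sf_smul_left, hAB, hBB, if_neg hij]
        ring
      · intro h; exact absurd (Finset.mem_univ j) h
    have hall : ∀ w, sympForm m F (u - u') w = 0 := by
      intro w
      have hw : w ∈ ⨆ i, D i := by rw [hD.decomp.iSup_eq_top]; trivial
      refine Submodule.iSup_induction D (motive := fun w => sympForm m F (u - u') w = 0) hw ?_ ?_ ?_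
      · intro i x hx
        rw [hspan i] at hx
        obtain ⟨c, d, rfl⟩ := Submodule.mem_span_pair.mp hx
        rw [Helper94.sf_add_right, Helper94.sf_smul_right, Helper94.sf_smul_right, Helper94.sf_sub_left,
          Helper94.sf_sub_left, hA, hB]
        ring
      · exact Helper94.sf_zero_right _
      · intro x y hx hy
        rw [Helper94.sf_add_right, hx, hy, add_zero]
    exact sub_eq_zero.mp (Helper94.sf_eq_zero_of_forall _ hall)
  obtain ⟨q, hqdef⟩ : ∃ q : Fin t → (Fin m ⊕ Fin m → F) → F, ∀ i v, q i v =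
      (sympForm m F v (b i)) ^ 2 + sympForm m F v (b i) * sympForm m F (a i) v +
        (sympForm m F (a i) v) ^ 2 := ⟨_, fun _ _ => rfl⟩
  have hq0 : ∀ i v, q i v = 0 ↔ ∀ w ∈ D i, sympForm m F v w = 0 := by
    intro i v
    rw [hqdef, f2_quad_zero hq]
    constructor
    · rintro ⟨h1, h3⟩ w hw
      rw [hspan i] at hw
      obtain ⟨c, d, rfl⟩ := Submodule.mem_span_pair.mp hw
      rw [Helper94.sf_add_right, Helper94.sf_smul_right, Helper94.sf_smul_right, h1,
        Helper94.sf_swap v (a i), h3]
      ring
    · intro h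
      refine ⟨h _ (hb i), ?_⟩
      rw [Helper94.sf_swap, h _ (ha i), neg_zero]
  have hpol : ∀ u v, ∑ i, q i (u + v) - ∑ i, q i u - ∑ i, q i v = sympForm m F u v := by
    intro u v
    have e1 : sympForm m F u v = ∑ i, (sympForm m F u (b i) * sympForm m F (a i) v +
        sympForm m F (a i) u * sympForm m F (b i) v) := by
      have e0 : sympForm m F u v = sympForm m F
          (∑ i, (sympForm m F u (b i) • a i + sympForm m F (a i) u • b i)) v :=
        congrArg (fun z => sympForm m F z v) (hexp u)
      rw [e0, Helper94.sf_sum_left]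
      refine Finset.sum_congr rfl (fun i _ => ?_)
      rw [Helper94.sf_add_left, Helper94.sf_smul_left, Helper94.sf_smul_left]
    rw [e1, ← Finset.sum_sub_distrib, ← Finset.sum_sub_distrib]
    refine Finset.sum_congr rfl (fun i _ => ?_)
    rw [hqdef, hqdef, hqdef, Helper94.sf_add_left, Helper94.sf_add_right,
      Helper94.sf_swap (b i) v]
    linear_combination (sympForm m F u (b i) * sympForm m F v (b i) +
      sympForm m F v (b i) * sympForm m F (a i) u +
      sympForm m F (a i) u * sympForm m F (a i) v) * h2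
  have hpol' : QuadraticMap.polar (fun v => ∑ i, q i v) = sympForm m F := by
    funext u v
    exact hpol u v
  refine ⟨fun v => ∑ i, q i v, ⟨?_, ?_, ?_⟩, fun u v => hpol u v, ?_⟩
  · intro c v
    show ∑ i, q i (c • v) = c ^ 2 * ∑ i, q i v
    rw [Finset.mul_sum]
    refine Finset.sum_congr rfl (fun i _ => ?_)
    rw [hqdef, hqdef, Helper94.sf_smul_left, Helper94.sf_smul_right]
    ring
  · rw [hpol']
    exact (symp_std m).bilinear
  · rw [hpol']
    exact (symp_std m).nondegenerate
  · intro g hg
    obtain ⟨hgD, hgS⟩ := Subgroup.mem_inf.mp hg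
    obtain ⟨σ, hσ⟩ := (Helper97.Gen.mem_decompositionStabilizer_iff D g).mp hgD
    refine ⟨1, fun v => ?_⟩
    rw [Units.val_one, one_mul]
    show ∑ i, q i ((g : Matrix (Fin m ⊕ Fin m) (Fin m ⊕ Fin m) F) *ᵥ v) = ∑ i, q i v
    rw [← Equiv.sum_comp σ (fun i => q i ((g : Matrix (Fin m ⊕ Fin m) (Fin m ⊕ Fin m) F) *ᵥ v))]
    refine Finset.sum_congr rfl (fun i _ => ?_)
    have hiff : q (σ i) ((g : Matrix (Fin m ⊕ Fin m) (Fin m ⊕ Fin m) F) *ᵥ v) = 0 ↔ q i v = 0 := by
      rw [hq0, hq0]
      constructor
      · intro h w hw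
        have h1 : (g : Matrix (Fin m ⊕ Fin m) (Fin m ⊕ Fin m) F) *ᵥ w ∈ D (σ i) := by
          rw [← hσ i]
          exact ⟨w, hw, by rw [Matrix.toLin'_apply]⟩
        rw [← Helper94.sp_apply hgS v w]
        exact h _ h1
      · intro h w hw
        rw [← hσ i] at hw
        obtain ⟨w', hw', rfl⟩ := hw
        rw [Matrix.toLin'_apply, Helper94.sp_apply hgS]
        exact h w' hw'
    rcases f2_cases hq (q (σ i) ((g : Matrix (Fin m ⊕ Fin m) (Fin m ⊕ Fin m) F) *ᵥ v)) with h3 | h3 <;>
      rcases f2_cases hq (q i v) with h4 | h4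
    · rw [h3, h4]
    · exact absurd (hiff.mp h3) (by rw [h4]; exact one_ne_zero)
    · exact absurd (hiff.mpr h4) (by rw [h3]; exact one_ne_zero)
    · rw [h3, h4]

end Cfsg.Agent.Helper96.Sy
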