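-- helper96 library: the refined list for a maximal subgroup of the standard symplectic group.
import Cfsg.Agent.Helper96.SpQuadTwo
import Cfsg.Agent.Helper96.SpField
import Cfsg.Agent.Helper94.SpLag2

set_option autoImplicit false
set_option linter.unusedSectionVars false
set_option linter.unusedVariables false
open Cfsg Cfsg.Geo Matrix

namespace Cfsg.Agent.Helper96.Sy

variable {m : ℕ} {F : Type*} [Field F]

theorem odd_card_of_two_ne [Fintype F] (h : (2 : F) ≠ 0) : Odd (Fintype.card F) := by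
  by_contra hodd
  apply h
  have h1 : Fintype.card F % 2 = 0 := Nat.even_iff.mp (Nat.not_odd_iff_even.mp hodd)
  have hc : ringChar F = 2 := FiniteField.even_card_iff_char_two.mpr h1
  have : CharP F 2 := ringChar.of_eq hc
  exact_mod_cast CharP.cast_eq_zero F 2

theorem not_odd_card_of_two_eq [Fintype F] (h : (2 : F) = 0) : ¬ Odd (Fintype.card F) :=
  fun hodd => Helper94.two_ne_zero_of_odd_card hodd h

theorem card_sum_fin (m : ℕ) : Fintype.card (Fin m ⊕ Fin m) = m + m := by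
  rw [Fintype.card_sum, Fintype.card_fin]

/-- The refined list for a maximal subgroup of the symplectic group. -/
def SpMax (m : ℕ) (F : Type*) [Field F] [Fintype F] (H : Subgroup (GL (Fin m ⊕ Fin m) F)) : Prop :=
  (∃ W : Submodule F (Fin m ⊕ Fin m → F), W ≠ ⊥ ∧ IsTotallySingularFor (sympForm m F) W ∧
    H = subspaceStabilizer W ⊓ spGL m F) ∨
  (∃ W : Submodule F (Fin m ⊕ Fin m → F), W ≠ ⊥ ∧ IsNondegenerateOn (sympForm m F) W ∧
    Module.finrank F W < m ∧ H = subspaceStabilizer W ⊓ spGL m F) ∨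
  (∃ (t k : ℕ) (D : Fin t → Submodule F (Fin m ⊕ Fin m → F)), t * k = m + m ∧ Even k ∧
    (k = 2 → 3 ≤ Fintype.card F) ∧ IsNondegenerateMDecomposition (sympForm m F) k D ∧
    H = decompositionStabilizer D ⊓ spGL m F) ∨
  (Odd (Fintype.card F) ∧ ∃ D : Fin 2 → Submodule F (Fin m ⊕ Fin m → F), IsMDecomposition m D ∧
    (∀ i, IsTotallySingularFor (sympForm m F) (D i)) ∧ H = decompositionStabilizer D ⊓ spGL m F) ∨
  (∃ (r : ℕ) (K : Subalgebra F (Matrix (Fin m ⊕ Fin m) (Fin m ⊕ Fin m) F)), r.Prime ∧ r ∣ m ∧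
    IsFieldSubalgebra r K ∧ IsSelfAdjointFor (sympForm m F) K ∧
    (∀ k ∈ K, ∀ v : Fin m ⊕ Fin m → F, sympForm m F (k *ᵥ v) v = 0) ∧
    H = subalgebraNormalizer K ⊓ spGL m F) ∨
  (Odd (Fintype.card F) ∧ ∃ K : Subalgebra F (Matrix (Fin m ⊕ Fin m) (Fin m ⊕ Fin m) F),
    IsFieldSubalgebra 2 K ∧ IsAdjointClosedFor (sympForm m F) K ∧
    ¬ IsSelfAdjointFor (sympForm m F) K ∧ H = subalgebraNormalizer K ⊓ spGL m F) ∨
  (Odd (Fintype.card F) ∧ ∃ (n₁ n₂ : ℕ) (e : (Fin m ⊕ Fin m) ≃ Fin n₁ × Fin n₂)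
    (P : GL (Fin m ⊕ Fin m) F)
    (f₁ : (Fin n₁ → F) → (Fin n₁ → F) → F) (f₂ : (Fin n₂ → F) → (Fin n₂ → F) → F),
    2 ≤ n₂ ∧ Even n₁ ∧ n₁ * n₂ = m + m ∧ IsSymplecticForm f₁ ∧ IsSymmetricForm f₂ ∧
    IsTensorFormStructure id (sympForm m F) f₁ f₂ e P ∧
    H = tensorProductSubgroup n₁ n₂ e P ⊓ spGL m F) ∨
  (¬ Odd (Fintype.card F) ∧ ∃ (n₁ n₂ : ℕ) (e : (Fin m ⊕ Fin m) ≃ Fin n₁ × Fin n₂)
    (P : GL (Fin m ⊕ Fin m) F)
    (f₁ : (Fin n₁ → F) → (Fin n₁ → F) → F) (f₂ : (Fin n₂ → F) → (Fin n₂ → F) → F),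
    Even n₁ ∧ Even n₂ ∧ n₁ * n₂ = m + m ∧ IsSymplecticForm f₁ ∧ IsSymplecticForm f₂ ∧
    IsTensorFormStructure id (sympForm m F) f₁ f₂ e P ∧
    H ≤ tensorProductSubgroup n₁ n₂ e P) ∨
  (∃ (F₀ : Subfield F) (r : ℕ) (P : GL (Fin m ⊕ Fin m) F) (ζ : F), r.Prime ∧
    Fintype.card F = Nat.card F₀ ^ r ∧ ζ ≠ 0 ∧ IsFormRationalStructure (sympForm m F) F₀ ζ P ∧
    H = subfieldSubgroup F₀ P ⊓ spGL m F) ∨
  (¬ Odd (Fintype.card F) ∧ ∃ Q : (Fin m ⊕ Fin m → F) → F, IsNondegenerateQuadraticForm Q ∧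
    (∀ u v, QuadraticMap.polar Q u v = sympForm m F u v) ∧ H = quadSimilarityGroup Q ⊓ spGL m F) ∨
  InSymplecticResidualClass H ∨
  (∃ r j : ℕ, r.Prime ∧ (m + m) * (m + m) = r ^ j ∧ ((r : ℕ) : F) ≠ 0) ∨
  (∃ d t : ℕ, 2 ≤ d ∧ 2 ≤ t ∧ m + m = d ^ t)

/-- A non-degenerate decomposition stabilised by a maximal subgroup. -/
theorem ndecomp_case [Fintype F] (hm : 2 ≤ m) {H : Subgroup (GL (Fin m ⊕ Fin m) F)}
    (hH : IsMaximalIn (spGL m F) H) {t k : ℕ} (D : Fin t → Submodule F (Fin m ⊕ Fin m → F))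
    (hD : IsNondegenerateMDecomposition (sympForm m F) k D) (hle : H ≤ decompositionStabilizer D) :
    SpMax m F H := by
  have htk : t * k = m + m := by
    have := Helper94.card_eq_of_decomposition D hD.decomp
    rw [card_sum_fin] at this
    exact this.symm
  have hk : Even k := by
    have ht := hD.decomp.two_le
    obtain ⟨n, e, f', -, -, -, -, -, -, hfr⟩ := Helper94.exists_hyp_basis (D ⟨0, by omega⟩)
      (hD.nondegenerate ⟨0, by omega⟩)
    rw [hD.decomp.finrank_eq] at hfr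
    exact ⟨n, by omega⟩
  by_cases hc : k = 2 → 3 ≤ Fintype.card F
  · exact Or.inr (Or.inr (Or.inl ⟨t, k, D, htk, hk, hc, hD,
      eq_inf_of_max hH hle (notSp_ndecomp D hD)⟩))
  · push Not at hc
    obtain ⟨hk2, hq3⟩ := hc
    subst hk2
    have hq : Fintype.card F = 2 := by
      have := Fintype.one_lt_card (α := F)
      omega
    obtain ⟨Q, hQ, hpol, hQle⟩ := quad_of_blocks hq D hD
    have heven : ¬ Odd (Fintype.card F) := by rw [hq]; decide
    have hle' : H ≤ quadSimilarityGroup Q := fun g hg => hQle ⟨hle hg, hH.1.le hg⟩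
    exact Or.inr (Or.inr (Or.inr (Or.inr (Or.inr (Or.inr (Or.inr (Or.inr (Or.inr (Or.inl ⟨heven, Q,
      hQ, hpol, eq_inf_of_max hH hle' (notSp_quad hm heven Q hQ hpol)⟩)))))))))

theorem sp_max_cases [Fintype F] (hm : 2 ≤ m) (H : Subgroup (GL (Fin m ⊕ Fin m) F))
    (hH : IsMaximalIn (spGL m F) H) : SpMax m F H := by
  classical
  have hout := sp_outcome_std (by omega) H hH.1.le
  unfold SpOutcome at hout
  rcases hout with ⟨W, hW0, hts, hle⟩ | ⟨W, W', h1, h2, h3, h4, h5, h6, h7, h8, h9⟩ |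
    ⟨t, k, D, hD, hle⟩ | ⟨h2, k, D, hD, hts, hle⟩ | ⟨r, K, hr, hK, hsa, halt, hle⟩ |
    ⟨h2, K, hK, hac, hnsa, hle⟩ | ⟨h2, n₁, n₂, e₁, P, f₁, f₂, hn₂, hf₁, hf₂, hT, hle⟩ |
    ⟨h2, n₁, n₂, e₁, P, f₁, f₂, hf₁, hf₂, hT, hle⟩ | ⟨F₀, r, P, ζ, hr, hcard, hζ, hR, hle⟩ |
    ⟨h2, Q, hQ, hpol, hle⟩ | hres | ⟨r, j, hr, hcard, hrF⟩ | ⟨d, t, hd, ht, hcard⟩
  · -- totally singular subspace
    have hWtop : W ≠ ⊤ := by
      intro htop
      have hne : (Pi.single (Sum.inl ⟨0, by omega⟩ : Fin m ⊕ Fin m) (1 : F) : Fin m ⊕ Fin m → F) ≠ 0 := by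
        intro h
        have := congrFun h (Sum.inl ⟨0, by omega⟩)
        simp at this
      obtain ⟨y, hy⟩ := Helper94.sf_exists_ne _ hne
      exact hy (hts _ (by rw [htop]; trivial) _ (by rw [htop]; trivial))
    exact Or.inl ⟨W, hW0, hts, eq_inf_of_max hH hle (notSp_stab W hW0 hWtop)⟩
  · -- orthogonal pair of non-degenerate subspaces
    have hsum : Module.finrank F W + Module.finrank F W' = m + m := by
      have := Submodule.finrank_sup_add_finrank_inf_eq W W'
      rw [h7, h6, finrank_top, finrank_bot, Module.finrank_fintype_fun_eq_card, card_sum_fin] at this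
      omega
    have hWtop : W ≠ ⊤ := by
      intro htop
      apply h2
      rw [← h6, htop, top_inf_eq]
    have hW'top : W' ≠ ⊤ := by
      intro htop
      apply h1
      rw [← h6, htop, inf_top_eq]
    by_cases hlt : Module.finrank F W < m
    · exact Or.inr (Or.inl ⟨W, h1, h3, hlt, eq_inf_of_max hH h8 (notSp_stab W h1 hWtop)⟩)
    by_cases hlt' : Module.finrank F W' < m
    · exact Or.inr (Or.inl ⟨W', h2, h4, hlt', eq_inf_of_max hH h9 (notSp_stab W' h2 hW'top)⟩)
    have hA : Module.finrank F W = m := by omega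
    have hB : Module.finrank F W' = m := by omega
    have hdec := pair_decomp W W' h6 h7 m hA hB (by omega)
    have hnd : IsNondegenerateMDecomposition (sympForm m F) m (pairD W W') := by
      refine ⟨hdec, ?_, ?_⟩
      · intro i
        rcases fin2_cases i with rfl | rfl
        · exact h3
        · exact h4
      · intro i j hij
        rcases fin2_cases i with rfl | rfl <;> rcases fin2_cases j with rfl | rfl
        · exact absurd rfl hij
        · exact h5
        · intro u hu v hv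
          rw [Helper94.sf_swap]
          have := h5 v hv u hu
          rw [this, neg_zero]
        · exact absurd rfl hij
    have hle : H ≤ decompositionStabilizer (pairD W W') := by
      intro g hg
      exact pair_stab_fix W W' m hA hB g (fun x hx => stab_maps (h8 hg) hx)
        (fun x hx => stab_maps (h9 hg) hx)
    exact ndecomp_case hm hH _ hnd hle
  · exact ndecomp_case hm hH D hD hle
  · -- pair of totally singular subspaces
    have hk : k = m := by
      have := Helper94.card_eq_of_decomposition D hD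
      rw [card_sum_fin] at this
      omega
    subst hk
    exact Or.inr (Or.inr (Or.inr (Or.inl ⟨odd_card_of_two_ne h2, D, hD, hts,
      eq_inf_of_max hH hle (notSp_tsdecomp D hD hts)⟩)))
  · -- self-adjoint field
    have hdvd : r ∣ m := by
      have h1 := two_mul_dvd_of_selfadj (symp_std m) K hK hsa halt
      rw [card_sum_fin, ← two_mul] at h1
      exact (Nat.mul_dvd_mul_iff_left (by norm_num : 0 < 2)).mp h1
    exact Or.inr (Or.inr (Or.inr (Or.inr (Or.inl ⟨r, K, hr, hdvd, hK, hsa, halt,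
      eq_inf_of_max hH hle (notSp_norm hm hr.two_le K hK)⟩))))
  · exact Or.inr (Or.inr (Or.inr (Or.inr (Or.inr (Or.inl ⟨odd_card_of_two_ne h2, K, hK, hac, hnsa,
      eq_inf_of_max hH hle (notSp_norm hm (le_refl 2) K hK)⟩)))))
  · -- tensor, odd characteristic
    have hn₁ : Even n₁ := by
      apply Nat.not_odd_iff_even.mp
      intro hodd
      exact Helper97.Gen.not_symplectic_of_odd (by rw [Fintype.card_fin]; exact hodd) f₁ hf₁
    have hprod : n₁ * n₂ = m + m := by
      have := Fintype.card_congr e₁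
      rw [card_sum_fin, Fintype.card_prod, Fintype.card_fin, Fintype.card_fin] at this
      exact this.symm
    have hn₁2 : 2 ≤ n₁ := by
      obtain ⟨c, hc⟩ := hn₁
      rcases Nat.eq_zero_or_pos c with h0 | h0
      · subst h0
        rw [hc] at hprod
        simp at hprod
        omega
      · omega
    exact Or.inr (Or.inr (Or.inr (Or.inr (Or.inr (Or.inr (Or.inl ⟨odd_card_of_two_ne h2, n₁, n₂, e₁,
      P, f₁, f₂, hn₂, hn₁, hprod, hf₁, hf₂, hT,
      eq_inf_of_max hH hle (notSp_tensor (by omega) hn₁2 hn₂ e₁ P)⟩))))))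
  · -- tensor, characteristic two
    have hn₁ : Even n₁ := by
      apply Nat.not_odd_iff_even.mp
      intro hodd
      exact Helper97.Gen.not_symplectic_of_odd (by rw [Fintype.card_fin]; exact hodd) f₁ hf₁
    have hn₂ : Even n₂ := by
      apply Nat.not_odd_iff_even.mp
      intro hodd
      exact Helper97.Gen.not_symplectic_of_odd (by rw [Fintype.card_fin]; exact hodd) f₂ hf₂
    have hprod : n₁ * n₂ = m + m := by
      have := Fintype.card_congr e₁
      rw [card_sum_fin, Fintype.card_prod, Fintype.card_fin, Fintype.card_fin] at this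
      exact this.symm
    exact Or.inr (Or.inr (Or.inr (Or.inr (Or.inr (Or.inr (Or.inr (Or.inl ⟨not_odd_card_of_two_eq h2,
      n₁, n₂, e₁, P, f₁, f₂, hn₁, hn₂, hprod, hf₁, hf₂, hT, hle⟩)))))))
  · -- subfield
    have hF₀ : F₀ ≠ ⊤ := by
      intro htop
      have h1 : Nat.card F₀ = Fintype.card F := by
        rw [htop, ← Nat.card_eq_fintype_card]
        exact Nat.card_congr Subfield.topEquiv.toEquiv
      rw [h1] at hcard
      have h2 : 1 < Fintype.card F := Fintype.one_lt_card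
      have h3 : Fintype.card F ^ 1 = Fintype.card F ^ r := by rw [pow_one]; exact hcard
      have h4 := Nat.pow_right_injective h2 h3
      exact hr.one_lt.ne h4
    exact Or.inr (Or.inr (Or.inr (Or.inr (Or.inr (Or.inr (Or.inr (Or.inr (Or.inl ⟨F₀, r, P, ζ, hr,
      hcard, hζ, hR, eq_inf_of_max hH hle (notSp_subfield (by omega) F₀ hF₀ P)⟩))))))))
  · -- quadratic form
    have heven := not_odd_card_of_two_eq h2
    exact Or.inr (Or.inr (Or.inr (Or.inr (Or.inr (Or.inr (Or.inr (Or.inr (Or.inr (Or.inl ⟨heven, Q,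
      hQ, hpol, eq_inf_of_max hH hle (notSp_quad hm heven Q hQ hpol)⟩)))))))))
  · exact Or.inr (Or.inr (Or.inr (Or.inr (Or.inr (Or.inr (Or.inr (Or.inr (Or.inr (Or.inr
      (Or.inl hres))))))))))
  · exact Or.inr (Or.inr (Or.inr (Or.inr (Or.inr (Or.inr (Or.inr (Or.inr (Or.inr (Or.inr (Or.inr
      (Or.inl ⟨r, j, hr, by rw [card_sum_fin] at hcard; exact hcard, hrF⟩)))))))))))
  · exact Or.inr (Or.inr (Or.inr (Or.inr (Or.inr (Or.inr (Or.inr (Or.inr (Or.inr (Or.inr (Or.inr
      (Or.inr ⟨d, t, hd, ht, by rw [card_sum_fin] at hcard; exact hcard⟩)))))))))))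

end Cfsg.Agent.Helper96.Sy
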