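-- helper96 library: orthogonal frames of a ternary symmetric form over the field with three elements.
import Cfsg.Agent.Helper96.SpRow

set_option autoImplicit false
set_option linter.unusedSectionVars false
set_option linter.unusedVariables false
open Cfsg Cfsg.Geo Matrix

namespace Cfsg.Agent.Helper96.Sy

variable {F : Type*} [Field F]

theorem f3_three [Fintype F] (hq : Fintype.card F = 3) : (3 : F) = 0 := by
  have h := Nat.cast_card_eq_zero F
  rw [hq] at h
  exact_mod_cast h

theorem f3_cases [Fintype F] (hq : Fintype.card F = 3) (x : F) : x = 0 ∨ x = 1 ∨ x = -1 := by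
  have h := FiniteField.pow_card x
  rw [hq] at h
  have h1 : x * ((x - 1) * (x + 1)) = 0 := by linear_combination h
  rcases mul_eq_zero.mp h1 with h2 | h2
  · exact Or.inl h2
  · rcases mul_eq_zero.mp h2 with h3 | h3
    · exact Or.inr (Or.inl (sub_eq_zero.mp h3))
    · exact Or.inr (Or.inr (eq_neg_of_add_eq_zero_left h3))

theorem f3_sq [Fintype F] (hq : Fintype.card F = 3) {x : F} (hx : x ≠ 0) : x ^ 2 = 1 := by
  rcases f3_cases hq x with h | h | h
  · exact absurd h hx
  · rw [h]; ring
  · rw [h]; ring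

theorem f3_two_ne [Fintype F] (hq : Fintype.card F = 3) : (2 : F) ≠ 0 := by
  intro h
  have h3 := f3_three hq
  have : (1 : F) = 0 := by linear_combination h3 - h
  exact one_ne_zero this

/-- Three mutually orthogonal vectors, two of which have the same norm, give a uniform frame. -/
theorem uniform_of_two [Fintype F] (hq : Fintype.card F = 3)
    {f₂ : (Fin 3 → F) → (Fin 3 → F) → F} (hf₂ : IsSymmetricForm f₂) (x y z : Fin 3 → F)
    (hxy : f₂ x y = 0) (hxz : f₂ x z = 0) (hyz : f₂ y z = 0) {a c : F}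
    (hx : f₂ x x = a) (hy : f₂ y y = a) (hz : f₂ z z = c) (ha : a ≠ 0) (hc : c ≠ 0) :
    ∃ (w : Fin 3 → Fin 3 → F) (ε : F), ε ≠ 0 ∧ ∀ i j, f₂ (w i) (w j) = if i = j then ε else 0 := by
  have h3 := f3_three hq
  have hyx : f₂ y x = 0 := by rw [hf₂.symm]; exact hxy
  have hzx : f₂ z x = 0 := by rw [hf₂.symm]; exact hxz
  have hzy : f₂ z y = 0 := by rw [hf₂.symm]; exact hyz
  by_cases hac : c = a
  · refine ⟨![x, y, z], a, ha, ?_⟩
    intro i j
    fin_cases i <;> fin_cases j <;> simp [hxy, hxz, hyz, hyx, hzx, hzy, hx, hy, hz, hac]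
  · have hca : c = -a := by
      rcases f3_cases hq a with h | h | h
      · exact absurd h ha
      · rcases f3_cases hq c with h' | h' | h'
        · exact absurd h' hc
        · exact absurd (h'.trans h.symm) hac
        · rw [h', h]
      · rcases f3_cases hq c with h' | h' | h'
        · exact absurd h' hc
        · rw [h', h, neg_neg]
        · exact absurd (h'.trans h.symm) hac
    have hneg : ∀ u v, f₂ u (-v) = - f₂ u v := by
      intro u v
      have := hf₂.bilinear.smul_right (-1) u v
      simpa using this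
    have hneg' : ∀ u v, f₂ (-u) v = - f₂ u v := by
      intro u v
      have := hf₂.bilinear.smul_left (-1) u v
      simpa using this
    have e1 : f₂ (x + y) (x + y) = c := by
      rw [hf₂.bilinear.add_left, hf₂.bilinear.add_right, hf₂.bilinear.add_right, hx, hy, hxy, hyx, hca]
      linear_combination a * h3
    have e2 : f₂ (x + -y) (x + -y) = c := by
      rw [hf₂.bilinear.add_left, hf₂.bilinear.add_right, hf₂.bilinear.add_right, hneg, hneg', hneg',
        hneg, hx, hy, hxy, hyx, hca]
      linear_combination a * h3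
    have e3 : f₂ (x + y) (x + -y) = 0 := by
      rw [hf₂.bilinear.add_left, hf₂.bilinear.add_right, hf₂.bilinear.add_right, hneg, hneg, hx, hy,
        hxy, hyx]
      ring
    have e4 : f₂ (x + -y) (x + y) = 0 := by rw [hf₂.symm]; exact e3
    have e5 : f₂ (x + y) z = 0 := by rw [hf₂.bilinear.add_left, hxz, hyz, add_zero]
    have e6 : f₂ (x + -y) z = 0 := by rw [hf₂.bilinear.add_left, hneg', hxz, hyz, neg_zero, add_zero]
    have e7 : f₂ z (x + y) = 0 := by rw [hf₂.symm]; exact e5
    have e8 : f₂ z (x + -y) = 0 := by rw [hf₂.symm]; exact e6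
    refine ⟨![x + y, x + -y, z], c, hc, ?_⟩
    intro i j
    fin_cases i <;> fin_cases j <;> simp [e1, e2, e3, e4, e5, e6, e7, e8, hz]

/-- A uniform orthogonal basis of a ternary symmetric form over the field with three elements. -/
theorem f3_frame [Fintype F] (hq : Fintype.card F = 3)
    {f₂ : (Fin 3 → F) → (Fin 3 → F) → F} (hf₂ : IsSymmetricForm f₂) :
    ∃ (w : Module.Basis (Fin 3) F (Fin 3 → F)) (ε : F), ε ≠ 0 ∧
      ∀ i j, f₂ (w i) (w j) = if i = j then ε else 0 := by
  classical
  obtain ⟨B, hB⟩ : ∃ B : LinearMap.BilinForm F (Fin 3 → F), ∀ u v, B u v = f₂ u v :=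
    ⟨LinearMap.mk₂ F f₂ hf₂.bilinear.add_left hf₂.bilinear.smul_left hf₂.bilinear.add_right
      hf₂.bilinear.smul_right, fun _ _ => rfl⟩
  have hsymm : LinearMap.IsSymm B := ⟨fun x y => by
    rw [RingHom.id_apply, hB, hB]; exact hf₂.symm x y⟩
  have hsep : B.SeparatingLeft := by
    intro x hx
    by_contra hx0
    obtain ⟨-, ⟨y, hy⟩⟩ := hf₂.nondegenerate x hx0
    exact hy (by rw [← hB]; exact hx y)
  have : Invertible (2 : F) := invertibleOfNonzero (f3_two_ne hq)
  obtain ⟨v, hv⟩ := LinearMap.BilinForm.exists_orthogonal_basis hsymm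
  have hfr : Module.finrank F (Fin 3 → F) = 3 := Module.finrank_fin_fun F
  have hnorm : ∀ i, f₂ (v i) (v i) ≠ 0 := by
    intro i
    rw [← hB]
    exact hv.not_isOrtho_basis_self_of_separatingLeft hsep i
  have horth : ∀ i j, i ≠ j → f₂ (v i) (v j) = 0 := by
    intro i j hij
    rw [← hB]
    exact hv hij
  obtain ⟨i₀, i₁, i₂, h01, h02, h12⟩ : ∃ i₀ i₁ i₂ : Fin (Module.finrank F (Fin 3 → F)),
      i₀ ≠ i₁ ∧ i₀ ≠ i₂ ∧ i₁ ≠ i₂ := by
    rw [hfr]
    exact ⟨0, 1, 2, by decide, by decide, by decide⟩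
  have hex : ∃ (w : Fin 3 → Fin 3 → F) (ε : F), ε ≠ 0 ∧
      ∀ i j, f₂ (w i) (w j) = if i = j then ε else 0 := by
    by_cases e01 : f₂ (v i₀) (v i₀) = f₂ (v i₁) (v i₁)
    · exact uniform_of_two hq hf₂ (v i₀) (v i₁) (v i₂) (horth _ _ h01) (horth _ _ h02)
        (horth _ _ h12) rfl e01.symm rfl (hnorm i₀) (hnorm i₂)
    by_cases e02 : f₂ (v i₀) (v i₀) = f₂ (v i₂) (v i₂)
    · exact uniform_of_two hq hf₂ (v i₀) (v i₂) (v i₁) (horth _ _ h02) (horth _ _ h01)
        (horth _ _ (Ne.symm h12)) rfl e02.symm rfl (hnorm i₀) (hnorm i₁)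
    · have e12 : f₂ (v i₁) (v i₁) = f₂ (v i₂) (v i₂) := by
        rcases f3_cases hq (f₂ (v i₀) (v i₀)) with h | h | h
        · exact absurd h (hnorm i₀)
        · rcases f3_cases hq (f₂ (v i₁) (v i₁)) with h' | h' | h'
          · exact absurd h' (hnorm i₁)
          · exact absurd (h.trans h'.symm) e01
          · rcases f3_cases hq (f₂ (v i₂) (v i₂)) with h'' | h'' | h''
            · exact absurd h'' (hnorm i₂)
            · exact absurd (h.trans h''.symm) e02
            · rw [h', h'']
        · rcases f3_cases hq (f₂ (v i₁) (v i₁)) with h' | h' | h'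
          · exact absurd h' (hnorm i₁)
          · rcases f3_cases hq (f₂ (v i₂) (v i₂)) with h'' | h'' | h''
            · exact absurd h'' (hnorm i₂)
            · rw [h', h'']
            · exact absurd (h.trans h''.symm) e02
          · exact absurd (h.trans h'.symm) e01
      exact uniform_of_two hq hf₂ (v i₁) (v i₂) (v i₀) (horth _ _ h12) (horth _ _ (Ne.symm h01))
        (horth _ _ (Ne.symm h02)) rfl e12.symm rfl (hnorm i₁) (hnorm i₀)
  obtain ⟨w, ε, hε, hw⟩ := hex
  have hli : LinearIndependent F w := by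
    apply LinearMap.BilinForm.linearIndependent_of_iIsOrtho (B := B)
    · rw [LinearMap.BilinForm.iIsOrtho_def]
      intro i j hij
      rw [hB, hw, if_neg hij]
    · intro i
      rw [hB, hw, if_pos rfl]
      exact hε
  refine ⟨basisOfLinearIndependentOfCardEqFinrank hli (by rw [hfr]; rfl), ε, hε, ?_⟩
  intro i j
  rw [coe_basisOfLinearIndependentOfCardEqFinrank]
  exact hw i j

end Cfsg.Agent.Helper96.Sy
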