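-- helper96 library: a tensor decomposition `n₁ ⊗ 3` over the field with three elements preserves a
-- decomposition into three non-degenerate subspaces.
import Cfsg.Agent.Helper96.SpF3

set_option autoImplicit false
set_option linter.unusedSectionVars false
set_option linter.unusedVariables false
open Cfsg Cfsg.Geo Matrix
open scoped Kronecker

namespace Cfsg.Agent.Helper96.Sy

variable {F : Type*} [Field F]

theorem f3_frame_perm [Fintype F] (hq : Fintype.card F = 3)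
    {f₂ : (Fin 3 → F) → (Fin 3 → F) → F} (hf₂ : IsSymmetricForm f₂)
    (w : Module.Basis (Fin 3) F (Fin 3 → F)) (ε : F) (hε : ε ≠ 0)
    (hw : ∀ i j, f₂ (w i) (w j) = if i = j then ε else 0)
    (B : Matrix (Fin 3) (Fin 3) F) (hB : ∀ x y, f₂ (B *ᵥ x) (B *ᵥ y) = f₂ x y) :
    ∃ σ : Equiv.Perm (Fin 3), ∀ i, ∃ c : F, B *ᵥ w i = c • w (σ i) := by
  classical
  have h3 := f3_three hq
  have hexp : ∀ y : Fin 3 → F, y = w.repr y 0 • w 0 + w.repr y 1 • w 1 + w.repr y 2 • w 2 := by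
    intro y
    have := (w.sum_repr y).symm
    rwa [Fin.sum_univ_three] at this
  have hcoord : ∀ (y : Fin 3 → F) (k : Fin 3), f₂ y (w k) = w.repr y k * ε := by
    intro y k
    have e0 : f₂ y (w k) = f₂ (w.repr y 0 • w 0 + w.repr y 1 • w 1 + w.repr y 2 • w 2) (w k) :=
      congrArg (fun z => f₂ z (w k)) (hexp y)
    rw [e0, hf₂.bilinear.add_left, hf₂.bilinear.add_left, hf₂.bilinear.smul_left,
      hf₂.bilinear.smul_left, hf₂.bilinear.smul_left, hw, hw, hw]
    fin_cases k <;> simp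
  have hnorm : ∀ y : Fin 3 → F, f₂ y y =
      ε * ((w.repr y 0) ^ 2 + (w.repr y 1) ^ 2 + (w.repr y 2) ^ 2) := by
    intro y
    have e0 : f₂ y y = f₂ y (w.repr y 0 • w 0 + w.repr y 1 • w 1 + w.repr y 2 • w 2) :=
      congrArg (fun z => f₂ y z) (hexp y)
    rw [e0, hf₂.bilinear.add_right, hf₂.bilinear.add_right, hf₂.bilinear.smul_right,
      hf₂.bilinear.smul_right, hf₂.bilinear.smul_right, hcoord, hcoord, hcoord]
    ring
  have hone : ∀ i, ∃ j, ∃ c : F, c ≠ 0 ∧ B *ᵥ w i = c • w j := by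
    intro i
    have h1 := hnorm (B *ᵥ w i)
    rw [hB, hw, if_pos rfl] at h1
    have hex := hexp (B *ᵥ w i)
    obtain ⟨c, hc⟩ : ∃ c : Fin 3 → F, ∀ j, c j = w.repr (B *ᵥ w i) j := ⟨_, fun _ => rfl⟩
    rw [← hc, ← hc, ← hc] at h1 hex
    have h2 : (c 0) ^ 2 + (c 1) ^ 2 + (c 2) ^ 2 = 1 :=
      mul_left_cancel₀ hε (by rw [mul_one]; exact h1.symm)
    by_cases h0 : c 0 = 0 <;> by_cases h1' : c 1 = 0 <;> by_cases h2' : c 2 = 0
    · exfalso
      rw [h0, h1', h2'] at h2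
      simp at h2
    · exact ⟨2, c 2, h2', by rw [hex, h0, h1']; simp⟩
    · exact ⟨1, c 1, h1', by rw [hex, h0, h2']; simp⟩
    · exfalso
      rw [h0, f3_sq hq h1', f3_sq hq h2'] at h2
      apply one_ne_zero (α := F)
      linear_combination h2
    · exact ⟨0, c 0, h0, by rw [hex, h1', h2']; simp⟩
    · exfalso
      rw [f3_sq hq h0, h1', f3_sq hq h2'] at h2
      apply one_ne_zero (α := F)
      linear_combination h2
    · exfalso
      rw [f3_sq hq h0, f3_sq hq h1', h2'] at h2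
      apply one_ne_zero (α := F)
      linear_combination h2
    · exfalso
      rw [f3_sq hq h0, f3_sq hq h1', f3_sq hq h2'] at h2
      apply one_ne_zero (α := F)
      linear_combination h3 - h2
  choose σ c hc0 hσ using hone
  have hinj : Function.Injective σ := by
    intro i i' hii
    by_contra hne
    have h1 := hB (w i) (w i')
    rw [hσ i, hσ i', hii, hf₂.bilinear.smul_left, hf₂.bilinear.smul_right, hw, hw, if_pos rfl,
      if_neg hne] at h1
    exact mul_ne_zero (hc0 i) (mul_ne_zero (hc0 i') hε) h1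
  exact ⟨Equiv.ofBijective σ (Finite.injective_iff_bijective.mp hinj), fun i => ⟨c i, hσ i⟩⟩

theorem iSup_eq_top_of_indep {ι : Type} [Fintype ι] [DecidableEq ι] {t : ℕ}
    (D : Fin t → Submodule F (ι → F)) (hind : iSupIndep D)
    (hsum : ∑ i, Module.finrank F (D i) = Fintype.card ι) : iSup D = ⊤ := by
  classical
  have hinj := hind.dfinsupp_lsum_injective
  have h1 := LinearMap.finrank_range_of_inj hinj
  rw [← Submodule.iSup_eq_range_dfinsupp_lsum] at h1
  have h2 : Module.finrank F (Π₀ i, D i) = ∑ i, Module.finrank F (D i) :=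
    Module.finrank_directSum (R := F) (fun i => D i)
  apply Submodule.eq_top_of_finrank_eq
  rw [h1, h2, hsum, Module.finrank_fintype_fun_eq_card]

variable {κ : Type} [Fintype κ] [DecidableEq κ]

/-- Pure tensors with a fixed second factor. -/
def ptL {n₁ n₂ : ℕ} (w : Fin n₂ → F) : (Fin n₁ → F) →ₗ[F] (Fin n₁ × Fin n₂ → F) where
  toFun u := fun p => u p.1 * w p.2
  map_add' u u' := by funext p; simp [add_mul]
  map_smul' c u := by funext p; simp [mul_assoc]

theorem ptL_apply {n₁ n₂ : ℕ} (w : Fin n₂ → F) (u : Fin n₁ → F) (p : Fin n₁ × Fin n₂) :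
    ptL w u p = u p.1 * w p.2 := rfl

/-- The coordinate isomorphism of a tensor structure. -/
def phiL {n₁ n₂ : ℕ} (e : κ ≃ Fin n₁ × Fin n₂) (P : GL κ F) :
    (Fin n₁ × Fin n₂ → F) →ₗ[F] (κ → F) where
  toFun z := (P : Matrix κ κ F) *ᵥ (z ∘ e)
  map_add' z z' := by rw [← Matrix.mulVec_add]; rfl
  map_smul' c z := by rw [RingHom.id_apply, ← Matrix.mulVec_smul]; rfl

theorem phiL_apply {n₁ n₂ : ℕ} (e : κ ≃ Fin n₁ × Fin n₂) (P : GL κ F) (z : Fin n₁ × Fin n₂ → F) :
    phiL e P z = (P : Matrix κ κ F) *ᵥ (z ∘ e) := rfl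

theorem phiL_injective {n₁ n₂ : ℕ} (e : κ ≃ Fin n₁ × Fin n₂) (P : GL κ F) :
    Function.Injective (phiL (F := F) e P) := by
  intro z z' h
  rw [phiL_apply, phiL_apply] at h
  exact comp_inj e (Helper97.Gen.mulVec_injective P h)

theorem ptL_injective {n₁ n₂ : ℕ} {w : Fin n₂ → F} (hw : w ≠ 0) :
    Function.Injective (ptL (F := F) (n₁ := n₁) w) := by
  intro u u' h
  obtain ⟨b, hb⟩ := Helper97.Gen.exists_ne_zero_coord hw
  funext a
  have := congrFun h (a, b)
  rw [ptL_apply, ptL_apply] at this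
  exact mul_right_cancel₀ hb this

theorem bil_eq_sum {n : ℕ} {f : (Fin n → F) → (Fin n → F) → F} (hf : IsBilinearForm f)
    (u v : Fin n → F) : f u v = ∑ a, ∑ b, u a * gramMatrix f a b * v b := by
  have h := (Helper97.Gen.isSesq_of_bilinear hf).apply_eq u v
  rw [h]
  simp only [dotProduct, Matrix.mulVec, Finset.mul_sum, mul_assoc]
  rfl

theorem formOfGram_pt {n₁ n₂ : ℕ} {f₁ : (Fin n₁ → F) → (Fin n₁ → F) → F}
    {f₂ : (Fin n₂ → F) → (Fin n₂ → F) → F} (hf₁ : IsBilinearForm f₁) (hf₂ : IsBilinearForm f₂)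
    (u u' : Fin n₁ → F) (w w' : Fin n₂ → F) :
    formOfGram id (gramMatrix f₁ ⊗ₖ gramMatrix f₂) (ptL w u) (ptL w' u') = f₁ u u' * f₂ w w' := by
  rw [bil_eq_sum hf₁, bil_eq_sum hf₂, Finset.sum_mul_sum]
  simp only [formOfGram, Fintype.sum_prod_type, ptL_apply, Matrix.kroneckerMap_apply, id]
  refine Finset.sum_congr rfl (fun a _ => Finset.sum_congr rfl (fun b _ => ?_))
  rw [Finset.sum_mul_sum]
  refine Finset.sum_congr rfl (fun a' _ => Finset.sum_congr rfl (fun b' _ => ?_))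
  ring

theorem kron_mulVec_pt {n₁ n₂ : ℕ} (A : Matrix (Fin n₁) (Fin n₁) F) (B : Matrix (Fin n₂) (Fin n₂) F)
    (u : Fin n₁ → F) (w : Fin n₂ → F) : (A ⊗ₖ B) *ᵥ ptL w u = ptL (B *ᵥ w) (A *ᵥ u) := by
  funext p
  rw [ptL_apply]
  simp only [Matrix.mulVec, dotProduct, Fintype.sum_prod_type, ptL_apply, Matrix.kroneckerMap_apply]
  rw [Finset.sum_mul_sum]
  refine Finset.sum_congr rfl (fun a _ => Finset.sum_congr rfl (fun b _ => ?_))
  ring

theorem tensor_act {n₁ n₂ : ℕ} (e : κ ≃ Fin n₁ × Fin n₂) (P : GL κ F) {g : GL κ F}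
    {A : Matrix (Fin n₁) (Fin n₁) F} {B : Matrix (Fin n₂) (Fin n₂) F}
    (hg : (g : Matrix κ κ F) = Helper98.conjReindex e P (A ⊗ₖ B)) (z : Fin n₁ × Fin n₂ → F) :
    (g : Matrix κ κ F) *ᵥ phiL e P z = phiL e P ((A ⊗ₖ B) *ᵥ z) := by
  rw [phiL_apply, phiL_apply, hg, Helper98.conjReindex_apply, ← Matrix.mulVec_mulVec,
    Helper97.Gen.mulVec_inv_cancel, ← Matrix.mulVec_mulVec]
  congr 1
  exact pm_mulVec e (A ⊗ₖ B) z

end Cfsg.Agent.Helper96.Sy
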