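-- helper96 library: the tensor product of two alternating forms is the polar form of a quadratic
-- form preserved by the isometries in the tensor product subgroup.
import Cfsg.Agent.Helper96.SpF3b

set_option autoImplicit false
set_option linter.unusedSectionVars false
set_option linter.unusedVariables false
open Cfsg Cfsg.Geo Matrix
open scoped Kronecker

namespace Cfsg.Agent.Helper96.Sy

variable {F : Type*} [Field F]

/-- The rows of a coordinate array. -/
def rowOf {n₁ n₂ : ℕ} (a : Fin n₁) (z : Fin n₁ × Fin n₂ → F) : Fin n₂ → F := fun b => z (a, b)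

/-- The quadratic form of a tensor product of alternating forms, in coordinates. -/
def tq {n₁ n₂ : ℕ} (f₁ : (Fin n₁ → F) → (Fin n₁ → F) → F) (f₂ : (Fin n₂ → F) → (Fin n₂ → F) → F)
    (z : Fin n₁ × Fin n₂ → F) : F :=
  ∑ a, ∑ a', if a < a' then gramMatrix f₁ a a' * f₂ (rowOf a z) (rowOf a' z) else 0

theorem sum_alt_split {n : ℕ} (M : Fin n → Fin n → F) (h0 : ∀ a, M a a = 0) :
    ∑ a, ∑ a', M a a' = ∑ a, ∑ a', if a < a' then M a a' + M a' a else 0 := by
  have h : ∀ a a', M a a' = (if a < a' then M a a' else 0) + (if a' < a then M a a' else 0) := by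
    intro a a'
    rcases lt_trichotomy a a' with h | h | h
    · rw [if_pos h, if_neg (not_lt_of_gt h), add_zero]
    · subst h
      rw [if_neg (lt_irrefl a), h0, add_zero]
    · rw [if_neg (not_lt_of_gt h), if_pos h, zero_add]
  have h1 : ∑ a, ∑ a', M a a' = ∑ a, ∑ a', (if a < a' then M a a' else 0) +
      ∑ a, ∑ a', (if a' < a then M a a' else 0) := by
    rw [← Finset.sum_add_distrib]
    refine Finset.sum_congr rfl (fun a _ => ?_)
    rw [← Finset.sum_add_distrib]
    exact Finset.sum_congr rfl (fun a' _ => h a a')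
  rw [h1, Finset.sum_comm (f := fun a a' => if a' < a then M a a' else 0), ← Finset.sum_add_distrib]
  refine Finset.sum_congr rfl (fun a _ => ?_)
  rw [← Finset.sum_add_distrib]
  refine Finset.sum_congr rfl (fun a' _ => ?_)
  by_cases haa : a < a'
  · rw [if_pos haa, if_pos haa, if_pos haa]
  · rw [if_neg haa, if_neg haa, if_neg haa, add_zero]

theorem formOfGram_rows {n₁ n₂ : ℕ} (f₁ : (Fin n₁ → F) → (Fin n₁ → F) → F)
    {f₂ : (Fin n₂ → F) → (Fin n₂ → F) → F} (hf₂ : IsBilinearForm f₂) (z z' : Fin n₁ × Fin n₂ → F) :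
    formOfGram id (gramMatrix f₁ ⊗ₖ gramMatrix f₂) z z' =
      ∑ a, ∑ a', gramMatrix f₁ a a' * f₂ (rowOf a z) (rowOf a' z') := by
  simp only [formOfGram, Fintype.sum_prod_type, Matrix.kroneckerMap_apply, id]
  refine Finset.sum_congr rfl (fun a _ => ?_)
  rw [Finset.sum_comm]
  refine Finset.sum_congr rfl (fun a' _ => ?_)
  rw [bil_eq_sum hf₂, Finset.mul_sum]
  refine Finset.sum_congr rfl (fun b _ => ?_)
  rw [Finset.mul_sum]
  refine Finset.sum_congr rfl (fun b' _ => ?_)
  simp only [rowOf]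
  ring

theorem tq_smul {n₁ n₂ : ℕ} (f₁ : (Fin n₁ → F) → (Fin n₁ → F) → F)
    {f₂ : (Fin n₂ → F) → (Fin n₂ → F) → F} (hf₂ : IsBilinearForm f₂) (c : F)
    (z : Fin n₁ × Fin n₂ → F) : tq f₁ f₂ (c • z) = c ^ 2 * tq f₁ f₂ z := by
  unfold tq
  rw [Finset.mul_sum]
  refine Finset.sum_congr rfl (fun a _ => ?_)
  rw [Finset.mul_sum]
  refine Finset.sum_congr rfl (fun a' _ => ?_)
  by_cases haa : a < a'
  · rw [if_pos haa, if_pos haa]
    have h1 : rowOf a (c • z) = c • rowOf a z := rfl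
    have h2 : rowOf a' (c • z) = c • rowOf a' z := rfl
    rw [h1, h2, hf₂.smul_left, hf₂.smul_right]
    ring
  · rw [if_neg haa, if_neg haa, mul_zero]

theorem tq_polar {n₁ n₂ : ℕ} {f₁ : (Fin n₁ → F) → (Fin n₁ → F) → F}
    {f₂ : (Fin n₂ → F) → (Fin n₂ → F) → F} (hf₁ : IsSymplecticForm f₁) (hf₂ : IsSymplecticForm f₂)
    (z z' : Fin n₁ × Fin n₂ → F) :
    tq f₁ f₂ (z + z') - tq f₁ f₂ z - tq f₁ f₂ z' =
      formOfGram id (gramMatrix f₁ ⊗ₖ gramMatrix f₂) z z' := by
  rw [formOfGram_rows f₁ hf₂.bilinear, sum_alt_split _ (fun a => by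
    show gramMatrix f₁ a a * _ = 0
    have : gramMatrix f₁ a a = 0 := hf₁.alternating _
    rw [this, zero_mul])]
  unfold tq
  rw [← Finset.sum_sub_distrib, ← Finset.sum_sub_distrib]
  refine Finset.sum_congr rfl (fun a _ => ?_)
  rw [← Finset.sum_sub_distrib, ← Finset.sum_sub_distrib]
  refine Finset.sum_congr rfl (fun a' _ => ?_)
  by_cases haa : a < a'
  · rw [if_pos haa, if_pos haa, if_pos haa, if_pos haa]
    have h1 : rowOf a (z + z') = rowOf a z + rowOf a z' := rfl
    have h2 : rowOf a' (z + z') = rowOf a' z + rowOf a' z' := rfl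
    have h3 : gramMatrix f₁ a' a = - gramMatrix f₁ a a' := hf₁.skew _ _
    rw [h1, h2, hf₂.bilinear.add_left, hf₂.bilinear.add_right, hf₂.bilinear.add_right, h3,
      hf₂.skew (rowOf a' z) (rowOf a z')]
    ring
  · rw [if_neg haa, if_neg haa, if_neg haa, if_neg haa]
    ring

theorem tq_pure {n₁ n₂ : ℕ} (f₁ : (Fin n₁ → F) → (Fin n₁ → F) → F)
    {f₂ : (Fin n₂ → F) → (Fin n₂ → F) → F} (hf₂ : IsSymplecticForm f₂) (u : Fin n₁ → F)
    (w : Fin n₂ → F) : tq f₁ f₂ (ptL w u) = 0 := by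
  unfold tq
  refine Finset.sum_eq_zero (fun a _ => Finset.sum_eq_zero (fun a' _ => ?_))
  by_cases haa : a < a'
  · rw [if_pos haa]
    have h1 : rowOf a (ptL w u) = u a • w := rfl
    have h2 : rowOf a' (ptL w u) = u a' • w := rfl
    rw [h1, h2, hf₂.bilinear.smul_left, hf₂.bilinear.smul_right, hf₂.alternating]
    ring
  · rw [if_neg haa]

theorem single_eq_pt {n₁ n₂ : ℕ} (a : Fin n₁) (b : Fin n₂) :
    (Pi.single (a, b) (1 : F) : Fin n₁ × Fin n₂ → F) = ptL (Pi.single b 1) (Pi.single a 1) := by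
  funext p
  rw [ptL_apply]
  by_cases h1 : p.1 = a
  · by_cases h2 : p.2 = b
    · have : p = (a, b) := Prod.ext h1 h2
      subst this
      simp
    · have : p ≠ (a, b) := fun h => h2 (congrArg Prod.snd h)
      simp [Pi.single_apply, this, h2]
  · have : p ≠ (a, b) := fun h => h1 (congrArg Prod.fst h)
    simp [Pi.single_apply, this, h1]

/-- Two quadratic maps with the same polar map and the same values on the standard basis agree. -/
theorem quad_unique {α : Type} [Fintype α] [DecidableEq α] (q₁ q₂ : (α → F) → F)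
    (hs₁ : ∀ (c : F) z, q₁ (c • z) = c ^ 2 * q₁ z) (hs₂ : ∀ (c : F) z, q₂ (c • z) = c ^ 2 * q₂ z)
    (hpol : ∀ z z', q₁ (z + z') - q₁ z - q₁ z' = q₂ (z + z') - q₂ z - q₂ z')
    (hbasis : ∀ p, q₁ (Pi.single p 1) = q₂ (Pi.single p 1)) (z : α → F) : q₁ z = q₂ z := by
  classical
  have hadd : ∀ z z', q₁ (z + z') - q₂ (z + z') = (q₁ z - q₂ z) + (q₁ z' - q₂ z') := by
    intro z z'
    linear_combination hpol z z'
  have hzero : q₁ 0 - q₂ 0 = 0 := by
    have h1 := hs₁ 0 0
    have h2 := hs₂ 0 0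
    rw [zero_smul] at h1 h2
    rw [h1, h2]
    ring
  have hsum : ∀ (s : Finset α) (x : α → α → F),
      q₁ (∑ p ∈ s, x p) - q₂ (∑ p ∈ s, x p) = ∑ p ∈ s, (q₁ (x p) - q₂ (x p)) := by
    intro s x
    induction s using Finset.induction_on with
    | empty => rw [Finset.sum_empty, Finset.sum_empty]; exact hzero
    | insert a s ha ih => rw [Finset.sum_insert ha, Finset.sum_insert ha, hadd, ih]
  have h1 := hsum Finset.univ (fun p => z p • (Pi.single p 1 : α → F))
  rw [← Helper97.Gen.vec_eq_sum_single z] at h1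
  have h2 : ∑ p, (q₁ (z p • (Pi.single p 1 : α → F)) - q₂ (z p • (Pi.single p 1 : α → F))) = 0 := by
    refine Finset.sum_eq_zero (fun p _ => ?_)
    rw [hs₁, hs₂, hbasis]
    ring
  rw [h2] at h1
  exact sub_eq_zero.mp h1

end Cfsg.Agent.Helper96.Sy
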