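-- helper96 library: the quadratic form attached to a tensor decomposition into alternating forms.
import Cfsg.Agent.Helper96.SpTQ

set_option autoImplicit false
set_option linter.unusedSectionVars false
set_option linter.unusedVariables false
open Cfsg Cfsg.Geo Matrix
open scoped Kronecker

namespace Cfsg.Agent.Helper96.Sy

variable {F : Type*} [Field F] {ι : Type} [Fintype ι] [DecidableEq ι]

/-- The inverse coordinate map of a tensor structure. -/
def psiL {n₁ n₂ : ℕ} (e : ι ≃ Fin n₁ × Fin n₂) (P : GL ι F) (v : ι → F) : Fin n₁ × Fin n₂ → F :=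
  (((P⁻¹ : GL ι F) : Matrix ι ι F) *ᵥ v) ∘ e.symm

theorem phiL_psiL {n₁ n₂ : ℕ} (e : ι ≃ Fin n₁ × Fin n₂) (P : GL ι F) (v : ι → F) :
    phiL e P (psiL e P v) = v := by
  rw [phiL_apply]
  unfold psiL
  have h : ((((P⁻¹ : GL ι F) : Matrix ι ι F) *ᵥ v) ∘ e.symm) ∘ e =
      ((P⁻¹ : GL ι F) : Matrix ι ι F) *ᵥ v := by
    funext i; simp
  rw [h, Helper97.Gen.mulVec_cancel_inv]

theorem psiL_phiL {n₁ n₂ : ℕ} (e : ι ≃ Fin n₁ × Fin n₂) (P : GL ι F) (z : Fin n₁ × Fin n₂ → F) :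
    psiL e P (phiL e P z) = z := by
  unfold psiL
  rw [phiL_apply, Helper97.Gen.mulVec_inv_cancel]
  funext p; simp

theorem psiL_add {n₁ n₂ : ℕ} (e : ι ≃ Fin n₁ × Fin n₂) (P : GL ι F) (u v : ι → F) :
    psiL e P (u + v) = psiL e P u + psiL e P v := by
  unfold psiL
  rw [Matrix.mulVec_add]
  rfl

theorem psiL_smul {n₁ n₂ : ℕ} (e : ι ≃ Fin n₁ × Fin n₂) (P : GL ι F) (c : F) (v : ι → F) :
    psiL e P (c • v) = c • psiL e P v := by
  unfold psiL
  rw [Matrix.mulVec_smul]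
  rfl

/-- A tensor decomposition of a symplectic form into two alternating forms gives a quadratic form
with polar form `f` which is preserved by the isometries in the tensor product subgroup. -/
theorem tensor_quad {f : (ι → F) → (ι → F) → F} (hf : IsSymplecticForm f) {n₁ n₂ : ℕ}
    (e : ι ≃ Fin n₁ × Fin n₂) (P : GL ι F)
    (f₁ : (Fin n₁ → F) → (Fin n₁ → F) → F) (f₂ : (Fin n₂ → F) → (Fin n₂ → F) → F)
    (hf₁ : IsSymplecticForm f₁) (hf₂ : IsSymplecticForm f₂)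
    (hT : IsTensorFormStructure id f f₁ f₂ e P) :
    ∃ Q : (ι → F) → F, IsNondegenerateQuadraticForm Q ∧ (∀ u v, QuadraticMap.polar Q u v = f u v) ∧
      ∀ g ∈ tensorProductSubgroup n₁ n₂ e P ⊓ isoSub f, ∀ v, Q ((g : Matrix ι ι F) *ᵥ v) = Q v := by
  classical
  obtain ⟨c, hc, hT⟩ := hT
  have hTphi : ∀ z z' : Fin n₁ × Fin n₂ → F, f (phiL e P z) (phiL e P z') =
      c * formOfGram id (gramMatrix f₁ ⊗ₖ gramMatrix f₂) z z' := fun z z' => hT z z'
  obtain ⟨Q, hQdef⟩ : ∃ Q : (ι → F) → F, ∀ v, Q v = c * tq f₁ f₂ (psiL e P v) := ⟨_, fun _ => rfl⟩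
  have hpol : ∀ u v, Q (u + v) - Q u - Q v = f u v := by
    intro u v
    rw [hQdef, hQdef, hQdef, psiL_add]
    have h1 := tq_polar hf₁ hf₂ (psiL e P u) (psiL e P v)
    have h2 := hTphi (psiL e P u) (psiL e P v)
    rw [phiL_psiL, phiL_psiL] at h2
    rw [h2, ← h1]
    ring
  have hpol' : QuadraticMap.polar Q = f := by
    funext u v
    exact hpol u v
  refine ⟨Q, ⟨?_, ?_, ?_⟩, fun u v => hpol u v, ?_⟩
  · intro a v
    rw [hQdef, hQdef, psiL_smul, tq_smul f₁ hf₂.bilinear]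
    ring
  · rw [hpol']; exact hf.bilinear
  · rw [hpol']; exact hf.nondegenerate
  · intro g hg v
    obtain ⟨hgT, hgS⟩ := Subgroup.mem_inf.mp hg
    obtain ⟨A, B, hab⟩ := Helper98.mem_tensorProductSubgroup hgT
    have hact := tensor_act e P hab
    have hq : ∀ z, tq f₁ f₂ (((A : Matrix (Fin n₁) (Fin n₁) F) ⊗ₖ (B : Matrix (Fin n₂) (Fin n₂) F)) *ᵥ z)
        = tq f₁ f₂ z := by
      apply quad_unique
      · intro a z
        rw [Matrix.mulVec_smul, tq_smul f₁ hf₂.bilinear]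
      · intro a z
        exact tq_smul f₁ hf₂.bilinear a z
      · intro z z'
        rw [Matrix.mulVec_add, tq_polar hf₁ hf₂, tq_polar hf₁ hf₂]
        apply mul_left_cancel₀ hc
        rw [← hTphi, ← hTphi, ← hact, ← hact]
        exact hgS _ _
      · rintro ⟨a, b⟩
        rw [single_eq_pt, kron_mulVec_pt, tq_pure f₁ hf₂, tq_pure f₁ hf₂]
    rw [hQdef, hQdef]
    have h1 : psiL e P ((g : Matrix ι ι F) *ᵥ v) =
        ((A : Matrix (Fin n₁) (Fin n₁) F) ⊗ₖ (B : Matrix (Fin n₂) (Fin n₂) F)) *ᵥ psiL e P v := by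
      have h2 := hact (psiL e P v)
      rw [phiL_psiL] at h2
      rw [h2, psiL_phiL]
    rw [h1, hq]

end Cfsg.Agent.Helper96.Sy
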