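-- helper96 library: tools for tensor decompositions with a two-dimensional symmetric factor.
import Cfsg.Agent.Helper96.SpTQ2

set_option autoImplicit false
set_option linter.unusedSectionVars false
set_option linter.unusedVariables false
open Cfsg Cfsg.Geo Matrix
open scoped Kronecker

namespace Cfsg.Agent.Helper96.Sy

variable {F : Type*} [Field F]

theorem conj_act {κ : Type} [Fintype κ] [DecidableEq κ] {n₁ n₂ : ℕ} (e : κ ≃ Fin n₁ × Fin n₂)
    (P : GL κ F) (M : Matrix (Fin n₁ × Fin n₂) (Fin n₁ × Fin n₂) F) (z : Fin n₁ × Fin n₂ → F) :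
    Helper98.conjReindex e P M *ᵥ phiL e P z = phiL e P (M *ᵥ z) := by
  rw [phiL_apply, phiL_apply, Helper98.conjReindex_apply, ← Matrix.mulVec_mulVec,
    Helper97.Gen.mulVec_inv_cancel, ← Matrix.mulVec_mulVec]
  congr 1
  exact pm_mulVec e M z

/-- The second tensor factor of an isometry is a similitude of the second form. -/
theorem tensor_simil {m n₁ n₂ : ℕ} (e : (Fin m ⊕ Fin m) ≃ Fin n₁ × Fin n₂)
    (P : GL (Fin m ⊕ Fin m) F) {f₁ : (Fin n₁ → F) → (Fin n₁ → F) → F}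
    {f₂ : (Fin n₂ → F) → (Fin n₂ → F) → F} {c : F} (hc : c ≠ 0)
    (hkey : ∀ (u u' : Fin n₁ → F) (v v' : Fin n₂ → F),
      sympForm m F (phiL e P (ptL v u)) (phiL e P (ptL v' u')) = c * (f₁ u u' * f₂ v v'))
    (h1 : ∃ u u', f₁ u u' ≠ 0) (h2 : ∃ v v', f₂ v v' ≠ 0)
    {g : GL (Fin m ⊕ Fin m) F} (hgS : g ∈ spGL m F)
    {A : Matrix (Fin n₁) (Fin n₁) F} {B : Matrix (Fin n₂) (Fin n₂) F}
    (hab : (g : Matrix (Fin m ⊕ Fin m) (Fin m ⊕ Fin m) F) = Helper98.conjReindex e P (A ⊗ₖ B)) :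
    ∃ μ : F, μ ≠ 0 ∧ ∀ v v', f₂ (B *ᵥ v) (B *ᵥ v') = μ * f₂ v v' := by
  have hact : ∀ (u : Fin n₁ → F) (v : Fin n₂ → F),
      (g : Matrix (Fin m ⊕ Fin m) (Fin m ⊕ Fin m) F) *ᵥ phiL e P (ptL v u) =
        phiL e P (ptL (B *ᵥ v) (A *ᵥ u)) := by
    intro u v
    rw [hab, conj_act, kron_mulVec_pt]
  have hprod : ∀ (u u' : Fin n₁ → F) (v v' : Fin n₂ → F),
      f₁ (A *ᵥ u) (A *ᵥ u') * f₂ (B *ᵥ v) (B *ᵥ v') = f₁ u u' * f₂ v v' := by
    intro u u' v v'
    have h3 := Helper94.sp_apply hgS (phiL e P (ptL v u)) (phiL e P (ptL v' u'))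
    rw [hact, hact, hkey, hkey] at h3
    exact mul_left_cancel₀ hc h3
  obtain ⟨u₁, u₂, hu⟩ := h1
  obtain ⟨v₁, v₂, hv⟩ := h2
  have hα : f₁ (A *ᵥ u₁) (A *ᵥ u₂) ≠ 0 := by
    intro h0
    have h3 := hprod u₁ u₂ v₁ v₂
    rw [h0, zero_mul] at h3
    exact mul_ne_zero hu hv h3.symm
  refine ⟨f₁ u₁ u₂ / f₁ (A *ᵥ u₁) (A *ᵥ u₂), div_ne_zero hu hα, fun v v' => ?_⟩
  have h3 := hprod u₁ u₂ v v'
  rw [div_mul_eq_mul_div, eq_div_iff hα, ← h3]
  ring

/-- The quadratic field generated by a matrix with anisotropic norm form. -/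
theorem quadField {κ : Type} [Fintype κ] [DecidableEq κ] [Nonempty κ] (J : Matrix κ κ F) (δ : F)
    (hJ : J * J = (-δ) • (1 : Matrix κ κ F))
    (hN : ∀ α β : F, α ^ 2 + δ * β ^ 2 = 0 → α = 0 ∧ β = 0) :
    ∃ K : Subalgebra F (Matrix κ κ F), IsFieldSubalgebra 2 K ∧
      ∀ x : Matrix κ κ F, x ∈ K ↔ ∃ α β : F, x = α • (1 : Matrix κ κ F) + β • J := by
  classical
  have hmul : ∀ α β α' β' : F, (α • (1 : Matrix κ κ F) + β • J) * (α' • (1 : Matrix κ κ F) + β' • J) =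
      (α * α' - δ * β * β') • (1 : Matrix κ κ F) + (α * β' + β * α') • J := by
    intro α β α' β'
    simp only [add_mul, mul_add, smul_mul_assoc, mul_smul_comm, one_mul, mul_one, hJ, smul_smul]
    module
  obtain ⟨K, hK⟩ : ∃ K : Subalgebra F (Matrix κ κ F),
      ∀ x : Matrix κ κ F, x ∈ K ↔ ∃ α β : F, x = α • (1 : Matrix κ κ F) + β • J := by
    refine ⟨{ carrier := {x | ∃ α β : F, x = α • (1 : Matrix κ κ F) + β • J}
              mul_mem' := ?_
              one_mem' := ⟨1, 0, by simp⟩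
              add_mem' := ?_
              zero_mem' := ⟨0, 0, by simp⟩
              algebraMap_mem' := fun c => ⟨c, 0, by simp [Algebra.algebraMap_eq_smul_one]⟩ },
            fun x => Iff.rfl⟩
    · rintro _ _ ⟨α, β, rfl⟩ ⟨α', β', rfl⟩
      exact ⟨_, _, hmul α β α' β'⟩
    · rintro _ _ ⟨α, β, rfl⟩ ⟨α', β', rfl⟩
      exact ⟨α + α', β + β', by module⟩
  have hzero : ∀ α β : F, α • (1 : Matrix κ κ F) + β • J = 0 → α = 0 ∧ β = 0 := by
    intro α β h
    have h1 := hmul α β α (-β)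
    rw [h, zero_mul] at h1
    have h2 : (α ^ 2 + δ * β ^ 2) • (1 : Matrix κ κ F) = 0 := by
      rw [h1]
      module
    rcases smul_eq_zero.mp h2 with h3 | h3
    · exact hN α β h3
    · exact absurd h3 one_ne_zero
  refine ⟨K, ⟨?_, ?_, ?_⟩, hK⟩
  · intro x hx y hy
    obtain ⟨α, β, rfl⟩ := (hK x).mp hx
    obtain ⟨α', β', rfl⟩ := (hK y).mp hy
    rw [hmul, hmul]
    congr 1
    · ring_nf
    · ring_nf
  · intro x hx hx0
    obtain ⟨α, β, rfl⟩ := (hK x).mp hx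
    have hNne : α ^ 2 + δ * β ^ 2 ≠ 0 := by
      intro h0
      obtain ⟨rfl, rfl⟩ := hN α β h0
      apply hx0
      simp
    refine ⟨(α / (α ^ 2 + δ * β ^ 2)) • (1 : Matrix κ κ F) + (-β / (α ^ 2 + δ * β ^ 2)) • J,
      (hK _).mpr ⟨_, _, rfl⟩, ?_⟩
    rw [hmul]
    have e1 : α * (α / (α ^ 2 + δ * β ^ 2)) - δ * β * (-β / (α ^ 2 + δ * β ^ 2)) = 1 := by
      field_simp
      ring
    have e2 : α * (-β / (α ^ 2 + δ * β ^ 2)) + β * (α / (α ^ 2 + δ * β ^ 2)) = 0 := by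
      field_simp
      ring
    rw [e1, e2, one_smul, zero_smul, add_zero]
  · have hli : LinearIndependent F ![(1 : Matrix κ κ F), J] := by
      rw [LinearIndependent.pair_iff]
      intro s t h
      exact hzero s t h
    have hspan : Subalgebra.toSubmodule K =
        Submodule.span F (Set.range ![(1 : Matrix κ κ F), J]) := by
      ext x
      rw [Matrix.range_cons_cons_empty, Submodule.mem_span_pair]
      constructor
      · intro hx
        obtain ⟨α, β, rfl⟩ := (hK x).mp hx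
        exact ⟨α, β, rfl⟩
      · rintro ⟨α, β, rfl⟩
        exact (hK _).mpr ⟨α, β, rfl⟩
    have h1 : Module.finrank F K = Module.finrank F (Subalgebra.toSubmodule K) := rfl
    rw [h1, hspan, finrank_span_eq_card hli]
    rfl

end Cfsg.Agent.Helper96.Sy
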