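-- helper96 library: tensor decompositions with an isotropic two-dimensional symmetric factor
-- stabilise a pair of totally singular subspaces.
import Cfsg.Agent.Helper96.SpT2a

set_option autoImplicit false
set_option linter.unusedSectionVars false
set_option linter.unusedVariables false
open Cfsg Cfsg.Geo Matrix
open scoped Kronecker

namespace Cfsg.Agent.Helper96.Sy

variable {F : Type*} [Field F]

theorem tensor_key {m n₁ n₂ : ℕ} (e : (Fin m ⊕ Fin m) ≃ Fin n₁ × Fin n₂)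
    (P : GL (Fin m ⊕ Fin m) F) {f₁ : (Fin n₁ → F) → (Fin n₁ → F) → F}
    {f₂ : (Fin n₂ → F) → (Fin n₂ → F) → F} (hf₁ : IsBilinearForm f₁) (hf₂ : IsBilinearForm f₂) {c : F}
    (hT : ∀ x y : Fin n₁ × Fin n₂ → F,
      sympForm m F ((P : Matrix (Fin m ⊕ Fin m) (Fin m ⊕ Fin m) F) *ᵥ (x ∘ e))
        ((P : Matrix (Fin m ⊕ Fin m) (Fin m ⊕ Fin m) F) *ᵥ (y ∘ e)) =
        c * formOfGram id (gramMatrix f₁ ⊗ₖ gramMatrix f₂) x y)
    (u u' : Fin n₁ → F) (v v' : Fin n₂ → F) :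
    sympForm m F (phiL e P (ptL v u)) (phiL e P (ptL v' u')) = c * (f₁ u u' * f₂ v v') := by
  rw [phiL_apply, phiL_apply, hT, formOfGram_pt hf₁ hf₂]

theorem exists_ne_form {n₁ : ℕ} (hn₁ : 0 < n₁) {f₁ : (Fin n₁ → F) → (Fin n₁ → F) → F}
    (hnd : IsNondegenerateForm f₁) : ∃ u u', f₁ u u' ≠ 0 := by
  have hne : (Pi.single (⟨0, hn₁⟩ : Fin n₁) (1 : F) : Fin n₁ → F) ≠ 0 := by
    intro h
    have := congrFun h ⟨0, hn₁⟩
    simp at this
  obtain ⟨⟨x, hx⟩, -⟩ := hnd _ hne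
  exact ⟨x, _, hx⟩

theorem tensor_two_iso {m n₁ : ℕ} (h2 : (2 : F) ≠ 0) (hn₁ : 0 < n₁)
    (e : (Fin m ⊕ Fin m) ≃ Fin n₁ × Fin 2) (P : GL (Fin m ⊕ Fin m) F)
    (f₁ : (Fin n₁ → F) → (Fin n₁ → F) → F) (f₂ : (Fin 2 → F) → (Fin 2 → F) → F)
    (hf₁ : IsSymplecticForm f₁) (hf₂ : IsSymmetricForm f₂)
    (hT : IsTensorFormStructure id (sympForm m F) f₁ f₂ e P)
    (v₁ : Fin 2 → F) (hv₁ : v₁ ≠ 0) (hiso : f₂ v₁ v₁ = 0) :
    ∃ D : Fin 2 → Submodule F (Fin m ⊕ Fin m → F), IsMDecomposition n₁ D ∧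
      (∀ i, IsTotallySingularFor (sympForm m F) (D i)) ∧
      tensorProductSubgroup n₁ 2 e P ⊓ spGL m F ≤ decompositionStabilizer D := by
  classical
  obtain ⟨c, hc, hT⟩ := hT
  have hkey := tensor_key e P hf₁.bilinear hf₂.bilinear hT
  obtain ⟨-, ⟨y, hy⟩⟩ := hf₂.nondegenerate v₁ hv₁
  obtain ⟨s, hs⟩ : ∃ s : F, s = -(f₂ y y) / (2 * f₂ v₁ y) := ⟨_, rfl⟩
  obtain ⟨v₂, hv₂def⟩ : ∃ v₂ : Fin 2 → F, v₂ = y + s • v₁ := ⟨_, rfl⟩
  have h12 : f₂ v₁ v₂ = f₂ v₁ y := by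
    rw [hv₂def, hf₂.bilinear.add_right, hf₂.bilinear.smul_right, hiso, mul_zero, add_zero]
  have h12ne : f₂ v₁ v₂ ≠ 0 := by rw [h12]; exact hy
  have h21 : f₂ v₂ v₁ = f₂ v₁ v₂ := hf₂.symm _ _
  have h22 : f₂ v₂ v₂ = 0 := by
    have e1 : f₂ v₂ v₂ = f₂ y y + 2 * s * f₂ v₁ y := by
      rw [hv₂def, hf₂.bilinear.add_left, hf₂.bilinear.add_right, hf₂.bilinear.add_right,
        hf₂.bilinear.smul_left, hf₂.bilinear.smul_left, hf₂.bilinear.smul_right,
        hf₂.bilinear.smul_right, hiso, hf₂.symm y v₁]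
      ring
    rw [e1, hs]
    field_simp
    ring
  have hv₂ : v₂ ≠ 0 := by
    rintro rfl
    apply h12ne
    have := hf₂.bilinear.smul_right 0 v₁ 0
    simpa using this
  have hli : LinearIndependent F ![v₁, v₂] := by
    rw [LinearIndependent.pair_iff]
    intro a b hab
    have e1 : f₂ (a • v₁ + b • v₂) v₂ = a * f₂ v₁ v₂ := by
      rw [hf₂.bilinear.add_left, hf₂.bilinear.smul_left, hf₂.bilinear.smul_left, h22, mul_zero,
        add_zero]
    have e2 : f₂ (a • v₁ + b • v₂) v₁ = b * f₂ v₁ v₂ := by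
      rw [hf₂.bilinear.add_left, hf₂.bilinear.smul_left, hf₂.bilinear.smul_left, hiso, mul_zero,
        zero_add, h21]
    have hz : ∀ w, f₂ 0 w = 0 := by
      intro w
      have := hf₂.bilinear.smul_left 0 0 w
      simpa using this
    rw [hab, hz] at e1 e2
    exact ⟨(mul_eq_zero.mp e1.symm).resolve_right h12ne, (mul_eq_zero.mp e2.symm).resolve_right h12ne⟩
  have hspan : ∀ x : Fin 2 → F, ∃ a b : F, a • v₁ + b • v₂ = x := by
    intro x
    have h1 := hli.span_eq_top_of_card_eq_finrank' (by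
      rw [Module.finrank_fin_fun]; rfl)
    have h3 : x ∈ Submodule.span F (Set.range ![v₁, v₂]) := by rw [h1]; trivial
    rw [Matrix.range_cons_cons_empty] at h3
    exact Submodule.mem_span_pair.mp h3
  obtain ⟨D₁, hD₁⟩ : ∃ D₁ : Submodule F (Fin m ⊕ Fin m → F),
      D₁ = LinearMap.range ((phiL e P).comp (ptL (n₁ := n₁) v₁)) := ⟨_, rfl⟩
  obtain ⟨D₂, hD₂⟩ : ∃ D₂ : Submodule F (Fin m ⊕ Fin m → F),
      D₂ = LinearMap.range ((phiL e P).comp (ptL (n₁ := n₁) v₂)) := ⟨_, rfl⟩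
  have hmem₁ : ∀ x, x ∈ D₁ ↔ ∃ u : Fin n₁ → F, phiL e P (ptL v₁ u) = x := by
    intro x
    rw [hD₁, LinearMap.mem_range]
    rfl
  have hmem₂ : ∀ x, x ∈ D₂ ↔ ∃ u : Fin n₁ → F, phiL e P (ptL v₂ u) = x := by
    intro x
    rw [hD₂, LinearMap.mem_range]
    rfl
  have hinj₁ : Function.Injective ((phiL e P).comp (ptL (n₁ := n₁) v₁)) :=
    (phiL_injective e P).comp (ptL_injective hv₁)
  have hinj₂ : Function.Injective ((phiL e P).comp (ptL (n₁ := n₁) v₂)) :=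
    (phiL_injective e P).comp (ptL_injective hv₂)
  have hfr₁ : Module.finrank F D₁ = n₁ := by
    rw [hD₁, LinearMap.finrank_range_of_inj hinj₁, Module.finrank_fin_fun]
  have hfr₂ : Module.finrank F D₂ = n₁ := by
    rw [hD₂, LinearMap.finrank_range_of_inj hinj₂, Module.finrank_fin_fun]
  have hts₁ : IsTotallySingularFor (sympForm m F) D₁ := by
    intro x hx y hy
    obtain ⟨u, rfl⟩ := (hmem₁ x).mp hx
    obtain ⟨u', rfl⟩ := (hmem₁ y).mp hy
    rw [hkey, hiso, mul_zero, mul_zero]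
  have hts₂ : IsTotallySingularFor (sympForm m F) D₂ := by
    intro x hx y hy
    obtain ⟨u, rfl⟩ := (hmem₂ x).mp hx
    obtain ⟨u', rfl⟩ := (hmem₂ y).mp hy
    rw [hkey, h22, mul_zero, mul_zero]
  have hinf : D₁ ⊓ D₂ = ⊥ := by
    rw [Submodule.eq_bot_iff]
    rintro x ⟨hx1, hx2⟩
    obtain ⟨u, rfl⟩ := (hmem₁ x).mp hx1
    by_contra hx0
    have hu0 : u ≠ 0 := by
      rintro rfl
      apply hx0
      rw [map_zero, map_zero]
    obtain ⟨-, ⟨u'', hu''⟩⟩ := hf₁.nondegenerate u hu0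
    have h1 := hts₂ _ hx2 _ ((hmem₂ _).mpr ⟨u'', rfl⟩)
    rw [hkey] at h1
    exact mul_ne_zero hc (mul_ne_zero hu'' h12ne) h1
  have hcard : Fintype.card (Fin m ⊕ Fin m) = n₁ * 2 := by
    have := Fintype.card_congr e
    rw [Fintype.card_prod, Fintype.card_fin, Fintype.card_fin] at this
    exact this
  have hsup : D₁ ⊔ D₂ = ⊤ := by
    apply Submodule.eq_top_of_finrank_eq
    have h1 := Submodule.finrank_sup_add_finrank_inf_eq D₁ D₂
    rw [hinf, finrank_bot, hfr₁, hfr₂] at h1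
    rw [Module.finrank_fintype_fun_eq_card, hcard]
    omega
  refine ⟨pairD D₁ D₂, pair_decomp D₁ D₂ hinf hsup n₁ hfr₁ hfr₂ hn₁, ?_, ?_⟩
  · intro i
    rcases fin2_cases i with rfl | rfl
    · exact hts₁
    · exact hts₂
  · intro g hg
    obtain ⟨hgT, hgS⟩ := Subgroup.mem_inf.mp hg
    obtain ⟨A, B, hab⟩ := Helper98.mem_tensorProductSubgroup hgT
    obtain ⟨μ, hμ, hsim⟩ := tensor_simil e P hc hkey (exists_ne_form hn₁ hf₁.nondegenerate)
      ⟨v₁, v₂, h12ne⟩ hgS hab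
    have hact : ∀ (u : Fin n₁ → F) (v : Fin 2 → F),
        (g : Matrix (Fin m ⊕ Fin m) (Fin m ⊕ Fin m) F) *ᵥ phiL e P (ptL v u) =
          phiL e P (ptL ((B : Matrix (Fin 2) (Fin 2) F) *ᵥ v) ((A : Matrix (Fin n₁) (Fin n₁) F) *ᵥ u)) := by
      intro u v
      rw [hab, conj_act, kron_mulVec_pt]
    have hpt : ∀ (t : F) (v : Fin 2 → F) (u : Fin n₁ → F), ptL (t • v) u = ptL v (t • u) := by
      intro t v u
      funext p
      rw [ptL_apply, ptL_apply]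
      simp only [Pi.smul_apply, smul_eq_mul]
      ring
    obtain ⟨α, β, hB1⟩ := hspan ((B : Matrix (Fin 2) (Fin 2) F) *ᵥ v₁)
    obtain ⟨γ, δ, hB2⟩ := hspan ((B : Matrix (Fin 2) (Fin 2) F) *ᵥ v₂)
    have hexp2 : ∀ a b a' b' : F, f₂ (a • v₁ + b • v₂) (a' • v₁ + b' • v₂) =
        (a * b' + b * a') * f₂ v₁ v₂ := by
      intro a b a' b'
      have e1 : f₂ (a • v₁ + b • v₂) (a' • v₁ + b' • v₂) =
          a * (a' * f₂ v₁ v₁ + b' * f₂ v₁ v₂) + b * (a' * f₂ v₂ v₁ + b' * f₂ v₂ v₂) := by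
        rw [hf₂.bilinear.add_left, hf₂.bilinear.smul_left, hf₂.bilinear.smul_left,
          hf₂.bilinear.add_right, hf₂.bilinear.add_right, hf₂.bilinear.smul_right,
          hf₂.bilinear.smul_right, hf₂.bilinear.smul_right, hf₂.bilinear.smul_right]
      rw [e1, hiso, h22, h21]
      ring
    have e11 : α * β = 0 := by
      have h1 := hsim v₁ v₁
      rw [← hB1, hiso, mul_zero, hexp2] at h1
      have h3 : (2 * f₂ v₁ v₂) * (α * β) = 0 := by linear_combination h1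
      exact (mul_eq_zero.mp h3).resolve_left (mul_ne_zero h2 h12ne)
    have e22 : γ * δ = 0 := by
      have h1 := hsim v₂ v₂
      rw [← hB2, h22, mul_zero, hexp2] at h1
      have h3 : (2 * f₂ v₁ v₂) * (γ * δ) = 0 := by linear_combination h1
      exact (mul_eq_zero.mp h3).resolve_left (mul_ne_zero h2 h12ne)
    have e12 : α * δ + β * γ ≠ 0 := by
      have h1 := hsim v₁ v₂
      rw [← hB1, ← hB2, hexp2] at h1
      intro h0
      rw [h0, zero_mul] at h1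
      exact mul_ne_zero hμ h12ne h1.symm
    rcases mul_eq_zero.mp e11 with hα | hβ
    · -- swap
      have hδ : δ = 0 := by
        rcases mul_eq_zero.mp e22 with hγ | hδ
        · exfalso; apply e12; rw [hα, hγ]; ring
        · exact hδ
      rw [hα, zero_smul, zero_add] at hB1
      rw [hδ, zero_smul, add_zero] at hB2
      refine pair_stab_swap D₁ D₂ n₁ hfr₁ hfr₂ g ?_ ?_
      · intro x hx
        obtain ⟨u, rfl⟩ := (hmem₁ x).mp hx
        rw [hact, ← hB1, hpt]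
        exact (hmem₂ _).mpr ⟨_, rfl⟩
      · intro x hx
        obtain ⟨u, rfl⟩ := (hmem₂ x).mp hx
        rw [hact, ← hB2, hpt]
        exact (hmem₁ _).mpr ⟨_, rfl⟩
    · -- fix
      have hγ : γ = 0 := by
        rcases mul_eq_zero.mp e22 with hγ | hδ
        · exact hγ
        · exfalso; apply e12; rw [hβ, hδ]; ring
      rw [hβ, zero_smul, add_zero] at hB1
      rw [hγ, zero_smul, zero_add] at hB2
      refine pair_stab_fix D₁ D₂ n₁ hfr₁ hfr₂ g ?_ ?_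
      · intro x hx
        obtain ⟨u, rfl⟩ := (hmem₁ x).mp hx
        rw [hact, ← hB1, hpt]
        exact (hmem₁ _).mpr ⟨_, rfl⟩
      · intro x hx
        obtain ⟨u, rfl⟩ := (hmem₂ x).mp hx
        rw [hact, ← hB2, hpt]
        exact (hmem₂ _).mpr ⟨_, rfl⟩

end Cfsg.Agent.Helper96.Sy
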