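-- helper96 library: two-by-two matrix lemmas for anisotropic symmetric forms.
import Cfsg.Agent.Helper96.SpT2b

set_option autoImplicit false
set_option linter.unusedSectionVars false
set_option linter.unusedVariables false
open Cfsg Cfsg.Geo Matrix
open scoped Kronecker

namespace Cfsg.Agent.Helper96.Sy

variable {F : Type*} [Field F]

/-- The skew-adjoint generator attached to a symmetric two-by-two Gram matrix. -/
def jm (G : Matrix (Fin 2) (Fin 2) F) : Matrix (Fin 2) (Fin 2) F :=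
  !![G 0 1, G 1 1; -G 0 0, -G 0 1]

/-- The standard alternating two-by-two matrix. -/
def om2 (F : Type*) [Field F] : Matrix (Fin 2) (Fin 2) F := !![0, 1; -1, 0]

theorem jm_sq (G : Matrix (Fin 2) (Fin 2) F) :
    jm G * jm G = (-(G 0 0 * G 1 1 - G 0 1 ^ 2)) • (1 : Matrix (Fin 2) (Fin 2) F) := by
  ext i j
  fin_cases i <;> fin_cases j <;>
    simp [jm, Matrix.mul_apply, Fin.sum_univ_two, Matrix.one_apply] <;> ring

theorem g_jm (G : Matrix (Fin 2) (Fin 2) F) (hs : G 1 0 = G 0 1) :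
    G * jm G = (G 0 0 * G 1 1 - G 0 1 ^ 2) • om2 F := by
  ext i j
  fin_cases i <;> fin_cases j <;>
    simp [jm, om2, Matrix.mul_apply, Fin.sum_univ_two, hs] <;> ring

theorem jmT_g (G : Matrix (Fin 2) (Fin 2) F) (hs : G 1 0 = G 0 1) :
    (jm G)ᵀ * G = -(G * jm G) := by
  ext i j
  fin_cases i <;> fin_cases j <;>
    simp [jm, Matrix.mul_apply, Fin.sum_univ_two, hs] <;> ring

theorem om2_conj (M : Matrix (Fin 2) (Fin 2) F) : Mᵀ * om2 F * M = M.det • om2 F := by
  ext i j
  fin_cases i <;> fin_cases j <;>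
    simp [om2, Matrix.mul_apply, Fin.sum_univ_two, Matrix.det_fin_two] <;> ring

theorem det_two (G : Matrix (Fin 2) (Fin 2) F) (hs : G 1 0 = G 0 1) :
    G.det = G 0 0 * G 1 1 - G 0 1 ^ 2 := by
  rw [Matrix.det_fin_two, hs]
  ring

/-- A similitude of a symmetric two-by-two Gram matrix normalises the line of `jm G`. -/
theorem jm_comm (G B : Matrix (Fin 2) (Fin 2) F) (hs : G 1 0 = G 0 1) (hG : G.det ≠ 0)
    (hB : B.det ≠ 0) {μ : F} (hrel : Bᵀ * G * B = μ • G) :
    B * jm G = (μ / B.det) • (jm G * B) := by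
  have h1 : Bᵀ * G * (B.det • (B * jm G)) = Bᵀ * G * (μ • (jm G * B)) := by
    have e1 : Bᵀ * G * (B.det • (B * jm G)) = B.det • ((Bᵀ * G * B) * jm G) := by
      rw [Matrix.mul_smul, ← Matrix.mul_assoc]
    have e2 : Bᵀ * G * (μ • (jm G * B)) = μ • (Bᵀ * (G * jm G) * B) := by
      rw [Matrix.mul_smul]
      simp only [Matrix.mul_assoc]
    rw [e1, e2, hrel, g_jm G hs, Matrix.smul_mul, g_jm G hs, Matrix.mul_smul, Matrix.smul_mul,
      om2_conj, smul_smul, smul_smul, smul_smul, smul_smul]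
    congr 1
    ring
  have hdet : IsUnit (Bᵀ * G).det := by
    rw [Matrix.det_mul, Matrix.det_transpose]
    exact (mul_ne_zero hB hG).isUnit
  have h2 : B.det • (B * jm G) = μ • (jm G * B) := by
    have h3 := congrArg (fun X => (Bᵀ * G)⁻¹ * X) h1
    simp only [← Matrix.mul_assoc, Matrix.nonsing_inv_mul _ hdet, Matrix.one_mul] at h3
    exact h3
  have h4 : B * jm G = B.det⁻¹ • (B.det • (B * jm G)) := by
    rw [smul_smul, inv_mul_cancel₀ hB, one_smul]
  rw [h4, h2, smul_smul]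
  congr 1
  field_simp

end Cfsg.Agent.Helper96.Sy
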