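-- helper96 library: tensor decompositions with an anisotropic two-dimensional symmetric factor
-- normalise a quadratic extension field.
import Cfsg.Agent.Helper96.SpT2c

set_option autoImplicit false
set_option linter.unusedSectionVars false
set_option linter.unusedVariables false
open Cfsg Cfsg.Geo Matrix
open scoped Kronecker

namespace Cfsg.Agent.Helper96.Sy

variable {F : Type*} [Field F]

theorem formOfGram_dot {κ : Type} [Fintype κ] (M : Matrix κ κ F) (x y : κ → F) :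
    formOfGram id M x y = x ⬝ᵥ (M *ᵥ y) := by
  simp only [formOfGram, dotProduct, Matrix.mulVec, Finset.mul_sum, id, mul_assoc]

theorem formOfGram_skew {κ : Type} [Fintype κ] [DecidableEq κ] (M N : Matrix κ κ F)
    (h : Nᵀ * M = -(M * N)) (x y : κ → F) :
    formOfGram id M (N *ᵥ x) y = - formOfGram id M x (N *ᵥ y) := by
  rw [formOfGram_dot, formOfGram_dot, Matrix.mulVec_mulVec, ← Matrix.vecMul_transpose,
    ← Matrix.dotProduct_mulVec, Matrix.mulVec_mulVec, h, Matrix.neg_mulVec, dotProduct_neg]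

theorem bil_dot {f : (Fin 2 → F) → (Fin 2 → F) → F} (hf : IsBilinearForm f) (x y : Fin 2 → F) :
    f x y = x ⬝ᵥ (gramMatrix f *ᵥ y) :=
  (Helper97.Gen.isSesq_of_bilinear hf).apply_eq x y

theorem aniso_norm {f₂ : (Fin 2 → F) → (Fin 2 → F) → F} (hf₂ : IsSymmetricForm f₂)
    (hani : ∀ v : Fin 2 → F, v ≠ 0 → f₂ v v ≠ 0) (α β : F)
    (h : α ^ 2 + (gramMatrix f₂ 0 0 * gramMatrix f₂ 1 1 - gramMatrix f₂ 0 1 ^ 2) * β ^ 2 = 0) :
    α = 0 ∧ β = 0 := by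
  have hs : gramMatrix f₂ 1 0 = gramMatrix f₂ 0 1 := hf₂.symm _ _
  have ha : gramMatrix f₂ 0 0 ≠ 0 := by
    apply hani
    intro h0
    have := congrFun h0 0
    simp at this
  obtain ⟨x, hx⟩ : ∃ x : Fin 2 → F, x = ![(α - gramMatrix f₂ 0 1 * β) / gramMatrix f₂ 0 0, β] :=
    ⟨_, rfl⟩
  have hx0 : x 0 = (α - gramMatrix f₂ 0 1 * β) / gramMatrix f₂ 0 0 := by rw [hx]; rfl
  have hx1 : x 1 = β := by rw [hx]; rfl
  have e1 : f₂ x x = x 0 * (gramMatrix f₂ 0 0 * x 0 + gramMatrix f₂ 0 1 * x 1) +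
      x 1 * (gramMatrix f₂ 0 1 * x 0 + gramMatrix f₂ 1 1 * x 1) := by
    rw [bil_dot hf₂.bilinear]
    simp only [dotProduct, Matrix.mulVec, Fin.sum_univ_two, hs]
  have e2 : gramMatrix f₂ 0 0 * f₂ x x = 0 := by
    rw [e1, hx0, hx1]
    field_simp
    linear_combination h
  have e3 : f₂ x x = 0 := (mul_eq_zero.mp e2).resolve_left ha
  have e4 : x = 0 := by
    by_contra hne
    exact hani x hne e3
  have hβ : β = 0 := by
    rw [← hx1, e4]; rfl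
  have hα0 : (α - gramMatrix f₂ 0 1 * β) / gramMatrix f₂ 0 0 = 0 := by
    rw [← hx0, e4]; rfl
  rw [hβ, mul_zero, sub_zero] at hα0
  exact ⟨(div_eq_zero_iff.mp hα0).resolve_right ha, hβ⟩

theorem tensor_two_aniso {m n₁ : ℕ} (h2 : (2 : F) ≠ 0) (hn₁ : 0 < n₁)
    (e : (Fin m ⊕ Fin m) ≃ Fin n₁ × Fin 2) (P : GL (Fin m ⊕ Fin m) F)
    (f₁ : (Fin n₁ → F) → (Fin n₁ → F) → F) (f₂ : (Fin 2 → F) → (Fin 2 → F) → F)
    (hf₁ : IsSymplecticForm f₁) (hf₂ : IsSymmetricForm f₂)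
    (hT : IsTensorFormStructure id (sympForm m F) f₁ f₂ e P)
    (hani : ∀ v : Fin 2 → F, v ≠ 0 → f₂ v v ≠ 0) :
    ∃ K : Subalgebra F (Matrix (Fin m ⊕ Fin m) (Fin m ⊕ Fin m) F), IsFieldSubalgebra 2 K ∧
      IsAdjointClosedFor (sympForm m F) K ∧ ¬ IsSelfAdjointFor (sympForm m F) K ∧
      tensorProductSubgroup n₁ 2 e P ⊓ spGL m F ≤ subalgebraNormalizer K := by
  classical
  obtain ⟨c, hc, hT⟩ := hT
  have hkey := tensor_key e P hf₁.bilinear hf₂.bilinear hT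
  obtain ⟨G, hGdef⟩ : ∃ G : Matrix (Fin 2) (Fin 2) F, G = gramMatrix f₂ := ⟨_, rfl⟩
  have hs : G 1 0 = G 0 1 := by rw [hGdef]; exact hf₂.symm _ _
  obtain ⟨δ, hδ⟩ : ∃ δ : F, δ = G 0 0 * G 1 1 - G 0 1 ^ 2 := ⟨_, rfl⟩
  have hN : ∀ α β : F, α ^ 2 + δ * β ^ 2 = 0 → α = 0 ∧ β = 0 := by
    intro α β h
    rw [hδ, hGdef] at h
    exact aniso_norm hf₂ hani α β h
  have hδ0 : δ ≠ 0 := by
    intro h0
    have := (hN 0 1 (by rw [h0]; ring)).2
    exact one_ne_zero this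
  have hGdet : G.det ≠ 0 := by
    rw [det_two G hs, ← hδ]
    exact hδ0
  have hcard : Fintype.card (Fin m ⊕ Fin m) = n₁ * 2 := by
    have := Fintype.card_congr e
    rw [Fintype.card_prod, Fintype.card_fin, Fintype.card_fin] at this
    exact this
  have hne : Nonempty (Fin m ⊕ Fin m) := by
    apply Fintype.card_pos_iff.mp
    rw [hcard]
    omega
  obtain ⟨Jh, hJh⟩ : ∃ Jh : Matrix (Fin m ⊕ Fin m) (Fin m ⊕ Fin m) F,
      Jh = Helper98.conjReindex e P ((1 : Matrix (Fin n₁) (Fin n₁) F) ⊗ₖ jm G) := ⟨_, rfl⟩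
  have hJsq : Jh * Jh = (-δ) • (1 : Matrix (Fin m ⊕ Fin m) (Fin m ⊕ Fin m) F) := by
    rw [hJh, ← map_mul, ← Matrix.mul_kronecker_mul, Matrix.one_mul, jm_sq, ← hδ,
      Matrix.kronecker_smul, Matrix.one_kronecker_one, map_smul, map_one]
  obtain ⟨K, hKf, hK⟩ := quadField Jh δ hJsq hN
  have hJK : Jh ∈ K := (hK _).mpr ⟨0, 1, by simp⟩
  have hadj : ∀ u v : Fin m ⊕ Fin m → F,
      sympForm m F (Jh *ᵥ u) v = - sympForm m F u (Jh *ᵥ v) := by
    intro u v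
    obtain ⟨z, rfl⟩ : ∃ z, phiL e P z = u := ⟨_, phiL_psiL e P u⟩
    obtain ⟨z', rfl⟩ : ∃ z', phiL e P z' = v := ⟨_, phiL_psiL e P v⟩
    rw [hJh, conj_act, conj_act, phiL_apply, phiL_apply, phiL_apply, phiL_apply, hT, hT,
      formOfGram_skew]
    · ring
    · rw [← Matrix.kroneckerMap_transpose, ← Matrix.mul_kronecker_mul, ← Matrix.mul_kronecker_mul,
        Matrix.transpose_one, Matrix.one_mul, Matrix.mul_one, ← hGdef, jmT_g G hs]
      ext ⟨a, b⟩ ⟨a', b'⟩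
      simp [Matrix.kroneckerMap_apply]
  refine ⟨K, hKf, ?_, ?_, ?_⟩
  · intro k hk
    obtain ⟨α, β, rfl⟩ := (hK k).mp hk
    refine ⟨α • (1 : Matrix (Fin m ⊕ Fin m) (Fin m ⊕ Fin m) F) + (-β) • Jh,
      (hK _).mpr ⟨_, _, rfl⟩, fun u v => ?_⟩
    rw [Matrix.add_mulVec, Matrix.smul_mulVec, Matrix.smul_mulVec, Matrix.one_mulVec,
      Matrix.add_mulVec, Matrix.smul_mulVec, Matrix.smul_mulVec, Matrix.one_mulVec,
      Helper94.sf_add_left, Helper94.sf_smul_left, Helper94.sf_smul_left, Helper94.sf_add_right,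
      Helper94.sf_smul_right, Helper94.sf_smul_right, hadj]
    ring
  · intro hsa
    have h0 : ∀ u v : Fin m ⊕ Fin m → F, sympForm m F (Jh *ᵥ u) v = 0 := by
      intro u v
      have h1 := hsa Jh hJK u v
      have h3 := hadj u v
      have h4 : (2 : F) * sympForm m F (Jh *ᵥ u) v = 0 := by linear_combination h1 + h3
      exact (mul_eq_zero.mp h4).resolve_left h2
    obtain ⟨p₀⟩ := id hne
    have hu0 : (Pi.single p₀ (1 : F) : Fin m ⊕ Fin m → F) ≠ 0 := by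
      intro h
      have := congrFun h p₀
      simp at this
    obtain ⟨y, hy⟩ := Helper94.sf_exists_ne _ hu0
    have h5 := h0 (Jh *ᵥ Pi.single p₀ (1 : F)) y
    rw [Matrix.mulVec_mulVec, hJsq, Matrix.smul_mulVec, Matrix.one_mulVec,
      Helper94.sf_smul_left] at h5
    rcases mul_eq_zero.mp h5 with h6 | h6
    · exact hδ0 (neg_eq_zero.mp h6)
    · exact hy h6
  · intro g hg
    obtain ⟨hgT, hgS⟩ := Subgroup.mem_inf.mp hg
    obtain ⟨A, B, hab⟩ := Helper98.mem_tensorProductSubgroup hgT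
    obtain ⟨v₀, hv₀⟩ : ∃ v₀ : Fin 2 → F, v₀ ≠ 0 := by
      refine ⟨Pi.single 0 1, ?_⟩
      intro h
      have := congrFun h 0
      simp at this
    obtain ⟨μ, hμ, hsim⟩ := tensor_simil e P hc hkey (exists_ne_form hn₁ hf₁.nondegenerate)
      ⟨v₀, v₀, hani v₀ hv₀⟩ hgS hab
    have hrel : (B : Matrix (Fin 2) (Fin 2) F)ᵀ * G * (B : Matrix (Fin 2) (Fin 2) F) = μ • G := by
      have h1 := (Helper97.Gen.isSesq_of_bilinear hf₂.bilinear).gram_of_similar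
        (B : Matrix (Fin 2) (Fin 2) F) μ hsim
      rw [hGdef]
      exact h1
    have hBdet : (B : Matrix (Fin 2) (Fin 2) F).det ≠ 0 :=
      ((Matrix.isUnit_iff_isUnit_det _).mp B.isUnit).ne_zero
    have hBJ := jm_comm G (B : Matrix (Fin 2) (Fin 2) F) hs hGdet hBdet hrel
    obtain ⟨lam, hlam⟩ : ∃ lam : F, lam = μ / (B : Matrix (Fin 2) (Fin 2) F).det := ⟨_, rfl⟩
    rw [← hlam] at hBJ
    have hlam0 : lam ≠ 0 := by
      rw [hlam]
      exact div_ne_zero hμ hBdet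
    have hgJ : (g : Matrix (Fin m ⊕ Fin m) (Fin m ⊕ Fin m) F) * Jh =
        lam • (Jh * (g : Matrix (Fin m ⊕ Fin m) (Fin m ⊕ Fin m) F)) := by
      rw [hab, hJh, ← map_mul, ← map_mul, ← Matrix.mul_kronecker_mul, ← Matrix.mul_kronecker_mul,
        Matrix.mul_one, Matrix.one_mul, hBJ, Matrix.kronecker_smul, map_smul]
    have hgi : (g : Matrix (Fin m ⊕ Fin m) (Fin m ⊕ Fin m) F) *
        ((g⁻¹ : GL (Fin m ⊕ Fin m) F) : Matrix (Fin m ⊕ Fin m) (Fin m ⊕ Fin m) F) = 1 := by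
      rw [← Units.val_mul, mul_inv_cancel, Units.val_one]
    have hig : ((g⁻¹ : GL (Fin m ⊕ Fin m) F) : Matrix (Fin m ⊕ Fin m) (Fin m ⊕ Fin m) F) *
        (g : Matrix (Fin m ⊕ Fin m) (Fin m ⊕ Fin m) F) = 1 := by
      rw [← Units.val_mul, inv_mul_cancel, Units.val_one]
    have hconj : (g : Matrix (Fin m ⊕ Fin m) (Fin m ⊕ Fin m) F) * Jh *
        ((g⁻¹ : GL (Fin m ⊕ Fin m) F) : Matrix (Fin m ⊕ Fin m) (Fin m ⊕ Fin m) F) = lam • Jh := by
      rw [hgJ, Matrix.smul_mul, Matrix.mul_assoc, hgi, Matrix.mul_one]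
    have hconj' : ((g⁻¹ : GL (Fin m ⊕ Fin m) F) : Matrix (Fin m ⊕ Fin m) (Fin m ⊕ Fin m) F) * Jh *
        (g : Matrix (Fin m ⊕ Fin m) (Fin m ⊕ Fin m) F) = lam⁻¹ • Jh := by
      have h1 : Jh * (g : Matrix (Fin m ⊕ Fin m) (Fin m ⊕ Fin m) F) =
          lam⁻¹ • ((g : Matrix (Fin m ⊕ Fin m) (Fin m ⊕ Fin m) F) * Jh) := by
        rw [hgJ, smul_smul, inv_mul_cancel₀ hlam0, one_smul]
      rw [Matrix.mul_assoc, h1, Matrix.mul_smul, ← Matrix.mul_assoc, hig, Matrix.one_mul]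
    rw [Helper97.Gen.mem_subalgebraNormalizer_iff]
    intro k
    constructor
    · intro hk
      obtain ⟨α, β, rfl⟩ := (hK k).mp hk
      refine (hK _).mpr ⟨α, β * lam, ?_⟩
      rw [Matrix.mul_add, Matrix.add_mul, Matrix.mul_smul, Matrix.smul_mul, Matrix.mul_one, hgi,
        Matrix.mul_smul, Matrix.smul_mul, hconj, smul_smul]
    · intro hk
      obtain ⟨α, β, hk⟩ := (hK _).mp hk
      refine (hK _).mpr ⟨α, β * lam⁻¹, ?_⟩
      have h1 : k = ((g⁻¹ : GL (Fin m ⊕ Fin m) F) : Matrix (Fin m ⊕ Fin m) (Fin m ⊕ Fin m) F) *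
          ((g : Matrix (Fin m ⊕ Fin m) (Fin m ⊕ Fin m) F) * k *
            ((g⁻¹ : GL (Fin m ⊕ Fin m) F) : Matrix (Fin m ⊕ Fin m) (Fin m ⊕ Fin m) F)) *
          (g : Matrix (Fin m ⊕ Fin m) (Fin m ⊕ Fin m) F) := by
        rw [← Matrix.mul_assoc, ← Matrix.mul_assoc, hig, Matrix.one_mul, Matrix.mul_assoc, hig,
          Matrix.mul_one]
      rw [h1, hk, Matrix.mul_add, Matrix.add_mul, Matrix.mul_smul, Matrix.smul_mul, Matrix.mul_one,
        hig, Matrix.mul_smul, Matrix.smul_mul, hconj', smul_smul]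

end Cfsg.Agent.Helper96.Sy
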