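-- helper96 library: the centre of the centraliser of a normal subgroup of an irreducible symplectic
-- group, and the structures it yields (decompositions, extension fields, quadratic forms).
import Cfsg.Agent.Helper96.SpAux
import Cfsg.Agent.Helper96.Clifford2

set_option autoImplicit false
set_option linter.unusedSectionVars false
set_option linter.unusedVariables false
open Cfsg Cfsg.Geo Matrix

namespace Cfsg.Agent.Helper96.Sy

variable {F : Type*} [Field F] {n : ℕ} {f : (Fin n → F) → (Fin n → F) → F}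

/-- Every member of `T` is the matrix of an isometry whose inverse is again in `T`. -/
def IsoSet (f : (Fin n → F) → (Fin n → F) → F) (T : Set (Matrix (Fin n) (Fin n) F)) : Prop :=
  ∀ s ∈ T, ∃ g : GL (Fin n) F, g ∈ isoSub f ∧ (g : Matrix (Fin n) (Fin n) F) = s ∧
    ((g⁻¹ : GL (Fin n) F) : Matrix (Fin n) (Fin n) F) ∈ T

theorem cent_adj (hf : IsSymplecticForm f) {T : Set (Matrix (Fin n) (Fin n) F)} (hT : IsoSet f T)
    {c : Matrix (Fin n) (Fin n) F} (hc : Cent T c) : Cent T (adj f c) := by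
  intro s hs
  obtain ⟨g, hg, rfl, hginv⟩ := hT s hs
  have h1 := congrArg (adj f) (hc _ hginv)
  have h2 := adj_iso hf ((isoSub f).inv_mem hg)
  rw [inv_inv] at h2
  rw [adj_mul hf, adj_mul hf, h2] at h1
  exact h1.symm

theorem zcent_adj (hf : IsSymplecticForm f) {T : Set (Matrix (Fin n) (Fin n) F)} (hT : IsoSet f T)
    {a : Matrix (Fin n) (Fin n) F} (ha : ZCent T a) : ZCent T (adj f a) := by
  refine ⟨cent_adj hf hT ha.1, fun c hc => ?_⟩
  have h1 := congrArg (adj f) (ha.2 _ (cent_adj hf hT hc))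
  rw [adj_mul hf, adj_mul hf, adj_adj hf] at h1
  exact h1.symm

/-- The self-adjoint part of the centre of the centraliser. -/
def zcp (f : (Fin n → F) → (Fin n → F) → F) (hf : IsSymplecticForm f)
    (T : Set (Matrix (Fin n) (Fin n) F)) : Subalgebra F (Matrix (Fin n) (Fin n) F) where
  carrier := {M | ZCent T M ∧ adj f M = M}
  mul_mem' := by
    rintro a b ⟨ha, ha'⟩ ⟨hb, hb'⟩
    exact ⟨(zc T).mul_mem ha hb, by rw [adj_mul hf, ha', hb', hb.2 a ha.1]⟩
  add_mem' := by
    rintro a b ⟨ha, ha'⟩ ⟨hb, hb'⟩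
    exact ⟨(zc T).add_mem ha hb, by rw [adj_add, ha', hb']⟩
  algebraMap_mem' := by
    intro c
    exact ⟨(zc T).algebraMap_mem c, by rw [Algebra.algebraMap_eq_smul_one, adj_smul_one hf]⟩

theorem mem_zcp (hf : IsSymplecticForm f) (T : Set (Matrix (Fin n) (Fin n) F))
    (M : Matrix (Fin n) (Fin n) F) : M ∈ zcp f hf T ↔ ZCent T M ∧ adj f M = M := Iff.rfl

/-- A field subalgebra with a non-scalar element contains a subfield of prime degree, normalised by
everything normalising the field. -/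
theorem exists_prime_subfield' [Fintype F] [NeZero n] (K : Subalgebra F (Matrix (Fin n) (Fin n) F))
    (hK : Helper98.IsFS K) (hns : ∃ k ∈ K, ∀ c : F, k ≠ c • (1 : Matrix (Fin n) (Fin n) F)) :
    ∃ (r : ℕ) (K₀ : Subalgebra F (Matrix (Fin n) (Fin n) F)), r.Prime ∧ IsFieldSubalgebra r K₀ ∧
      K₀ ≤ K ∧ subalgebraNormalizer K ≤ subalgebraNormalizer K₀ := by
  classical
  have : Nonempty (Fin n) := ⟨0⟩
  obtain ⟨e, he⟩ : ∃ e, Module.finrank F K = e := ⟨_, rfl⟩
  have he2 : 2 ≤ e := by
    by_contra hlt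
    have hpos : 0 < e := by
      rw [← he]
      let _i := hK.field
      exact Module.finrank_pos
    have h1 : e = 1 := by omega
    obtain ⟨k, hk, hkns⟩ := hns
    obtain ⟨c, hc⟩ := Helper97.eq_smul_one_of_finrank_one K (he.trans h1) k hk
    exact hkns c hc
  by_cases hprime : e.Prime
  · exact ⟨e, K, hprime, ⟨hK.comm, hK.inv, he⟩, le_refl _, le_refl _⟩
  · have hr : (e.minFac).Prime := Nat.minFac_prime (by omega)
    have hrd : e.minFac ∣ e := Nat.minFac_dvd e
    have hrlt : e.minFac < e := by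
      have h1 := Nat.minFac_le (show 0 < e by omega)
      rcases h1.lt_or_eq with h | h
      · exact h
      · rw [h] at hr
        exact absurd hr hprime
    obtain ⟨p, hp⟩ := CharP.exists F
    have := hp
    have : Fact p.Prime := ⟨CharP.char_is_prime F p⟩
    obtain ⟨f, -, hf⟩ := FiniteField.card F p
    have hN : Fintype.card F ^ e.minFac = p ^ ((f : ℕ) * e.minFac) := by rw [hf, pow_mul]
    have hadd : ∀ x ∈ K, ∀ y ∈ K, (x + y) ^ (Fintype.card F ^ e.minFac) =
        x ^ (Fintype.card F ^ e.minFac) + y ^ (Fintype.card F ^ e.minFac) := by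
      intro x hx y hy
      rw [hN]
      exact add_pow_char_pow_of_commute p _ (hK.comm x hx y hy)
    have hm : ∀ c : F, c ^ (Fintype.card F ^ e.minFac) = c := fun c => FiniteField.pow_card_pow e.minFac c
    have hK₀ : Helper98.IsFS (Helper98.frobFix K hK (Fintype.card F ^ e.minFac) hadd hm) :=
      Helper98.isFS_frobFix
    obtain ⟨-, -, hfr⟩ := Helper98.frobFix_facts hK he hrd hr.two_le hrlt
      (Helper98.frobFix K hK (Fintype.card F ^ e.minFac) hadd hm) (fun x => Helper98.mem_frobFix)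
    have hge := finrank_frobFix_ge hK hK₀ he hrd hr.pos (fun x => Helper98.mem_frobFix)
    exact ⟨e.minFac, _, hr, ⟨hK₀.comm, hK₀.inv, le_antisymm hfr hge⟩, Helper98.frobFix_le,
      Helper98.normalizer_le_frobFix⟩

/-- A commutative conjugation-stable family of self-adjoint matrices containing a non-zero singular
matrix yields a non-degenerate decomposition. -/
theorem nondeg_decomp [Finite F] (hf : IsSymplecticForm f) (H : Subgroup (GL (Fin n) F))
    (hH : H ≤ isoSub f) (hirr : ActsIrreducibly (matrixSet H))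
    (S : Set (Matrix (Fin n) (Fin n) F)) (hcomm : ∀ a ∈ S, ∀ b ∈ S, a * b = b * a)
    (hstab : ∀ g ∈ H, ∀ a ∈ S, (g : Matrix (Fin n) (Fin n) F) * a *
      ((g⁻¹ : GL (Fin n) F) : Matrix (Fin n) (Fin n) F) ∈ S)
    (hsa : ∀ a ∈ S, adj f a = a)
    (a : Matrix (Fin n) (Fin n) F) (haS : a ∈ S) (ha0 : a ≠ 0) (v : Fin n → F) (hv0 : v ≠ 0)
    (hav : a *ᵥ v = 0) :
    ∃ (t k : ℕ) (D : Fin t → Submodule F (Fin n → F)),
      IsNondegenerateMDecomposition f k D ∧ H ≤ decompositionStabilizer D := by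
  classical
  haveI : Fact (Fintype.card (Fin n) = n) := ⟨Fintype.card_fin n⟩
  obtain ⟨t, m, D, hD, hHD, hpres, hsep⟩ :=
    Helper97.Gen.exists_decomp_of_comm_stable_sep H hirr S hcomm hstab a haS ha0 v hv0 hav
  have orth : ∀ i j, i ≠ j → AreOrthogonalFor f (D i) (D j) := by
    intro i j hij u hu w hw
    obtain ⟨s, hs, hkill, hinj⟩ := hsep i j hij
    obtain ⟨w', hw', rfl⟩ := surj_of_inj_on s (D j) (hpres s hs j) hinj w hw
    rw [adj_spec' hf, hsa s hs, hkill u hu, zero_left hf]
  refine ⟨t, m, D, ⟨hD, ?_, orth⟩, hHD⟩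
  intro i w hw hw0
  have key : ∃ x ∈ D i, f x w ≠ 0 := by
    by_contra hcon
    push Not at hcon
    apply hw0
    apply sep_right hf
    intro x
    have hle : iSup D ≤ perp hf (Submodule.span F {w}) := by
      apply iSup_le
      intro j y hy
      rw [mem_perp']
      intro z hz
      obtain ⟨c, rfl⟩ := Submodule.mem_span_singleton.mp hz
      rw [hf.bilinear.smul_right]
      by_cases hji : j = i
      · subst hji
        rw [hcon y hy, mul_zero]
      · rw [orth j i hji y hy w hw, mul_zero]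
    have hx : x ∈ perp hf (Submodule.span F {w}) := hle (by rw [hD.iSup_eq_top]; exact Submodule.mem_top)
    exact (mem_perp' hf _ x).mp hx w (Submodule.mem_span_singleton_self w)
  obtain ⟨x, hx, hxw⟩ := key
  exact ⟨⟨x, hx, hxw⟩, ⟨x, hx, by rw [hf.skew]; exact neg_ne_zero.mpr hxw⟩⟩

/-- In a field of self-adjoint matrices over a finite field, `f (k v) v = 0`. -/
theorem selfadj_alt [Fintype F] (hf : IsSymplecticForm f) (K₀ : Subalgebra F (Matrix (Fin n) (Fin n) F))
    (hK₀ : Helper98.IsFS K₀) (hsa : ∀ k ∈ K₀, adj f k = k) :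
    ∀ k ∈ K₀, ∀ v : Fin n → F, f (k *ᵥ v) v = 0 := by
  classical
  intro k hk v
  by_cases h2 : (2 : F) = 0
  · have h2M : ∀ M : Matrix (Fin n) (Fin n) F, M + M = 0 := fun M => by
      rw [← two_smul F M, h2, zero_smul]
    have hinj : Function.Injective (fun x : K₀ => x * x) := by
      intro x y hxy
      have hxy' : (x : Matrix (Fin n) (Fin n) F) * x = (y : Matrix (Fin n) (Fin n) F) * y :=
        congrArg Subtype.val hxy
      have hc := hK₀.comm x.1 x.2 y.1 y.2
      have h3 : ((x : Matrix (Fin n) (Fin n) F) - y) * ((x : Matrix (Fin n) (Fin n) F) - y) = 0 := by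
        have h4 : ((x : Matrix (Fin n) (Fin n) F) - y) * ((x : Matrix (Fin n) (Fin n) F) - y)
            = ((x : Matrix (Fin n) (Fin n) F) * x + (y : Matrix (Fin n) (Fin n) F) * y)
              - ((x : Matrix (Fin n) (Fin n) F) * y + (y : Matrix (Fin n) (Fin n) F) * x) := by
          noncomm_ring
        rw [h4, ← hxy', ← hc, h2M, h2M, sub_zero]
      by_contra hne
      have hne' : (x : Matrix (Fin n) (Fin n) F) - y ≠ 0 := fun h => hne (Subtype.ext (sub_eq_zero.mp h))
      obtain ⟨z, -, hz⟩ := hK₀.inv _ (K₀.sub_mem x.2 y.2) hne'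
      apply hne'
      calc (x : Matrix (Fin n) (Fin n) F) - y
          = ((x : Matrix (Fin n) (Fin n) F) - y) * (((x : Matrix (Fin n) (Fin n) F) - y) * z) := by
            rw [hz, mul_one]
        _ = 0 := by rw [← mul_assoc, h3, zero_mul]
    obtain ⟨l, hl⟩ := (Finite.injective_iff_surjective.mp hinj) ⟨k, hk⟩
    have hl' : (l : Matrix (Fin n) (Fin n) F) * l = k := congrArg Subtype.val hl
    rw [← hl', ← Matrix.mulVec_mulVec, adj_spec hf, hsa l.1 l.2, hf.alternating]
  · have h1 : f (k *ᵥ v) v = f v (k *ᵥ v) := by rw [adj_spec hf, hsa k hk]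
    have h3 := hf.skew v (k *ᵥ v)
    have h4 : (2 : F) * f (k *ᵥ v) v = 0 := by linear_combination h1 + h3
    exact (mul_eq_zero.mp h4).resolve_left h2

/-- Characteristic two: an element `e` with `e + e* = 1`, conjugation-stable modulo scalars, defines
an invariant quadratic form polarising to `f`. -/
theorem quad_of_idem (hf : IsSymplecticForm f) (H : Subgroup (GL (Fin n) F)) (hH : H ≤ isoSub f)
    (h2 : (2 : F) = 0) (e : Matrix (Fin n) (Fin n) F) (he : e + adj f e = 1)
    (hconj : ∀ h ∈ H, ∃ δ : F, ((h⁻¹ : GL (Fin n) F) : Matrix (Fin n) (Fin n) F) * e *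
      (h : Matrix (Fin n) (Fin n) F) = e + δ • (1 : Matrix (Fin n) (Fin n) F)) :
    ∃ Q : (Fin n → F) → F, IsNondegenerateQuadraticForm Q ∧
      (∀ u v, QuadraticMap.polar Q u v = f u v) ∧ H ≤ quadSimilarityGroup Q := by
  obtain ⟨Q, hQ⟩ : ∃ Q : (Fin n → F) → F, Q = fun x => f (e *ᵥ x) x := ⟨_, rfl⟩
  have hQx : ∀ x, Q x = f (e *ᵥ x) x := fun x => by rw [hQ]
  have hadj : adj f e = 1 - e := eq_sub_of_add_eq' he
  have hpol : ∀ u v, QuadraticMap.polar Q u v = f u v := by
    intro u v
    have h1 : f (e *ᵥ v) u = - f u v + f (e *ᵥ u) v := by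
      rw [adj_spec hf, hadj, Matrix.sub_mulVec, Matrix.one_mulVec, sub_right hf, hf.skew v u,
        hf.skew v (e *ᵥ u)]
      ring
    rw [QuadraticMap.polar, hQx, hQx, hQx, Matrix.mulVec_add, hf.bilinear.add_left,
      hf.bilinear.add_right, hf.bilinear.add_right, h1]
    linear_combination (f (e *ᵥ u) v - f u v) * h2
  have hpolf : QuadraticMap.polar Q = f := by
    funext u v
    exact hpol u v
  refine ⟨Q, ⟨?_, by rw [hpolf]; exact hf.bilinear, by rw [hpolf]; exact hf.nondegenerate⟩, hpol, ?_⟩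
  · intro c v
    rw [hQx, hQx, Matrix.mulVec_smul, hf.bilinear.smul_left, hf.bilinear.smul_right]
    ring
  · intro h hh
    refine ⟨1, fun v => ?_⟩
    rw [Units.val_one, one_mul]
    obtain ⟨δ, hδ⟩ := hconj h hh
    have h3 : e *ᵥ ((h : Matrix (Fin n) (Fin n) F) *ᵥ v)
        = (h : Matrix (Fin n) (Fin n) F) *ᵥ (e *ᵥ v + δ • v) := by
      have h4 : (h : Matrix (Fin n) (Fin n) F) * (((h⁻¹ : GL (Fin n) F) : Matrix (Fin n) (Fin n) F) * e *
          (h : Matrix (Fin n) (Fin n) F)) = e * (h : Matrix (Fin n) (Fin n) F) := by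
        rw [← mul_assoc, ← mul_assoc, Units.mul_inv, one_mul]
      rw [hδ] at h4
      rw [Matrix.mulVec_mulVec, ← h4, ← Matrix.mulVec_mulVec, Matrix.add_mulVec, Matrix.smul_mulVec,
        Matrix.one_mulVec]
    rw [hQx, hQx, h3, iso_apply (hH hh), hf.bilinear.add_left, hf.bilinear.smul_left, hf.alternating,
      mul_zero, add_zero]

/-- An idempotent `e` with `e* = 1 - e`, conjugated to itself or its complement, gives a pair of
complementary totally singular subspaces. -/
theorem ts_pair_of_idem (hn : 0 < n) (hf : IsSymplecticForm f) (H : Subgroup (GL (Fin n) F))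
    (hH : H ≤ isoSub f) (e : Matrix (Fin n) (Fin n) F) (he1 : e + adj f e = 1)
    (he2 : adj f e * e = 0)
    (hconj : ∀ h ∈ H,
      (h : Matrix (Fin n) (Fin n) F) * e * ((h⁻¹ : GL (Fin n) F) : Matrix (Fin n) (Fin n) F) = e ∨
      (h : Matrix (Fin n) (Fin n) F) * e * ((h⁻¹ : GL (Fin n) F) : Matrix (Fin n) (Fin n) F) = 1 - e) :
    ∃ (k : ℕ) (D : Fin 2 → Submodule F (Fin n → F)), IsMDecomposition k D ∧
      (∀ i, IsTotallySingularFor f (D i)) ∧ H ≤ decompositionStabilizer D := by
  have hadj : adj f e = 1 - e := eq_sub_of_add_eq' he1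
  have hidem : e * e = e := by
    rw [hadj, Matrix.sub_mul, Matrix.one_mul] at he2
    exact (sub_eq_zero.mp he2).symm
  obtain ⟨A, hA⟩ : ∃ A : Submodule F (Fin n → F), A = LinearMap.range (Matrix.toLin' e) := ⟨_, rfl⟩
  obtain ⟨B, hB⟩ : ∃ B : Submodule F (Fin n → F), B = LinearMap.ker (Matrix.toLin' e) := ⟨_, rfl⟩
  have memA : ∀ x, x ∈ A ↔ ∃ y, e *ᵥ y = x := by
    intro x
    rw [hA, LinearMap.mem_range]
    simp only [Matrix.toLin'_apply]
  have memB : ∀ x, x ∈ B ↔ e *ᵥ x = 0 := by
    intro x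
    rw [hB, LinearMap.mem_ker, Matrix.toLin'_apply]
  have hAts : IsTotallySingularFor f A := by
    intro u hu v hv
    obtain ⟨y, rfl⟩ := (memA u).mp hu
    obtain ⟨z, rfl⟩ := (memA v).mp hv
    rw [adj_spec hf, Matrix.mulVec_mulVec, he2, Matrix.zero_mulVec, zero_right hf]
  have hBts : IsTotallySingularFor f B := by
    intro u hu v hv
    have h1 : adj f e *ᵥ u = u := by
      rw [hadj, Matrix.sub_mulVec, Matrix.one_mulVec, (memB u).mp hu, sub_zero]
    rw [← h1, ← adj_spec' hf, (memB v).mp hv, zero_right hf]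
  have hinf : A ⊓ B = ⊥ := by
    rw [Submodule.eq_bot_iff]
    rintro x ⟨hxA, hxB⟩
    obtain ⟨y, rfl⟩ := (memA x).mp hxA
    have h1 := (memB _).mp hxB
    rwa [Matrix.mulVec_mulVec, hidem] at h1
  have hsup : A ⊔ B = ⊤ := by
    rw [eq_top_iff]
    intro x _
    have h1 : x = e *ᵥ x + (x - e *ᵥ x) := by abel
    rw [h1]
    refine Submodule.add_mem_sup ((memA _).mpr ⟨x, rfl⟩) ((memB _).mpr ?_)
    rw [Matrix.mulVec_sub, Matrix.mulVec_mulVec, hidem, sub_self]
  have hrn := LinearMap.finrank_range_add_finrank_ker (Matrix.toLin' e)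
  rw [← hA, ← hB, Module.finrank_fintype_fun_eq_card, Fintype.card_fin] at hrn
  have hA2 := finrank_ts hf A hAts
  have hB2 := finrank_ts hf B hBts
  rw [Fintype.card_fin] at hA2 hB2
  obtain ⟨k, hk⟩ : ∃ k, Module.finrank F A = k := ⟨_, rfl⟩
  have hkB : Module.finrank F B = k := by omega
  have hkpos : 0 < k := by omega
  refine ⟨k, pairD A B, pair_decomp A B hinf hsup k hk hkB hkpos, ?_, ?_⟩
  · intro i
    rcases fin2_cases i with rfl | rfl
    · exact hAts
    · exact hBts
  · intro h hh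
    rcases hconj h hh with hc | hc
    · have hcm : (h : Matrix (Fin n) (Fin n) F) * e = e * (h : Matrix (Fin n) (Fin n) F) := by
        have h1 := congrArg (fun M => M * (h : Matrix (Fin n) (Fin n) F)) hc
        simp only [mul_assoc, Units.inv_mul, mul_one] at h1
        exact h1
      refine pair_stab_fix A B k hk hkB h ?_ ?_
      · intro x hx
        obtain ⟨y, rfl⟩ := (memA x).mp hx
        rw [Matrix.mulVec_mulVec, hcm, ← Matrix.mulVec_mulVec]
        exact (memA _).mpr ⟨_, rfl⟩
      · intro x hx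
        rw [memB, Matrix.mulVec_mulVec, ← hcm, ← Matrix.mulVec_mulVec, (memB x).mp hx,
          Matrix.mulVec_zero]
    · have hcm : (h : Matrix (Fin n) (Fin n) F) * e = (1 - e) * (h : Matrix (Fin n) (Fin n) F) := by
        have h1 := congrArg (fun M => M * (h : Matrix (Fin n) (Fin n) F)) hc
        simp only [mul_assoc, Units.inv_mul, mul_one] at h1
        exact h1
      refine pair_stab_swap A B k hk hkB h ?_ ?_
      · intro x hx
        obtain ⟨y, rfl⟩ := (memA x).mp hx
        have h5 : (h : Matrix (Fin n) (Fin n) F) *ᵥ (e *ᵥ y)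
            = (1 - e) *ᵥ ((h : Matrix (Fin n) (Fin n) F) *ᵥ y) := by
          rw [Matrix.mulVec_mulVec, hcm, ← Matrix.mulVec_mulVec]
        rw [memB, h5, Matrix.mulVec_mulVec, Matrix.mul_sub, mul_one, hidem, sub_self,
          Matrix.zero_mulVec]
      · intro x hx
        rw [memA]
        refine ⟨(h : Matrix (Fin n) (Fin n) F) *ᵥ x, ?_⟩
        have h1 : e * (h : Matrix (Fin n) (Fin n) F)
            = (h : Matrix (Fin n) (Fin n) F) - (h : Matrix (Fin n) (Fin n) F) * e := by
          rw [hcm, Matrix.sub_mul, Matrix.one_mul, sub_sub_cancel]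
        rw [Matrix.mulVec_mulVec, h1, Matrix.sub_mulVec, ← Matrix.mulVec_mulVec, (memB x).mp hx,
          Matrix.mulVec_zero, sub_zero]

/-- Idempotents `e, e'` in a commutative ring with `e e' + (1 - e)(1 - e')` zero or invertible. -/
theorem idem_dichotomy {R : Type*} [CommRing R] (e e' p : R) (he : e * e = e) (he' : e' * e' = e')
    (hp : e * e' + (1 - e) * (1 - e') = p) (hp0 : p = 0 ∨ ∃ q, q * p = 1) :
    e' = e ∨ e' = 1 - e := by
  rcases hp0 with h0 | ⟨q, hq⟩
  · right
    rw [h0] at hp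
    have h1 : e * e' = 0 := by linear_combination e * hp - (2 * e' - 1) * he
    linear_combination (-1 : R) * hp + 2 * h1
  · left
    have k1 : p * (e * (1 - e')) = 0 := by
      rw [← hp]
      linear_combination (-(1 - e') ^ 2) * he + (-(e ^ 2)) * he'
    have k2 : p * ((1 - e) * e') = 0 := by
      rw [← hp]
      linear_combination (-(e' ^ 2)) * he + (-(1 - e) ^ 2) * he'
    have h1 : e * (1 - e') = 0 := by
      calc e * (1 - e') = q * p * (e * (1 - e')) := by rw [hq, one_mul]
        _ = 0 := by rw [mul_assoc, k1, mul_zero]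
    have h2 : (1 - e) * e' = 0 := by
      calc (1 - e) * e' = q * p * ((1 - e) * e') := by rw [hq, one_mul]
        _ = 0 := by rw [mul_assoc, k2, mul_zero]
    linear_combination h2 - h1

end Cfsg.Agent.Helper96.Sy
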