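-- helper96 library: the analysis of the centre of the centraliser of a normal subgroup of an
-- irreducible symplectic group.
import Cfsg.Agent.Helper96.SpZ

set_option autoImplicit false
set_option linter.unusedSectionVars false
set_option linter.unusedVariables false
open Cfsg Cfsg.Geo Matrix

namespace Cfsg.Agent.Helper96.Sy

variable {F : Type*} [Field F] {n : ℕ} {f : (Fin n → F) → (Fin n → F) → F}

/-- A commutative adjoint-closed algebra of invertible matrices whose self-adjoint elements are scalars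
and which has a non-scalar element is a field of degree two (odd characteristic). -/
theorem field_deg_two (hf : IsSymplecticForm f) (h2 : (2 : F) ≠ 0) (hn : 0 < n)
    (Z : Subalgebra F (Matrix (Fin n) (Fin n) F))
    (hcomm : ∀ x ∈ Z, ∀ y ∈ Z, x * y = y * x) (hadj : ∀ x ∈ Z, adj f x ∈ Z)
    (hinj : ∀ x ∈ Z, x ≠ 0 → ∀ v : Fin n → F, x *ᵥ v = 0 → v = 0)
    (hsc : ∀ x ∈ Z, adj f x = x → ∃ c : F, x = c • (1 : Matrix (Fin n) (Fin n) F))
    (k₀ : Matrix (Fin n) (Fin n) F) (hk₀ : k₀ ∈ Z)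
    (hns : ∀ c : F, k₀ ≠ c • (1 : Matrix (Fin n) (Fin n) F)) :
    Module.finrank F Z = 2 ∧ IsAdjointClosedFor f Z ∧ ¬ IsSelfAdjointFor f Z := by
  classical
  obtain ⟨s₀, hs₀⟩ : ∃ s₀, s₀ = k₀ - adj f k₀ := ⟨_, rfl⟩
  have hs₀Z : s₀ ∈ Z := hs₀ ▸ Z.sub_mem hk₀ (hadj k₀ hk₀)
  have hs₀adj : adj f s₀ = -s₀ := by rw [hs₀, adj_sub, adj_adj hf, neg_sub]
  have hs₀0 : s₀ ≠ 0 := by
    intro h0
    rw [hs₀, sub_eq_zero] at h0
    obtain ⟨c, hc⟩ := hsc k₀ hk₀ h0.symm
    exact hns c hc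
  obtain ⟨c₀, hsq⟩ := hsc (s₀ * s₀) (Z.mul_mem hs₀Z hs₀Z) (by rw [adj_mul hf, hs₀adj, neg_mul_neg])
  have hone : (1 : Matrix (Fin n) (Fin n) F) ≠ 0 := by
    intro h
    have := congrFun (congrFun h ⟨0, hn⟩) ⟨0, hn⟩
    simp at this
  have hc₀ : c₀ ≠ 0 := by
    rintro rfl
    rw [zero_smul] at hsq
    obtain ⟨v, hv⟩ : ∃ v : Fin n → F, v ≠ 0 := ⟨Pi.single ⟨0, hn⟩ 1, by
      intro h
      have := congrFun h ⟨0, hn⟩
      simp at this⟩
    have h1 : s₀ *ᵥ (s₀ *ᵥ v) = 0 := by rw [Matrix.mulVec_mulVec, hsq, Matrix.zero_mulVec]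
    exact hv (hinj s₀ hs₀Z hs₀0 v (hinj s₀ hs₀Z hs₀0 _ h1))
  have hrep : ∀ z ∈ Z, ∃ a b : F, z = a • (1 : Matrix (Fin n) (Fin n) F) + b • s₀ := by
    intro z hz
    obtain ⟨a, ha⟩ := hsc (z + adj f z) (Z.add_mem hz (hadj z hz))
      (by rw [adj_add, adj_adj hf, add_comm])
    have hdz : z - adj f z ∈ Z := Z.sub_mem hz (hadj z hz)
    obtain ⟨b, hb⟩ := hsc ((z - adj f z) * s₀) (Z.mul_mem hdz hs₀Z) (by
      rw [adj_mul hf, adj_sub, adj_adj hf, hs₀adj, neg_mul, ← mul_neg, neg_sub]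
      exact hcomm _ hs₀Z _ hdz)
    have h3 : c₀ • (z - adj f z) = b • s₀ := by
      calc c₀ • (z - adj f z) = (z - adj f z) * (c₀ • (1 : Matrix (Fin n) (Fin n) F)) := by
            rw [Matrix.mul_smul, mul_one]
        _ = (z - adj f z) * s₀ * s₀ := by rw [← hsq, mul_assoc]
        _ = b • s₀ := by rw [hb, Matrix.smul_mul, one_mul]
    have h4 : z - adj f z = (c₀⁻¹ * b) • s₀ := by
      rw [← smul_smul, ← h3, inv_smul_smul₀ hc₀]
    have h5 : (2 : F) • z = a • (1 : Matrix (Fin n) (Fin n) F) + (c₀⁻¹ * b) • s₀ := by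
      rw [← ha, ← h4, two_smul]
      abel
    refine ⟨2⁻¹ * a, 2⁻¹ * (c₀⁻¹ * b), ?_⟩
    rw [← smul_smul, ← smul_smul 2⁻¹ (c₀⁻¹ * b) s₀, ← smul_add, ← h5, inv_smul_smul₀ h2]
  have hli : LinearIndependent F ![(1 : Matrix (Fin n) (Fin n) F), s₀] := by
    rw [LinearIndependent.pair_iff]
    intro s t hst
    have h1 := congrArg (adj f) hst
    rw [adj_add, adj_smul, adj_smul, adj_one hf, hs₀adj, adj_zero, smul_neg] at h1
    have h3 : ((2 : F) * s) • (1 : Matrix (Fin n) (Fin n) F) = 0 := by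
      have h4 : (s • (1 : Matrix (Fin n) (Fin n) F) + t • s₀) + (s • (1 : Matrix (Fin n) (Fin n) F) + -(t • s₀)) = 0 := by
        rw [hst, h1, add_zero]
      rw [mul_smul, two_smul]
      rw [← h4]
      abel
    have hs : s = 0 := by
      rcases smul_eq_zero.mp h3 with h | h
      · exact (mul_eq_zero.mp h).resolve_left h2
      · exact absurd h hone
    rw [hs, zero_smul, zero_add] at hst
    exact ⟨hs, (smul_eq_zero.mp hst).resolve_right hs₀0⟩
  have hspan : Subalgebra.toSubmodule Z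
      = Submodule.span F (Set.range ![(1 : Matrix (Fin n) (Fin n) F), s₀]) := by
    apply le_antisymm
    · intro z hz
      obtain ⟨a, b, rfl⟩ := hrep z hz
      refine Submodule.add_mem _ (Submodule.smul_mem _ _ (Submodule.subset_span ⟨0, rfl⟩))
        (Submodule.smul_mem _ _ (Submodule.subset_span ⟨1, rfl⟩))
    · rw [Submodule.span_le]
      rintro _ ⟨i, rfl⟩
      rcases fin2_cases i with rfl | rfl
      · exact Z.one_mem
      · exact hs₀Z
  refine ⟨?_, ?_, ?_⟩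
  · have h1 : Module.finrank F Z = Module.finrank F (Subalgebra.toSubmodule Z) := rfl
    rw [h1, hspan, finrank_span_eq_card hli, Fintype.card_fin]
  · intro k hk
    exact ⟨adj f k, hadj k hk, fun u v => adj_spec hf k u v⟩
  · intro hsa
    obtain ⟨c, hc⟩ := hsc k₀ hk₀ (adj_unique hf (hsa k₀ hk₀))
    exact hns c hc

/-- The analysis of the centre `Z` of the centraliser of a normal subgroup `N` of an irreducible
group `H` of isometries of a symplectic form. -/
theorem z_analysis [Fintype F] (hn : 0 < n) (hf : IsSymplecticForm f) (H N : Subgroup (GL (Fin n) F))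
    (hH : H ≤ isoSub f) (hirr : ActsIrreducibly (matrixSet H)) (hNH : N ≤ H)
    (hNn : ∀ h ∈ H, ∀ x ∈ N, h * x * h⁻¹ ∈ N) :
    (∃ (t k : ℕ) (D : Fin t → Submodule F (Fin n → F)),
      IsNondegenerateMDecomposition f k D ∧ H ≤ decompositionStabilizer D) ∨
    ((2 : F) ≠ 0 ∧ ∃ (k : ℕ) (D : Fin 2 → Submodule F (Fin n → F)), IsMDecomposition k D ∧
      (∀ i, IsTotallySingularFor f (D i)) ∧ H ≤ decompositionStabilizer D) ∨
    (∃ (r : ℕ) (K : Subalgebra F (Matrix (Fin n) (Fin n) F)), r.Prime ∧ IsFieldSubalgebra r K ∧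
      IsSelfAdjointFor f K ∧ (∀ k ∈ K, ∀ v : Fin n → F, f (k *ᵥ v) v = 0) ∧
      H ≤ subalgebraNormalizer K) ∨
    ((2 : F) ≠ 0 ∧ ∃ K : Subalgebra F (Matrix (Fin n) (Fin n) F), IsFieldSubalgebra 2 K ∧
      IsAdjointClosedFor f K ∧ ¬ IsSelfAdjointFor f K ∧ H ≤ subalgebraNormalizer K) ∨
    ((2 : F) = 0 ∧ ∃ Q : (Fin n → F) → F, IsNondegenerateQuadraticForm Q ∧
      (∀ u v, QuadraticMap.polar Q u v = f u v) ∧ H ≤ quadSimilarityGroup Q) ∨
    (∀ k, ZCent (matrixSet N) k → ∃ c : F, k = c • (1 : Matrix (Fin n) (Fin n) F)) := by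
  classical
  have hne : NeZero n := ⟨hn.ne'⟩
  obtain ⟨T, hT⟩ : ∃ T, T = matrixSet N := ⟨_, rfl⟩
  rw [← hT]
  have hconj1 : ∀ g ∈ H, ∀ s ∈ T, (g : Matrix (Fin n) (Fin n) F) * s *
      ((g⁻¹ : GL (Fin n) F) : Matrix (Fin n) (Fin n) F) ∈ T := by
    intro g hg
    rw [hT]
    exact matrixSet_conj N g (hNn g hg)
  have hconj2 : ∀ g ∈ H, ∀ s ∈ T, ((g⁻¹ : GL (Fin n) F) : Matrix (Fin n) (Fin n) F) * s *
      (g : Matrix (Fin n) (Fin n) F) ∈ T := by
    intro g hg
    rw [hT]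
    have := matrixSet_conj N g⁻¹ (hNn g⁻¹ (H.inv_mem hg))
    simpa using this
  have hiso : IsoSet f T := by
    intro s hs
    rw [hT] at hs ⊢
    obtain ⟨x, hx, rfl⟩ := hs
    exact ⟨x, hH (hNH hx), rfl, Helper97.coe_mem_matrixSet (N.inv_mem hx)⟩
  have hZconj : ∀ g ∈ H, ∀ a, ZCent T a → ZCent T ((g : Matrix (Fin n) (Fin n) F) * a *
      ((g⁻¹ : GL (Fin n) F) : Matrix (Fin n) (Fin n) F)) :=
    fun g hg a ha => zcent_conj T g (hconj2 g hg) (hconj1 g hg) a ha
  have hZadj : ∀ a, ZCent T a → ZCent T (adj f a) := fun a ha => zcent_adj hf hiso ha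
  have hZcomm : ∀ a, ZCent T a → ∀ b, ZCent T b → a * b = b * a := fun a ha b hb => ha.2 b hb.1
  by_cases hD1 : ∃ M, (ZCent T M ∧ adj f M = M) ∧ M ≠ 0 ∧ ∃ v : Fin n → F, v ≠ 0 ∧ M *ᵥ v = 0
  · left
    obtain ⟨M, hM, hM0, v, hv0, hMv⟩ := hD1
    exact nondeg_decomp hf H hH hirr {M | ZCent T M ∧ adj f M = M}
      (fun a ha b hb => hZcomm a ha.1 b hb.1)
      (fun g hg a ha => ⟨hZconj g hg a ha.1, by rw [adj_conj hf (hH hg), ha.2]⟩)
      (fun a ha => ha.2) M hM hM0 v hv0 hMv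
  have hZp : ∀ M, ZCent T M → adj f M = M → M ≠ 0 → ∀ v : Fin n → F, M *ᵥ v = 0 → v = 0 := by
    intro M hM hM' hM0 v hv
    by_contra hv0
    exact hD1 ⟨M, ⟨hM, hM'⟩, hM0, v, hv0, hv⟩
  have hFSp : Helper98.IsFS (zcp f hf T) := by
    constructor
    · intro x hx y hy
      exact hZcomm x hx.1 y hy.1
    · intro x hx hx0
      have hdet : x.det ≠ 0 := Helper97.det_ne_zero_of_injective x (hZp x hx.1 hx.2 hx0)
      have hu : IsUnit x.det := isUnit_iff_ne_zero.mpr hdet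
      refine ⟨x⁻¹, ⟨⟨fun s hs => inv_comm_of_comm x s hdet (hx.1.1 s hs),
        fun c hc => inv_comm_of_comm x c hdet (hx.1.2 c hc)⟩, ?_⟩, Matrix.mul_nonsing_inv x hu⟩
      have h1 : adj f x⁻¹ * x = 1 := by
        have h2 := adj_mul hf x x⁻¹
        rw [Matrix.mul_nonsing_inv x hu, adj_one hf, hx.2] at h2
        exact h2.symm
      exact (Matrix.inv_eq_left_inv h1).symm
  have hpconj : ∀ g ∈ H, ∀ k, k ∈ zcp f hf T → (g : Matrix (Fin n) (Fin n) F) * k *
      ((g⁻¹ : GL (Fin n) F) : Matrix (Fin n) (Fin n) F) ∈ zcp f hf T :=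
    fun g hg k hk => ⟨hZconj g hg k hk.1, by rw [adj_conj hf (hH hg), hk.2]⟩
  have hHnormp : H ≤ subalgebraNormalizer (zcp f hf T) := by
    intro g hg k
    constructor
    · exact hpconj g hg k
    · intro hk
      have h3 := hpconj g⁻¹ (H.inv_mem hg) _ hk
      have h4 : ((g⁻¹ : GL (Fin n) F) : Matrix (Fin n) (Fin n) F) * ((g : Matrix (Fin n) (Fin n) F) * k *
          ((g⁻¹ : GL (Fin n) F) : Matrix (Fin n) (Fin n) F)) *
          (((g⁻¹)⁻¹ : GL (Fin n) F) : Matrix (Fin n) (Fin n) F) = k := by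
        rw [inv_inv]
        simp only [mul_assoc, Units.inv_mul, mul_one]
        rw [← mul_assoc, Units.inv_mul, one_mul]
      rw [h4] at h3
      exact h3
  by_cases hA : ∃ k ∈ zcp f hf T, ∀ c : F, k ≠ c • (1 : Matrix (Fin n) (Fin n) F)
  · right; right; left
    obtain ⟨r, K₀, hr, hK₀, hle, hnorm⟩ := exists_prime_subfield' (zcp f hf T) hFSp hA
    have hsa : ∀ k ∈ K₀, adj f k = k := fun k hk => (hle hk).2
    exact ⟨r, K₀, hr, hK₀, fun k hk u v => by rw [adj_spec hf, hsa k hk],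
      selfadj_alt hf K₀ (Helper98.IsFS.of hK₀) hsa, hHnormp.trans hnorm⟩
  have hsc : ∀ k, ZCent T k → adj f k = k → ∃ c : F, k = c • (1 : Matrix (Fin n) (Fin n) F) := by
    intro k hk hk'
    by_contra hcon
    exact hA ⟨k, ⟨hk, hk'⟩, fun c hc => hcon ⟨c, hc⟩⟩
  by_cases hB : ∃ k₀, ZCent T k₀ ∧ ∀ c : F, k₀ ≠ c • (1 : Matrix (Fin n) (Fin n) F)
  swap
  · right; right; right; right; right
    intro k hk
    by_contra hcon
    exact hB ⟨k, hk, fun c hc => hcon ⟨c, hc⟩⟩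
  obtain ⟨k₀, hk₀, hk₀ns⟩ := hB
  by_cases h2 : (2 : F) = 0
  · -- characteristic two: a quadratic form
    right; right; right; right; left
    refine ⟨h2, ?_⟩
    have hnegM : ∀ M : Matrix (Fin n) (Fin n) F, -M = M := fun M => by
      rw [neg_eq_iff_add_eq_zero, ← two_smul F M, h2, zero_smul]
    obtain ⟨c₀, hc₀⟩ := hsc (k₀ + adj f k₀) ((zc T).add_mem hk₀ (hZadj k₀ hk₀))
      (by rw [adj_add, adj_adj hf, add_comm])
    have hc₀0 : c₀ ≠ 0 := by
      rintro rfl
      rw [zero_smul] at hc₀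
      have h3 : adj f k₀ = k₀ :=
        (eq_neg_of_add_eq_zero_right hc₀).trans (hnegM k₀)
      obtain ⟨c, hc⟩ := hsc k₀ hk₀ h3
      exact hk₀ns c hc
    obtain ⟨e, hedef⟩ : ∃ e, e = c₀⁻¹ • k₀ := ⟨_, rfl⟩
    have heZ : ZCent T e := hedef ▸ (zc T).smul_mem hk₀ c₀⁻¹
    have he1 : e + adj f e = 1 := by
      rw [hedef, adj_smul, ← smul_add, hc₀, smul_smul, inv_mul_cancel₀ hc₀0, one_smul]
    apply quad_of_idem hf H hH h2 e he1
    intro h hh
    have he' : ZCent T (((h⁻¹ : GL (Fin n) F) : Matrix (Fin n) (Fin n) F) * e *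
        (h : Matrix (Fin n) (Fin n) F)) := by
      have := hZconj h⁻¹ (H.inv_mem hh) e heZ
      simpa using this
    have hadj' : adj f (((h⁻¹ : GL (Fin n) F) : Matrix (Fin n) (Fin n) F) * e *
        (h : Matrix (Fin n) (Fin n) F)) = ((h⁻¹ : GL (Fin n) F) : Matrix (Fin n) (Fin n) F) * adj f e *
        (h : Matrix (Fin n) (Fin n) F) := by
      have := adj_conj hf (hH (H.inv_mem hh)) e
      simpa using this
    obtain ⟨δ, hδ⟩ := hsc (((h⁻¹ : GL (Fin n) F) : Matrix (Fin n) (Fin n) F) * e *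
        (h : Matrix (Fin n) (Fin n) F) - e) ((zc T).sub_mem he' heZ) (by
      rw [adj_sub, hadj', (eq_sub_of_add_eq' he1 : adj f e = 1 - e), Matrix.mul_sub, Matrix.sub_mul,
        mul_one, Units.inv_mul,
        ← hnegM (((h⁻¹ : GL (Fin n) F) : Matrix (Fin n) (Fin n) F) * e * (h : Matrix (Fin n) (Fin n) F) - e)]
      abel)
    exact ⟨δ, by rw [← hδ]; abel⟩
  · -- odd characteristic
    by_cases hsing : ∃ M, ZCent T M ∧ M ≠ 0 ∧ ∃ v : Fin n → F, v ≠ 0 ∧ M *ᵥ v = 0
    · right; left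
      refine ⟨h2, ?_⟩
      obtain ⟨M, hM, hM0, v, hv0, hMv⟩ := hsing
      have : Fact (Fintype.card (Fin n) = n) := ⟨Fintype.card_fin n⟩
      obtain ⟨t, m, D, hD, -, hpres, hsep⟩ :=
        Helper97.Gen.exists_decomp_of_comm_stable_sep H hirr {M | ZCent T M}
          (fun a ha b hb => hZcomm a ha b hb) (fun g hg a ha => hZconj g hg a ha) M hM hM0 v hv0 hMv
      have ht := hD.two_le
      obtain ⟨a, haZ, hkill, hinj⟩ := hsep ⟨0, by omega⟩ ⟨1, by omega⟩ (by simp [Fin.ext_iff])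
      have hex : ∀ i, ∃ w ∈ D i, w ≠ 0 := by
        intro i
        have h1 := hD.finrank_eq i
        have h2' := hD.pos
        by_contra hcon
        push Not at hcon
        have h3 : D i = ⊥ := (Submodule.eq_bot_iff _).mpr hcon
        rw [h3, finrank_bot] at h1
        omega
      obtain ⟨w0, hw0, hw00⟩ := hex ⟨0, by omega⟩
      obtain ⟨w1, hw1, hw10⟩ := hex ⟨1, by omega⟩
      obtain ⟨c₁, hc₁⟩ := hsc (adj f a * a) ((zc T).mul_mem (hZadj a haZ) haZ)
        (by rw [adj_mul hf, adj_adj hf])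
      have hc₁0 : c₁ = 0 := by
        have h3 : (adj f a * a) *ᵥ w0 = 0 := by
          rw [← Matrix.mulVec_mulVec, hkill w0 hw0, Matrix.mulVec_zero]
        rw [hc₁, Matrix.smul_mulVec, Matrix.one_mulVec] at h3
        exact (smul_eq_zero.mp h3).resolve_right hw00
      rw [hc₁0, zero_smul] at hc₁
      obtain ⟨c, hc⟩ := hsc (a + adj f a) ((zc T).add_mem haZ (hZadj a haZ))
        (by rw [adj_add, adj_adj hf, add_comm])
      have hc0 : c ≠ 0 := by
        rintro rfl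
        rw [zero_smul] at hc
        have h3 : adj f a = -a := eq_neg_of_add_eq_zero_right hc
        rw [h3, neg_mul, neg_eq_zero] at hc₁
        have h4 : a *ᵥ (a *ᵥ w1) = 0 := by rw [Matrix.mulVec_mulVec, hc₁, Matrix.zero_mulVec]
        exact hw10 (hinj w1 hw1 (hinj _ (hpres a haZ _ w1 hw1) h4))
      obtain ⟨e, hedef⟩ : ∃ e, e = c⁻¹ • a := ⟨_, rfl⟩
      have heZ : ZCent T e := hedef ▸ (zc T).smul_mem haZ c⁻¹
      have he1 : e + adj f e = 1 := by
        rw [hedef, adj_smul, ← smul_add, hc, smul_smul, inv_mul_cancel₀ hc0, one_smul]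
      have he2 : adj f e * e = 0 := by
        rw [hedef, adj_smul, Matrix.smul_mul, Matrix.mul_smul, hc₁, smul_zero, smul_zero]
      have hadj : adj f e = 1 - e := eq_sub_of_add_eq' he1
      have hidem : e * e = e := by
        have h3 := he2
        rw [hadj, Matrix.sub_mul, Matrix.one_mul] at h3
        exact (sub_eq_zero.mp h3).symm
      apply ts_pair_of_idem hn hf H hH e he1 he2
      intro h hh
      obtain ⟨e', he'def⟩ : ∃ e', e' = (h : Matrix (Fin n) (Fin n) F) * e *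
          ((h⁻¹ : GL (Fin n) F) : Matrix (Fin n) (Fin n) F) := ⟨_, rfl⟩
      rw [← he'def]
      have he'Z : ZCent T e' := he'def ▸ hZconj h hh e heZ
      have hadj' : adj f e' = 1 - e' := by
        rw [he'def, adj_conj hf (hH hh), hadj, Matrix.mul_sub, Matrix.sub_mul, mul_one, Units.mul_inv]
      have hidem' : e' * e' = e' := by
        rw [he'def]
        calc (h : Matrix (Fin n) (Fin n) F) * e * ((h⁻¹ : GL (Fin n) F) : Matrix (Fin n) (Fin n) F) *
              ((h : Matrix (Fin n) (Fin n) F) * e * ((h⁻¹ : GL (Fin n) F) : Matrix (Fin n) (Fin n) F))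
            = (h : Matrix (Fin n) (Fin n) F) * (e * (((h⁻¹ : GL (Fin n) F) : Matrix (Fin n) (Fin n) F) *
              (h : Matrix (Fin n) (Fin n) F)) * e) * ((h⁻¹ : GL (Fin n) F) : Matrix (Fin n) (Fin n) F) := by
              simp only [mul_assoc]
          _ = _ := by rw [Units.inv_mul, mul_one, hidem]
      have hcm : e * e' = e' * e := hZcomm e heZ e' he'Z
      obtain ⟨pm, hpm⟩ : ∃ pm, pm = e * e' + (1 - e) * (1 - e') := ⟨_, rfl⟩
      have hpmZ : ZCent T pm := hpm ▸ (zc T).add_mem ((zc T).mul_mem heZ he'Z)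
        ((zc T).mul_mem ((zc T).sub_mem (zc T).one_mem heZ) ((zc T).sub_mem (zc T).one_mem he'Z))
      have hpmadj : adj f pm = pm := by
        have h3 : (1 - e') * (1 - e) = (1 - e) * (1 - e') := by
          simp only [mul_sub, sub_mul, mul_one, one_mul, hcm]
          abel
        rw [hpm, adj_add, adj_mul hf, adj_mul hf, adj_sub, adj_sub, adj_one hf, hadj, hadj',
          sub_sub_cancel, sub_sub_cancel, h3, ← hcm, add_comm]
      obtain ⟨lam, hlam⟩ := hsc pm hpmZ hpmadj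
      letI : CommRing ↥(zc T) :=
        { (inferInstance : Ring ↥(zc T)) with
          mul_comm := fun x y => Subtype.ext (x.2.2 y.1 y.2.1) }
      have hres := idem_dichotomy (⟨e, heZ⟩ : ↥(zc T)) ⟨e', he'Z⟩ ⟨pm, hpmZ⟩
        (Subtype.ext hidem) (Subtype.ext hidem') (Subtype.ext hpm.symm) (by
          by_cases hl : lam = 0
          · left
            apply Subtype.ext
            show pm = 0
            rw [hlam, hl, zero_smul]
          · right
            refine ⟨⟨lam⁻¹ • (1 : Matrix (Fin n) (Fin n) F), (zc T).smul_mem (zc T).one_mem _⟩, ?_⟩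
            apply Subtype.ext
            show lam⁻¹ • (1 : Matrix (Fin n) (Fin n) F) * pm = 1
            rw [hlam, Matrix.smul_mul, Matrix.one_mul, smul_smul, inv_mul_cancel₀ hl, one_smul])
      rcases hres with h3 | h3
      · left
        exact congrArg Subtype.val h3
      · right
        exact congrArg Subtype.val h3
    · -- a field of degree two
      right; right; right; left
      refine ⟨h2, zc T, ?_⟩
      have hZinj : ∀ M, ZCent T M → M ≠ 0 → ∀ v : Fin n → F, M *ᵥ v = 0 → v = 0 := by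
        intro M hM hM0 v hv
        by_contra hv0
        exact hsing ⟨M, hM, hM0, v, hv0, hv⟩
      have hFS := isFS_zc T hZinj
      obtain ⟨h3, h4, h5⟩ := field_deg_two hf h2 hn (zc T) (fun x hx y hy => hZcomm x hx y hy)
        (fun x hx => hZadj x hx) (fun x hx => hZinj x hx) (fun x hx => hsc x hx) k₀ hk₀ hk₀ns
      refine ⟨⟨hFS.comm, hFS.inv, h3⟩, h4, h5, ?_⟩
      have := le_normalizer_zc H N hNn
      rw [← hT] at this
      exact this

end Cfsg.Agent.Helper96.Sy
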