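-- helper96 library: an invariant non-zero bilinear form of an absolutely irreducible group is
-- symplectic or comes from a quadratic form.
import Cfsg.Agent.Helper96.Composite

set_option autoImplicit false
open Cfsg Cfsg.Geo Matrix

namespace Cfsg.Agent.Helper96

variable {F : Type*} [Field F] {n : ℕ}

/-- The bilinear form with Gram matrix `M`. -/
def bf (M : Matrix (Fin n) (Fin n) F) (u v : Fin n → F) : F := u ⬝ᵥ (M *ᵥ v)

theorem bf_apply (M : Matrix (Fin n) (Fin n) F) (u v : Fin n → F) : bf M u v = u ⬝ᵥ (M *ᵥ v) := rfl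

theorem bf_bilinear (M : Matrix (Fin n) (Fin n) F) : IsBilinearForm (bf M) := by
  refine ⟨?_, ?_, ?_, ?_⟩
  · intro x y v
    rw [bf_apply, bf_apply, bf_apply, add_dotProduct]
  · intro c x v
    rw [bf_apply, bf_apply, smul_dotProduct, smul_eq_mul]
  · intro v x y
    rw [bf_apply, bf_apply, bf_apply, Matrix.mulVec_add, dotProduct_add]
  · intro c v x
    rw [bf_apply, bf_apply, Matrix.mulVec_smul, dotProduct_smul, smul_eq_mul]

theorem bf_fix (M g : Matrix (Fin n) (Fin n) F) (h : gᵀ * M * g = M) (u v : Fin n → F) :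
    bf M (g *ᵥ u) (g *ᵥ v) = bf M u v := by
  rw [bf_apply, bf_apply]
  nth_rewrite 2 [← h]
  rw [← Matrix.mulVec_mulVec, ← Matrix.mulVec_mulVec, Matrix.dotProduct_mulVec u,
    Matrix.vecMul_transpose]

theorem bf_swap (M : Matrix (Fin n) (Fin n) F) (c : F) (h : Mᵀ = c • M) (u v : Fin n → F) :
    bf M u v = c * bf M v u := by
  rw [bf_apply, bf_apply, Matrix.dotProduct_mulVec, ← Matrix.mulVec_transpose, h, Matrix.smul_mulVec,
    smul_dotProduct, smul_eq_mul, dotProduct_comm]

theorem bf_single_left (M : Matrix (Fin n) (Fin n) F) (i : Fin n) (v : Fin n → F) :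
    bf M (Pi.single i 1) v = (M *ᵥ v) i := by
  rw [bf_apply, single_dotProduct, one_mul]

/-- An invariant non-zero bilinear form of an absolutely irreducible group is non-degenerate and
symmetric or skew-symmetric. -/
theorem invariant_form_struct (N : Subgroup (GL (Fin n) F))
    (habs : ActsAbsolutelyIrreducibly (matrixSet N))
    (M : Matrix (Fin n) (Fin n) F) (hM : M ≠ 0)
    (hfix : ∀ g ∈ N, (g : Matrix (Fin n) (Fin n) F)ᵀ * M * (g : Matrix (Fin n) (Fin n) F) = M) :
    (∀ v : Fin n → F, v ≠ 0 → M *ᵥ v ≠ 0) ∧ (Mᵀ = M ∨ Mᵀ = (-1 : F) • M) := by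
  classical
  -- `M g = (g⁻¹)ᵀ M`
  have h1 : ∀ g ∈ N, M * (g : Matrix (Fin n) (Fin n) F) =
      ((g⁻¹ : GL (Fin n) F) : Matrix (Fin n) (Fin n) F)ᵀ * M := by
    intro g hg
    have h := hfix g hg
    calc M * (g : Matrix (Fin n) (Fin n) F)
        = ((g⁻¹ : GL (Fin n) F) : Matrix (Fin n) (Fin n) F)ᵀ *
            ((g : Matrix (Fin n) (Fin n) F)ᵀ * M * (g : Matrix (Fin n) (Fin n) F)) := by
          rw [← Matrix.mul_assoc, ← Matrix.mul_assoc, ← Matrix.transpose_mul, Units.mul_inv,
            Matrix.transpose_one, Matrix.one_mul]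
      _ = ((g⁻¹ : GL (Fin n) F) : Matrix (Fin n) (Fin n) F)ᵀ * M := by rw [h]
  -- the radical is trivial
  have hrad : ∀ v : Fin n → F, v ≠ 0 → M *ᵥ v ≠ 0 := by
    obtain ⟨W, hW⟩ : ∃ W : Submodule F (Fin n → F), W = LinearMap.ker (Matrix.toLin' M) := ⟨_, rfl⟩
    have hmem : ∀ v, v ∈ W ↔ M *ᵥ v = 0 := by
      intro v
      rw [hW, LinearMap.mem_ker, Matrix.toLin'_apply]
    have hinv : ∀ s ∈ matrixSet N, W.map (Matrix.toLin' s) ≤ W := by
      rintro _ ⟨g, hg, rfl⟩ _ ⟨w, hw, rfl⟩
      rw [SetLike.mem_coe, hmem] at hw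
      rw [hmem, Matrix.toLin'_apply, Matrix.mulVec_mulVec, h1 g hg, ← Matrix.mulVec_mulVec, hw,
        Matrix.mulVec_zero]
    rcases habs.1 W hinv with h | h
    · intro v hv hMv
      have : v ∈ W := (hmem v).mpr hMv
      rw [h, Submodule.mem_bot] at this
      exact hv this
    · exfalso
      apply hM
      ext i j
      have : (Pi.single j 1 : Fin n → F) ∈ W := by rw [h]; exact Submodule.mem_top
      rw [hmem] at this
      have h2 := congrFun this i
      rw [Matrix.mulVec_single_one] at h2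
      simpa using h2
  refine ⟨hrad, ?_⟩
  have hdet : M.det ≠ 0 := by
    intro h
    obtain ⟨v, hv, hMv⟩ := Matrix.exists_mulVec_eq_zero_iff.mpr h
    exact hrad v hv hMv
  have hu : IsUnit M.det := isUnit_iff_ne_zero.mpr hdet
  have hMi : M * M⁻¹ = 1 := Matrix.mul_nonsing_inv M hu
  have hiM : M⁻¹ * M = 1 := Matrix.nonsing_inv_mul M hu
  -- `Mᵀ g = (g⁻¹)ᵀ Mᵀ`
  have h2 : ∀ g ∈ N, Mᵀ * (g : Matrix (Fin n) (Fin n) F) =
      ((g⁻¹ : GL (Fin n) F) : Matrix (Fin n) (Fin n) F)ᵀ * Mᵀ := by
    intro g hg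
    have h := congrArg Matrix.transpose (hfix g hg)
    rw [Matrix.transpose_mul, Matrix.transpose_mul, Matrix.transpose_transpose, ← Matrix.mul_assoc] at h
    calc Mᵀ * (g : Matrix (Fin n) (Fin n) F)
        = ((g⁻¹ : GL (Fin n) F) : Matrix (Fin n) (Fin n) F)ᵀ *
            ((g : Matrix (Fin n) (Fin n) F)ᵀ * Mᵀ * (g : Matrix (Fin n) (Fin n) F)) := by
          rw [← Matrix.mul_assoc, ← Matrix.mul_assoc, ← Matrix.transpose_mul, Units.mul_inv,
            Matrix.transpose_one, Matrix.one_mul]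
      _ = ((g⁻¹ : GL (Fin n) F) : Matrix (Fin n) (Fin n) F)ᵀ * Mᵀ := by rw [h]
  -- `g M⁻¹ = M⁻¹ (g⁻¹)ᵀ`
  have h3 : ∀ g ∈ N, (g : Matrix (Fin n) (Fin n) F) * M⁻¹ =
      M⁻¹ * ((g⁻¹ : GL (Fin n) F) : Matrix (Fin n) (Fin n) F)ᵀ := by
    intro g hg
    calc (g : Matrix (Fin n) (Fin n) F) * M⁻¹
        = M⁻¹ * (M * (g : Matrix (Fin n) (Fin n) F)) * M⁻¹ := by
          rw [← Matrix.mul_assoc, hiM, Matrix.one_mul]
      _ = M⁻¹ * ((g⁻¹ : GL (Fin n) F) : Matrix (Fin n) (Fin n) F)ᵀ := by
          rw [h1 g hg, Matrix.mul_assoc, Matrix.mul_assoc, hMi, Matrix.mul_one]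
  obtain ⟨c, hc⟩ := habs.2 (M⁻¹ * Mᵀ) (by
    rintro _ ⟨g, hg, rfl⟩
    rw [Matrix.mul_assoc, h2 g hg, ← Matrix.mul_assoc, ← h3 g hg, Matrix.mul_assoc])
  have hMt : Mᵀ = c • M := by
    calc Mᵀ = M * (M⁻¹ * Mᵀ) := by rw [← Matrix.mul_assoc, hMi, Matrix.one_mul]
      _ = c • M := by rw [hc, Matrix.mul_smul, Matrix.mul_one]
  have hcc : c * c = 1 := by
    have h4 : M = (c * c) • M := by
      calc M = Mᵀᵀ := (Matrix.transpose_transpose M).symm
        _ = (c • M)ᵀ := by rw [hMt]
        _ = c • Mᵀ := Matrix.transpose_smul c M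
        _ = (c * c) • M := by rw [hMt, smul_smul]
    by_contra hne
    apply hM
    have h5 : (1 - c * c) • M = 0 := by rw [sub_smul, one_smul, ← h4, sub_self]
    rcases smul_eq_zero.mp h5 with h | h
    · exact absurd (sub_eq_zero.mp h).symm hne
    · exact h
  have hc1 : c = 1 ∨ c = -1 := by
    have : (c - 1) * (c + 1) = 0 := by ring_nf; rw [pow_two, hcc]; ring
    rcases mul_eq_zero.mp this with h | h
    · exact Or.inl (sub_eq_zero.mp h)
    · exact Or.inr (eq_neg_of_add_eq_zero_left h)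
  rcases hc1 with h | h
  · left; rw [hMt, h, one_smul]
  · right; rw [hMt, h]

/-- An invariant non-zero bilinear form of an absolutely irreducible group gives an invariant
symplectic form, or (in odd characteristic) an invariant non-degenerate quadratic form. -/
theorem form_dichotomy [Finite F] (hn2 : 2 ≤ n) (N : Subgroup (GL (Fin n) F))
    (habs : ActsAbsolutelyIrreducibly (matrixSet N))
    (M : Matrix (Fin n) (Fin n) F) (hM : M ≠ 0)
    (hfix : ∀ g ∈ N, (g : Matrix (Fin n) (Fin n) F)ᵀ * M * (g : Matrix (Fin n) (Fin n) F) = M) :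
    (∃ f : (Fin n → F) → (Fin n → F) → F, IsSymplecticForm f ∧ FixesForm (matrixSet N) f) ∨
    ((2 : F) ≠ 0 ∧ ∃ Q : (Fin n → F) → F, IsNondegenerateQuadraticForm Q ∧
      FixesQuadForm (matrixSet N) Q) := by
  classical
  obtain ⟨hrad, hsym⟩ := invariant_form_struct N habs M hM hfix
  have hbil := bf_bilinear M
  have hfixf : FixesForm (matrixSet N) (bf M) := by
    rintro _ ⟨g, hg, rfl⟩ u v
    exact bf_fix M _ (hfix g hg) u v
  have hnd1 : ∀ v : Fin n → F, v ≠ 0 → ∃ x, bf M x v ≠ 0 := by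
    intro v hv
    have h := hrad v hv
    obtain ⟨i, hi⟩ : ∃ i, (M *ᵥ v) i ≠ 0 := by
      by_contra hcon
      apply h
      funext i
      by_contra hi
      exact hcon ⟨i, hi⟩
    exact ⟨Pi.single i 1, by rw [bf_single_left]; exact hi⟩
  have hskew_case : (∀ u v, bf M u v = - bf M v u) → (∀ v, bf M v v = 0) →
      ∃ f : (Fin n → F) → (Fin n → F) → F, IsSymplecticForm f ∧ FixesForm (matrixSet N) f := by
    intro hskew halt
    refine ⟨bf M, ⟨hbil, hskew, halt, ?_⟩, hfixf⟩
    intro v hv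
    obtain ⟨x, hx⟩ := hnd1 v hv
    refine ⟨⟨x, hx⟩, ⟨x, ?_⟩⟩
    rw [hskew]
    exact neg_ne_zero.mpr hx
  by_cases h2 : (2 : F) = 0
  · -- characteristic two
    left
    have hneg : (-1 : F) = 1 := by
      have : (1 : F) + 1 = 0 := by rw [one_add_one_eq_two]; exact h2
      exact neg_eq_of_add_eq_zero_left this
    have hc : Mᵀ = (1 : F) • M := by
      rcases hsym with h | h
      · rw [h, one_smul]
      · rw [h, hneg]
    have hswap : ∀ u v, bf M u v = bf M v u := by
      intro u v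
      rw [bf_swap M 1 hc, one_mul]
    have hnegx : ∀ x : F, -x = x := by
      intro x
      have : -x = (-1) * x := by ring
      rw [this, hneg, one_mul]
    have hadd : ∀ u v, bf M (u + v) (u + v) = bf M u u + bf M v v := by
      intro u v
      rw [hbil.add_left, hbil.add_right, hbil.add_right, hswap v u]
      have : bf M u v + bf M u v = 0 := by rw [← two_mul, h2, zero_mul]
      linear_combination this
    obtain ⟨W, hW⟩ : ∃ W : Submodule F (Fin n → F), ∀ v, v ∈ W ↔ bf M v v = 0 := by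
      refine ⟨{ carrier := {v | bf M v v = 0}
                add_mem' := ?_
                zero_mem' := ?_
                smul_mem' := ?_ }, fun v => Iff.rfl⟩
      · intro u v hu hv
        show bf M (u + v) (u + v) = 0
        rw [hadd, hu, hv, add_zero]
      · show bf M 0 0 = 0
        rw [bf_apply, zero_dotProduct]
      · intro c v hv
        show bf M (c • v) (c • v) = 0
        rw [hbil.smul_left, hbil.smul_right, hv, mul_zero, mul_zero]
    have hinv : ∀ s ∈ matrixSet N, W.map (Matrix.toLin' s) ≤ W := by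
      rintro s hs _ ⟨w, hw, rfl⟩
      rw [SetLike.mem_coe, hW] at hw
      rw [hW, Matrix.toLin'_apply, hfixf s hs, hw]
    have hWne : W ≠ ⊥ := by
      obtain ⟨e₀, he₀⟩ : ∃ e₀ : Fin n → F, e₀ = Pi.single ⟨0, by omega⟩ 1 := ⟨_, rfl⟩
      obtain ⟨e₁, he₁⟩ : ∃ e₁ : Fin n → F, e₁ = Pi.single ⟨1, by omega⟩ 1 := ⟨_, rfl⟩
      by_cases hq : bf M e₀ e₀ = 0
      · intro h
        have h1 : e₀ ∈ W := (hW e₀).mpr hq
        rw [h, Submodule.mem_bot] at h1
        have h2' := congrFun h1 ⟨0, by omega⟩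
        rw [he₀] at h2'
        simp at h2'
      · have hchar : CharP F 2 := CharTwo.of_one_ne_zero_of_two_eq_zero one_ne_zero h2
        obtain ⟨a, ha⟩ := isSquare_of_charTwo' (bf M e₁ e₁ / bf M e₀ e₀)
        intro h
        have h1 : a • e₀ + e₁ ∈ W := by
          rw [hW, hadd, hbil.smul_left, hbil.smul_right, ← mul_assoc, ← ha, div_mul_cancel₀ _ hq,
            ← two_mul, h2, zero_mul]
        rw [h, Submodule.mem_bot] at h1
        have h2' := congrFun h1 ⟨1, by omega⟩
        rw [he₀, he₁] at h2'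
        simp at h2'
    have hWtop : W = ⊤ := (habs.1 W hinv).resolve_left hWne
    have halt : ∀ v, bf M v v = 0 := by
      intro v
      rw [← hW, hWtop]
      exact Submodule.mem_top
    exact hskew_case (fun u v => by rw [hnegx]; exact hswap u v) halt
  · rcases hsym with hs | hs
    · -- symmetric: a quadratic form
      right
      refine ⟨h2, ?_⟩
      have hc : Mᵀ = (1 : F) • M := by rw [hs, one_smul]
      have hswap : ∀ u v, bf M u v = bf M v u := by
        intro u v
        rw [bf_swap M 1 hc, one_mul]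
      obtain ⟨Q, hQ⟩ : ∃ Q : (Fin n → F) → F, ∀ v, Q v = bf M v v := ⟨_, fun _ => rfl⟩
      have hpol : ∀ u v, QuadraticMap.polar Q u v = 2 * bf M u v := by
        intro u v
        rw [QuadraticMap.polar, hQ, hQ, hQ, hbil.add_left, hbil.add_right, hbil.add_right, hswap v u]
        ring
      refine ⟨Q, ⟨?_, ⟨?_, ?_, ?_, ?_⟩, ?_⟩, ?_⟩
      · intro c v
        rw [hQ, hQ, hbil.smul_left, hbil.smul_right]
        ring
      · intro x y v
        rw [hpol, hpol, hpol, hbil.add_left]
        ring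
      · intro c x v
        rw [hpol, hpol, hbil.smul_left]
        ring
      · intro v x y
        rw [hpol, hpol, hpol, hbil.add_right]
        ring
      · intro c v x
        rw [hpol, hpol, hbil.smul_right]
        ring
      · intro v hv
        obtain ⟨x, hx⟩ := hnd1 v hv
        refine ⟨⟨x, ?_⟩, ⟨x, ?_⟩⟩
        · rw [hpol]
          exact mul_ne_zero h2 hx
        · rw [hpol, hswap]
          exact mul_ne_zero h2 hx
      · intro s hs v
        rw [hQ, hQ, hfixf s hs]
    · -- skew-symmetric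
      left
      have hskew : ∀ u v, bf M u v = - bf M v u := by
        intro u v
        rw [bf_swap M (-1) hs]
        ring
      apply hskew_case hskew
      intro v
      have h3 : bf M v v = - bf M v v := hskew v v
      have h4 : 2 * bf M v v = 0 := by linear_combination h3
      rcases mul_eq_zero.mp h4 with h | h
      · exact absurd h h2
      · exact h

/-- A maximal subgroup of `SL_n(q)` normalising an absolutely irreducible subgroup with an invariant
non-zero bilinear form is a quadratic or a symplectic similarity group. -/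
theorem form_cases [Fintype F] {p : ℕ} [Fact p.Prime] [CharP F p] (hn3 : 3 ≤ n)
    (H N : Subgroup (GL (Fin n) F)) (hH : IsMaximalIn (specialLinear (Fin n) F) H)
    (hNn : ∀ h ∈ H, ∀ x ∈ N, h * x * h⁻¹ ∈ N)
    (habs : ActsAbsolutelyIrreducibly (matrixSet N))
    (M : Matrix (Fin n) (Fin n) F) (hM : M ≠ 0)
    (hfix : ∀ g ∈ N, (g : Matrix (Fin n) (Fin n) F)ᵀ * M * (g : Matrix (Fin n) (Fin n) F) = M) :
    (Odd (Fintype.card F) ∧ ∃ Q : (Fin n → F) → F, IsNondegenerateQuadraticForm Q ∧
      H = quadSimilarityGroup Q ⊓ specialLinear (Fin n) F) ∨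
    (∃ f : (Fin n → F) → (Fin n → F) → F, IsSymplecticForm f ∧
      H = similarityGroup f ⊓ specialLinear (Fin n) F) := by
  classical
  have hp := (Fact.out : p.Prime)
  have hnz : NeZero n := ⟨by omega⟩
  rcases form_dichotomy (by omega) N habs M hM hfix with ⟨f, hf, hfix'⟩ | ⟨h2, Q, hQ, hfix'⟩
  · right
    have hle : H ≤ similarityGroup f := fun h hh =>
      Helper97.normalizer_le_similarity N habs (RingEquiv.refl F) f
        (Helper97.isSesq_of_bilinear hf.bilinear)
        (fun v hv => (hf.nondegenerate v hv).1) hfix' h (hNn h hh)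
    exact ⟨f, hf, Helper97.eq_inf_of_isMaximalIn hH hle
      (Helper97.notSL_similarity (p := p) hn3 f hf.bilinear.add_left hf.bilinear.add_right
        (fun v hv => (hf.nondegenerate v hv).1))⟩
  · left
    have hle : H ≤ quadSimilarityGroup Q :=
      fun h hh => Helper97.normalizer_le_quadSimilarity N habs Q hQ h2 hfix' h (hNn h hh)
    refine ⟨?_, Q, hQ, Helper97.eq_inf_of_isMaximalIn hH hle
      (Helper97.notSL_quadSimilarity (p := p) hn3 Q hQ)⟩
    obtain ⟨e, -, hcard⟩ := FiniteField.card F p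
    rw [hcard]
    apply Odd.pow
    rcases hp.eq_two_or_odd' with h | h
    · exfalso
      apply h2
      have h3 := CharP.cast_eq_zero F p
      rw [h] at h3
      exact_mod_cast h3
    · exact h

end Cfsg.Agent.Helper96
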