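-- helper96 library: central products of two-dimensional tensor factors fix a bilinear form.
import Cfsg.Agent.Helper96.FormDich
import Cfsg.Agent.Helper96.Perfect

set_option autoImplicit false
open Cfsg Cfsg.Geo Matrix
open scoped Kronecker

namespace Cfsg.Agent.Helper96

variable {F : Type*} [Field F] {n : ℕ}

/-- `Y ↦ 1 ⊗ Y` as an algebra map. -/
noncomputable def kronR (F : Type*) [Field F] (d k : ℕ) :
    Matrix (Fin k) (Fin k) F →ₐ[F] Matrix (Fin d × Fin k) (Fin d × Fin k) F where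
  toFun m := (1 : Matrix (Fin d) (Fin d) F) ⊗ₖ m
  map_one' := Matrix.one_kronecker_one
  map_mul' x y := by
    rw [← Matrix.mul_kronecker_mul, mul_one]
  map_zero' := Matrix.kronecker_zero _
  map_add' x y := Matrix.kronecker_add _ _ _
  commutes' c := by
    rw [Algebra.algebraMap_eq_smul_one, Algebra.algebraMap_eq_smul_one, Matrix.kronecker_smul,
      Matrix.one_kronecker_one]

theorem kronR_apply {d k : ℕ} (m : Matrix (Fin k) (Fin k) F) :
    kronR F d k m = (1 : Matrix (Fin d) (Fin d) F) ⊗ₖ m := rfl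

theorem TensorData.finrank_adjoin {N : Subgroup (GL (Fin n) F)} {d k : ℕ} {e : Fin n ≃ Fin d × Fin k}
    {P : GL (Fin n) F} {ρ : Matrix (Fin n) (Fin n) F → Matrix (Fin d) (Fin d) F}
    (D : TensorData N d k e P ρ) :
    Module.finrank F (Algebra.adjoin F (matrixSet N)) = d * d := by
  rw [D.adjoin_eq_range]
  have hinj : Function.Injective ((Helper98.conjReindex e P).comp (kronL F d k)) := by
    intro x y h
    exact kron_one_injective D.hk (Helper98.conjReindex_injective e P h)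
  rw [← (AlgEquiv.ofInjective _ hinj).toLinearEquiv.finrank_eq, Module.finrank_matrix,
    Fintype.card_fin, Module.finrank_self, mul_one]

/-- A set of matrices generating the full matrix algebra acts absolutely irreducibly. -/
theorem absIrred_of_adjoin_eq_top (S : Set (Matrix (Fin n) (Fin n) F))
    (h : Algebra.adjoin F S = ⊤) : ActsAbsolutelyIrreducibly S := by
  classical
  constructor
  · intro W hW
    have hinv := inv_adjoin S W (Helper97.isInv_iff_map.mpr hW)
    apply eq_bot_or_top_of_all_inv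
    intro M w hw
    exact hinv M (by rw [h]; exact Algebra.mem_top) w hw
  · intro M hM
    have hc := cent_adjoin S M hM
    have h1 : M ∈ Set.range (Matrix.scalar (Fin n)) := by
      apply Matrix.mem_range_scalar_of_commute_single
      intro i j _
      exact (hc _ (by rw [h]; exact Algebra.mem_top)).symm
    obtain ⟨c, hc'⟩ := h1
    refine ⟨c, ?_⟩
    rw [← hc', Matrix.smul_one_eq_diagonal]
    rfl

/-- The standard alternating matrix of size two. -/
def J2 (F : Type*) [Field F] : Matrix (Fin 2) (Fin 2) F := !![0, 1; -1, 0]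

theorem transpose_J2_mul (A : Matrix (Fin 2) (Fin 2) F) : Aᵀ * J2 F * A = A.det • J2 F := by
  ext i j
  fin_cases i <;> fin_cases j <;>
    simp [J2, Matrix.mul_apply, Fin.sum_univ_two, Matrix.det_fin_two] <;> ring

theorem J2_ne_zero : J2 F ≠ 0 := by
  intro h
  have := congrFun (congrFun h 0) 1
  simp [J2] at this

/-- The transported form. -/
noncomputable def formOf {κ : Type} [Fintype κ] [DecidableEq κ] (e : Fin n ≃ κ) (P : GL (Fin n) F)
    (X₀ : Matrix κ κ F) : Matrix (Fin n) (Fin n) F :=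
  ((P⁻¹ : GL (Fin n) F) : Matrix (Fin n) (Fin n) F)ᵀ * Matrix.reindexAlgEquiv F F e.symm X₀ *
    ((P⁻¹ : GL (Fin n) F) : Matrix (Fin n) (Fin n) F)

theorem formOf_fix {κ : Type} [Fintype κ] [DecidableEq κ] (e : Fin n ≃ κ) (P : GL (Fin n) F)
    (X₀ X : Matrix κ κ F) (h : Xᵀ * X₀ * X = X₀) :
    (Helper98.conjReindex e P X)ᵀ * formOf e P X₀ * Helper98.conjReindex e P X = formOf e P X₀ := by
  have h1 : (Matrix.reindexAlgEquiv F F e.symm X)ᵀ = Matrix.reindexAlgEquiv F F e.symm Xᵀ := by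
    ext i j
    simp [Matrix.coe_reindexAlgEquiv, Matrix.reindex_apply]
  have hPi : ((P⁻¹ : GL (Fin n) F) : Matrix (Fin n) (Fin n) F) * (P : Matrix (Fin n) (Fin n) F) = 1 := by
    rw [← Units.val_mul, inv_mul_cancel, Units.val_one]
  have hPt : (P : Matrix (Fin n) (Fin n) F)ᵀ * ((P⁻¹ : GL (Fin n) F) : Matrix (Fin n) (Fin n) F)ᵀ = 1 := by
    rw [← Matrix.transpose_mul, hPi, Matrix.transpose_one]
  rw [Helper98.conjReindex_apply, formOf, Matrix.transpose_mul, Matrix.transpose_mul, h1]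
  calc ((P⁻¹ : GL (Fin n) F) : Matrix (Fin n) (Fin n) F)ᵀ *
        (Matrix.reindexAlgEquiv F F e.symm Xᵀ * (P : Matrix (Fin n) (Fin n) F)ᵀ) *
        (((P⁻¹ : GL (Fin n) F) : Matrix (Fin n) (Fin n) F)ᵀ * Matrix.reindexAlgEquiv F F e.symm X₀ *
          ((P⁻¹ : GL (Fin n) F) : Matrix (Fin n) (Fin n) F)) *
        ((P : Matrix (Fin n) (Fin n) F) * Matrix.reindexAlgEquiv F F e.symm X *
          ((P⁻¹ : GL (Fin n) F) : Matrix (Fin n) (Fin n) F))
      = ((P⁻¹ : GL (Fin n) F) : Matrix (Fin n) (Fin n) F)ᵀ * Matrix.reindexAlgEquiv F F e.symm Xᵀ *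
        ((P : Matrix (Fin n) (Fin n) F)ᵀ * ((P⁻¹ : GL (Fin n) F) : Matrix (Fin n) (Fin n) F)ᵀ) *
        Matrix.reindexAlgEquiv F F e.symm X₀ *
        (((P⁻¹ : GL (Fin n) F) : Matrix (Fin n) (Fin n) F) * (P : Matrix (Fin n) (Fin n) F)) *
        Matrix.reindexAlgEquiv F F e.symm X *
          ((P⁻¹ : GL (Fin n) F) : Matrix (Fin n) (Fin n) F) := by
        simp only [Matrix.mul_assoc]
    _ = ((P⁻¹ : GL (Fin n) F) : Matrix (Fin n) (Fin n) F)ᵀ *
        (Matrix.reindexAlgEquiv F F e.symm Xᵀ * Matrix.reindexAlgEquiv F F e.symm X₀ *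
        Matrix.reindexAlgEquiv F F e.symm X) *
          ((P⁻¹ : GL (Fin n) F) : Matrix (Fin n) (Fin n) F) := by
        rw [hPt, hPi]
        simp only [Matrix.mul_assoc, Matrix.mul_one, Matrix.one_mul]
    _ = ((P⁻¹ : GL (Fin n) F) : Matrix (Fin n) (Fin n) F)ᵀ * Matrix.reindexAlgEquiv F F e.symm X₀ *
        ((P⁻¹ : GL (Fin n) F) : Matrix (Fin n) (Fin n) F) := by
        rw [← map_mul, ← map_mul, h]

theorem formOf_ne_zero {κ : Type} [Fintype κ] [DecidableEq κ] (e : Fin n ≃ κ) (P : GL (Fin n) F)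
    (X₀ : Matrix κ κ F) (h : X₀ ≠ 0) : formOf e P X₀ ≠ 0 := by
  intro h0
  apply h
  have hPi : (P : Matrix (Fin n) (Fin n) F) * ((P⁻¹ : GL (Fin n) F) : Matrix (Fin n) (Fin n) F) = 1 := by
    rw [← Units.val_mul, mul_inv_cancel, Units.val_one]
  have hPt : (P : Matrix (Fin n) (Fin n) F)ᵀ * ((P⁻¹ : GL (Fin n) F) : Matrix (Fin n) (Fin n) F)ᵀ = 1 := by
    rw [← Matrix.transpose_mul, ← Units.val_mul, inv_mul_cancel, Units.val_one, Matrix.transpose_one]
  have h1 : (P : Matrix (Fin n) (Fin n) F)ᵀ * formOf e P X₀ * (P : Matrix (Fin n) (Fin n) F) =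
      Matrix.reindexAlgEquiv F F e.symm X₀ := by
    rw [formOf]
    calc (P : Matrix (Fin n) (Fin n) F)ᵀ * (((P⁻¹ : GL (Fin n) F) : Matrix (Fin n) (Fin n) F)ᵀ *
          Matrix.reindexAlgEquiv F F e.symm X₀ * ((P⁻¹ : GL (Fin n) F) : Matrix (Fin n) (Fin n) F)) *
          (P : Matrix (Fin n) (Fin n) F)
        = ((P : Matrix (Fin n) (Fin n) F)ᵀ * ((P⁻¹ : GL (Fin n) F) : Matrix (Fin n) (Fin n) F)ᵀ) *
          Matrix.reindexAlgEquiv F F e.symm X₀ * (((P⁻¹ : GL (Fin n) F) : Matrix (Fin n) (Fin n) F) *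
          (P : Matrix (Fin n) (Fin n) F)) := by simp only [Matrix.mul_assoc]
      _ = Matrix.reindexAlgEquiv F F e.symm X₀ := by
        rw [hPt, ← Units.val_mul, inv_mul_cancel, Units.val_one, Matrix.one_mul, Matrix.mul_one]
  rw [h0, Matrix.mul_zero, Matrix.zero_mul] at h1
  exact (map_eq_zero_iff _ (Matrix.reindexAlgEquiv F F e.symm).injective).mp h1.symm

theorem kron_form_fix {k : ℕ} (x : Matrix (Fin 2) (Fin 2) F) (y M : Matrix (Fin k) (Fin k) F)
    (hx : x.det = 1) (hy : yᵀ * M * y = M) :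
    (x ⊗ₖ y)ᵀ * (J2 F ⊗ₖ M) * (x ⊗ₖ y) = J2 F ⊗ₖ M := by
  have h1 : (x ⊗ₖ y)ᵀ = xᵀ ⊗ₖ yᵀ := by
    ext ⟨a, j⟩ ⟨a', j'⟩
    simp [Matrix.kronecker_apply]
  rw [h1, ← Matrix.mul_kronecker_mul, ← Matrix.mul_kronecker_mul, transpose_J2_mul, hx, one_smul, hy]

/-- The embedding `Y ↦ Φ(1 ⊗ Y)` of matrix algebras attached to tensor coordinates. -/
noncomputable def embR {d k : ℕ} (e : Fin n ≃ Fin d × Fin k) (P : GL (Fin n) F) :
    Matrix (Fin k) (Fin k) F →ₐ[F] Matrix (Fin n) (Fin n) F :=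
  (Helper98.conjReindex e P).comp (kronR F d k)

theorem embR_apply {d k : ℕ} (e : Fin n ≃ Fin d × Fin k) (P : GL (Fin n) F)
    (Y : Matrix (Fin k) (Fin k) F) :
    embR e P Y = Helper98.conjReindex e P ((1 : Matrix (Fin d) (Fin d) F) ⊗ₖ Y) := rfl

theorem embR_injective {d k : ℕ} (e : Fin n ≃ Fin d × Fin k) (P : GL (Fin n) F) (hd : 0 < d) :
    Function.Injective (embR e P) :=
  fun _ _ h => one_kron_injective hd (Helper98.conjReindex_injective e P h)

/-- The induced embedding of general linear groups. -/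
noncomputable def embGL {d k : ℕ} (e : Fin n ≃ Fin d × Fin k) (P : GL (Fin n) F) :
    GL (Fin k) F →* GL (Fin n) F :=
  Units.map (embR e P).toRingHom.toMonoidHom

theorem embGL_val {d k : ℕ} (e : Fin n ≃ Fin d × Fin k) (P : GL (Fin n) F) (u : GL (Fin k) F) :
    ((embGL e P u : GL (Fin n) F) : Matrix (Fin n) (Fin n) F) =
      embR e P (u : Matrix (Fin k) (Fin k) F) := rfl

theorem embGL_injective {d k : ℕ} (e : Fin n ≃ Fin d × Fin k) (P : GL (Fin n) F) (hd : 0 < d) :
    Function.Injective (embGL e P) :=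
  Units.map_injective (embR_injective e P hd)

/-- Elements centralising a tensor factor come from the second factor. -/
theorem mem_range_embGL {T : Subgroup (GL (Fin n) F)} {d k : ℕ} {e : Fin n ≃ Fin d × Fin k}
    {P : GL (Fin n) F} {ρ : Matrix (Fin n) (Fin n) F → Matrix (Fin d) (Fin d) F}
    (D : TensorData T d k e P ρ) (t : GL (Fin n) F) (ht : ∀ s ∈ T, t * s = s * t) :
    t ∈ (embGL e P).range := by
  obtain ⟨Y, hY⟩ := D.cent_eq (t : Matrix (Fin n) (Fin n) F) (by
    rintro _ ⟨s, hs, rfl⟩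
    rw [← Units.val_mul, ← Units.val_mul, ht s hs])
  obtain ⟨Y', hY'⟩ := D.cent_eq ((t⁻¹ : GL (Fin n) F) : Matrix (Fin n) (Fin n) F) (by
    rintro _ ⟨s, hs, rfl⟩
    rw [← Units.val_mul, ← Units.val_mul]
    congr 1
    have := ht s hs
    calc t⁻¹ * s = t⁻¹ * (s * t) * t⁻¹ := by group
      _ = t⁻¹ * (t * s) * t⁻¹ := by rw [this]
      _ = s * t⁻¹ := by group)
  rw [← embR_apply] at hY hY'
  have h1 : Y * Y' = 1 := by
    apply embR_injective e P D.hd
    rw [map_mul, ← hY, ← hY', map_one, ← Units.val_mul, mul_inv_cancel, Units.val_one]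
  have h2 : Y' * Y = 1 := by
    apply embR_injective e P D.hd
    rw [map_mul, ← hY, ← hY', map_one, ← Units.val_mul, inv_mul_cancel, Units.val_one]
  refine ⟨⟨Y, Y', h1, h2⟩, ?_⟩
  apply Units.ext
  rw [embGL_val, hY]

/-- Matrices on pairs all of whose blocks lie in a subalgebra. -/
def blockAlg {d k : ℕ} (B : Subalgebra F (Matrix (Fin k) (Fin k) F)) :
    Subalgebra F (Matrix (Fin d × Fin k) (Fin d × Fin k) F) where
  carrier := {X | ∀ a a' : Fin d,
    (Matrix.of fun j j' => X (a, j) (a', j') : Matrix (Fin k) (Fin k) F) ∈ B}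
  mul_mem' := by
    intro X X' hX hX' a a'
    have h : (Matrix.of fun j j' => (X * X') (a, j) (a', j') : Matrix (Fin k) (Fin k) F) =
        ∑ b : Fin d, (Matrix.of fun j j' => X (a, j) (b, j') : Matrix (Fin k) (Fin k) F) *
          (Matrix.of fun j j' => X' (b, j) (a', j') : Matrix (Fin k) (Fin k) F) := by
      ext j j'
      simp [Matrix.mul_apply, Matrix.sum_apply, Fintype.sum_prod_type]
    rw [h]
    exact Subalgebra.sum_mem _ (fun b _ => Subalgebra.mul_mem _ (hX a b) (hX' b a'))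
  add_mem' := by
    intro X X' hX hX' a a'
    have h : (Matrix.of fun j j' => (X + X') (a, j) (a', j') : Matrix (Fin k) (Fin k) F) =
        (Matrix.of fun j j' => X (a, j) (a', j') : Matrix (Fin k) (Fin k) F) +
          (Matrix.of fun j j' => X' (a, j) (a', j') : Matrix (Fin k) (Fin k) F) := by
      ext j j'
      simp
    rw [h]
    exact Subalgebra.add_mem _ (hX a a') (hX' a a')
  algebraMap_mem' := by
    intro c a a'
    by_cases haa : a = a'
    · have h : (Matrix.of fun j j' => (algebraMap F (Matrix (Fin d × Fin k) (Fin d × Fin k) F) c)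
          (a, j) (a', j') : Matrix (Fin k) (Fin k) F) = algebraMap F _ c := by
        ext j j'
        subst haa
        by_cases hj : j = j'
        · subst hj
          simp [Algebra.algebraMap_eq_smul_one]
        · simp [Algebra.algebraMap_eq_smul_one, hj]
      rw [h]
      exact Subalgebra.algebraMap_mem _ c
    · have h : (Matrix.of fun j j' => (algebraMap F (Matrix (Fin d × Fin k) (Fin d × Fin k) F) c)
          (a, j) (a', j') : Matrix (Fin k) (Fin k) F) = 0 := by
        ext j j'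
        simp [Algebra.algebraMap_eq_smul_one, haa]
      rw [h]
      exact Subalgebra.zero_mem _

theorem mem_blockAlg {d k : ℕ} (B : Subalgebra F (Matrix (Fin k) (Fin k) F))
    (X : Matrix (Fin d × Fin k) (Fin d × Fin k) F) : X ∈ blockAlg (d := d) B ↔ ∀ a a' : Fin d,
      (Matrix.of fun j j' => X (a, j) (a', j') : Matrix (Fin k) (Fin k) F) ∈ B := Iff.rfl

/-- If `G` is generated by elements acting on one of the two tensor factors, those acting on the
second factor coming from `G'`, and `G` is absolutely irreducible, then so is `G'`. -/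
theorem cp_absIrred_sub [Finite F] {d k : ℕ} (hd : 0 < d) (e : Fin n ≃ Fin d × Fin k)
    (P : GL (Fin n) F) (G : Subgroup (GL (Fin n) F)) (G' : Subgroup (GL (Fin k) F))
    (gens : Set (GL (Fin n) F)) (hgen : G = Subgroup.closure gens)
    (hgens : ∀ y ∈ gens, (∃ x : Matrix (Fin d) (Fin d) F, (y : Matrix (Fin n) (Fin n) F) =
        Helper98.conjReindex e P (x ⊗ₖ (1 : Matrix (Fin k) (Fin k) F))) ∨
      (∃ u ∈ G', y = embGL e P u))
    (habs : ActsAbsolutelyIrreducibly (matrixSet G)) :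
    ActsAbsolutelyIrreducibly (matrixSet G') := by
  classical
  apply absIrred_of_adjoin_eq_top
  obtain ⟨B, hB⟩ : ∃ B : Subalgebra F (Matrix (Fin k) (Fin k) F),
      B = Algebra.adjoin F (matrixSet G') := ⟨_, rfl⟩
  rw [← hB]
  have hfin : Finite (GL (Fin n) F) := inferInstance
  have key : ∀ g ∈ G, ∃ X ∈ blockAlg (d := d) B,
      (g : Matrix (Fin n) (Fin n) F) = Helper98.conjReindex e P X := by
    intro g hg
    rw [hgen] at hg
    induction hg using Subgroup.closure_induction with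
    | mem y hy =>
      rcases hgens y hy with ⟨x, hx⟩ | ⟨u, hu, rfl⟩
      · refine ⟨x ⊗ₖ (1 : Matrix (Fin k) (Fin k) F), ?_, hx⟩
        intro a a'
        have h : (Matrix.of fun j j' => (x ⊗ₖ (1 : Matrix (Fin k) (Fin k) F)) (a, j) (a', j') :
            Matrix (Fin k) (Fin k) F) = x a a' • (1 : Matrix (Fin k) (Fin k) F) := by
          ext j j'
          simp [Matrix.kronecker_apply]
        rw [h]
        exact Subalgebra.smul_mem _ (Subalgebra.one_mem _) _
      · refine ⟨(1 : Matrix (Fin d) (Fin d) F) ⊗ₖ (u : Matrix (Fin k) (Fin k) F), ?_, ?_⟩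
        · intro a a'
          have h : (Matrix.of fun j j' => ((1 : Matrix (Fin d) (Fin d) F) ⊗ₖ
              (u : Matrix (Fin k) (Fin k) F)) (a, j) (a', j') : Matrix (Fin k) (Fin k) F) =
              (1 : Matrix (Fin d) (Fin d) F) a a' • (u : Matrix (Fin k) (Fin k) F) := by
            ext j j'
            simp [Matrix.kronecker_apply]
          rw [h]
          apply Subalgebra.smul_mem
          rw [hB]
          exact Algebra.subset_adjoin ⟨u, hu, rfl⟩
        · rw [embGL_val, embR_apply]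
    | one =>
      exact ⟨1, Subalgebra.one_mem _, by rw [Units.val_one, map_one]⟩
    | mul a b _ _ ha hb =>
      obtain ⟨X, hX, hXa⟩ := ha
      obtain ⟨X', hX', hXb⟩ := hb
      exact ⟨X * X', Subalgebra.mul_mem _ hX hX', by rw [Units.val_mul, hXa, hXb, map_mul]⟩
    | inv a _ ha =>
      obtain ⟨X, hX, hXa⟩ := ha
      have hinv : a⁻¹ = a ^ (orderOf a - 1) := by
        have h1 : a * a ^ (orderOf a - 1) = 1 := by
          rw [← pow_succ', Nat.sub_add_cancel (orderOf_pos a), pow_orderOf_eq_one]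
        exact inv_eq_of_mul_eq_one_right h1
      refine ⟨X ^ (orderOf a - 1), Subalgebra.pow_mem _ hX _, ?_⟩
      rw [hinv, Units.val_pow_eq_pow_val, hXa, map_pow]
  have htop := adjoin_eq_top_of_absIrred (matrixSet G) habs
  have key2 : ∀ M ∈ Algebra.adjoin F (matrixSet G), ∃ X ∈ blockAlg (d := d) B,
      M = Helper98.conjReindex e P X := by
    intro M hM
    induction hM using Algebra.adjoin_induction with
    | mem s hs =>
      obtain ⟨g, hg, rfl⟩ := hs
      exact key g hg
    | algebraMap c =>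
      exact ⟨algebraMap F _ c, Subalgebra.algebraMap_mem _ c, by rw [AlgHom.commutes]⟩
    | add x y _ _ hx hy =>
      obtain ⟨X, hX, rfl⟩ := hx
      obtain ⟨X', hX', rfl⟩ := hy
      exact ⟨X + X', Subalgebra.add_mem _ hX hX', by rw [map_add]⟩
    | mul x y _ _ hx hy =>
      obtain ⟨X, hX, rfl⟩ := hx
      obtain ⟨X', hX', rfl⟩ := hy
      exact ⟨X * X', Subalgebra.mul_mem _ hX hX', by rw [map_mul]⟩
  rw [eq_top_iff]
  intro Y _
  obtain ⟨X, hX, hXY⟩ := key2 (Helper98.conjReindex e P ((1 : Matrix (Fin d) (Fin d) F) ⊗ₖ Y))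
    (by rw [htop]; exact Algebra.mem_top)
  have hXeq : X = (1 : Matrix (Fin d) (Fin d) F) ⊗ₖ Y :=
    (Helper98.conjReindex_injective e P hXY).symm
  have h1 := hX ⟨0, hd⟩ ⟨0, hd⟩
  have h2 : (Matrix.of fun j j' => X (⟨0, hd⟩, j) (⟨0, hd⟩, j') : Matrix (Fin k) (Fin k) F) = Y := by
    ext j j'
    rw [hXeq]
    simp [Matrix.kronecker_apply]
  rw [h2] at h1
  exact h1

/-- A group generated by pairwise equal-or-commuting subgroups normalises each of them. -/
theorem cp_normal {G₀ : Type*} [Group G₀] (G : Subgroup G₀) (𝒮 : Set (Subgroup G₀))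
    (hgen : G = Subgroup.closure {x | ∃ T ∈ 𝒮, x ∈ T})
    (hcomm : ∀ T ∈ 𝒮, ∀ T' ∈ 𝒮, T = T' ∨ ∀ s ∈ T, ∀ t ∈ T', s * t = t * s)
    (T : Subgroup G₀) (hT : T ∈ 𝒮) : ∀ h ∈ G, ∀ x ∈ T, h * x * h⁻¹ ∈ T := by
  have key : ∀ h ∈ G, (∀ x ∈ T, h * x * h⁻¹ ∈ T) ∧ (∀ x ∈ T, h⁻¹ * x * h ∈ T) := by
    intro h hh
    rw [hgen] at hh
    induction hh using Subgroup.closure_induction with
    | mem y hy =>
      obtain ⟨T', hT', hy'⟩ := hy
      rcases hcomm T hT T' hT' with h1 | h1
      · rw [← h1] at hy'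
        exact ⟨fun x hx => T.mul_mem (T.mul_mem hy' hx) (T.inv_mem hy'),
          fun x hx => T.mul_mem (T.mul_mem (T.inv_mem hy') hx) hy'⟩
      · constructor
        · intro x hx
          have h2 := h1 x hx y hy'
          have e : y * x * y⁻¹ = x := by rw [← h2]; group
          rw [e]; exact hx
        · intro x hx
          have h2 := h1 x hx y hy'
          have e : y⁻¹ * x * y = x := by rw [mul_assoc, h2]; group
          rw [e]; exact hx
    | one =>
      constructor
      · intro x hx; simpa using hx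
      · intro x hx; simpa using hx
    | mul a b _ _ ha hb =>
      constructor
      · intro x hx
        have : a * b * x * (a * b)⁻¹ = a * (b * x * b⁻¹) * a⁻¹ := by group
        rw [this]; exact ha.1 _ (hb.1 x hx)
      · intro x hx
        have : (a * b)⁻¹ * x * (a * b) = b⁻¹ * (a⁻¹ * x * a) * b := by group
        rw [this]; exact hb.2 _ (ha.2 x hx)
    | inv a _ ha =>
      constructor
      · intro x hx
        have := ha.2 x hx
        rwa [inv_inv]
      · intro x hx
        have := ha.1 x hx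
        rwa [inv_inv]
  exact fun h hh => (key h hh).1

/-- The centre of the centraliser of a factor consists of scalars. -/
theorem cp_zcent (G : Subgroup (GL (Fin n) F)) (𝒮 : Set (Subgroup (GL (Fin n) F)))
    (hgen : G = Subgroup.closure {x | ∃ T ∈ 𝒮, x ∈ T})
    (hcomm : ∀ T ∈ 𝒮, ∀ T' ∈ 𝒮, T = T' ∨ ∀ s ∈ T, ∀ t ∈ T', s * t = t * s)
    (habs : ActsAbsolutelyIrreducibly (matrixSet G))
    (T : Subgroup (GL (Fin n) F)) (hT : T ∈ 𝒮) :
    ∀ K, ZCent (matrixSet T) K → ∃ c : F, K = c • (1 : Matrix (Fin n) (Fin n) F) := by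
  intro K hK
  apply habs.2
  have hyc : ∀ T' ∈ 𝒮, ∀ y ∈ T',
      K * (y : Matrix (Fin n) (Fin n) F) = (y : Matrix (Fin n) (Fin n) F) * K := by
    intro T' hT' y hy
    rcases hcomm T hT T' hT' with h1 | h1
    · rw [← h1] at hy
      exact hK.1 _ (Helper97.coe_mem_matrixSet hy)
    · apply hK.2
      rintro _ ⟨s', hs', rfl⟩
      rw [← Units.val_mul, ← Units.val_mul, h1 s' hs' y hy]
  have key : ∀ x ∈ Subgroup.closure {x | ∃ T' ∈ 𝒮, x ∈ T'},
      K * (x : Matrix (Fin n) (Fin n) F) = (x : Matrix (Fin n) (Fin n) F) * K ∧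
      K * ((x⁻¹ : GL (Fin n) F) : Matrix (Fin n) (Fin n) F) =
        ((x⁻¹ : GL (Fin n) F) : Matrix (Fin n) (Fin n) F) * K := by
    intro x hx
    induction hx using Subgroup.closure_induction with
    | mem y hy =>
      obtain ⟨T', hT', hy'⟩ := hy
      exact ⟨hyc T' hT' y hy', hyc T' hT' y⁻¹ (Subgroup.inv_mem _ hy')⟩
    | one =>
      rw [inv_one, Units.val_one, mul_one, one_mul]
      exact ⟨rfl, rfl⟩
    | mul y z _ _ hy hz =>
      rw [_root_.mul_inv_rev, Units.val_mul, Units.val_mul]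
      constructor
      · rw [← mul_assoc, hy.1, mul_assoc, hz.1, ← mul_assoc]
      · rw [← mul_assoc, hz.2, mul_assoc, hy.2, ← mul_assoc]
    | inv y _ hy =>
      rw [inv_inv]
      exact ⟨hy.2, hy.1⟩
  rintro _ ⟨x, hx, rfl⟩
  exact (key x (by rw [← hgen]; exact hx)).1

open scoped commutatorElement in
/-- A perfect tensor factor has determinant one in its coordinates. -/
theorem cp_det_one {T : Subgroup (GL (Fin n) F)} {d k : ℕ} {e : Fin n ≃ Fin d × Fin k}
    {P : GL (Fin n) F} {ρ : Matrix (Fin n) (Fin n) F → Matrix (Fin d) (Fin d) F}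
    (D : TensorData T d k e P ρ) (hperf : ⁅T, T⁆ = T) :
    ∀ x ∈ T, (ρ (x : Matrix (Fin n) (Fin n) F)).det = 1 := by
  have hρmul : ∀ s ∈ matrixSet T, ∀ t ∈ matrixSet T, ρ (s * t) = ρ s * ρ t := by
    intro s hs t ht
    have hst : s * t ∈ matrixSet T := by
      obtain ⟨s', hs', rfl⟩ := hs
      obtain ⟨t', ht', rfl⟩ := ht
      exact ⟨s' * t', T.mul_mem hs' ht', Units.val_mul _ _⟩
    apply kron_one_injective D.hk
    apply Helper98.conjReindex_injective e P
    have h1 : (ρ s * ρ t) ⊗ₖ (1 : Matrix (Fin k) (Fin k) F) = (ρ s ⊗ₖ 1) * (ρ t ⊗ₖ 1) := by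
      rw [← Matrix.mul_kronecker_mul, mul_one]
    rw [← D.eq _ hst, h1, map_mul, ← D.eq s hs, ← D.eq t ht]
  have hρone : ρ 1 = 1 := by
    have h1 : (1 : Matrix (Fin n) (Fin n) F) ∈ matrixSet T := ⟨1, T.one_mem, Units.val_one⟩
    apply kron_one_injective D.hk
    apply Helper98.conjReindex_injective e P
    rw [← D.eq _ h1, Matrix.one_kronecker_one, map_one]
  have hmem : ∀ x ∈ T, (x : Matrix (Fin n) (Fin n) F) ∈ matrixSet T := fun x hx => ⟨x, hx, rfl⟩
  have hdetinv : ∀ x ∈ T, (ρ (x : Matrix (Fin n) (Fin n) F)).det *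
      (ρ ((x⁻¹ : GL (Fin n) F) : Matrix (Fin n) (Fin n) F)).det = 1 := by
    intro x hx
    rw [← Matrix.det_mul, ← hρmul _ (hmem x hx) _ (hmem _ (T.inv_mem hx)), ← Units.val_mul,
      mul_inv_cancel, Units.val_one, hρone, Matrix.det_one]
  have key : ∀ y ∈ Subgroup.closure {g | ∃ a ∈ T, ∃ b ∈ T, ⁅a, b⁆ = g},
      y ∈ T ∧ (ρ (y : Matrix (Fin n) (Fin n) F)).det = 1 := by
    intro y hy
    induction hy using Subgroup.closure_induction with
    | mem g hg =>
      obtain ⟨a, ha, b, hb, rfl⟩ := hg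
      have hab : a * b ∈ T := T.mul_mem ha hb
      have haba : a * b * a⁻¹ ∈ T := T.mul_mem hab (T.inv_mem ha)
      refine ⟨by rw [commutatorElement_def]; exact T.mul_mem haba (T.inv_mem hb), ?_⟩
      rw [commutatorElement_def, Units.val_mul, hρmul _ (hmem _ haba) _ (hmem _ (T.inv_mem hb)),
        Units.val_mul, hρmul _ (hmem _ hab) _ (hmem _ (T.inv_mem ha)), Units.val_mul,
        hρmul _ (hmem _ ha) _ (hmem _ hb), Matrix.det_mul, Matrix.det_mul, Matrix.det_mul]
      have h1 := hdetinv a ha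
      have h2 := hdetinv b hb
      calc (ρ (a : Matrix (Fin n) (Fin n) F)).det * (ρ (b : Matrix (Fin n) (Fin n) F)).det *
            (ρ ((a⁻¹ : GL (Fin n) F) : Matrix (Fin n) (Fin n) F)).det *
            (ρ ((b⁻¹ : GL (Fin n) F) : Matrix (Fin n) (Fin n) F)).det
          = ((ρ (a : Matrix (Fin n) (Fin n) F)).det *
              (ρ ((a⁻¹ : GL (Fin n) F) : Matrix (Fin n) (Fin n) F)).det) *
            ((ρ (b : Matrix (Fin n) (Fin n) F)).det *
              (ρ ((b⁻¹ : GL (Fin n) F) : Matrix (Fin n) (Fin n) F)).det) := by ring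
        _ = 1 := by rw [h1, h2, one_mul]
    | one => exact ⟨T.one_mem, by rw [Units.val_one, hρone, Matrix.det_one]⟩
    | mul a b _ _ ha hb =>
      refine ⟨T.mul_mem ha.1 hb.1, ?_⟩
      rw [Units.val_mul, hρmul _ (hmem _ ha.1) _ (hmem _ hb.1), Matrix.det_mul, ha.2, hb.2, one_mul]
    | inv a _ ha =>
      refine ⟨T.inv_mem ha.1, ?_⟩
      have := hdetinv a ha.1
      rw [ha.2, one_mul] at this
      exact this
  intro x hx
  have hx' : x ∈ ⁅T, T⁆ := by rw [hperf]; exact hx
  rw [Subgroup.commutator_def] at hx'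
  exact (key x hx').2

/-- A group generated by perfect, pairwise equal-or-commuting subgroups whose enveloping algebras
are four-dimensional, acting absolutely irreducibly, fixes a non-zero bilinear form. -/
theorem cp_form [Fintype F] : ∀ (n : ℕ) (G : Subgroup (GL (Fin n) F))
    (𝒮 : Set (Subgroup (GL (Fin n) F))),
    G = Subgroup.closure {x | ∃ T ∈ 𝒮, x ∈ T} →
    (∀ T ∈ 𝒮, ⁅T, T⁆ = T) →
    (∀ T ∈ 𝒮, ∀ T' ∈ 𝒮, T = T' ∨ ∀ s ∈ T, ∀ t ∈ T', s * t = t * s) →
    (∀ T ∈ 𝒮, Module.finrank F (Algebra.adjoin F (matrixSet T)) = 4) →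
    ActsAbsolutelyIrreducibly (matrixSet G) → 𝒮.Nonempty →
    ∃ M : Matrix (Fin n) (Fin n) F, M ≠ 0 ∧
      ∀ g ∈ G, (g : Matrix (Fin n) (Fin n) F)ᵀ * M * (g : Matrix (Fin n) (Fin n) F) = M := by
  intro n
  induction n using Nat.strong_induction_on with
  | _ n ih =>
    intro G 𝒮 hgen hperf hcomm hdim habs hne
    classical
    obtain ⟨T, hT⟩ := hne
    have hn : 0 < n := by
      by_contra h0
      have hn0 : n = 0 := by omega
      subst hn0
      have h1 := hdim T hT
      have h2 : Module.finrank F (Algebra.adjoin F (matrixSet T)) ≤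
          Module.finrank F (Matrix (Fin 0) (Fin 0) F) := by
        rw [← Subalgebra.finrank_toSubmodule]
        exact Submodule.finrank_le _
      rw [Module.finrank_matrix, Fintype.card_fin] at h2
      omega
    have hnz : NeZero n := ⟨hn.ne'⟩
    have hGT := cp_normal G 𝒮 hgen hcomm T hT
    have hsc := cp_zcent G 𝒮 hgen hcomm habs T hT
    obtain ⟨d, k, e, P, ρ, D⟩ := tensorData_of_zcent_scalar hn G T habs.1 hGT hsc
    have hd2 : d = 2 := by
      have h1 := D.finrank_adjoin
      rw [hdim T hT] at h1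
      have h2 : d ≤ 2 := by nlinarith
      interval_cases d <;> omega
    subst hd2
    have hnk : 2 * k = n := D.card_eq
    have hk := D.hk
    have hdet := cp_det_one D (hperf T hT)
    have hrange : ∀ T' ∈ 𝒮, T' ≠ T → T' ≤ (embGL e P).range := by
      intro T' hT' hne t ht
      apply mem_range_embGL D
      intro s hs
      rcases hcomm T hT T' hT' with h1 | h1
      · exact absurd h1.symm hne
      · exact (h1 s hs t ht).symm
    have hMk : ∃ Mk : Matrix (Fin k) (Fin k) F, Mk ≠ 0 ∧ ∀ T' ∈ 𝒮, T' ≠ T →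
        ∀ u ∈ T'.comap (embGL e P),
          (u : Matrix (Fin k) (Fin k) F)ᵀ * Mk * (u : Matrix (Fin k) (Fin k) F) = Mk := by
      by_cases hex : ∃ T' ∈ 𝒮, T' ≠ T
      · obtain ⟨𝒮', h𝒮'⟩ : ∃ 𝒮' : Set (Subgroup (GL (Fin k) F)),
            𝒮' = {T'' | ∃ T' ∈ 𝒮, T' ≠ T ∧ T'' = T'.comap (embGL e P)} := ⟨_, rfl⟩
        obtain ⟨G', hG'⟩ : ∃ G' : Subgroup (GL (Fin k) F),
            G' = Subgroup.closure {x | ∃ T'' ∈ 𝒮', x ∈ T''} := ⟨_, rfl⟩
        have hinj := embGL_injective (F := F) e P (by norm_num : 0 < 2)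
        have hmapcomap : ∀ T' ∈ 𝒮, T' ≠ T → (T'.comap (embGL e P)).map (embGL e P) = T' :=
          fun T' hT' hne => Subgroup.map_comap_eq_self (hrange T' hT' hne)
        have hsub : ∀ T' ∈ 𝒮, T' ≠ T → T'.comap (embGL e P) ≤ G' := by
          intro T' hT' hne u hu
          rw [hG']
          exact Subgroup.subset_closure ⟨T'.comap (embGL e P), by rw [h𝒮']; exact ⟨T', hT', hne, rfl⟩, hu⟩
        have hperf' : ∀ T'' ∈ 𝒮', ⁅T'', T''⁆ = T'' := by
          intro T'' hT''
          rw [h𝒮'] at hT''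
          obtain ⟨T', hT', hne, rfl⟩ := hT''
          apply Subgroup.map_injective hinj
          rw [Subgroup.map_commutator, hmapcomap T' hT' hne, hperf T' hT']
        have hcomm' : ∀ T₁ ∈ 𝒮', ∀ T₂ ∈ 𝒮', T₁ = T₂ ∨ ∀ s ∈ T₁, ∀ t ∈ T₂, s * t = t * s := by
          intro T₁ hT₁ T₂ hT₂
          rw [h𝒮'] at hT₁ hT₂
          obtain ⟨T₁', hT₁', hne₁, rfl⟩ := hT₁
          obtain ⟨T₂', hT₂', hne₂, rfl⟩ := hT₂
          rcases hcomm T₁' hT₁' T₂' hT₂' with h1 | h1
          · left; rw [h1]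
          · right
            intro s hs t ht
            apply hinj
            rw [map_mul, map_mul]
            exact h1 _ hs _ ht
        have hdim' : ∀ T'' ∈ 𝒮', Module.finrank F (Algebra.adjoin F (matrixSet T'')) = 4 := by
          intro T'' hT''
          rw [h𝒮'] at hT''
          obtain ⟨T', hT', hne, rfl⟩ := hT''
          rw [← hdim T' hT']
          have hset : matrixSet T' = (embR e P) '' matrixSet (T'.comap (embGL e P)) := by
            ext s
            constructor
            · rintro ⟨t, ht, rfl⟩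
              obtain ⟨u, rfl⟩ := hrange T' hT' hne ht
              exact ⟨(u : Matrix (Fin k) (Fin k) F), ⟨u, ht, rfl⟩, rfl⟩
            · rintro ⟨_, ⟨u, hu, rfl⟩, rfl⟩
              exact ⟨embGL e P u, hu, rfl⟩
          rw [hset, ← AlgHom.map_adjoin, ← Subalgebra.finrank_toSubmodule,
            ← Subalgebra.finrank_toSubmodule, Subalgebra.map_toSubmodule]
          exact (Submodule.equivMapOfInjective (embR e P).toLinearMap
            (embR_injective e P (by norm_num)) _).finrank_eq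
        have habs' : ActsAbsolutelyIrreducibly (matrixSet G') := by
          apply cp_absIrred_sub (by norm_num : 0 < 2) e P G G' _ hgen _ habs
          rintro y ⟨T', hT', hy⟩
          by_cases hTT : T' = T
          · left
            rw [hTT] at hy
            exact ⟨ρ (y : Matrix (Fin n) (Fin n) F), D.eq _ ⟨y, hy, rfl⟩⟩
          · right
            obtain ⟨u, rfl⟩ := hrange T' hT' hTT hy
            exact ⟨u, hsub T' hT' hTT hy, rfl⟩
        have hne' : 𝒮'.Nonempty := by
          obtain ⟨T', hT', hne⟩ := hex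
          exact ⟨T'.comap (embGL e P), by rw [h𝒮']; exact ⟨T', hT', hne, rfl⟩⟩
        obtain ⟨Mk, hMk0, hMkfix⟩ := ih k (by omega) G' 𝒮' hG' hperf' hcomm' hdim' habs' hne'
        exact ⟨Mk, hMk0, fun T' hT' hne u hu => hMkfix u (hsub T' hT' hne hu)⟩
      · have hnek : Nonempty (Fin k) := ⟨⟨0, hk⟩⟩
        refine ⟨1, one_ne_zero, ?_⟩
        intro T' hT' hne
        exact absurd ⟨T', hT', hne⟩ hex
    obtain ⟨Mk, hMk0, hMkfix⟩ := hMk
    refine ⟨formOf e P (J2 F ⊗ₖ Mk), formOf_ne_zero e P _ ?_, ?_⟩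
    · obtain ⟨i, j, hij⟩ : ∃ i j, Mk i j ≠ 0 := by
        by_contra hcon
        apply hMk0
        ext i j
        by_contra h
        exact hcon ⟨i, j, h⟩
      intro h0
      have h1 := congrFun (congrFun h0 (0, i)) (1, j)
      rw [Matrix.kronecker_apply] at h1
      simp [J2] at h1
      exact hij h1
    · intro g hg
      rw [hgen] at hg
      induction hg using Subgroup.closure_induction with
      | mem y hy =>
        obtain ⟨T', hT', hy'⟩ := hy
        by_cases hTT : T' = T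
        · rw [hTT] at hy'
          have hs : (y : Matrix (Fin n) (Fin n) F) ∈ matrixSet T := ⟨y, hy', rfl⟩
          rw [D.eq _ hs]
          apply formOf_fix
          exact kron_form_fix (ρ (y : Matrix (Fin n) (Fin n) F)) (1 : Matrix (Fin k) (Fin k) F) Mk
            (hdet y hy') (by rw [Matrix.transpose_one, Matrix.one_mul, Matrix.mul_one])
        · obtain ⟨u, rfl⟩ := hrange T' hT' hTT hy'
          have hu : u ∈ T'.comap (embGL e P) := hy'
          rw [embGL_val, embR_apply]
          apply formOf_fix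
          exact kron_form_fix 1 (u : Matrix (Fin k) (Fin k) F) Mk Matrix.det_one
            (hMkfix T' hT' hTT u hu)
      | one => rw [Units.val_one, Matrix.transpose_one, Matrix.one_mul, Matrix.mul_one]
      | mul a b _ _ ha hb =>
        rw [Units.val_mul, Matrix.transpose_mul]
        calc (b : Matrix (Fin n) (Fin n) F)ᵀ * (a : Matrix (Fin n) (Fin n) F)ᵀ *
              formOf e P (J2 F ⊗ₖ Mk) * ((a : Matrix (Fin n) (Fin n) F) * (b : Matrix (Fin n) (Fin n) F))
            = (b : Matrix (Fin n) (Fin n) F)ᵀ * ((a : Matrix (Fin n) (Fin n) F)ᵀ *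
              formOf e P (J2 F ⊗ₖ Mk) * (a : Matrix (Fin n) (Fin n) F)) *
                (b : Matrix (Fin n) (Fin n) F) := by simp only [Matrix.mul_assoc]
          _ = formOf e P (J2 F ⊗ₖ Mk) := by rw [ha, hb]
      | inv a _ ha =>
        have hai : (a : Matrix (Fin n) (Fin n) F) * ((a⁻¹ : GL (Fin n) F) : Matrix (Fin n) (Fin n) F) = 1 := by
          rw [← Units.val_mul, mul_inv_cancel, Units.val_one]
        calc ((a⁻¹ : GL (Fin n) F) : Matrix (Fin n) (Fin n) F)ᵀ * formOf e P (J2 F ⊗ₖ Mk) *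
              ((a⁻¹ : GL (Fin n) F) : Matrix (Fin n) (Fin n) F)
            = ((a⁻¹ : GL (Fin n) F) : Matrix (Fin n) (Fin n) F)ᵀ * ((a : Matrix (Fin n) (Fin n) F)ᵀ *
              formOf e P (J2 F ⊗ₖ Mk) * (a : Matrix (Fin n) (Fin n) F)) *
              ((a⁻¹ : GL (Fin n) F) : Matrix (Fin n) (Fin n) F) := by rw [ha]
          _ = (((a : Matrix (Fin n) (Fin n) F) * ((a⁻¹ : GL (Fin n) F) : Matrix (Fin n) (Fin n) F))ᵀ) *
              formOf e P (J2 F ⊗ₖ Mk) * ((a : Matrix (Fin n) (Fin n) F) *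
              ((a⁻¹ : GL (Fin n) F) : Matrix (Fin n) (Fin n) F)) := by
            rw [Matrix.transpose_mul]
            simp only [Matrix.mul_assoc]
          _ = formOf e P (J2 F ⊗ₖ Mk) := by
            rw [hai, Matrix.transpose_one, Matrix.one_mul, Matrix.mul_one]

end Cfsg.Agent.Helper96
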