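-- helper96 library: similarity groups from a matrix identity; the tensor product of two planes.
import Cfsg.Agent.Helper96.CPForm

set_option autoImplicit false
open Cfsg Cfsg.Geo Matrix
open scoped Kronecker

namespace Cfsg.Agent.Helper96

variable {F : Type*} [Field F] {n : ℕ}

theorem bf_sim (M g : Matrix (Fin n) (Fin n) F) (c : F) (h : gᵀ * M * g = c • M) (u v : Fin n → F) :
    bf M (g *ᵥ u) (g *ᵥ v) = c * bf M u v := by
  have h1 : bf M (g *ᵥ u) (g *ᵥ v) = bf (gᵀ * M * g) u v := by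
    rw [bf_apply, bf_apply, ← Matrix.mulVec_mulVec, ← Matrix.mulVec_mulVec, Matrix.dotProduct_mulVec u,
      Matrix.vecMul_transpose]
  rw [h1, h, bf_apply, bf_apply, Matrix.smul_mulVec, dotProduct_smul, smul_eq_mul]

theorem bf_transpose (V : Matrix (Fin n) (Fin n) F) (u v : Fin n → F) : bf Vᵀ u v = bf V v u := by
  rw [bf_apply, bf_apply, Matrix.mulVec_transpose, Matrix.dotProduct_mulVec v, dotProduct_comm]

theorem bf_add (V W : Matrix (Fin n) (Fin n) F) (u v : Fin n → F) :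
    bf (V + W) u v = bf V u v + bf W u v := by
  rw [bf_apply, bf_apply, bf_apply, Matrix.add_mulVec, dotProduct_add]

/-- A group of similarities of a non-degenerate matrix of the shape `V + Vᵀ` lies in the similarity
group of a quadratic form (odd characteristic) or of a symplectic form (characteristic two). -/
theorem sim_form_le [Fintype F] {p : ℕ} [Fact p.Prime] [CharP F p] [NeZero n]
    (H : Subgroup (GL (Fin n) F)) (M V : Matrix (Fin n) (Fin n) F) (hMV : M = V + Vᵀ)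
    (hrad : ∀ v : Fin n → F, v ≠ 0 → M *ᵥ v ≠ 0)
    (hsim : ∀ g ∈ H, ∃ c : F,
      (g : Matrix (Fin n) (Fin n) F)ᵀ * M * (g : Matrix (Fin n) (Fin n) F) = c • M) :
    (Odd (Fintype.card F) ∧ ∃ Q : (Fin n → F) → F, IsNondegenerateQuadraticForm Q ∧
      H ≤ quadSimilarityGroup Q) ∨
    (∃ f : (Fin n → F) → (Fin n → F) → F, IsSymplecticForm f ∧ H ≤ similarityGroup f) := by
  classical
  have hp := (Fact.out : p.Prime)
  have hbil := bf_bilinear M
  have hswap : ∀ u v, bf M u v = bf M v u := by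
    intro u v
    rw [hMV, bf_add, bf_add, bf_transpose, bf_transpose, add_comm]
  have hself : ∀ v, bf M v v = 2 * bf V v v := by
    intro v
    rw [hMV, bf_add, bf_transpose]
    ring
  have hM0 : M ≠ 0 := by
    intro h
    obtain ⟨e₀, he₀⟩ : ∃ e₀ : Fin n → F, e₀ = Pi.single 0 1 := ⟨_, rfl⟩
    have h1 : e₀ ≠ 0 := by
      intro h2
      have := congrFun h2 0
      rw [he₀] at this
      simp at this
    apply hrad e₀ h1
    rw [h, Matrix.zero_mulVec]
  have hunit : ∀ g ∈ H, ∃ c : Fˣ,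
      (g : Matrix (Fin n) (Fin n) F)ᵀ * M * (g : Matrix (Fin n) (Fin n) F) = (c : F) • M := by
    intro g hg
    obtain ⟨c, hc⟩ := hsim g hg
    have hc0 : c ≠ 0 := by
      intro h0
      rw [h0, zero_smul] at hc
      apply hM0
      have hgi : (g : Matrix (Fin n) (Fin n) F) * ((g⁻¹ : GL (Fin n) F) : Matrix (Fin n) (Fin n) F) = 1 := by
        rw [← Units.val_mul, mul_inv_cancel, Units.val_one]
      have hgt : ((g⁻¹ : GL (Fin n) F) : Matrix (Fin n) (Fin n) F)ᵀ * (g : Matrix (Fin n) (Fin n) F)ᵀ = 1 := by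
        rw [← Matrix.transpose_mul, hgi, Matrix.transpose_one]
      calc M = (((g⁻¹ : GL (Fin n) F) : Matrix (Fin n) (Fin n) F)ᵀ * (g : Matrix (Fin n) (Fin n) F)ᵀ) * M *
            ((g : Matrix (Fin n) (Fin n) F) * ((g⁻¹ : GL (Fin n) F) : Matrix (Fin n) (Fin n) F)) := by
              rw [hgt, hgi, Matrix.one_mul, Matrix.mul_one]
        _ = ((g⁻¹ : GL (Fin n) F) : Matrix (Fin n) (Fin n) F)ᵀ *
            ((g : Matrix (Fin n) (Fin n) F)ᵀ * M * (g : Matrix (Fin n) (Fin n) F)) *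
            ((g⁻¹ : GL (Fin n) F) : Matrix (Fin n) (Fin n) F) := by simp only [Matrix.mul_assoc]
        _ = 0 := by rw [hc, Matrix.mul_zero, Matrix.zero_mul]
    exact ⟨Units.mk0 c hc0, hc⟩
  have hnd1 : ∀ v : Fin n → F, v ≠ 0 → ∃ x, bf M x v ≠ 0 := by
    intro v hv
    have h := hrad v hv
    obtain ⟨i, hi⟩ : ∃ i, (M *ᵥ v) i ≠ 0 := by
      by_contra hcon
      apply h
      funext i
      by_contra hi
      exact hcon ⟨i, hi⟩
    exact ⟨Pi.single i 1, by rw [bf_single_left]; exact hi⟩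
  by_cases h2 : (2 : F) = 0
  · right
    have hneg : ∀ x : F, -x = x := by
      intro x
      have : x + x = 0 := by rw [← two_mul, h2, zero_mul]
      exact neg_eq_of_add_eq_zero_left this
    refine ⟨bf M, ⟨hbil, fun u v => by rw [hneg]; exact hswap u v, fun v => by rw [hself, h2, zero_mul],
      ?_⟩, ?_⟩
    · intro v hv
      obtain ⟨x, hx⟩ := hnd1 v hv
      exact ⟨⟨x, hx⟩, ⟨x, by rw [hswap]; exact hx⟩⟩
    · intro g hg
      obtain ⟨c, hc⟩ := hunit g hg
      exact ⟨c, fun u v => bf_sim M _ _ hc u v⟩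
  · left
    constructor
    · obtain ⟨e, -, hcard⟩ := FiniteField.card F p
      rw [hcard]
      apply Odd.pow
      rcases hp.eq_two_or_odd' with h | h
      · exfalso
        apply h2
        have h3 := CharP.cast_eq_zero F p
        rw [h] at h3
        exact_mod_cast h3
      · exact h
    obtain ⟨Q, hQ⟩ : ∃ Q : (Fin n → F) → F, ∀ v, Q v = bf M v v := ⟨_, fun _ => rfl⟩
    have hpol : ∀ u v, QuadraticMap.polar Q u v = 2 * bf M u v := by
      intro u v
      rw [QuadraticMap.polar, hQ, hQ, hQ, hbil.add_left, hbil.add_right, hbil.add_right, hswap v u]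
      ring
    refine ⟨Q, ⟨?_, ⟨?_, ?_, ?_, ?_⟩, ?_⟩, ?_⟩
    · intro c v
      rw [hQ, hQ, hbil.smul_left, hbil.smul_right]
      ring
    · intro x y v
      rw [hpol, hpol, hpol, hbil.add_left]
      ring
    · intro c x v
      rw [hpol, hpol, hbil.smul_left]
      ring
    · intro v x y
      rw [hpol, hpol, hpol, hbil.add_right]
      ring
    · intro c v x
      rw [hpol, hpol, hbil.smul_right]
      ring
    · intro v hv
      obtain ⟨x, hx⟩ := hnd1 v hv
      refine ⟨⟨x, ?_⟩, ⟨x, ?_⟩⟩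
      · rw [hpol]
        exact mul_ne_zero h2 hx
      · rw [hpol, hswap]
        exact mul_ne_zero h2 hx
    · intro g hg
      obtain ⟨c, hc⟩ := hunit g hg
      exact ⟨c, fun v => by rw [hQ, hQ, bf_sim M _ _ hc]⟩

theorem reindex_transpose {κ : Type} [Fintype κ] [DecidableEq κ] (e : Fin n ≃ κ) (X : Matrix κ κ F) :
    (Matrix.reindexAlgEquiv F F e.symm X)ᵀ = Matrix.reindexAlgEquiv F F e.symm Xᵀ := by
  ext i j
  simp [Matrix.coe_reindexAlgEquiv, Matrix.reindex_apply]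

theorem formOf_transpose {κ : Type} [Fintype κ] [DecidableEq κ] (e : Fin n ≃ κ) (P : GL (Fin n) F)
    (X₀ : Matrix κ κ F) : (formOf e P X₀)ᵀ = formOf e P X₀ᵀ := by
  rw [formOf, formOf, Matrix.transpose_mul, Matrix.transpose_mul, Matrix.transpose_transpose,
    reindex_transpose, Matrix.mul_assoc]

theorem formOf_add {κ : Type} [Fintype κ] [DecidableEq κ] (e : Fin n ≃ κ) (P : GL (Fin n) F)
    (X Y : Matrix κ κ F) : formOf e P (X + Y) = formOf e P X + formOf e P Y := by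
  rw [formOf, formOf, formOf, map_add, Matrix.mul_add, Matrix.add_mul]

theorem formOf_conj {κ : Type} [Fintype κ] [DecidableEq κ] (e : Fin n ≃ κ) (P : GL (Fin n) F)
    (X₀ : Matrix κ κ F) :
    (P : Matrix (Fin n) (Fin n) F)ᵀ * formOf e P X₀ * (P : Matrix (Fin n) (Fin n) F) =
      Matrix.reindexAlgEquiv F F e.symm X₀ := by
  have hPt : (P : Matrix (Fin n) (Fin n) F)ᵀ * ((P⁻¹ : GL (Fin n) F) : Matrix (Fin n) (Fin n) F)ᵀ = 1 := by
    rw [← Matrix.transpose_mul, ← Units.val_mul, inv_mul_cancel, Units.val_one, Matrix.transpose_one]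
  rw [formOf]
  calc (P : Matrix (Fin n) (Fin n) F)ᵀ * (((P⁻¹ : GL (Fin n) F) : Matrix (Fin n) (Fin n) F)ᵀ *
        Matrix.reindexAlgEquiv F F e.symm X₀ * ((P⁻¹ : GL (Fin n) F) : Matrix (Fin n) (Fin n) F)) *
        (P : Matrix (Fin n) (Fin n) F)
      = ((P : Matrix (Fin n) (Fin n) F)ᵀ * ((P⁻¹ : GL (Fin n) F) : Matrix (Fin n) (Fin n) F)ᵀ) *
        Matrix.reindexAlgEquiv F F e.symm X₀ * (((P⁻¹ : GL (Fin n) F) : Matrix (Fin n) (Fin n) F) *
        (P : Matrix (Fin n) (Fin n) F)) := by simp only [Matrix.mul_assoc]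
    _ = Matrix.reindexAlgEquiv F F e.symm X₀ := by
      rw [hPt, ← Units.val_mul, inv_mul_cancel, Units.val_one, Matrix.one_mul, Matrix.mul_one]

theorem formOf_sim {κ : Type} [Fintype κ] [DecidableEq κ] (e : Fin n ≃ κ) (P : GL (Fin n) F)
    (X₀ X : Matrix κ κ F) (c : F) (h : Xᵀ * X₀ * X = c • X₀) :
    (Helper98.conjReindex e P X)ᵀ * formOf e P X₀ * Helper98.conjReindex e P X = c • formOf e P X₀ := by
  have hPi : ((P⁻¹ : GL (Fin n) F) : Matrix (Fin n) (Fin n) F) * (P : Matrix (Fin n) (Fin n) F) = 1 := by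
    rw [← Units.val_mul, inv_mul_cancel, Units.val_one]
  have hPt : (P : Matrix (Fin n) (Fin n) F)ᵀ * ((P⁻¹ : GL (Fin n) F) : Matrix (Fin n) (Fin n) F)ᵀ = 1 := by
    rw [← Matrix.transpose_mul, hPi, Matrix.transpose_one]
  rw [Helper98.conjReindex_apply, formOf, Matrix.transpose_mul, Matrix.transpose_mul, reindex_transpose]
  calc ((P⁻¹ : GL (Fin n) F) : Matrix (Fin n) (Fin n) F)ᵀ *
        (Matrix.reindexAlgEquiv F F e.symm Xᵀ * (P : Matrix (Fin n) (Fin n) F)ᵀ) *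
        (((P⁻¹ : GL (Fin n) F) : Matrix (Fin n) (Fin n) F)ᵀ * Matrix.reindexAlgEquiv F F e.symm X₀ *
          ((P⁻¹ : GL (Fin n) F) : Matrix (Fin n) (Fin n) F)) *
        ((P : Matrix (Fin n) (Fin n) F) * Matrix.reindexAlgEquiv F F e.symm X *
          ((P⁻¹ : GL (Fin n) F) : Matrix (Fin n) (Fin n) F))
      = ((P⁻¹ : GL (Fin n) F) : Matrix (Fin n) (Fin n) F)ᵀ * Matrix.reindexAlgEquiv F F e.symm Xᵀ *
        ((P : Matrix (Fin n) (Fin n) F)ᵀ * ((P⁻¹ : GL (Fin n) F) : Matrix (Fin n) (Fin n) F)ᵀ) *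
        Matrix.reindexAlgEquiv F F e.symm X₀ *
        (((P⁻¹ : GL (Fin n) F) : Matrix (Fin n) (Fin n) F) * (P : Matrix (Fin n) (Fin n) F)) *
        Matrix.reindexAlgEquiv F F e.symm X *
          ((P⁻¹ : GL (Fin n) F) : Matrix (Fin n) (Fin n) F) := by
        simp only [Matrix.mul_assoc]
    _ = ((P⁻¹ : GL (Fin n) F) : Matrix (Fin n) (Fin n) F)ᵀ *
        (Matrix.reindexAlgEquiv F F e.symm Xᵀ * Matrix.reindexAlgEquiv F F e.symm X₀ *
        Matrix.reindexAlgEquiv F F e.symm X) *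
          ((P⁻¹ : GL (Fin n) F) : Matrix (Fin n) (Fin n) F) := by
        rw [hPt, hPi]
        simp only [Matrix.mul_assoc, Matrix.mul_one, Matrix.one_mul]
    _ = c • (((P⁻¹ : GL (Fin n) F) : Matrix (Fin n) (Fin n) F)ᵀ * Matrix.reindexAlgEquiv F F e.symm X₀ *
        ((P⁻¹ : GL (Fin n) F) : Matrix (Fin n) (Fin n) F)) := by
        rw [← map_mul, ← map_mul, h, map_smul, Matrix.mul_smul, Matrix.smul_mul]

/-- A transported form with an invertible Gram matrix is non-degenerate. -/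
theorem formOf_rad {κ : Type} [Fintype κ] [DecidableEq κ] (e : Fin n ≃ κ) (P : GL (Fin n) F)
    (X₀ Y₀ : Matrix κ κ F) (hY : Y₀ * X₀ = 1) (v : Fin n → F) (hv : v ≠ 0) :
    formOf e P X₀ *ᵥ v ≠ 0 := by
  intro h0
  apply hv
  obtain ⟨w, hw⟩ : ∃ w : Fin n → F, w = ((P⁻¹ : GL (Fin n) F) : Matrix (Fin n) (Fin n) F) *ᵥ v := ⟨_, rfl⟩
  have hvw : v = (P : Matrix (Fin n) (Fin n) F) *ᵥ w := by
    rw [hw, Matrix.mulVec_mulVec, ← Units.val_mul, mul_inv_cancel, Units.val_one, Matrix.one_mulVec]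
  have h1 : Matrix.reindexAlgEquiv F F e.symm X₀ *ᵥ w = 0 := by
    rw [← formOf_conj e P X₀, ← Matrix.mulVec_mulVec, ← hvw, ← Matrix.mulVec_mulVec, h0,
      Matrix.mulVec_zero]
  have h2 : w = 0 := by
    have h3 : Matrix.reindexAlgEquiv F F e.symm Y₀ *ᵥ (Matrix.reindexAlgEquiv F F e.symm X₀ *ᵥ w) = w := by
      rw [Matrix.mulVec_mulVec, ← map_mul, hY, map_one, Matrix.one_mulVec]
    rw [h1, Matrix.mulVec_zero] at h3
    exact h3.symm
  rw [hvw, h2, Matrix.mulVec_zero]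

theorem kron_transpose {k l : ℕ} (x : Matrix (Fin k) (Fin k) F) (y : Matrix (Fin l) (Fin l) F) :
    (x ⊗ₖ y)ᵀ = xᵀ ⊗ₖ yᵀ := by
  ext ⟨a, j⟩ ⟨a', j'⟩
  simp [Matrix.kronecker_apply]

theorem kron_neg_right {k l : ℕ} (x : Matrix (Fin k) (Fin k) F) (y : Matrix (Fin l) (Fin l) F) :
    x ⊗ₖ (-y) = -(x ⊗ₖ y) := by
  ext ⟨a, j⟩ ⟨a', j'⟩
  simp [Matrix.kronecker_apply]

theorem kron_neg_left {k l : ℕ} (x : Matrix (Fin k) (Fin k) F) (y : Matrix (Fin l) (Fin l) F) :
    (-x) ⊗ₖ y = -(x ⊗ₖ y) := by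
  ext ⟨a, j⟩ ⟨a', j'⟩
  simp [Matrix.kronecker_apply]

theorem J2_mul_J2 : J2 F * J2 F = -1 := by
  ext i j
  fin_cases i <;> fin_cases j <;> simp [J2, Matrix.mul_apply, Fin.sum_univ_two]

theorem J2_transpose : (J2 F)ᵀ = - J2 F := by
  ext i j
  fin_cases i <;> fin_cases j <;> simp [J2]

/-- The upper half of `J2`. -/
def U2 (F : Type*) [Field F] : Matrix (Fin 2) (Fin 2) F := !![0, 1; 0, 0]

theorem U2_add : U2 F + - (U2 F)ᵀ = J2 F := by
  ext i j
  fin_cases i <;> fin_cases j <;> simp [J2, U2]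

/-- A subgroup of the stabiliser of a tensor decomposition into two planes lies in the similarity
group of a quadratic form (odd characteristic) or of a symplectic form (characteristic two). -/
theorem tensor_two_two_le [Fintype F] {p : ℕ} [Fact p.Prime] [CharP F p] [NeZero n]
    (H : Subgroup (GL (Fin n) F)) (e : Fin n ≃ Fin 2 × Fin 2) (P : GL (Fin n) F)
    (hle : H ≤ tensorProductSubgroup 2 2 e P) :
    (Odd (Fintype.card F) ∧ ∃ Q : (Fin n → F) → F, IsNondegenerateQuadraticForm Q ∧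
      H ≤ quadSimilarityGroup Q) ∨
    (∃ f : (Fin n → F) → (Fin n → F) → F, IsSymplecticForm f ∧ H ≤ similarityGroup f) := by
  classical
  have hJJ : J2 F ⊗ₖ J2 F = U2 F ⊗ₖ J2 F + (U2 F ⊗ₖ J2 F)ᵀ := by
    rw [kron_transpose, J2_transpose, kron_neg_right, ← kron_neg_left,
      ← Matrix.add_kronecker, U2_add]
  refine sim_form_le (p := p) H (formOf e P (J2 F ⊗ₖ J2 F)) (formOf e P (U2 F ⊗ₖ J2 F)) ?_ ?_ ?_
  · rw [formOf_transpose, ← formOf_add, ← hJJ]
  · intro v hv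
    apply formOf_rad e P _ (J2 F ⊗ₖ J2 F) _ v hv
    rw [← Matrix.mul_kronecker_mul, J2_mul_J2, kron_neg_left, kron_neg_right, neg_neg,
      Matrix.one_kronecker_one]
  · intro g hg
    obtain ⟨a, b, hab⟩ := Helper98.mem_tensorProductSubgroup (hle hg)
    refine ⟨(a : Matrix (Fin 2) (Fin 2) F).det * (b : Matrix (Fin 2) (Fin 2) F).det, ?_⟩
    rw [hab]
    apply formOf_sim
    rw [kron_transpose, ← Matrix.mul_kronecker_mul, ← Matrix.mul_kronecker_mul, transpose_J2_mul,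
      transpose_J2_mul, Matrix.smul_kronecker, Matrix.kronecker_smul, smul_smul]

end Cfsg.Agent.Helper96
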