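-- helper96 library: the Gram matrix of a symplectic form in tensor coordinates.
import Cfsg.Agent.Helper96.SpZ2
import Cfsg.Agent.Helper96.TensorTwo
import Cfsg.Agent.Helper96.SmallQ

set_option autoImplicit false
set_option linter.unusedSectionVars false
set_option linter.unusedVariables false
open Cfsg Cfsg.Geo Matrix
open scoped Kronecker

namespace Cfsg.Agent.Helper96.Sy

variable {F : Type*} [Field F] {n : ℕ} {f : (Fin n → F) → (Fin n → F) → F}

theorem map_refl' {m : ℕ} (M : Matrix (Fin m) (Fin m) F) : M.map (RingEquiv.refl F) = M := by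
  ext i j
  rfl

theorem gram_iso (hf : IsSymplecticForm f) {g : GL (Fin n) F} (hg : g ∈ isoSub f) :
    (g : Matrix (Fin n) (Fin n) F)ᵀ * Helper97.Gen.gram f * (g : Matrix (Fin n) (Fin n) F)
      = Helper97.Gen.gram f := by
  have h1 := (Helper97.Gen.isSesq_of_bilinear hf.bilinear).gram_of_similar
    (g : Matrix (Fin n) (Fin n) F) 1 (fun u v => by rw [one_mul]; exact iso_apply hg u v)
  rwa [one_smul, map_refl'] at h1

theorem gram_conj_apply (hf : IsSymplecticForm f) (P : Matrix (Fin n) (Fin n) F) (i j : Fin n) :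
    (Pᵀ * Helper97.Gen.gram f * P) i j = f (P *ᵥ Pi.single i 1) (P *ᵥ Pi.single j 1) := by
  have h1 := (Helper97.Gen.isSesq_of_bilinear hf.bilinear).gram_mul P i j
  rwa [map_refl'] at h1

theorem formOf_mul {κ : Type} [Fintype κ] [DecidableEq κ] (e : Fin n ≃ κ) (P : GL (Fin n) F)
    (X₀ X : Matrix κ κ F) :
    (Helper98.conjReindex e P X)ᵀ * formOf e P X₀ * Helper98.conjReindex e P X
      = formOf e P (Xᵀ * X₀ * X) := by
  have h1 : (Matrix.reindexAlgEquiv F F e.symm X)ᵀ = Matrix.reindexAlgEquiv F F e.symm Xᵀ :=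
    reindex_transpose e X
  have hPi : ((P⁻¹ : GL (Fin n) F) : Matrix (Fin n) (Fin n) F) * (P : Matrix (Fin n) (Fin n) F) = 1 := by
    rw [← Units.val_mul, inv_mul_cancel, Units.val_one]
  have hPt : (P : Matrix (Fin n) (Fin n) F)ᵀ * ((P⁻¹ : GL (Fin n) F) : Matrix (Fin n) (Fin n) F)ᵀ = 1 := by
    rw [← Matrix.transpose_mul, hPi, Matrix.transpose_one]
  rw [Helper98.conjReindex_apply, formOf, formOf, Matrix.transpose_mul, Matrix.transpose_mul, h1]
  calc ((P⁻¹ : GL (Fin n) F) : Matrix (Fin n) (Fin n) F)ᵀ *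
        (Matrix.reindexAlgEquiv F F e.symm Xᵀ * (P : Matrix (Fin n) (Fin n) F)ᵀ) *
        (((P⁻¹ : GL (Fin n) F) : Matrix (Fin n) (Fin n) F)ᵀ * Matrix.reindexAlgEquiv F F e.symm X₀ *
          ((P⁻¹ : GL (Fin n) F) : Matrix (Fin n) (Fin n) F)) *
        ((P : Matrix (Fin n) (Fin n) F) * Matrix.reindexAlgEquiv F F e.symm X *
          ((P⁻¹ : GL (Fin n) F) : Matrix (Fin n) (Fin n) F))
      = ((P⁻¹ : GL (Fin n) F) : Matrix (Fin n) (Fin n) F)ᵀ * Matrix.reindexAlgEquiv F F e.symm Xᵀ *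
        ((P : Matrix (Fin n) (Fin n) F)ᵀ * ((P⁻¹ : GL (Fin n) F) : Matrix (Fin n) (Fin n) F)ᵀ) *
        Matrix.reindexAlgEquiv F F e.symm X₀ *
        (((P⁻¹ : GL (Fin n) F) : Matrix (Fin n) (Fin n) F) * (P : Matrix (Fin n) (Fin n) F)) *
        Matrix.reindexAlgEquiv F F e.symm X *
          ((P⁻¹ : GL (Fin n) F) : Matrix (Fin n) (Fin n) F) := by
        simp only [Matrix.mul_assoc]
    _ = ((P⁻¹ : GL (Fin n) F) : Matrix (Fin n) (Fin n) F)ᵀ *
        (Matrix.reindexAlgEquiv F F e.symm Xᵀ * Matrix.reindexAlgEquiv F F e.symm X₀ *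
        Matrix.reindexAlgEquiv F F e.symm X) *
          ((P⁻¹ : GL (Fin n) F) : Matrix (Fin n) (Fin n) F) := by
        rw [hPt, hPi]
        simp only [Matrix.mul_assoc, Matrix.mul_one, Matrix.one_mul]
    _ = _ := by
        rw [← map_mul, ← map_mul]

theorem formOf_inj {κ : Type} [Fintype κ] [DecidableEq κ] (e : Fin n ≃ κ) (P : GL (Fin n) F)
    {X Y : Matrix κ κ F} (h : formOf e P X = formOf e P Y) : X = Y := by
  have h1 := formOf_conj e P X
  rw [h, formOf_conj] at h1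
  exact (Matrix.reindexAlgEquiv F F e.symm).injective h1.symm

theorem formOf_reindex {κ : Type} [Fintype κ] [DecidableEq κ] (e : Fin n ≃ κ) (P : GL (Fin n) F)
    (G : Matrix (Fin n) (Fin n) F) :
    formOf e P (Matrix.reindexAlgEquiv F F e
      ((P : Matrix (Fin n) (Fin n) F)ᵀ * G * (P : Matrix (Fin n) (Fin n) F))) = G := by
  have h : Matrix.reindexAlgEquiv F F e.symm (Matrix.reindexAlgEquiv F F e
      ((P : Matrix (Fin n) (Fin n) F)ᵀ * G * (P : Matrix (Fin n) (Fin n) F))) =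
      (P : Matrix (Fin n) (Fin n) F)ᵀ * G * (P : Matrix (Fin n) (Fin n) F) := by
    ext i j
    simp [Matrix.coe_reindexAlgEquiv]
  have hPi : (P : Matrix (Fin n) (Fin n) F) * ((P⁻¹ : GL (Fin n) F) : Matrix (Fin n) (Fin n) F) = 1 := by
    rw [← Units.val_mul, mul_inv_cancel, Units.val_one]
  have hPt : ((P⁻¹ : GL (Fin n) F) : Matrix (Fin n) (Fin n) F)ᵀ * (P : Matrix (Fin n) (Fin n) F)ᵀ = 1 := by
    rw [← Matrix.transpose_mul, hPi, Matrix.transpose_one]
  rw [formOf, h]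
  calc ((P⁻¹ : GL (Fin n) F) : Matrix (Fin n) (Fin n) F)ᵀ *
        ((P : Matrix (Fin n) (Fin n) F)ᵀ * G * (P : Matrix (Fin n) (Fin n) F)) *
        ((P⁻¹ : GL (Fin n) F) : Matrix (Fin n) (Fin n) F)
      = (((P⁻¹ : GL (Fin n) F) : Matrix (Fin n) (Fin n) F)ᵀ * (P : Matrix (Fin n) (Fin n) F)ᵀ) * G *
        ((P : Matrix (Fin n) (Fin n) F) * ((P⁻¹ : GL (Fin n) F) : Matrix (Fin n) (Fin n) F)) := by
        simp only [Matrix.mul_assoc]
    _ = G := by rw [hPt, hPi, one_mul, mul_one]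

/-- Invariant bilinear forms of an absolutely irreducible set of invertible matrices closed under
inverses: a non-zero one is non-degenerate, and all are proportional to it. -/
theorem inv_form_set {d : ℕ} (R : Set (Matrix (Fin d) (Fin d) F))
    (habs : ActsAbsolutelyIrreducibly R)
    (hinv : ∀ x ∈ R, ∃ y ∈ R, x * y = 1 ∧ y * x = 1)
    (M : Matrix (Fin d) (Fin d) F) (hM : M ≠ 0) (hfix : ∀ x ∈ R, xᵀ * M * x = M) :
    M.det ≠ 0 ∧ ∀ M' : Matrix (Fin d) (Fin d) F, (∀ x ∈ R, xᵀ * M' * x = M') →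
      ∃ c : F, M' = c • M := by
  classical
  have key : ∀ M' : Matrix (Fin d) (Fin d) F, (∀ x ∈ R, xᵀ * M' * x = M') →
      ∀ x ∈ R, ∀ y : Matrix (Fin d) (Fin d) F, x * y = 1 → M' * x = yᵀ * M' := by
    intro M' hfix' x hx y hxy
    calc M' * x = (yᵀ * xᵀ) * M' * x := by
          rw [← Matrix.transpose_mul, hxy, Matrix.transpose_one, one_mul]
      _ = yᵀ * (xᵀ * M' * x) := by simp only [mul_assoc]
      _ = yᵀ * M' := by rw [hfix' x hx]
  have hdet : M.det ≠ 0 := by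
    intro h0
    obtain ⟨v, hv0, hv⟩ := Matrix.exists_mulVec_eq_zero_iff.mpr h0
    have hW : ∀ s ∈ R, (LinearMap.ker (Matrix.toLin' M)).map (Matrix.toLin' s)
        ≤ LinearMap.ker (Matrix.toLin' M) := by
      rintro s hs _ ⟨w, hw, rfl⟩
      obtain ⟨y, -, hxy, -⟩ := hinv s hs
      have hw' : M *ᵥ w = 0 := by
        have := LinearMap.mem_ker.mp hw
        rwa [Matrix.toLin'_apply] at this
      rw [LinearMap.mem_ker, Matrix.toLin'_apply, Matrix.toLin'_apply, Matrix.mulVec_mulVec,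
        key M hfix s hs y hxy, ← Matrix.mulVec_mulVec, hw', Matrix.mulVec_zero]
    rcases habs.1 _ hW with h | h
    · have : v ∈ LinearMap.ker (Matrix.toLin' M) := by
        rw [LinearMap.mem_ker, Matrix.toLin'_apply]
        exact hv
      rw [h] at this
      exact hv0 ((Submodule.mem_bot F).mp this)
    · apply hM
      apply Helper97.Gen.eq_zero_of_mulVec_eq_zero
      intro w
      have : w ∈ LinearMap.ker (Matrix.toLin' M) := by rw [h]; exact Submodule.mem_top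
      rwa [LinearMap.mem_ker, Matrix.toLin'_apply] at this
  refine ⟨hdet, fun M' hfix' => ?_⟩
  have hu : IsUnit M.det := isUnit_iff_ne_zero.mpr hdet
  obtain ⟨c, hc⟩ := habs.2 (M⁻¹ * M') (by
    intro x hx
    obtain ⟨y, -, hxy, -⟩ := hinv x hx
    have h1 := key M hfix x hx y hxy
    have h2 := key M' hfix' x hx y hxy
    have h3 : M⁻¹ * yᵀ = x * M⁻¹ := by
      calc M⁻¹ * yᵀ = M⁻¹ * (yᵀ * M) * M⁻¹ := by
            rw [mul_assoc, mul_assoc, Matrix.mul_nonsing_inv M hu, mul_one]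
        _ = M⁻¹ * (M * x) * M⁻¹ := by rw [h1]
        _ = x * M⁻¹ := by rw [← mul_assoc, Matrix.nonsing_inv_mul M hu, one_mul]
    rw [mul_assoc, h2, ← mul_assoc, h3, mul_assoc])
  refine ⟨c, ?_⟩
  calc M' = M * (M⁻¹ * M') := by rw [← mul_assoc, Matrix.mul_nonsing_inv M hu, one_mul]
    _ = c • M := by rw [hc, Matrix.mul_smul, mul_one]

theorem inv_form_symm {d : ℕ} (R : Set (Matrix (Fin d) (Fin d) F))
    (habs : ActsAbsolutelyIrreducibly R)
    (hinv : ∀ x ∈ R, ∃ y ∈ R, x * y = 1 ∧ y * x = 1)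
    (M : Matrix (Fin d) (Fin d) F) (hM : M ≠ 0) (hfix : ∀ x ∈ R, xᵀ * M * x = M) :
    Mᵀ = M ∨ Mᵀ = -M := by
  obtain ⟨-, hprop⟩ := inv_form_set R habs hinv M hM hfix
  obtain ⟨c, hc⟩ := hprop Mᵀ (by
    intro x hx
    have h1 := congrArg Matrix.transpose (hfix x hx)
    rw [Matrix.transpose_mul, Matrix.transpose_mul, Matrix.transpose_transpose, ← mul_assoc] at h1
    exact h1)
  have h1 : M = (c * c) • M := by
    have h2 := congrArg Matrix.transpose hc
    rw [Matrix.transpose_transpose, Matrix.transpose_smul, hc, smul_smul] at h2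
    exact h2
  have h3 : c * c = 1 := by
    by_contra hne
    apply hM
    have h4 : (1 - c * c) • M = 0 := by
      rw [sub_smul, one_smul, ← h1, sub_self]
    exact (smul_eq_zero.mp h4).resolve_left (sub_ne_zero.mpr (Ne.symm hne))
  have h5 : (c - 1) * (c + 1) = 0 := by linear_combination h3
  rcases mul_eq_zero.mp h5 with h | h
  · left
    rw [hc, sub_eq_zero.mp h, one_smul]
  · right
    rw [hc, eq_neg_of_add_eq_zero_left h, neg_smul, one_smul]

theorem kron_left_cancel {d k : ℕ} (B : Matrix (Fin d) (Fin d) F) (hB : B ≠ 0)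
    {Y Y' : Matrix (Fin k) (Fin k) F} (h : B ⊗ₖ Y = B ⊗ₖ Y') : Y = Y' := by
  have hex : ∃ a a', B a a' ≠ 0 := by
    by_contra hcon
    push Not at hcon
    apply hB
    ext a a'
    exact hcon a a'
  obtain ⟨a, a', ha⟩ := hex
  ext b b'
  have h1 := congrFun (congrFun h (a, b)) (a', b')
  rw [Matrix.kronecker_apply, Matrix.kronecker_apply] at h1
  exact mul_left_cancel₀ ha h1

/-- The entries of `(x ⊗ 1)ᵀ X (x ⊗ 1)`. -/
theorem block_form_apply {d k : ℕ} (x : Matrix (Fin d) (Fin d) F)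
    (X₀ : Matrix (Fin d × Fin k) (Fin d × Fin k) F) (a a' : Fin d) (b b' : Fin k) :
    ((x ⊗ₖ (1 : Matrix (Fin k) (Fin k) F))ᵀ * X₀ * (x ⊗ₖ (1 : Matrix (Fin k) (Fin k) F))) (a, b) (a', b')
      = (xᵀ * (Matrix.of fun a a' => X₀ (a, b) (a', b') : Matrix (Fin d) (Fin d) F) * x) a a' := by
  rw [kron_transpose, Matrix.transpose_one, mul_kron_one_apply, Matrix.mul_apply]
  apply Finset.sum_congr rfl
  intro c _
  rw [kron_one_mul_apply, Matrix.mul_apply]
  rfl

/-- The Gram matrix of a symplectic form preserved by a group with tensor coordinates. -/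
theorem tensor_gram (hf : IsSymplecticForm f) {N : Subgroup (GL (Fin n) F)} {d k : ℕ}
    {e : Fin n ≃ Fin d × Fin k} {P : GL (Fin n) F}
    {ρ : Matrix (Fin n) (Fin n) F → Matrix (Fin d) (Fin d) F} (D : TensorData N d k e P ρ)
    (hN : N ≤ isoSub f) :
    ∃ (B₁ : Matrix (Fin d) (Fin d) F) (C : Matrix (Fin k) (Fin k) F),
      Helper97.Gen.gram f = formOf e P (B₁ ⊗ₖ C) ∧ B₁.det ≠ 0 ∧ C.det ≠ 0 ∧
      (B₁ᵀ = B₁ ∧ Cᵀ = -C ∨ B₁ᵀ = -B₁ ∧ Cᵀ = C) ∧ (∀ a b, B₁ a a * C b b = 0) ∧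
      (∀ s ∈ matrixSet N, (ρ s)ᵀ * B₁ * ρ s = B₁) := by
  classical
  obtain ⟨G, hG⟩ : ∃ G, G = Helper97.Gen.gram f := ⟨_, rfl⟩
  obtain ⟨X₀, hX₀⟩ : ∃ X₀, X₀ = Matrix.reindexAlgEquiv F F e
      ((P : Matrix (Fin n) (Fin n) F)ᵀ * G * (P : Matrix (Fin n) (Fin n) F)) := ⟨_, rfl⟩
  have hGX : G = formOf e P X₀ := by rw [hX₀, formOf_reindex]
  have hX₀apply : ∀ i j, X₀ i j = f ((P : Matrix (Fin n) (Fin n) F) *ᵥ Pi.single (e.symm i) 1)
      ((P : Matrix (Fin n) (Fin n) F) *ᵥ Pi.single (e.symm j) 1) := by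
    intro i j
    rw [hX₀, hG, ← gram_conj_apply hf]
    simp [Matrix.coe_reindexAlgEquiv]
  obtain ⟨R, hR⟩ : ∃ R, R = ρ '' matrixSet N := ⟨_, rfl⟩
  have habs : ActsAbsolutelyIrreducibly R := hR ▸ D.absIrred_image
  have hinv : ∀ x ∈ R, ∃ y ∈ R, x * y = 1 ∧ y * x = 1 := by
    intro x hx
    rw [hR] at hx
    obtain ⟨s, hs, rfl⟩ := hx
    obtain ⟨g, hg, rfl⟩ := hs
    have hs' : ((g⁻¹ : GL (Fin n) F) : Matrix (Fin n) (Fin n) F) ∈ matrixSet N :=
      Helper97.coe_mem_matrixSet (N.inv_mem hg)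
    refine ⟨ρ ((g⁻¹ : GL (Fin n) F) : Matrix (Fin n) (Fin n) F), by rw [hR]; exact ⟨_, hs', rfl⟩, ?_, ?_⟩
    · apply kron_one_injective D.hk
      apply Helper98.conjReindex_injective e P
      rw [← mul_one (1 : Matrix (Fin k) (Fin k) F), Matrix.mul_kronecker_mul, map_mul,
        ← D.eq _ (Helper97.coe_mem_matrixSet hg), ← D.eq _ hs', mul_one, Matrix.one_kronecker_one,
        map_one, ← Units.val_mul, mul_inv_cancel, Units.val_one]
    · apply kron_one_injective D.hk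
      apply Helper98.conjReindex_injective e P
      rw [← mul_one (1 : Matrix (Fin k) (Fin k) F), Matrix.mul_kronecker_mul, map_mul,
        ← D.eq _ (Helper97.coe_mem_matrixSet hg), ← D.eq _ hs', mul_one, Matrix.one_kronecker_one,
        map_one, ← Units.val_mul, inv_mul_cancel, Units.val_one]
  have hXinv : ∀ s ∈ matrixSet N, (ρ s ⊗ₖ (1 : Matrix (Fin k) (Fin k) F))ᵀ * X₀ *
      (ρ s ⊗ₖ (1 : Matrix (Fin k) (Fin k) F)) = X₀ := by
    intro s hs
    obtain ⟨g, hg, rfl⟩ := hs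
    have h1 := gram_iso hf (hN hg)
    rw [← hG, hGX] at h1
    nth_rewrite 1 [D.eq _ (Helper97.coe_mem_matrixSet hg)] at h1
    nth_rewrite 2 [D.eq _ (Helper97.coe_mem_matrixSet hg)] at h1
    rw [formOf_mul] at h1
    exact formOf_inj e P h1
  have hblk : ∀ b b' : Fin k, ∀ x ∈ R,
      xᵀ * (Matrix.of fun a a' => X₀ (a, b) (a', b') : Matrix (Fin d) (Fin d) F) * x
        = (Matrix.of fun a a' => X₀ (a, b) (a', b') : Matrix (Fin d) (Fin d) F) := by
    intro b b' x hx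
    rw [hR] at hx
    obtain ⟨s, hs, rfl⟩ := hx
    ext a a'
    rw [← block_form_apply, hXinv s hs]
    rfl
  have hn : 0 < n := by
    have := D.card_eq
    have h1 := D.hd
    have h2 := D.hk
    rw [← this]
    exact Nat.mul_pos h1 h2
  have hGdet : G.det ≠ 0 := hG ▸ det_gram_ne_zero hf
  have hPdet : (P : Matrix (Fin n) (Fin n) F).det ≠ 0 := (Matrix.GeneralLinearGroup.det P).ne_zero
  have hX₀det : X₀.det ≠ 0 := by
    rw [hX₀, Matrix.det_reindexAlgEquiv, Matrix.det_mul, Matrix.det_mul, Matrix.det_transpose]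
    exact mul_ne_zero (mul_ne_zero hPdet hGdet) hPdet
  have hex : ∃ b₀ b₀' : Fin k,
      (Matrix.of fun a a' => X₀ (a, b₀) (a', b₀') : Matrix (Fin d) (Fin d) F) ≠ 0 := by
    by_contra hcon
    push Not at hcon
    apply hX₀det
    have h0 : X₀ = 0 := by
      ext ⟨a, b⟩ ⟨a', b'⟩
      exact congrFun (congrFun (hcon b b') a) a'
    rw [h0]
    haveI : Nonempty (Fin d × Fin k) := ⟨(⟨0, D.hd⟩, ⟨0, D.hk⟩)⟩
    exact Matrix.det_zero
  obtain ⟨b₀, b₀', hB₁0⟩ := hex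
  obtain ⟨B₁, hB₁⟩ : ∃ B₁ : Matrix (Fin d) (Fin d) F,
      B₁ = Matrix.of fun a a' => X₀ (a, b₀) (a', b₀') := ⟨_, rfl⟩
  rw [← hB₁] at hB₁0
  have hB₁fix : ∀ x ∈ R, xᵀ * B₁ * x = B₁ := hB₁ ▸ hblk b₀ b₀'
  obtain ⟨hB₁det, hprop⟩ := inv_form_set R habs hinv B₁ hB₁0 hB₁fix
  choose C hC using fun b b' => hprop _ (hblk b b')
  have hXBC : X₀ = B₁ ⊗ₖ (Matrix.of C : Matrix (Fin k) (Fin k) F) := by
    ext ⟨a, b⟩ ⟨a', b'⟩
    have h1 := congrFun (congrFun (hC b b') a) a'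
    rw [Matrix.kronecker_apply, Matrix.of_apply, mul_comm]
    exact h1
  have hCdet : (Matrix.of C : Matrix (Fin k) (Fin k) F).det ≠ 0 := by
    intro h0
    apply hX₀det
    rw [hXBC, Matrix.det_kronecker, h0, Fintype.card_fin, Fintype.card_fin,
      zero_pow (by have := D.hd; omega), mul_zero]
  have hX₀t : X₀ᵀ = -X₀ := by
    ext i j
    rw [Matrix.transpose_apply, Matrix.neg_apply, hX₀apply, hX₀apply, hf.skew]
  have hsym := inv_form_symm R habs hinv B₁ hB₁0 hB₁fix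
  have hkt : B₁ᵀ ⊗ₖ (Matrix.of C : Matrix (Fin k) (Fin k) F)ᵀ
      = -(B₁ ⊗ₖ (Matrix.of C : Matrix (Fin k) (Fin k) F)) := by
    rw [← kron_transpose, ← hXBC, hX₀t]
  refine ⟨B₁, Matrix.of C, by rw [← hG, hGX, hXBC], hB₁det, hCdet, ?_, ?_, ?_⟩
  · rcases hsym with h | h
    · left
      refine ⟨h, ?_⟩
      rw [h, ← kron_neg_right] at hkt
      exact kron_left_cancel B₁ hB₁0 hkt
    · right
      refine ⟨h, ?_⟩
      rw [h, kron_neg_left, neg_inj] at hkt
      exact kron_left_cancel B₁ hB₁0 hkt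
  · intro a b
    have h1 := congrFun (congrFun hXBC (a, b)) (a, b)
    rw [Matrix.kronecker_apply] at h1
    rw [← h1, hX₀apply, hf.alternating]
  · intro s hs
    exact hB₁fix _ (by rw [hR]; exact ⟨s, hs, rfl⟩)

end Cfsg.Agent.Helper96.Sy
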