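-- helper96 library: tensor decompositions of a symplectic form (the tensor case of the analysis).
import Cfsg.Agent.Helper96.SpTensor

set_option autoImplicit false
set_option linter.unusedSectionVars false
set_option linter.unusedVariables false
open Cfsg Cfsg.Geo Matrix
open scoped Kronecker

namespace Cfsg.Agent.Helper96.Sy

variable {F : Type*} [Field F] {n : ℕ} {f : (Fin n → F) → (Fin n → F) → F}

theorem gramMatrix_bf {m : ℕ} (A : Matrix (Fin m) (Fin m) F) : gramMatrix (bf A) = A := by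
  ext a b
  show bf A (Pi.single a 1) (Pi.single b 1) = A a b
  rw [bf_single_left]
  simp [Matrix.mulVec_single_one]

theorem bf_nondeg {m : ℕ} (A : Matrix (Fin m) (Fin m) F) (hdet : A.det ≠ 0) (c : F) (hc : c ≠ 0)
    (hA : Aᵀ = c • A) : IsNondegenerateForm (bf A) := by
  intro v hv
  have h1 : A *ᵥ v ≠ 0 := fun h0 => hdet (Matrix.exists_mulVec_eq_zero_iff.mp ⟨v, hv, h0⟩)
  obtain ⟨i, hi⟩ : ∃ i, (A *ᵥ v) i ≠ 0 := by
    by_contra hcon
    push Not at hcon
    exact h1 (funext hcon)
  refine ⟨⟨Pi.single i 1, by rw [bf_single_left]; exact hi⟩, ⟨Pi.single i 1, ?_⟩⟩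
  rw [bf_swap A c hA, bf_single_left]
  exact mul_ne_zero hc hi

theorem bf_symplectic_odd {m : ℕ} (h2 : (2 : F) ≠ 0) (A : Matrix (Fin m) (Fin m) F)
    (hdet : A.det ≠ 0) (hA : Aᵀ = -A) : IsSymplecticForm (bf A) := by
  have hA' : Aᵀ = (-1 : F) • A := by rw [hA, neg_one_smul]
  have hskew : ∀ v w, bf A v w = - bf A w v := by
    intro v w
    rw [bf_swap A (-1) hA' v w]
    ring
  refine ⟨bf_bilinear A, hskew, ?_, bf_nondeg A hdet (-1) (neg_ne_zero.mpr one_ne_zero) hA'⟩
  intro v
  have h1 := hskew v v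
  have h3 : (2 : F) * bf A v v = 0 := by linear_combination h1
  exact (mul_eq_zero.mp h3).resolve_left h2

theorem bf_symmetric {m : ℕ} (A : Matrix (Fin m) (Fin m) F) (hdet : A.det ≠ 0) (hA : Aᵀ = A) :
    IsSymmetricForm (bf A) := by
  have hA' : Aᵀ = (1 : F) • A := by rw [hA, one_smul]
  refine ⟨bf_bilinear A, ?_, bf_nondeg A hdet 1 one_ne_zero hA'⟩
  intro u v
  rw [bf_swap A 1 hA' u v, one_mul]

/-- In characteristic two the isotropic vectors of a symmetric bilinear form are a subspace. -/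
def isoSubm {m : ℕ} (h2 : (2 : F) = 0) (S : Matrix (Fin m) (Fin m) F) (hS : Sᵀ = S) :
    Submodule F (Fin m → F) where
  carrier := {u | bf S u u = 0}
  add_mem' := by
    intro u v hu hv
    have hu' : bf S u u = 0 := hu
    have hv' : bf S v v = 0 := hv
    have hsw : bf S v u = bf S u v := by
      have := bf_swap S 1 (by rw [one_smul]; exact hS) v u
      rwa [one_mul] at this
    show bf S (u + v) (u + v) = 0
    rw [(bf_bilinear S).add_left, (bf_bilinear S).add_right, (bf_bilinear S).add_right, hu', hv', hsw]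
    linear_combination (bf S u v) * h2
  zero_mem' := by
    show bf S 0 0 = 0
    simp [bf_apply]
  smul_mem' := by
    intro c u hu
    have hu' : bf S u u = 0 := hu
    show bf S (c • u) (c • u) = 0
    rw [(bf_bilinear S).smul_left, (bf_bilinear S).smul_right, hu', mul_zero, mul_zero]

theorem mem_isoSubm {m : ℕ} (h2 : (2 : F) = 0) (S : Matrix (Fin m) (Fin m) F) (hS : Sᵀ = S)
    (u : Fin m → F) : u ∈ isoSubm h2 S hS ↔ bf S u u = 0 := Iff.rfl

theorem bf_single_single {m : ℕ} (S : Matrix (Fin m) (Fin m) F) (i j : Fin m) :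
    bf S (Pi.single i 1) (Pi.single j 1) = S i j := by
  rw [bf_single_left]
  simp [Matrix.mulVec_single_one]

theorem exists_sqrt_char2 [Finite F] (h2 : (2 : F) = 0) (t : F) : ∃ r : F, r * r = t := by
  have hinj : Function.Injective (fun x : F => x * x) := by
    intro x y hxy
    have hxy' : x * x = y * y := hxy
    have h1 : (x - y) * (x - y) = 0 := by linear_combination hxy' + (y * y - x * y) * h2
    exact sub_eq_zero.mp (mul_self_eq_zero.mp h1)
  exact Finite.injective_iff_surjective.mp hinj t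

theorem char2_exists_isotropic [Finite F] (h2 : (2 : F) = 0) {m : ℕ} (hm : 2 ≤ m)
    (S : Matrix (Fin m) (Fin m) F) (hS : Sᵀ = S) : ∃ u : Fin m → F, u ≠ 0 ∧ bf S u u = 0 := by
  classical
  obtain ⟨i0, hi0⟩ : ∃ i0 : Fin m, i0 = ⟨0, by omega⟩ := ⟨_, rfl⟩
  obtain ⟨i1, hi1⟩ : ∃ i1 : Fin m, i1 = ⟨1, by omega⟩ := ⟨_, rfl⟩
  have hne : i1 ≠ i0 := by
    rw [hi0, hi1]
    simp [Fin.ext_iff]
  by_cases hβ : S i1 i1 = 0
  · refine ⟨Pi.single i1 1, ?_, by rw [bf_single_single]; exact hβ⟩
    intro h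
    have := congrFun h i1
    simp at this
  · obtain ⟨r, hr⟩ := exists_sqrt_char2 h2 (S i0 i0 / S i1 i1)
    refine ⟨Pi.single i0 1 + r • Pi.single i1 1, ?_, ?_⟩
    · intro h
      have := congrFun h i0
      simp [Pi.single_apply, hne.symm] at this
    · have hb := bf_bilinear S
      have hsw : S i1 i0 = S i0 i1 := by
        have := congrFun (congrFun hS i0) i1
        rwa [Matrix.transpose_apply] at this
      rw [hb.add_left, hb.add_right, hb.add_right, hb.smul_left, hb.smul_left, hb.smul_right,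
        hb.smul_right, bf_single_single, bf_single_single, bf_single_single, bf_single_single, hsw]
      have h3 : r * r * S i1 i1 = S i0 i0 := by
        rw [hr]
        field_simp
      linear_combination (S i0 i0 + r * S i0 i1) * h2 + h3

theorem bf_alt_char2 {m : ℕ} (h2 : (2 : F) = 0) (S : Matrix (Fin m) (Fin m) F) (hS : Sᵀ = S)
    (hdiag : ∀ i, S i i = 0) (u : Fin m → F) : bf S u u = 0 := by
  have h1 : u ∈ isoSubm h2 S hS := by
    rw [Helper97.Gen.vec_eq_sum_single u]
    refine Submodule.sum_mem _ (fun i _ => Submodule.smul_mem _ _ ?_)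
    rw [mem_isoSubm, bf_single_single]
    exact hdiag i
  exact h1

theorem bf_symplectic_even {m : ℕ} (h2 : (2 : F) = 0) (S : Matrix (Fin m) (Fin m) F)
    (hdet : S.det ≠ 0) (hS : Sᵀ = S) (hdiag : ∀ i, S i i = 0) : IsSymplecticForm (bf S) := by
  have hS' : Sᵀ = (1 : F) • S := by rw [hS, one_smul]
  refine ⟨bf_bilinear S, ?_, bf_alt_char2 h2 S hS hdiag, bf_nondeg S hdet 1 one_ne_zero hS'⟩
  intro v w
  rw [bf_swap S 1 hS' v w, one_mul]
  linear_combination (bf S w v) * h2

/-- The tensor form structure attached to a Gram matrix in tensor coordinates. -/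
theorem tensor_form_structure (hf : IsSymplecticForm f) {n₁ n₂ : ℕ} (e : Fin n ≃ Fin n₁ × Fin n₂)
    (P : GL (Fin n) F) (A : Matrix (Fin n₁) (Fin n₁) F) (S : Matrix (Fin n₂) (Fin n₂) F)
    (hG : Helper97.Gen.gram f = formOf e P (A ⊗ₖ S)) :
    IsTensorFormStructure id f (bf A) (bf S) e P := by
  refine ⟨1, one_ne_zero, fun x y => ?_⟩
  rw [one_mul, gramMatrix_bf, gramMatrix_bf]
  have h1 := (Helper97.Gen.isSesq_of_bilinear hf.bilinear).apply_mulVec (P : Matrix (Fin n) (Fin n) F)
    (x ∘ e) (y ∘ e)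
  rw [h1, map_refl', hG, formOf_conj]
  simp only [formOfGram, dotProduct, Matrix.mulVec, Matrix.coe_reindexAlgEquiv, Matrix.reindex_apply,
    Matrix.submatrix_apply, Equiv.symm_symm, Function.comp_apply, RingEquiv.refl_apply, id]
  rw [← Equiv.sum_comp e]
  apply Finset.sum_congr rfl
  intro i _
  rw [Finset.mul_sum, ← Equiv.sum_comp e]
  apply Finset.sum_congr rfl
  intro j _
  ring

theorem formOf_swap {d k : ℕ} (e : Fin n ≃ Fin d × Fin k) (P : GL (Fin n) F)
    (a : Matrix (Fin d) (Fin d) F) (b : Matrix (Fin k) (Fin k) F) :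
    formOf (e.trans (Equiv.prodComm (Fin d) (Fin k))) P (b ⊗ₖ a) = formOf e P (a ⊗ₖ b) := by
  rw [formOf, formOf]
  congr 2
  ext i j
  simp [Matrix.kronecker_apply, mul_comm]

/-- Characteristic two: an invariant symmetric form of an irreducible set of matrices in dimension at
least two has zero diagonal. -/
theorem char2_left_alt [Finite F] (h2 : (2 : F) = 0) {d : ℕ} (hd : 2 ≤ d)
    (R : Set (Matrix (Fin d) (Fin d) F)) (hirr : ActsIrreducibly R)
    (B : Matrix (Fin d) (Fin d) F) (hB : Bᵀ = B) (hfix : ∀ x ∈ R, xᵀ * B * x = B) :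
    ∀ a, B a a = 0 := by
  classical
  by_contra hcon
  push Not at hcon
  obtain ⟨a, ha⟩ := hcon
  have hU : ∀ s ∈ R, (isoSubm h2 B hB).map (Matrix.toLin' s) ≤ isoSubm h2 B hB := by
    rintro s hs _ ⟨w, hw, rfl⟩
    rw [mem_isoSubm, Matrix.toLin'_apply, bf_fix B s (hfix s hs)]
    exact hw
  rcases hirr _ hU with h | h
  · obtain ⟨u, hu0, hu⟩ := char2_exists_isotropic h2 hd B hB
    have : u ∈ isoSubm h2 B hB := hu
    rw [h] at this
    exact hu0 ((Submodule.mem_bot F).mp this)
  · have : (Pi.single a 1 : Fin d → F) ∈ isoSubm h2 B hB := by rw [h]; exact Submodule.mem_top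
    rw [mem_isoSubm, bf_single_single] at this
    exact ha this

end Cfsg.Agent.Helper96.Sy
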