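-- helper96 library: the tensor case of the analysis of irreducible symplectic groups.
import Cfsg.Agent.Helper96.SpTensor2

set_option autoImplicit false
set_option linter.unusedSectionVars false
set_option linter.unusedVariables false
open Cfsg Cfsg.Geo Matrix
open scoped Kronecker

namespace Cfsg.Agent.Helper96.Sy

variable {F : Type*} [Field F] {n : ℕ} {f : (Fin n → F) → (Fin n → F) → F}

/-- The rows of a vector in tensor coordinates. -/
noncomputable def rowMap {d k : ℕ} (e : Fin n ≃ Fin d × Fin k) (P : GL (Fin n) F) (a : Fin d) :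
    (Fin n → F) →ₗ[F] (Fin k → F) :=
  (LinearMap.funLeft F F (fun β : Fin k => e.symm (a, β))).comp
    (Matrix.toLin' ((P⁻¹ : GL (Fin n) F) : Matrix (Fin n) (Fin n) F))

theorem rowMap_apply {d k : ℕ} (e : Fin n ≃ Fin d × Fin k) (P : GL (Fin n) F) (a : Fin d)
    (v : Fin n → F) (β : Fin k) :
    rowMap e P a v β = (((P⁻¹ : GL (Fin n) F) : Matrix (Fin n) (Fin n) F) *ᵥ v) (e.symm (a, β)) := rfl

/-- The rows of the image of a vector under a Kronecker product. -/
theorem rowMap_kron {d k : ℕ} (e : Fin n ≃ Fin d × Fin k) (P : GL (Fin n) F)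
    (a : Matrix (Fin d) (Fin d) F) (b : Matrix (Fin k) (Fin k) F) (h : Matrix (Fin n) (Fin n) F)
    (hab : h = Helper98.conjReindex e P (a ⊗ₖ b)) (v : Fin n → F) (α : Fin d) :
    rowMap e P α (h *ᵥ v) = ∑ α' : Fin d, a α α' • (b *ᵥ rowMap e P α' v) := by
  funext β
  have h1 : ((P⁻¹ : GL (Fin n) F) : Matrix (Fin n) (Fin n) F) *ᵥ (h *ᵥ v)
      = Matrix.reindexAlgEquiv F F e.symm (a ⊗ₖ b) *ᵥ
        (((P⁻¹ : GL (Fin n) F) : Matrix (Fin n) (Fin n) F) *ᵥ v) := by
    rw [Matrix.mulVec_mulVec, Matrix.mulVec_mulVec, hab, Helper98.conjReindex_apply]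
    congr 1
    simp only [← mul_assoc, Units.inv_mul, one_mul]
  rw [rowMap_apply, h1]
  simp only [Matrix.mulVec, dotProduct, Matrix.coe_reindexAlgEquiv, Matrix.reindex_apply,
    Matrix.submatrix_apply, Equiv.symm_symm, Equiv.apply_symm_apply, Matrix.kronecker_apply,
    Finset.sum_apply, Pi.smul_apply, smul_eq_mul, rowMap_apply]
  rw [← Equiv.sum_comp e.symm, Fintype.sum_prod_type]
  apply Finset.sum_congr rfl
  intro α' _
  rw [Finset.mul_sum]
  apply Finset.sum_congr rfl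
  intro β' _
  rw [Matrix.kroneckerMap_apply, Equiv.apply_symm_apply]
  ring

/-- The vector all of whose rows are `u`. -/
noncomputable def rowVec {d k : ℕ} (e : Fin n ≃ Fin d × Fin k) (P : GL (Fin n) F) (u : Fin k → F) :
    Fin n → F :=
  (P : Matrix (Fin n) (Fin n) F) *ᵥ (fun i => u (e i).2)

theorem rowMap_rowVec {d k : ℕ} (e : Fin n ≃ Fin d × Fin k) (P : GL (Fin n) F) (u : Fin k → F)
    (a : Fin d) : rowMap e P a (rowVec e P u) = u := by
  funext β
  rw [rowMap_apply, rowVec, Matrix.mulVec_mulVec, Units.inv_mul, Matrix.one_mulVec,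
    Equiv.apply_symm_apply]

/-- Characteristic two: the second factor of a tensor decomposition of a symplectic form preserved by
an irreducible group has zero diagonal. -/
theorem char2_right_alt [Finite F] (h2 : (2 : F) = 0) (hf : IsSymplecticForm f)
    (H : Subgroup (GL (Fin n) F)) (hH : H ≤ isoSub f) (hirr : ActsIrreducibly (matrixSet H))
    {d k : ℕ} (hd : 0 < d) (hk : 2 ≤ k) (e : Fin n ≃ Fin d × Fin k) (P : GL (Fin n) F)
    (hle : H ≤ tensorProductSubgroup d k e P)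
    (B₁ : Matrix (Fin d) (Fin d) F) (C : Matrix (Fin k) (Fin k) F) (hB₁ : B₁ ≠ 0) (hC : Cᵀ = C)
    (hCdet : C.det ≠ 0) (hG : Helper97.Gen.gram f = formOf e P (B₁ ⊗ₖ C)) :
    ∀ b, C b b = 0 := by
  classical
  by_contra hcon
  push Not at hcon
  obtain ⟨b₀, hb₀⟩ := hcon
  have hex : ∃ a a', B₁ a a' ≠ 0 := by
    by_contra hcon
    push Not at hcon
    apply hB₁
    ext a a'
    exact hcon a a'
  obtain ⟨a₀, a₀', ha₀⟩ := hex
  have hsim : ∀ h ∈ H, ∃ (a : Matrix (Fin d) (Fin d) F) (b : Matrix (Fin k) (Fin k) F) (lam : F),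
      (h : Matrix (Fin n) (Fin n) F) = Helper98.conjReindex e P (a ⊗ₖ b) ∧ bᵀ * C * b = lam • C := by
    intro h hh
    obtain ⟨a, b, hab⟩ := Helper98.mem_tensorProductSubgroup (hle hh)
    have h1 := gram_iso hf (hH hh)
    rw [hG, hab, formOf_mul] at h1
    have h3 := formOf_inj e P h1
    rw [kron_transpose, ← Matrix.mul_kronecker_mul, ← Matrix.mul_kronecker_mul] at h3
    obtain ⟨μ, hμ⟩ : ∃ μ : F, μ = ((a : Matrix (Fin d) (Fin d) F)ᵀ * B₁ * (a : Matrix (Fin d) (Fin d) F)) a₀ a₀' :=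
      ⟨_, rfl⟩
    have h4 : ∀ β β', μ * ((b : Matrix (Fin k) (Fin k) F)ᵀ * C * (b : Matrix (Fin k) (Fin k) F)) β β'
        = B₁ a₀ a₀' * C β β' := by
      intro β β'
      have := congrFun (congrFun h3 (a₀, β)) (a₀', β')
      rw [Matrix.kronecker_apply, Matrix.kronecker_apply] at this
      rw [hμ]
      exact this
    have hμ0 : μ ≠ 0 := by
      intro h0
      apply hCdet
      have hC0 : C = 0 := by
        ext β β'
        have := h4 β β'
        rw [h0, zero_mul] at this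
        exact (mul_eq_zero.mp this.symm).resolve_left ha₀
      rw [hC0]
      have : Nonempty (Fin k) := ⟨⟨0, by omega⟩⟩
      exact Matrix.det_zero
    refine ⟨a, b, B₁ a₀ a₀' / μ, hab, ?_⟩
    ext β β'
    rw [Matrix.smul_apply, smul_eq_mul]
    have := h4 β β'
    field_simp
    linear_combination this
  obtain ⟨U, hUdef⟩ : ∃ U, U = isoSubm h2 C hC := ⟨_, rfl⟩
  obtain ⟨W, hWdef⟩ : ∃ W : Submodule F (Fin n → F), W = ⨅ a : Fin d, U.comap (rowMap e P a) :=
    ⟨_, rfl⟩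
  have hmemW : ∀ v, v ∈ W ↔ ∀ a, rowMap e P a v ∈ U := by
    intro v
    rw [hWdef, Submodule.mem_iInf]
    simp only [Submodule.mem_comap]
  have hWinv : ∀ s ∈ matrixSet H, W.map (Matrix.toLin' s) ≤ W := by
    rintro _ ⟨h, hh, rfl⟩ _ ⟨v, hv, rfl⟩
    rw [Matrix.toLin'_apply, hmemW]
    intro α
    obtain ⟨a, b, lam, hab, hb⟩ := hsim h hh
    rw [rowMap_kron e P a b _ hab v α]
    refine Submodule.sum_mem _ (fun α' _ => Submodule.smul_mem _ _ ?_)
    have hv' := (hmemW v).mp hv α'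
    rw [hUdef, mem_isoSubm] at hv' ⊢
    rw [bf_sim C b lam hb, hv', mul_zero]
  rcases hirr W hWinv with h | h
  · obtain ⟨u, hu0, hu⟩ := char2_exists_isotropic h2 hk C hC
    have h1 : rowVec e P u ∈ W := by
      rw [hmemW]
      intro a
      rw [rowMap_rowVec, hUdef]
      exact hu
    rw [h] at h1
    have h3 := (Submodule.mem_bot F).mp h1
    apply hu0
    have h4 := rowMap_rowVec e P u ⟨0, hd⟩
    rw [h3, map_zero] at h4
    exact h4.symm
  · have h1 : rowVec e P (Pi.single b₀ 1) ∈ W := by rw [h]; exact Submodule.mem_top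
    have h3 := (hmemW _).mp h1 ⟨0, hd⟩
    rw [rowMap_rowVec, hUdef, mem_isoSubm, bf_single_single] at h3
    exact hb₀ h3

/-- The tensor case: a tensor decomposition of the form into a symplectic and a symmetric form (odd
characteristic) or into two symplectic forms (characteristic two). -/
theorem tensor_cases [Fintype F] (hf : IsSymplecticForm f) (H N : Subgroup (GL (Fin n) F))
    (hH : H ≤ isoSub f) (hirr : ActsIrreducibly (matrixSet H)) (hNH : N ≤ H)
    (hNn : ∀ h ∈ H, ∀ x ∈ N, h * x * h⁻¹ ∈ N) {d k : ℕ} {e : Fin n ≃ Fin d × Fin k}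
    {P : GL (Fin n) F} {ρ : Matrix (Fin n) (Fin n) F → Matrix (Fin d) (Fin d) F}
    (D : TensorData N d k e P ρ) (hd : 2 ≤ d) (hk : 2 ≤ k) :
    ((2 : F) ≠ 0 ∧ ∃ (n₁ n₂ : ℕ) (e' : Fin n ≃ Fin n₁ × Fin n₂) (P' : GL (Fin n) F)
      (f₁ : (Fin n₁ → F) → (Fin n₁ → F) → F) (f₂ : (Fin n₂ → F) → (Fin n₂ → F) → F),
      2 ≤ n₂ ∧ IsSymplecticForm f₁ ∧ IsSymmetricForm f₂ ∧ IsTensorFormStructure id f f₁ f₂ e' P' ∧
      H ≤ tensorProductSubgroup n₁ n₂ e' P') ∨
    ((2 : F) = 0 ∧ ∃ (n₁ n₂ : ℕ) (e' : Fin n ≃ Fin n₁ × Fin n₂) (P' : GL (Fin n) F)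
      (f₁ : (Fin n₁ → F) → (Fin n₁ → F) → F) (f₂ : (Fin n₂ → F) → (Fin n₂ → F) → F),
      IsSymplecticForm f₁ ∧ IsSymplecticForm f₂ ∧ IsTensorFormStructure id f f₁ f₂ e' P' ∧
      H ≤ tensorProductSubgroup n₁ n₂ e' P') := by
  classical
  have hle : H ≤ tensorProductSubgroup d k e P := by
    intro h hh
    refine D.normalizer_mem h (hNn h hh) ?_
    have := hNn h⁻¹ (H.inv_mem hh)
    simpa using this
  obtain ⟨B₁, C, hG, hB₁det, hCdet, hsym, hdiag, hB₁fix⟩ := tensor_gram hf D (hNH.trans hH)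
  by_cases h2 : (2 : F) = 0
  · right
    have hnegd : ∀ M : Matrix (Fin d) (Fin d) F, -M = M := fun M => by
      rw [neg_eq_iff_add_eq_zero, ← two_smul F M, h2, zero_smul]
    have hnegk : ∀ M : Matrix (Fin k) (Fin k) F, -M = M := fun M => by
      rw [neg_eq_iff_add_eq_zero, ← two_smul F M, h2, zero_smul]
    have hB₁s : B₁ᵀ = B₁ := by
      rcases hsym with h | h
      · exact h.1
      · rw [h.1, hnegd]
    have hCs : Cᵀ = C := by
      rcases hsym with h | h
      · rw [h.2, hnegk]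
      · exact h.2
    have hB₁0 : B₁ ≠ 0 := by
      rintro rfl
      have : Nonempty (Fin d) := ⟨⟨0, by omega⟩⟩
      exact hB₁det Matrix.det_zero
    have hB₁alt : ∀ a, B₁ a a = 0 :=
      char2_left_alt h2 hd (ρ '' matrixSet N) D.absIrred_image.1 B₁ hB₁s (by
        rintro _ ⟨s, hs, rfl⟩
        exact hB₁fix s hs)
    have hCalt : ∀ b, C b b = 0 :=
      char2_right_alt h2 hf H hH hirr (by omega) hk e P hle B₁ C hB₁0 hCs hCdet hG
    exact ⟨h2, d, k, e, P, bf B₁, bf C, bf_symplectic_even h2 B₁ hB₁det hB₁s hB₁alt,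
      bf_symplectic_even h2 C hCdet hCs hCalt, tensor_form_structure hf e P B₁ C hG, hle⟩
  · left
    refine ⟨h2, ?_⟩
    rcases hsym with ⟨hB, hC⟩ | ⟨hB, hC⟩
    · refine ⟨k, d, e.trans (Equiv.prodComm (Fin d) (Fin k)), P, bf C, bf B₁, hd,
        bf_symplectic_odd h2 C hCdet hC, bf_symmetric B₁ hB₁det hB, ?_, hle.trans (tensor_swap_le e P)⟩
      apply tensor_form_structure hf
      rw [formOf_swap]
      exact hG
    · exact ⟨d, k, e, P, bf B₁, bf C, hk, bf_symplectic_odd h2 B₁ hB₁det hB,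
        bf_symmetric C hCdet hC, tensor_form_structure hf e P B₁ C hG, hle⟩

end Cfsg.Agent.Helper96.Sy
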