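-- helper96 library: tensor powers. Pure tensors and factor permutations on `Fin t → Fin d`, and
-- tensor coordinates for commuting copies of a matrix algebra.
import Cfsg.Agent.Helper96.TensorWreath
import Cfsg.Agent.Helper96.Perfect

set_option autoImplicit false
open Cfsg Cfsg.Geo Matrix

namespace Cfsg.Agent.Helper96

variable {F : Type*} [Field F] {n : ℕ}

/-! ### Matrices on the index set `Fin t → Fin d` -/

/-- The pure tensor of a family of matrices. -/
def ptM {t d : ℕ} (a : Fin t → Matrix (Fin d) (Fin d) F) :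
    Matrix (Fin t → Fin d) (Fin t → Fin d) F :=
  Matrix.of fun x y => ∏ i, a i (x i) (y i)

theorem ptM_apply {t d : ℕ} (a : Fin t → Matrix (Fin d) (Fin d) F) (x y : Fin t → Fin d) :
    ptM a x y = ∏ i, a i (x i) (y i) := rfl

theorem ptM_mul {t d : ℕ} (a b : Fin t → Matrix (Fin d) (Fin d) F) :
    ptM a * ptM b = ptM (fun i => a i * b i) := by
  classical
  ext x z
  rw [Matrix.mul_apply, ptM_apply]
  simp_rw [ptM_apply, Matrix.mul_apply, ← Finset.prod_mul_distrib]
  exact (Fintype.prod_sum (fun i j => a i (x i) j * b i j (z i))).symm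

theorem ptM_one {t d : ℕ} : ptM (fun _ : Fin t => (1 : Matrix (Fin d) (Fin d) F)) = 1 := by
  classical
  ext x y
  rw [ptM_apply]
  simp_rw [Matrix.one_apply]
  rw [Finset.prod_ite_zero, Finset.prod_const_one]
  by_cases h : x = y
  · subst h
    simp
  · rw [if_neg h, if_neg]
    intro h'
    exact h (funext fun i => h' i (Finset.mem_univ i))

/-- The matrix of a permutation of the tensor factors. -/
def fpM (F : Type*) [Field F] {t : ℕ} (d : ℕ) (σ : Equiv.Perm (Fin t)) : Matrix (Fin t → Fin d) (Fin t → Fin d) F :=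
  Matrix.of fun x y => if y = x ∘ σ then 1 else 0

theorem fpM_apply {t d : ℕ} (σ : Equiv.Perm (Fin t)) (x y : Fin t → Fin d) :
    fpM F d σ x y = if y = x ∘ σ then 1 else 0 := rfl

theorem fpM_mul_apply {t d : ℕ} (σ : Equiv.Perm (Fin t))
    (M : Matrix (Fin t → Fin d) (Fin t → Fin d) F) (x z : Fin t → Fin d) :
    (fpM F d σ * M) x z = M (x ∘ σ) z := by
  classical
  rw [Matrix.mul_apply]
  simp_rw [fpM_apply, ite_mul, one_mul, zero_mul]
  rw [Finset.sum_ite_eq' Finset.univ (x ∘ σ) (fun y => M y z), if_pos (Finset.mem_univ _)]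

theorem mul_fpM_apply {t d : ℕ} (σ : Equiv.Perm (Fin t))
    (M : Matrix (Fin t → Fin d) (Fin t → Fin d) F) (x z : Fin t → Fin d) :
    (M * fpM F d σ) x z = M x (z ∘ σ.symm) := by
  classical
  rw [Matrix.mul_apply]
  simp_rw [fpM_apply, mul_ite, mul_one, mul_zero]
  have h : ∀ y : Fin t → Fin d, z = y ∘ σ ↔ y = z ∘ σ.symm := by
    intro y
    constructor
    · intro h
      rw [h]
      funext i
      simp
    · intro h
      rw [h]
      funext i
      simp
  simp_rw [h]
  rw [Finset.sum_ite_eq' Finset.univ (z ∘ σ.symm) (fun y => M x y), if_pos (Finset.mem_univ _)]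

theorem fpM_mul_symm {t d : ℕ} (σ : Equiv.Perm (Fin t)) :
    fpM F d σ * fpM F d σ.symm = 1 := by
  classical
  ext x z
  rw [fpM_mul_apply, fpM_apply, Matrix.one_apply]
  have h : (z = (x ∘ σ) ∘ σ.symm) ↔ x = z := by
    have h1 : (x ∘ σ) ∘ σ.symm = x := by
      funext i
      simp
    rw [h1]
    exact eq_comm
  simp only [h]

theorem fpM_symm_mul {t d : ℕ} (σ : Equiv.Perm (Fin t)) :
    fpM F d σ.symm * fpM F d σ = 1 := by
  have := fpM_mul_symm (F := F) (d := d) σ.symm
  rwa [Equiv.symm_symm] at this

theorem fpM_mul_ptM {t d : ℕ} (σ : Equiv.Perm (Fin t)) (a : Fin t → Matrix (Fin d) (Fin d) F) :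
    fpM F d σ * ptM a = ptM (fun i => a (σ.symm i)) * fpM F d σ := by
  classical
  ext x z
  rw [fpM_mul_apply, mul_fpM_apply, ptM_apply, ptM_apply]
  rw [← Equiv.prod_comp σ.symm (fun i => a i ((x ∘ σ) i) (z i))]
  apply Finset.prod_congr rfl
  intro i _
  simp

/-- The matrix acting as `m` on the `i`-th tensor factor. -/
def facM {t d : ℕ} (i : Fin t) (m : Matrix (Fin d) (Fin d) F) :
    Matrix (Fin t → Fin d) (Fin t → Fin d) F :=
  Matrix.of fun x y => if ∀ j, j ≠ i → x j = y j then m (x i) (y i) else 0

theorem facM_apply {t d : ℕ} (i : Fin t) (m : Matrix (Fin d) (Fin d) F) (x y : Fin t → Fin d) :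
    facM i m x y = if ∀ j, j ≠ i → x j = y j then m (x i) (y i) else 0 := rfl

theorem facM_eq_ptM {t d : ℕ} (i : Fin t) (m : Matrix (Fin d) (Fin d) F) :
    facM i m = ptM (Function.update (fun _ => (1 : Matrix (Fin d) (Fin d) F)) i m) := by
  classical
  ext x y
  rw [facM_apply, ptM_apply, ← Finset.mul_prod_erase Finset.univ _ (Finset.mem_univ i),
    Function.update_self]
  have h1 : ∀ j ∈ Finset.univ.erase i,
      (Function.update (fun _ => (1 : Matrix (Fin d) (Fin d) F)) i m j) (x j) (y j) =
        if x j = y j then 1 else 0 := by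
    intro j hj
    rw [Function.update_of_ne (Finset.ne_of_mem_erase hj), Matrix.one_apply]
  rw [Finset.prod_congr rfl h1, Finset.prod_ite_zero, Finset.prod_const_one]
  by_cases h : ∀ j, j ≠ i → x j = y j
  · rw [if_pos h, if_pos, mul_one]
    intro j hj
    exact h j (Finset.ne_of_mem_erase hj)
  · rw [if_neg h, if_neg, mul_zero]
    intro h'
    apply h
    intro j hj
    exact h' j (Finset.mem_erase.mpr ⟨hj, Finset.mem_univ j⟩)

/-- `facM i` as a linear map. -/
def facL {t : ℕ} (d : ℕ) (i : Fin t) :
    Matrix (Fin d) (Fin d) F →ₗ[F] Matrix (Fin t → Fin d) (Fin t → Fin d) F where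
  toFun m := facM i m
  map_add' m m' := by
    ext x y
    rw [Matrix.add_apply, facM_apply, facM_apply, facM_apply]
    split_ifs
    · rfl
    · rw [add_zero]
  map_smul' c m := by
    ext x y
    rw [RingHom.id_apply, Matrix.smul_apply, facM_apply, facM_apply]
    split_ifs
    · rfl
    · rw [smul_zero]

theorem facL_apply {t d : ℕ} (i : Fin t) (m : Matrix (Fin d) (Fin d) F) : facL d i m = facM i m := rfl

/-- Conjugating a factor matrix by a pure tensor followed by a factor permutation. -/
theorem wreath_conj_facM {t d : ℕ} (σ : Equiv.Perm (Fin t)) (a ainv : Fin t → Matrix (Fin d) (Fin d) F)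
    (hinv : ∀ i, ainv i * a i = 1) (i : Fin t) (m : Matrix (Fin d) (Fin d) F) :
    (fpM F d σ * ptM a) * facM i m = facM (σ i) (a i * m * ainv i) * (fpM F d σ * ptM a) := by
  classical
  have h1 : Function.update (fun _ => (1 : Matrix (Fin d) (Fin d) F)) (σ i) (a i * m * ainv i) =
      fun j => Function.update (fun _ => (1 : Matrix (Fin d) (Fin d) F)) i (a i * m * ainv i) (σ.symm j) := by
    funext j
    by_cases hj : j = σ i
    · subst hj
      rw [Function.update_self, Equiv.symm_apply_apply, Function.update_self]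
    · rw [Function.update_of_ne hj, Function.update_of_ne]
      intro h
      apply hj
      rw [← h, Equiv.apply_symm_apply]
  rw [facM_eq_ptM, facM_eq_ptM, h1, ← mul_assoc (ptM _), ← fpM_mul_ptM, mul_assoc, mul_assoc, ptM_mul,
    ptM_mul]
  congr 2
  funext j
  by_cases hj : j = i
  · subst hj
    rw [Function.update_self, Function.update_self, mul_assoc, mul_assoc, hinv, mul_one]
  · rw [Function.update_of_ne hj, Function.update_of_ne hj, mul_one, one_mul]

theorem ptM_update_smul {t d : ℕ} (a : Fin t → Matrix (Fin d) (Fin d) F) (i : Fin t) (c : F) :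
    ptM (Function.update a i (c • a i)) = c • ptM a := by
  classical
  ext x y
  rw [Matrix.smul_apply, ptM_apply, ptM_apply, ← Finset.mul_prod_erase Finset.univ _ (Finset.mem_univ i),
    ← Finset.mul_prod_erase Finset.univ (fun j => a j (x j) (y j)) (Finset.mem_univ i),
    Function.update_self, Matrix.smul_apply, smul_eq_mul, smul_eq_mul, mul_assoc]
  congr 1
  congr 1
  apply Finset.prod_congr rfl
  intro j hj
  rw [Function.update_of_ne (Finset.ne_of_mem_erase hj)]

/-! ### Tensor coordinates for commuting copies of a matrix algebra -/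

/-- Commuting copies `φ i` of `M_d(F)` inside `M_n(F)`: a linearly independent family of vectors
indexed by `Fin t → Fin d` on which the matrix units of the `i`-th copy act on the `i`-th index. -/
theorem exists_tensor_vectors [NeZero n] {t d : ℕ} [NeZero d]
    (φ : Fin t → Matrix (Fin d) (Fin d) F →ₐ[F] Matrix (Fin n) (Fin n) F)
    (hcomm : ∀ i j, i ≠ j → ∀ x y, φ i x * φ j y = φ j y * φ i x) :
    ∃ v : (Fin t → Fin d) → (Fin n → F), LinearIndependent F v ∧
      ∀ (i : Fin t) (a b : Fin d) (x : Fin t → Fin d),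
        φ i (Matrix.single a b 1) *ᵥ v x = if b = x i then v (Function.update x i a) else 0 := by
  classical
  have hpw : ∀ (s : Finset (Fin t)) (x y : Fin t → Fin d),
      (s : Set (Fin t)).Pairwise
        (Function.onFun Commute (fun i => φ i (Matrix.single (x i) (y i) (1 : F)))) := by
    intro s x y i _ j _ hij
    exact hcomm i j hij _ _
  obtain ⟨U, hU⟩ : ∃ U : Finset (Fin t) → (Fin t → Fin d) → (Fin t → Fin d) → Matrix (Fin n) (Fin n) F,
      ∀ s x y, U s x y = s.noncommProd (fun i => φ i (Matrix.single (x i) (y i) (1 : F))) (hpw s x y) :=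
    ⟨_, fun _ _ _ => rfl⟩
  have hUempty : ∀ x y, U ∅ x y = 1 := by
    intro x y
    rw [hU, Finset.noncommProd_empty]
  have hUins : ∀ (s : Finset (Fin t)) (j : Fin t), j ∉ s → ∀ x y,
      U (insert j s) x y = φ j (Matrix.single (x j) (y j) 1) * U s x y := by
    intro s j hj x y
    rw [hU, hU, Finset.noncommProd_insert_of_notMem _ _ _ _ hj]
  have hUsplit : ∀ (s : Finset (Fin t)) (i : Fin t), i ∈ s → ∀ x y,
      U s x y = φ i (Matrix.single (x i) (y i) 1) * U (s.erase i) x y := by
    intro s i hi x y
    have := hUins (s.erase i) i (Finset.notMem_erase i s) x y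
    rwa [Finset.insert_erase hi] at this
  have hUcongr : ∀ (s : Finset (Fin t)) (x x' y : Fin t → Fin d), (∀ j ∈ s, x j = x' j) →
      U s x y = U s x' y := by
    intro s x x' y h
    rw [hU, hU]
    exact Finset.noncommProd_congr rfl (fun j hj => by rw [h j hj]) _
  have hUcomm : ∀ (s : Finset (Fin t)) (j : Fin t), j ∉ s → ∀ x y (m : Matrix (Fin d) (Fin d) F),
      φ j m * U s x y = U s x y * φ j m := by
    intro s j hj x y m
    rw [hU]
    exact (Finset.noncommProd_commute s _ _ (φ j m)
      (fun i hi => hcomm j i (fun h => hj (h ▸ hi)) _ _)).eq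
  have hre : ∀ (s : Finset (Fin t)) (j : Fin t), j ∉ s → ∀ x y y' z,
      U (insert j s) x y * U (insert j s) y' z =
        (φ j (Matrix.single (x j) (y j) 1) * φ j (Matrix.single (y' j) (z j) 1)) *
          (U s x y * U s y' z) := by
    intro s j hj x y y' z
    rw [hUins s j hj, hUins s j hj]
    calc φ j (Matrix.single (x j) (y j) 1) * U s x y * (φ j (Matrix.single (y' j) (z j) 1) * U s y' z)
        = φ j (Matrix.single (x j) (y j) 1) * (U s x y * φ j (Matrix.single (y' j) (z j) 1)) * U s y' z := by
          simp only [mul_assoc]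
      _ = φ j (Matrix.single (x j) (y j) 1) * (φ j (Matrix.single (y' j) (z j) 1) * U s x y) * U s y' z := by
          rw [hUcomm s j hj]
      _ = _ := by simp only [mul_assoc]
  have hUmul : ∀ (s : Finset (Fin t)) x y z, U s x y * U s y z = U s x z := by
    intro s x y z
    induction s using Finset.induction_on with
    | empty => rw [hUempty, hUempty, hUempty, mul_one]
    | insert j s hj ih => rw [hre s j hj, mu_mul_same, ih, ← hUins s j hj]
  have hUzero : ∀ (s : Finset (Fin t)) x y y' z, (∃ i ∈ s, y i ≠ y' i) → U s x y * U s y' z = 0 := by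
    intro s x y y' z
    induction s using Finset.induction_on with
    | empty =>
      rintro ⟨i, hi, -⟩
      exact absurd hi (Finset.notMem_empty i)
    | insert j s hj ih =>
      rintro ⟨i, hi, hne⟩
      rw [hre s j hj]
      by_cases hjy : y j = y' j
      · have hi' : i ∈ s := by
          rcases Finset.mem_insert.mp hi with h | h
          · exact absurd (h ▸ hjy) hne
          · exact h
        rw [ih ⟨i, hi', hne⟩, mul_zero]
      · rw [mu_mul_ne _ _ _ _ _ hjy, zero_mul]
  obtain ⟨o, ho⟩ : ∃ o : Fin d, o = ⟨0, Nat.pos_of_ne_zero (NeZero.ne d)⟩ := ⟨_, rfl⟩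
  obtain ⟨x₀, hx₀⟩ : ∃ x₀ : Fin t → Fin d, x₀ = fun _ => o := ⟨_, rfl⟩
  have hne : ∀ s : Finset (Fin t), U s x₀ x₀ ≠ 0 := by
    intro s
    induction s using Finset.induction_on with
    | empty =>
      rw [hUempty]
      exact one_ne_zero
    | insert j s hj ih =>
      intro h0
      apply ih
      rw [hUins s j hj] at h0
      have h1 : ∀ a : Fin d, φ j (Matrix.single a o 1) *
          (φ j (Matrix.single (x₀ j) (x₀ j) 1) * U s x₀ x₀) * φ j (Matrix.single o a 1) =
          φ j (Matrix.single a a 1) * U s x₀ x₀ := by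
        intro a
        have hxo : x₀ j = o := by rw [hx₀]
        rw [hxo]
        calc φ j (Matrix.single a o 1) * (φ j (Matrix.single o o 1) * U s x₀ x₀) * φ j (Matrix.single o a 1)
            = φ j (Matrix.single a o 1) * φ j (Matrix.single o o 1) * (U s x₀ x₀ * φ j (Matrix.single o a 1)) := by
              simp only [mul_assoc]
          _ = φ j (Matrix.single a o 1) * φ j (Matrix.single o o 1) * (φ j (Matrix.single o a 1) * U s x₀ x₀) := by
              rw [hUcomm s j hj]
          _ = φ j (Matrix.single a a 1) * U s x₀ x₀ := by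
              rw [← mul_assoc, mu_mul_same, mu_mul_same]
      calc U s x₀ x₀ = (∑ a : Fin d, φ j (Matrix.single a a 1)) * U s x₀ x₀ := by rw [mu_sum, one_mul]
        _ = ∑ a : Fin d, φ j (Matrix.single a o 1) *
              (φ j (Matrix.single (x₀ j) (x₀ j) 1) * U s x₀ x₀) * φ j (Matrix.single o a 1) := by
            rw [Finset.sum_mul]
            exact Finset.sum_congr rfl (fun a _ => (h1 a).symm)
        _ = 0 := by
            rw [h0]
            simp
  obtain ⟨u, hu⟩ : ∃ u : Fin n → F, U Finset.univ x₀ x₀ *ᵥ u ≠ 0 := by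
    by_contra hcon
    apply hne Finset.univ
    apply Helper98.matrix_ext_mulVec
    intro w
    rw [Matrix.zero_mulVec]
    by_contra hw
    exact hcon ⟨w, hw⟩
  refine ⟨fun x => U Finset.univ x x₀ *ᵥ u, ?_, ?_⟩
  · rw [Fintype.linearIndependent_iff]
    intro g hg y
    have h1 : U Finset.univ y y *ᵥ (∑ x, g x • (U Finset.univ x x₀ *ᵥ u)) = g y • (U Finset.univ y x₀ *ᵥ u) := by
      rw [Matrix.mulVec_sum, Finset.sum_eq_single y]
      · rw [Matrix.mulVec_smul, Matrix.mulVec_mulVec, hUmul]
      · intro x _ hxy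
        obtain ⟨i, hi⟩ := Function.ne_iff.mp hxy
        rw [Matrix.mulVec_smul, Matrix.mulVec_mulVec, hUzero _ _ _ _ _ ⟨i, Finset.mem_univ i, fun h => hi h.symm⟩,
          Matrix.zero_mulVec, smul_zero]
      · intro h
        exact absurd (Finset.mem_univ y) h
    rw [hg, Matrix.mulVec_zero] at h1
    rcases smul_eq_zero.mp h1.symm with h2 | h2
    · exact h2
    · exfalso
      apply hu
      rw [← hUmul Finset.univ x₀ y x₀, ← Matrix.mulVec_mulVec, h2, Matrix.mulVec_zero]
  · intro i a b x
    show φ i (Matrix.single a b 1) *ᵥ (U Finset.univ x x₀ *ᵥ u) = _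
    rw [Matrix.mulVec_mulVec, hUsplit Finset.univ i (Finset.mem_univ i) x x₀, ← mul_assoc]
    by_cases hb : b = x i
    · rw [if_pos hb, hb, mu_mul_same]
      show _ = U Finset.univ (Function.update x i a) x₀ *ᵥ u
      rw [hUsplit Finset.univ i (Finset.mem_univ i) (Function.update x i a) x₀, Function.update_self,
        hUcongr (Finset.univ.erase i) (Function.update x i a) x x₀
          (fun j hj => Function.update_of_ne (Finset.ne_of_mem_erase hj) _ _)]
    · rw [if_neg hb, mu_mul_ne _ _ _ _ _ hb, zero_mul, Matrix.zero_mulVec]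

/-- From a basis to conjugation, for a general index set. -/
theorem exists_conj_of_basis' {κ : Type} [Fintype κ] [DecidableEq κ]
    (b : Module.Basis κ F (Fin n → F)) :
    ∃ (e : Fin n ≃ κ) (P : GL (Fin n) F), ∀ (s : Matrix (Fin n) (Fin n) F) (X : Matrix κ κ F),
      (∀ q, s *ᵥ b q = ∑ q', X q' q • b q') → s = Helper98.conjReindex e P X := by
  classical
  have hcard : Fintype.card (Fin n) = Fintype.card κ := by
    have h1 := Module.finrank_eq_card_basis b
    rw [Module.finrank_fin_fun] at h1
    rw [Fintype.card_fin]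
    exact h1
  obtain ⟨e⟩ : Nonempty (Fin n ≃ κ) := ⟨Fintype.equivOfCardEq hcard⟩
  obtain ⟨Pm, hPmdef⟩ : ∃ Pm : Matrix (Fin n) (Fin n) F, Pm = Matrix.of fun i' i => b (e i) i' := ⟨_, rfl⟩
  have hPm : ∀ x : Fin n → F, Pm *ᵥ x = ∑ i, x i • b (e i) := by
    intro x
    ext i'
    rw [hPmdef, Matrix.mulVec, dotProduct, Finset.sum_apply]
    apply Finset.sum_congr rfl
    intro i _
    rw [Matrix.of_apply, Pi.smul_apply, smul_eq_mul, mul_comm]
  have hinj : ∀ x, Pm *ᵥ x = 0 → x = 0 := by
    intro x hx
    rw [hPm] at hx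
    have hli := (b.reindex e.symm).linearIndependent
    have h1 := Fintype.linearIndependent_iff.mp hli x (by
      rw [← hx]
      apply Finset.sum_congr rfl
      intro i _
      rw [Module.Basis.reindex_apply, Equiv.symm_symm])
    exact funext h1
  have hdet := Helper97.det_ne_zero_of_injective Pm hinj
  obtain ⟨P, hP⟩ : ∃ P : GL (Fin n) F, (P : Matrix (Fin n) (Fin n) F) = Pm :=
    ⟨Matrix.GeneralLinearGroup.mkOfDetNeZero Pm hdet, rfl⟩
  refine ⟨e, P, fun s X hs => ?_⟩
  have hR : ∀ (x : Fin n → F) (i' : Fin n), (Matrix.reindexAlgEquiv F F e.symm X *ᵥ x) i' =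
      ∑ i, X (e i') (e i) * x i := by
    intro x i'
    rw [Matrix.mulVec, dotProduct]
    rfl
  have hkey : s * Pm = Pm * Matrix.reindexAlgEquiv F F e.symm X := by
    apply Helper98.matrix_ext_mulVec
    intro x
    calc (s * Pm) *ᵥ x = ∑ i, x i • ∑ q', X q' (e i) • b q' := by
          rw [← Matrix.mulVec_mulVec, hPm, Matrix.mulVec_sum]
          exact Finset.sum_congr rfl (fun i _ => by rw [Matrix.mulVec_smul, hs])
      _ = ∑ i', ∑ i, (X (e i') (e i) * x i) • b (e i') := by
          simp_rw [Finset.smul_sum, smul_smul]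
          rw [Finset.sum_comm, ← Equiv.sum_comp e]
          apply Finset.sum_congr rfl
          intro i' _
          apply Finset.sum_congr rfl
          intro i _
          rw [mul_comm]
      _ = (Pm * Matrix.reindexAlgEquiv F F e.symm X) *ᵥ x := by
          rw [← Matrix.mulVec_mulVec, hPm]
          apply Finset.sum_congr rfl
          intro i' _
          rw [← Finset.sum_smul, hR]
  rw [Helper98.conjReindex_apply, hP, ← hkey, mul_assoc, ← hP, ← Units.val_mul, mul_inv_cancel,
    Units.val_one, mul_one]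

/-- Tensor coordinates: commuting copies `φ i` of `M_d(F)` in `M_n(F)` with `n = d ^ t` become the
standard factor embeddings after a change of basis. -/
theorem tensor_coords [NeZero n] {t d : ℕ} [NeZero d]
    (φ : Fin t → Matrix (Fin d) (Fin d) F →ₐ[F] Matrix (Fin n) (Fin n) F)
    (hcomm : ∀ i j, i ≠ j → ∀ x y, φ i x * φ j y = φ j y * φ i x) (hn : n = d ^ t) :
    ∃ (e : Fin n ≃ (Fin t → Fin d)) (P : GL (Fin n) F), ∀ (i : Fin t) (m : Matrix (Fin d) (Fin d) F),
      φ i m = Helper98.conjReindex e P (facM i m) := by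
  classical
  obtain ⟨v, hli, hv⟩ := exists_tensor_vectors φ hcomm
  have hcard : Fintype.card (Fin t → Fin d) = Module.finrank F (Fin n → F) := by
    rw [Module.finrank_fin_fun, Fintype.card_fun, Fintype.card_fin, Fintype.card_fin, hn]
  have hne : Nonempty (Fin t → Fin d) := ⟨fun _ => ⟨0, Nat.pos_of_ne_zero (NeZero.ne d)⟩⟩
  obtain ⟨b, hb⟩ : ∃ b : Module.Basis (Fin t → Fin d) F (Fin n → F), ∀ x, b x = v x :=
    ⟨basisOfLinearIndependentOfCardEqFinrank hli hcard, fun x => by
      rw [coe_basisOfLinearIndependentOfCardEqFinrank]⟩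
  obtain ⟨e, P, hP⟩ := exists_conj_of_basis' b
  refine ⟨e, P, fun i => ?_⟩
  have hlin : (φ i).toLinearMap =
      (Helper98.conjReindex e P).toLinearMap ∘ₗ (facL d i : Matrix (Fin d) (Fin d) F →ₗ[F] _) := by
    apply (Matrix.stdBasis F (Fin d) (Fin d)).ext
    rintro ⟨a, c⟩
    rw [Matrix.stdBasis_eq_single, LinearMap.comp_apply, AlgHom.toLinearMap_apply,
      AlgHom.toLinearMap_apply, facL_apply]
    apply hP
    intro y
    rw [hb, hv]
    simp_rw [hb, facM_apply, Matrix.single_apply]
    by_cases hc : c = y i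
    · rw [if_pos hc, Finset.sum_eq_single (Function.update y i a)]
      · rw [Function.update_self, if_pos, if_pos ⟨rfl, hc⟩, one_smul]
        intro j hj
        rw [Function.update_of_ne hj]
      · intro x _ hx
        by_cases h1 : ∀ j, j ≠ i → x j = y j
        · rw [if_pos h1, if_neg, zero_smul]
          rintro ⟨h2, -⟩
          apply hx
          funext j
          by_cases hj : j = i
          · subst hj
            rw [Function.update_self, h2]
          · rw [Function.update_of_ne hj, h1 j hj]
        · rw [if_neg h1, zero_smul]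
      · intro h
        exact absurd (Finset.mem_univ _) h
    · rw [if_neg hc]
      symm
      apply Finset.sum_eq_zero
      intro x _
      by_cases h1 : ∀ j, j ≠ i → x j = y j
      · rw [if_pos h1, if_neg, zero_smul]
        rintro ⟨-, h2⟩
        exact hc h2
      · rw [if_neg h1, zero_smul]
  intro m
  have := congrArg (fun L => L m) hlin
  simpa [facL_apply] using this

end Cfsg.Agent.Helper96
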