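-- helper96 library: the central-product case with the action of the central factors in the
-- tensor-power coordinates (a variant of `cp_wreath_le` in TensorPower2).
import Cfsg.Agent.Helper96.TensorPower2

set_option autoImplicit false
open Cfsg Cfsg.Geo Matrix
open scoped Kronecker

namespace Cfsg.Agent.Helper96

variable {F : Type*} [Field F] {n : ℕ}

/-- The central-product outcome of the core analysis, with the action of the factors: `H` lies in a
tensor-wreath subgroup, and the elements of `S` act on each tensor factor through `ρ`. -/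
theorem cp_wreath_le2 [Fintype F] [NeZero n] (H N S : Subgroup (GL (Fin n) F)) {d k : ℕ}
    (e : Fin n ≃ Fin d × Fin k) (Pm : GL (Fin n) F)
    (ρ : Matrix (Fin n) (Fin n) F → Matrix (Fin d) (Fin d) F) (hCP : CPData H N S d k e Pm ρ) :
    ∃ (t : ℕ) (e' : Fin n ≃ (Fin t → Fin d)) (P' : GL (Fin n) F), 2 ≤ t ∧
      H ≤ tensorWreathSubgroup d t e' P' ∧
      ∀ (j : Fin t), ∀ s ∈ S, ∃ x ∈ N, (x : Matrix (Fin n) (Fin n) F) =
        Helper98.conjReindex e' P' (facM j (ρ (s : Matrix (Fin n) (Fin n) F))) := by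
  classical
  have hdz : NeZero d := ⟨by have := hCP.two_le; omega⟩
  have hfin : Fintype H := Fintype.ofFinite H
  obtain ⟨𝒮, h𝒮⟩ : ∃ 𝒮 : Finset (Subgroup (GL (Fin n) F)),
      𝒮 = Finset.univ.image (fun h : H => Helper97.cj (h : GL (Fin n) F) S) := ⟨_, rfl⟩
  have hmem : ∀ S', S' ∈ 𝒮 ↔ ∃ h ∈ H, S' = Helper97.cj h S := by
    intro S'
    rw [h𝒮, Finset.mem_image]
    constructor
    · rintro ⟨h, -, rfl⟩
      exact ⟨h, h.2, rfl⟩
    · rintro ⟨h, hh, rfl⟩
      exact ⟨⟨h, hh⟩, Finset.mem_univ _, rfl⟩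
  have hcount := finrank_algOf H S hCP.tensor hCP.comm 𝒮 (fun S' hS' => (hmem S').mp hS')
  have hcard : 2 ≤ 𝒮.card := by
    obtain ⟨h₀, hh₀, hne'⟩ := hCP.moved
    apply Finset.one_lt_card.mpr
    exact ⟨Helper97.cj h₀ S, (hmem _).mpr ⟨h₀, hh₀, rfl⟩, S,
      (hmem _).mpr ⟨1, H.one_mem, (cj_one S).symm⟩, hne'⟩
  have hgenT : ∀ y ∈ {x : GL (Fin n) F | ∃ h ∈ H, x ∈ Helper97.cj h S},
      y⁻¹ ∈ {x : GL (Fin n) F | ∃ h ∈ H, x ∈ Helper97.cj h S} := by
    rintro y ⟨h, hh, hy⟩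
    exact ⟨h, hh, Subgroup.inv_mem _ hy⟩
  have key : ∀ x ∈ Subgroup.closure {x | ∃ h ∈ H, x ∈ Helper97.cj h S},
      (x : Matrix (Fin n) (Fin n) F) ∈ algOf 𝒮 ∧
        ((x⁻¹ : GL (Fin n) F) : Matrix (Fin n) (Fin n) F) ∈ algOf 𝒮 := by
    intro x hx'
    induction hx' using Subgroup.closure_induction with
    | mem y hy =>
      obtain ⟨h, hh, hy'⟩ := hy
      constructor
      · apply Algebra.subset_adjoin
        rw [Set.mem_iUnion₂]
        exact ⟨Helper97.cj h S, (hmem _).mpr ⟨h, hh, rfl⟩, y, hy', rfl⟩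
      · apply Algebra.subset_adjoin
        rw [Set.mem_iUnion₂]
        exact ⟨Helper97.cj h S, (hmem _).mpr ⟨h, hh, rfl⟩, y⁻¹, Subgroup.inv_mem _ hy', rfl⟩
    | one =>
      rw [inv_one, Units.val_one]
      exact ⟨Subalgebra.one_mem _, Subalgebra.one_mem _⟩
    | mul y z _ _ hy hz =>
      rw [_root_.mul_inv_rev, Units.val_mul, Units.val_mul]
      exact ⟨Subalgebra.mul_mem _ hy.1 hz.1, Subalgebra.mul_mem _ hz.2 hy.2⟩
    | inv y _ hy =>
      rw [inv_inv]
      exact ⟨hy.2, hy.1⟩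
  have htop : algOf 𝒮 = ⊤ := by
    rw [eq_top_iff, ← adjoin_eq_top_of_absIrred _ hCP.absIrred]
    apply Algebra.adjoin_le
    rintro _ ⟨x, hx, rfl⟩
    exact (key x (by rw [hCP.gen]; exact hx)).1
  have hfr : Module.finrank F (algOf 𝒮) = n * n := by
    rw [htop, (Subalgebra.topEquiv (R := F) (A := Matrix (Fin n) (Fin n) F)).toLinearEquiv.finrank_eq,
      Module.finrank_matrix, Fintype.card_fin, Module.finrank_self, mul_one]
  have hn : n = d ^ 𝒮.card := by
    have h1 : n ^ 2 = (d ^ 𝒮.card) ^ 2 := by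
      rw [sq, ← hfr, hcount, ← sq, ← pow_mul, ← pow_mul, mul_comm]
    exact Nat.pow_left_injective (by norm_num : (2 : ℕ) ≠ 0) h1
  obtain ⟨t, ht⟩ : ∃ t : ℕ, t = 𝒮.card := ⟨_, rfl⟩
  rw [← ht] at hn hcard
  obtain ⟨σ⟩ : Nonempty (Fin t ≃ 𝒮) := ⟨(ht ▸ 𝒮.equivFin.symm)⟩
  have hg : ∀ i : Fin t, ∃ g ∈ H, (σ i : Subgroup (GL (Fin n) F)) = Helper97.cj g S :=
    fun i => (hmem _).mp (σ i).2
  choose g hgH hgσ using hg
  obtain ⟨φ, hφdef⟩ : ∃ φ : Fin t → Matrix (Fin d) (Fin d) F →ₐ[F] Matrix (Fin n) (Fin n) F,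
      φ = fun i => (Helper98.conjReindex e (g i * Pm)).comp (kronL F d k) := ⟨_, rfl⟩
  have hφ : ∀ (j : Fin t) (m : Matrix (Fin d) (Fin d) F), φ j m = (g j : Matrix (Fin n) (Fin n) F) *
      Helper98.conjReindex e Pm (m ⊗ₖ (1 : Matrix (Fin k) (Fin k) F)) *
      (((g j)⁻¹ : GL (Fin n) F) : Matrix (Fin n) (Fin n) F) := by
    intro j m
    rw [hφdef]
    show Helper98.conjReindex e (g j * Pm) (kronL F d k m) = _
    rw [kronL_apply, conjReindex_mul]
  have hD : ∀ i, TensorData (Helper97.cj (g i) S) d k e (g i * Pm)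
      (fun s => ρ ((((g i)⁻¹ : GL (Fin n) F) : Matrix (Fin n) (Fin n) F) * s *
        (g i : Matrix (Fin n) (Fin n) F))) := fun i => hCP.tensor.conj (g i)
  have hrange : ∀ i, Algebra.adjoin F (matrixSet (Helper97.cj (g i) S)) = (φ i).range := by
    intro i
    rw [(hD i).adjoin_eq_range, hφdef]
  have hσinj : ∀ i j, Helper97.cj (g i) S = Helper97.cj (g j) S → i = j := by
    intro i j h
    apply σ.injective
    apply Subtype.ext
    rw [hgσ i, hgσ j, h]
  have hcomm : ∀ i j, i ≠ j → ∀ x y, φ i x * φ j y = φ j y * φ i x := by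
    intro i j hij x y
    apply adjoin_comm (matrixSet (Helper97.cj (g i) S)) (matrixSet (Helper97.cj (g j) S))
    · rintro _ ⟨s, hs, rfl⟩ _ ⟨s', hs', rfl⟩
      rw [← Units.val_mul, ← Units.val_mul,
        cj_comm_of_ne H S hCP.comm (g i) (g j) (hgH i) (hgH j) (fun h => hij (hσinj i j h)) s hs s' hs']
    · rw [hrange]; exact ⟨x, rfl⟩
    · rw [hrange]; exact ⟨y, rfl⟩
  obtain ⟨e', P', hcoord⟩ := tensor_coords φ hcomm hn
  refine ⟨t, e', P', hcard, ?_, ?_⟩
  swap
  · intro j s hs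
    refine ⟨g j * s * (g j)⁻¹, ?_, ?_⟩
    · rw [← hCP.gen]
      exact Subgroup.subset_closure ⟨g j, hgH j, Helper97.conj_mem_cj hs⟩
    · rw [← hcoord, hφ, Units.val_mul, Units.val_mul]
      congr 2
      exact hCP.tensor.eq _ ⟨s, hs, rfl⟩
  -- scalars
  have hsc : ∀ M : Matrix (Fin n) (Fin n) F,
      (∀ (i : Fin t) (m : Matrix (Fin d) (Fin d) F), M * Helper98.conjReindex e' P' (facM i m) =
        Helper98.conjReindex e' P' (facM i m) * M) → ∃ c : F, M = c • (1 : Matrix (Fin n) (Fin n) F) := by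
    intro M hM
    apply hCP.absIrred.2
    rintro _ ⟨x, hx, rfl⟩
    apply comm_closure _ hgenT M _ x (by rw [hCP.gen]; exact hx)
    rintro y ⟨h, hh, hy⟩
    obtain ⟨j, hj⟩ : ∃ j : Fin t, Helper97.cj (g j) S = Helper97.cj h S := by
      refine ⟨σ.symm ⟨Helper97.cj h S, (hmem _).mpr ⟨h, hh, rfl⟩⟩, ?_⟩
      rw [← hgσ, Equiv.apply_symm_apply]
    rw [← hj] at hy
    have h1 := (hD j).eq (y : Matrix (Fin n) (Fin n) F) ⟨y, hy, rfl⟩
    have h2 : (y : Matrix (Fin n) (Fin n) F) ∈ (φ j).range := by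
      rw [← hrange]
      exact Algebra.subset_adjoin ⟨y, hy, rfl⟩
    obtain ⟨m, hm⟩ := h2
    rw [← hm]
    show M * φ j m = φ j m * M
    rw [hcoord]
    exact hM j m
  intro h hh
  -- the permutation induced by `h`
  have hfmem : ∀ i : Fin t, Helper97.cj (h * g i) S ∈ 𝒮 :=
    fun i => (hmem _).mpr ⟨h * g i, H.mul_mem hh (hgH i), rfl⟩
  obtain ⟨f, hf⟩ : ∃ f : Fin t → Fin t, ∀ i, Helper97.cj (g (f i)) S = Helper97.cj (h * g i) S := by
    refine ⟨fun i => σ.symm ⟨Helper97.cj (h * g i) S, hfmem i⟩, fun i => ?_⟩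
    rw [← hgσ, Equiv.apply_symm_apply]
  have hfinj : Function.Injective f := by
    intro i j hij
    apply hσinj
    have h1 : Helper97.cj (h * g i) S = Helper97.cj (h * g j) S := by
      rw [← hf i, ← hf j, hij]
    have h2 : ∀ x : GL (Fin n) F, Helper97.cj x S = Helper97.cj h⁻¹ (Helper97.cj (h * x) S) := by
      intro x
      rw [← cj_mul]
      congr 1
      group
    rw [h2 (g i), h2 (g j), h1]
  obtain ⟨π, hπ⟩ : ∃ π : Equiv.Perm (Fin t), ∀ i, π i = f i :=
    ⟨Equiv.ofBijective f (Finite.injective_iff_bijective.mp hfinj), fun i => rfl⟩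
  have hex : ∀ i : Fin t, ∃ a : GL (Fin d) F, ∀ m : Matrix (Fin d) (Fin d) F,
      (h : Matrix (Fin n) (Fin n) F) * φ i m =
        φ (π i) ((a : Matrix (Fin d) (Fin d) F) * m * ((a⁻¹ : GL (Fin d) F) : Matrix (Fin d) (Fin d) F)) *
          (h : Matrix (Fin n) (Fin n) F) := by
    intro i
    obtain ⟨c, hc⟩ : ∃ c : GL (Fin n) F, c = (g (π i))⁻¹ * h * g i := ⟨_, rfl⟩
    have hcS : Helper97.cj c S = S := by
      have h1 : c = (g (π i))⁻¹ * (h * g i) := by rw [hc]; group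
      rw [h1, cj_mul, ← hf i, ← hπ i, ← cj_mul, inv_mul_cancel, cj_one]
    have hc1 : ∀ x ∈ S, c * x * c⁻¹ ∈ S := by
      intro x hx
      have := Helper97.conj_mem_cj (h := c) hx
      rwa [hcS] at this
    have hc2 : ∀ x ∈ S, c⁻¹ * x * c ∈ S := by
      intro x hx
      rw [← hcS] at hx
      exact Helper97.mem_cj.mp hx
    obtain ⟨a, b, hab⟩ := Helper98.mem_tensorProductSubgroup (hCP.tensor.normalizer_mem c hc1 hc2)
    refine ⟨a, fun m => ?_⟩
    have e1 : (h : Matrix (Fin n) (Fin n) F) * (g i : Matrix (Fin n) (Fin n) F) =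
        (g (π i) : Matrix (Fin n) (Fin n) F) * (c : Matrix (Fin n) (Fin n) F) := by
      rw [← Units.val_mul, ← Units.val_mul]
      congr 1
      rw [hc]
      group
    have e2 : (c : Matrix (Fin n) (Fin n) F) * (((g i)⁻¹ : GL (Fin n) F) : Matrix (Fin n) (Fin n) F) =
        (((g (π i))⁻¹ : GL (Fin n) F) : Matrix (Fin n) (Fin n) F) * (h : Matrix (Fin n) (Fin n) F) := by
      rw [← Units.val_mul, ← Units.val_mul]
      congr 1
      rw [hc]
      group
    have e3 : (c : Matrix (Fin n) (Fin n) F) *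
        Helper98.conjReindex e Pm (m ⊗ₖ (1 : Matrix (Fin k) (Fin k) F)) =
        Helper98.conjReindex e Pm (((a : Matrix (Fin d) (Fin d) F) * m *
          ((a⁻¹ : GL (Fin d) F) : Matrix (Fin d) (Fin d) F)) ⊗ₖ (1 : Matrix (Fin k) (Fin k) F)) *
          (c : Matrix (Fin n) (Fin n) F) := by
      rw [hab, ← map_mul, ← map_mul, ← Matrix.mul_kronecker_mul, ← Matrix.mul_kronecker_mul, one_mul,
        mul_one]
      congr 2
      rw [mul_assoc ((a : Matrix (Fin d) (Fin d) F) * m), ← Units.val_mul, inv_mul_cancel, Units.val_one,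
        mul_one]
    calc (h : Matrix (Fin n) (Fin n) F) * φ i m
        = ((h : Matrix (Fin n) (Fin n) F) * (g i : Matrix (Fin n) (Fin n) F)) *
            Helper98.conjReindex e Pm (m ⊗ₖ (1 : Matrix (Fin k) (Fin k) F)) *
            (((g i)⁻¹ : GL (Fin n) F) : Matrix (Fin n) (Fin n) F) := by
          rw [hφ]
          simp only [mul_assoc]
      _ = (g (π i) : Matrix (Fin n) (Fin n) F) * ((c : Matrix (Fin n) (Fin n) F) *
            Helper98.conjReindex e Pm (m ⊗ₖ (1 : Matrix (Fin k) (Fin k) F))) *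
            (((g i)⁻¹ : GL (Fin n) F) : Matrix (Fin n) (Fin n) F) := by
          rw [e1]
          simp only [mul_assoc]
      _ = (g (π i) : Matrix (Fin n) (Fin n) F) *
            Helper98.conjReindex e Pm (((a : Matrix (Fin d) (Fin d) F) * m *
              ((a⁻¹ : GL (Fin d) F) : Matrix (Fin d) (Fin d) F)) ⊗ₖ (1 : Matrix (Fin k) (Fin k) F)) *
            ((c : Matrix (Fin n) (Fin n) F) * (((g i)⁻¹ : GL (Fin n) F) : Matrix (Fin n) (Fin n) F)) := by
          rw [e3]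
          simp only [mul_assoc]
      _ = _ := by
          rw [e2, hφ]
          simp only [mul_assoc]
  choose a ha using hex
  apply mem_wreath_of_perm (by omega) e' P' h π a _ hsc
  intro i m
  rw [← hcoord, ← hcoord]
  exact ha i m

end Cfsg.Agent.Helper96
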