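-- helper96 library: bilinear forms on a tensor power that are invariant under an absolutely
-- irreducible group acting on each factor are scalar multiples of a tensor power of one form.
import Cfsg.Agent.Helper96.SpY1
import Cfsg.Agent.Helper96.SpTensor3

set_option autoImplicit false
set_option linter.unusedSectionVars false
set_option linter.unusedVariables false
open Cfsg Cfsg.Geo Matrix
open scoped Kronecker

namespace Cfsg.Agent.Helper96.Sy

variable {F : Type*} [Field F] {n : ℕ} {f : (Fin n → F) → (Fin n → F) → F}

theorem sum_mul_facM {t d : ℕ} (j : Fin t) (m : Matrix (Fin d) (Fin d) F)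
    (h : (Fin t → Fin d) → F) (b : Fin t → Fin d) :
    ∑ y : Fin t → Fin d, h y * facM j m y b =
      ∑ v : Fin d, h (Function.update b j v) * m v (b j) := by
  classical
  have hinj : ∀ v ∈ (Finset.univ : Finset (Fin d)), ∀ v' ∈ (Finset.univ : Finset (Fin d)),
      Function.update b j v = Function.update b j v' → v = v' := by
    intro v _ v' _ hvv
    have := congrFun hvv j
    rwa [Function.update_self, Function.update_self] at this
  rw [← Finset.sum_subset (Finset.subset_univ
    (Finset.univ.image (fun v : Fin d => Function.update b j v))), Finset.sum_image hinj]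
  · apply Finset.sum_congr rfl
    intro v _
    rw [facM_apply, if_pos, Function.update_self]
    intro i hi
    rw [Function.update_of_ne hi]
  · intro y _ hy
    rw [facM_apply, if_neg, mul_zero]
    intro hall
    apply hy
    rw [Finset.mem_image]
    refine ⟨y j, Finset.mem_univ _, ?_⟩
    funext i
    by_cases hi : i = j
    · subst hi
      rw [Function.update_self]
    · rw [Function.update_of_ne hi]
      exact (hall i hi).symm

theorem sum_facM_mul {t d : ℕ} (j : Fin t) (m : Matrix (Fin d) (Fin d) F)
    (h : (Fin t → Fin d) → F) (a : Fin t → Fin d) :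
    ∑ x : Fin t → Fin d, facM j m x a * h x =
      ∑ u : Fin d, m u (a j) * h (Function.update a j u) := by
  rw [show (∑ x : Fin t → Fin d, facM j m x a * h x) = ∑ x : Fin t → Fin d, h x * facM j m x a from
    Finset.sum_congr rfl (fun x _ => mul_comm _ _), sum_mul_facM]
  exact Finset.sum_congr rfl (fun u _ => mul_comm _ _)

/-- The slices of a form invariant under `facM j m` are invariant under `m`. -/
theorem slice_inv {t d : ℕ} (j : Fin t) (m : Matrix (Fin d) (Fin d) F)
    (Mt : Matrix (Fin t → Fin d) (Fin t → Fin d) F)
    (hfix : (facM j m)ᵀ * Mt * facM j m = Mt) (a b : Fin t → Fin d) :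
    mᵀ * (Matrix.of fun u v => Mt (Function.update a j u) (Function.update b j v)) * m =
      Matrix.of fun u v => Mt (Function.update a j u) (Function.update b j v) := by
  classical
  ext u v
  have h1 := congrFun (congrFun hfix (Function.update a j u)) (Function.update b j v)
  have hL : (mᵀ * (Matrix.of fun u v => Mt (Function.update a j u) (Function.update b j v)) * m) u v
      = ∑ v' : Fin d, (∑ u' : Fin d, m u' u * Mt (Function.update a j u') (Function.update b j v')) *
          m v' v := by
    rw [Matrix.mul_apply]
    apply Finset.sum_congr rfl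
    intro v' _
    rw [Matrix.mul_apply]
    rfl
  have hR : ((facM j m)ᵀ * Mt * facM j m) (Function.update a j u) (Function.update b j v)
      = ∑ v' : Fin d, (∑ u' : Fin d, m u' u * Mt (Function.update a j u') (Function.update b j v')) *
          m v' v := by
    rw [Matrix.mul_apply, sum_mul_facM j m
      (fun y => ((facM j m)ᵀ * Mt) (Function.update a j u) y) (Function.update b j v)]
    apply Finset.sum_congr rfl
    intro v' _
    rw [Function.update_self, Function.update_idem]
    congr 1
    rw [Matrix.mul_apply]
    simp only [Matrix.transpose_apply]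
    rw [sum_facM_mul j m (fun x => Mt x (Function.update b j v')) (Function.update a j u)]
    apply Finset.sum_congr rfl
    intro u' _
    rw [Function.update_self, Function.update_idem]
  rw [hL, ← hR, h1]
  rfl

/-- A non-zero bilinear form on a tensor power, invariant under an absolutely irreducible set of
matrices acting on each factor, is a multiple of the tensor power of an invariant form. -/
theorem power_form_of_inv {d t : ℕ} (R : Set (Matrix (Fin d) (Fin d) F))
    (habs : ActsAbsolutelyIrreducibly R)
    (hinv : ∀ x ∈ R, ∃ y ∈ R, x * y = 1 ∧ y * x = 1)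
    (Mt : Matrix (Fin t → Fin d) (Fin t → Fin d) F) (hMt : Mt ≠ 0) (ht : 0 < t)
    (hfix : ∀ (j : Fin t), ∀ m ∈ R, (facM j m)ᵀ * Mt * facM j m = Mt) :
    ∃ (B : Matrix (Fin d) (Fin d) F) (c : F), c ≠ 0 ∧ B.det ≠ 0 ∧ (Bᵀ = B ∨ Bᵀ = -B) ∧
      Mt = c • ptM (fun _ => B) := by
  classical
  obtain ⟨a₁, b₁, hab⟩ : ∃ a b, Mt a b ≠ 0 := by
    by_contra hcon
    push Not at hcon
    exact hMt (by ext a b; exact hcon a b)
  obtain ⟨Sl, hSl⟩ : ∃ Sl : Fin t → (Fin t → Fin d) → (Fin t → Fin d) → Matrix (Fin d) (Fin d) F,
      ∀ j a b, Sl j a b =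
        Matrix.of fun u v => Mt (Function.update a j u) (Function.update b j v) :=
    ⟨_, fun _ _ _ => rfl⟩
  have hSlfix : ∀ j a b, ∀ m ∈ R, mᵀ * Sl j a b * m = Sl j a b := by
    intro j a b m hm
    rw [hSl]
    exact slice_inv j m Mt (hfix j m hm) a b
  obtain ⟨B, hB⟩ : ∃ B, B = Sl ⟨0, ht⟩ a₁ b₁ := ⟨_, rfl⟩
  have hB0 : B ≠ 0 := by
    intro h0
    apply hab
    have h1 := congrFun (congrFun h0 (a₁ ⟨0, ht⟩)) (b₁ ⟨0, ht⟩)
    rw [hB, hSl] at h1
    simpa [Function.update_eq_self] using h1
  have hBfix : ∀ m ∈ R, mᵀ * B * m = B := by
    rw [hB]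
    exact hSlfix _ _ _
  obtain ⟨hdet, huniq⟩ := inv_form_set R habs hinv B hB0 hBfix
  have hsymm := inv_form_symm R habs hinv B hB0 hBfix
  obtain ⟨u₀, v₀, hβ⟩ : ∃ u v, B u v ≠ 0 := by
    by_contra hcon
    push Not at hcon
    exact hB0 (by ext u v; exact hcon u v)
  have hex : ∀ (j : Fin t) (a b : Fin t → Fin d) (u v : Fin d),
      Mt (Function.update a j u) (Function.update b j v) * B u₀ v₀ =
        Mt (Function.update a j u₀) (Function.update b j v₀) * B u v := by
    intro j a b u v
    obtain ⟨lam, hlam⟩ := huniq (Sl j a b) (hSlfix j a b)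
    have h1 : ∀ u v, Mt (Function.update a j u) (Function.update b j v) = lam * B u v := by
      intro u v
      have := congrFun (congrFun hlam u) v
      rw [hSl] at this
      exact this
    rw [h1 u v, h1 u₀ v₀]
    ring
  have hind : ∀ (s : Finset (Fin t)) (a b : Fin t → Fin d),
      Mt a b * B u₀ v₀ ^ s.card =
        Mt (fun i => if i ∈ s then u₀ else a i) (fun i => if i ∈ s then v₀ else b i) *
          ∏ i ∈ s, B (a i) (b i) := by
    intro s
    induction s using Finset.induction_on with
    | empty =>
      intro a b
      simp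
    | insert j s hj ih =>
      intro a b
      rw [Finset.card_insert_of_notMem hj, Finset.prod_insert hj, pow_succ, ← mul_assoc, ih a b]
      have h1 := hex j (fun i => if i ∈ s then u₀ else a i) (fun i => if i ∈ s then v₀ else b i)
        (a j) (b j)
      have h2 : Function.update (fun i => if i ∈ s then u₀ else a i) j (a j) =
          (fun i => if i ∈ s then u₀ else a i) := by
        funext i
        by_cases hi : i = j
        · subst hi
          rw [Function.update_self, if_neg hj]
        · rw [Function.update_of_ne hi]
      have h3 : Function.update (fun i => if i ∈ s then v₀ else b i) j (b j) =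
          (fun i => if i ∈ s then v₀ else b i) := by
        funext i
        by_cases hi : i = j
        · subst hi
          rw [Function.update_self, if_neg hj]
        · rw [Function.update_of_ne hi]
      have h4 : Function.update (fun i => if i ∈ s then u₀ else a i) j u₀ =
          (fun i => if i ∈ insert j s then u₀ else a i) := by
        funext i
        by_cases hi : i = j
        · subst hi
          rw [Function.update_self, if_pos (Finset.mem_insert_self _ _)]
        · rw [Function.update_of_ne hi]
          simp [Finset.mem_insert, hi]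
      have h5 : Function.update (fun i => if i ∈ s then v₀ else b i) j v₀ =
          (fun i => if i ∈ insert j s then v₀ else b i) := by
        funext i
        by_cases hi : i = j
        · subst hi
          rw [Function.update_self, if_pos (Finset.mem_insert_self _ _)]
        · rw [Function.update_of_ne hi]
          simp [Finset.mem_insert, hi]
      rw [h2, h3, h4, h5] at h1
      linear_combination (∏ i ∈ s, B (a i) (b i)) * h1
  have hfin : ∀ a b : Fin t → Fin d, Mt a b * B u₀ v₀ ^ t =
      Mt (fun _ => u₀) (fun _ => v₀) * ∏ i, B (a i) (b i) := by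
    intro a b
    have h1 := hind Finset.univ a b
    simp only [Finset.mem_univ, if_true, Finset.card_univ, Fintype.card_fin] at h1
    exact h1
  have hβt : B u₀ v₀ ^ t ≠ 0 := pow_ne_zero _ hβ
  refine ⟨B, Mt (fun _ => u₀) (fun _ => v₀) / B u₀ v₀ ^ t, ?_, hdet, hsymm, ?_⟩
  · intro h0
    have h2 : Mt (fun _ => u₀) (fun _ => v₀) = 0 := by
      rcases div_eq_zero_iff.mp h0 with h | h
      · exact h
      · exact absurd h hβt
    have h1 := hfin a₁ b₁
    rw [h2, zero_mul] at h1
    exact hab ((mul_eq_zero.mp h1).resolve_right hβt)
  · ext a b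
    rw [Matrix.smul_apply, ptM_apply, smul_eq_mul]
    have h1 := hfin a b
    field_simp
    linear_combination h1

/-- The tensor-power form structure attached to a Gram matrix in tensor-power coordinates. -/
theorem tensor_power_form_structure (hf : IsSymplecticForm f) {d t : ℕ}
    (e : Fin n ≃ (Fin t → Fin d)) (P : GL (Fin n) F) (A : Matrix (Fin d) (Fin d) F) (c : F)
    (hc : c ≠ 0) (hG : Helper97.Gen.gram f = formOf e P (c • ptM (fun _ => A))) :
    IsTensorPowerFormStructure id f (bf A) e P := by
  refine ⟨c, hc, fun x y => ?_⟩
  rw [gramMatrix_bf]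
  have h1 := (Helper97.Gen.isSesq_of_bilinear hf.bilinear).apply_mulVec
    (P : Matrix (Fin n) (Fin n) F) (x ∘ e) (y ∘ e)
  rw [h1, map_refl', hG, formOf_conj]
  simp only [dotProduct, Matrix.mulVec, Matrix.coe_reindexAlgEquiv, Matrix.reindex_apply,
    Matrix.submatrix_apply, Equiv.symm_symm, Function.comp_apply, RingEquiv.refl_apply, id,
    Matrix.smul_apply, ptM_apply, smul_eq_mul]
  rw [Finset.mul_sum, ← Equiv.sum_comp e]
  apply Finset.sum_congr rfl
  intro i _
  rw [Finset.mul_sum, Finset.mul_sum, ← Equiv.sum_comp e]
  apply Finset.sum_congr rfl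
  intro j _
  ring

end Cfsg.Agent.Helper96.Sy
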