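-- helper96 library: the central-product case for groups of isometries of a symplectic form in odd
-- characteristic: the form is a tensor power of a symplectic form.
import Cfsg.Agent.Helper96.SpY2
import Cfsg.Agent.Helper2.SolvableSmall

set_option autoImplicit false
set_option linter.unusedSectionVars false
set_option linter.unusedVariables false
open Cfsg Cfsg.Geo Matrix
open scoped Kronecker

namespace Cfsg.Agent.Helper96.Sy

variable {F : Type*} [Field F] {n : ℕ} {f : (Fin n → F) → (Fin n → F) → F}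

/-- Groups of order dividing `48` are solvable. -/
theorem isSolvable_of_card_dvd_fortyeight {G : Type*} [Group G] [Finite G] (h : Nat.card G ∣ 48) :
    Group.IsSolvable G := by
  haveI : Fact (Nat.Prime 2) := ⟨Nat.prime_two⟩
  let Q : Sylow 2 G := default
  have hidx : (Q : Subgroup G).index ∣ 3 := by
    have h1 : (Q : Subgroup G).index ∣ 3 * 16 := (Subgroup.index_dvd_card _).trans h
    have h2 : ¬ 2 ∣ (Q : Subgroup G).index := Q.not_dvd_index
    have h3 : Nat.Coprime ((Q : Subgroup G).index) (2 ^ 4) :=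
      Nat.Coprime.pow_right 4 ((Nat.Prime.coprime_iff_not_dvd Nat.prime_two).mpr h2).symm
    exact Nat.Coprime.dvd_of_dvd_mul_right h3 h1
  haveI : Group.IsNilpotent (Q : Subgroup G) := Q.2.isNilpotent
  haveI : Group.IsSolvable (G ⧸ (Q : Subgroup G).normalCore) := by
    apply Helper2.isSolvable_of_card_dvd_six
    have h1 := Helper2.index_normalCore_dvd_factorial (Q : Subgroup G)
    rcases (Nat.dvd_prime Nat.prime_three).mp hidx with h2 | h2 <;> rw [h2] at h1
    · exact h1.trans (by decide)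
    · exact h1
  exact Helper2.isSolvable_of_normalCore (Q : Subgroup G)

/-- The action on the tensor factor, as an injective group homomorphism. -/
theorem rhoHom_exists {N : Subgroup (GL (Fin n) F)} {d k : ℕ}
    {e : Fin n ≃ Fin d × Fin k} {P : GL (Fin n) F}
    {ρ : Matrix (Fin n) (Fin n) F → Matrix (Fin d) (Fin d) F} (D : TensorData N d k e P ρ) :
    ∃ ψ : N →* GL (Fin d) F, Function.Injective ψ ∧ ∀ x : N,
      ((ψ x : GL (Fin d) F) : Matrix (Fin d) (Fin d) F) =
        ρ ((x : GL (Fin n) F) : Matrix (Fin n) (Fin n) F) := by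
  have hmul : ∀ x y : GL (Fin n) F, x ∈ N → y ∈ N →
      ρ ((x * y : GL (Fin n) F) : Matrix (Fin n) (Fin n) F) =
        ρ (x : Matrix (Fin n) (Fin n) F) * ρ (y : Matrix (Fin n) (Fin n) F) := by
    intro x y hx hy
    apply kron_one_injective D.hk
    apply Helper98.conjReindex_injective e P
    have hxy := D.eq ((x * y : GL (Fin n) F) : Matrix (Fin n) (Fin n) F)
      ⟨x * y, N.mul_mem hx hy, rfl⟩
    have hx' := D.eq (x : Matrix (Fin n) (Fin n) F) ⟨x, hx, rfl⟩
    have hy' := D.eq (y : Matrix (Fin n) (Fin n) F) ⟨y, hy, rfl⟩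
    rw [← hxy, Units.val_mul]
    calc (x : Matrix (Fin n) (Fin n) F) * (y : Matrix (Fin n) (Fin n) F)
        = Helper98.conjReindex e P (ρ (x : Matrix (Fin n) (Fin n) F) ⊗ₖ (1 : Matrix (Fin k) (Fin k) F)) *
          Helper98.conjReindex e P (ρ (y : Matrix (Fin n) (Fin n) F) ⊗ₖ (1 : Matrix (Fin k) (Fin k) F)) := by
          rw [← hx', ← hy']
      _ = _ := by rw [← map_mul, ← Matrix.mul_kronecker_mul, one_mul]
  have hone : ρ ((1 : GL (Fin n) F) : Matrix (Fin n) (Fin n) F) = 1 := by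
    apply kron_one_injective D.hk
    apply Helper98.conjReindex_injective e P
    have h1 := D.eq ((1 : GL (Fin n) F) : Matrix (Fin n) (Fin n) F) ⟨1, N.one_mem, rfl⟩
    rw [← h1, Matrix.one_kronecker_one, map_one, Units.val_one]
  have hinv1 : ∀ x : N, ρ ((x : GL (Fin n) F) : Matrix (Fin n) (Fin n) F) *
      ρ (((x⁻¹ : N) : GL (Fin n) F) : Matrix (Fin n) (Fin n) F) = 1 := by
    intro x
    rw [← hmul _ _ x.2 (x⁻¹).2, Subgroup.coe_inv, mul_inv_cancel, hone]
  have hinv2 : ∀ x : N, ρ (((x⁻¹ : N) : GL (Fin n) F) : Matrix (Fin n) (Fin n) F) *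
      ρ ((x : GL (Fin n) F) : Matrix (Fin n) (Fin n) F) = 1 := by
    intro x
    rw [← hmul _ _ (x⁻¹).2 x.2, Subgroup.coe_inv, inv_mul_cancel, hone]
  obtain ⟨ψ₀, hψ₀⟩ : ∃ ψ₀ : N → GL (Fin d) F, ∀ x : N,
      ((ψ₀ x : GL (Fin d) F) : Matrix (Fin d) (Fin d) F) =
        ρ ((x : GL (Fin n) F) : Matrix (Fin n) (Fin n) F) :=
    ⟨fun x => ⟨ρ ((x : GL (Fin n) F) : Matrix (Fin n) (Fin n) F),
      ρ (((x⁻¹ : N) : GL (Fin n) F) : Matrix (Fin n) (Fin n) F), hinv1 x, hinv2 x⟩, fun x => rfl⟩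
  have hψmul : ∀ x y : N, ψ₀ (x * y) = ψ₀ x * ψ₀ y := by
    intro x y
    apply Units.ext
    rw [Units.val_mul, hψ₀, hψ₀, hψ₀]
    exact hmul _ _ x.2 y.2
  refine ⟨MonoidHom.mk' ψ₀ hψmul, ?_, fun x => hψ₀ x⟩
  intro x y hxy
  have h0 : ψ₀ x = ψ₀ y := hxy
  have h1 : ρ ((x : GL (Fin n) F) : Matrix (Fin n) (Fin n) F) =
      ρ ((y : GL (Fin n) F) : Matrix (Fin n) (Fin n) F) := by
    rw [← hψ₀, ← hψ₀, h0]
  apply Subtype.ext
  apply Units.ext
  rw [D.eq ((x : GL (Fin n) F) : Matrix (Fin n) (Fin n) F) ⟨x, x.2, rfl⟩,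
    D.eq ((y : GL (Fin n) F) : Matrix (Fin n) (Fin n) F) ⟨y, y.2, rfl⟩, h1]

/-- A perfect non-scalar group with a tensor factor of dimension two: the field is not `F_3`. -/
theorem cp_not_three_two [Fintype F] {N : Subgroup (GL (Fin n) F)} {k : ℕ}
    {e : Fin n ≃ Fin 2 × Fin k} {P : GL (Fin n) F}
    {ρ : Matrix (Fin n) (Fin n) F → Matrix (Fin 2) (Fin 2) F} (D : TensorData N 2 k e P ρ)
    (hperf : ⁅N, N⁆ = N) (hNZ : ¬ N ≤ scalars (Fin n) F) : Fintype.card F ≠ 3 := by
  classical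
  intro hq
  obtain ⟨ψ, hψ, -⟩ := rhoHom_exists D
  have hcard : Nat.card N ∣ 48 := by
    have h1 := Subgroup.card_dvd_of_injective ψ hψ
    have h2 : Nat.card (GL (Fin 2) F) = 48 := by
      rw [Matrix.card_GL_field, hq]
      simp [Fin.prod_univ_two]
    rwa [h2] at h1
  haveI : Group.IsSolvable N := isSolvable_of_card_dvd_fortyeight hcard
  have htop : _root_.commutator N = ⊤ := by
    have h1 : (_root_.commutator N).map N.subtype = ⁅N, N⁆ := Subgroup.map_subtype_commutator N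
    apply Subgroup.map_injective N.subtype_injective
    rw [h1, hperf, ← MonoidHom.range_eq_map, Subgroup.range_subtype]
  by_cases hnt : Nontrivial N
  · exact (IsSolvable.commutator_lt_top_of_nontrivial N).ne htop
  · apply hNZ
    intro x hx
    have hss : Subsingleton N := not_nontrivial_iff_subsingleton.mp hnt
    have h1 : (⟨x, hx⟩ : N) = 1 := Subsingleton.elim _ _
    have h2 : x = 1 := congrArg Subtype.val h1
    rw [h2]
    exact Subgroup.one_mem _

/-- The central-product case in odd characteristic: the form is a tensor power of a symplectic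
form with an odd number of factors, and the group lies in the corresponding tensor-wreath group. -/
theorem cp_power_outcome [Fintype F] [NeZero n] (h2 : (2 : F) ≠ 0) (hf : IsSymplecticForm f)
    (H N S : Subgroup (GL (Fin n) F)) (hH : H ≤ isoSub f) {d k : ℕ}
    (e : Fin n ≃ Fin d × Fin k) (Pm : GL (Fin n) F)
    (ρ : Matrix (Fin n) (Fin n) F → Matrix (Fin d) (Fin d) F) (hCP : CPData H N S d k e Pm ρ) :
    ∃ (t : ℕ) (e' : Fin n ≃ (Fin t → Fin d)) (P' : GL (Fin n) F)
      (f₁ : (Fin d → F) → (Fin d → F) → F), Odd t ∧ 3 ≤ t ∧ ¬ (Fintype.card F = 3 ∧ d = 2) ∧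
      IsSymplecticForm f₁ ∧ IsTensorPowerFormStructure id f f₁ e' P' ∧
      H ≤ tensorWreathSubgroup d t e' P' := by
  classical
  obtain ⟨t, e', P', ht, hle, hact⟩ := cp_wreath_le2 H N S e Pm ρ hCP
  have hNiso : N ≤ isoSub f := hCP.le.trans hH
  obtain ⟨R, hR⟩ : ∃ R : Set (Matrix (Fin d) (Fin d) F), R = ρ '' matrixSet S := ⟨_, rfl⟩
  have habsR : ActsAbsolutelyIrreducibly R := by
    rw [hR]
    refine ⟨fun W hW => hCP.tensor.irr W (fun s hs w hw => ?_),
      fun M hM => hCP.tensor.cent M (fun s hs => hM (ρ s) ⟨s, hs, rfl⟩)⟩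
    have := hW (ρ s) ⟨s, hs, rfl⟩ ⟨w, hw, rfl⟩
    rwa [Matrix.toLin'_apply] at this
  obtain ⟨ψ, -, hψ⟩ := rhoHom_exists hCP.tensor
  have hinvR : ∀ x ∈ R, ∃ y ∈ R, x * y = 1 ∧ y * x = 1 := by
    rw [hR]
    rintro _ ⟨_, ⟨s, hs, rfl⟩, rfl⟩
    have h1 := hψ ⟨s, hs⟩
    have h1' := hψ ⟨s⁻¹, S.inv_mem hs⟩
    have h3 : (⟨s, hs⟩ : S) * ⟨s⁻¹, S.inv_mem hs⟩ = 1 := by
      apply Subtype.ext
      exact mul_inv_cancel s
    have h4 : (⟨s⁻¹, S.inv_mem hs⟩ : S) * ⟨s, hs⟩ = 1 := by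
      apply Subtype.ext
      exact inv_mul_cancel s
    refine ⟨ρ ((s⁻¹ : GL (Fin n) F) : Matrix (Fin n) (Fin n) F),
      ⟨_, ⟨s⁻¹, S.inv_mem hs, rfl⟩, rfl⟩, ?_, ?_⟩
    · rw [← h1, ← h1', ← Units.val_mul, ← map_mul, h3, map_one, Units.val_one]
    · rw [← h1, ← h1', ← Units.val_mul, ← map_mul, h4, map_one, Units.val_one]
  -- the Gram matrix in tensor-power coordinates
  obtain ⟨G, hG⟩ : ∃ G, G = Helper97.Gen.gram f := ⟨_, rfl⟩
  obtain ⟨Mt, hMt⟩ : ∃ Mt : Matrix (Fin t → Fin d) (Fin t → Fin d) F,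
      Mt = Matrix.reindexAlgEquiv F F e'
        ((P' : Matrix (Fin n) (Fin n) F)ᵀ * G * (P' : Matrix (Fin n) (Fin n) F)) := ⟨_, rfl⟩
  have hGM : G = formOf e' P' Mt := by
    rw [hMt]
    exact (formOf_reindex e' P' G).symm
  have hne : Nonempty (Fin n) := ⟨⟨0, Nat.pos_of_ne_zero (NeZero.ne n)⟩⟩
  have hMt0 : Mt ≠ 0 := by
    intro h0
    have h1 : G = 0 := by
      rw [hGM, h0, formOf, map_zero, mul_zero, zero_mul]
    apply det_gram_ne_zero hf
    rw [← hG, h1]
    exact Matrix.det_zero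
  have hfix : ∀ (j : Fin t), ∀ m ∈ R, (facM j m)ᵀ * Mt * facM j m = Mt := by
    rw [hR]
    rintro j _ ⟨_, ⟨s, hs, rfl⟩, rfl⟩
    obtain ⟨x, hx, hxval⟩ := hact j s hs
    have h1 := gram_iso hf (hNiso hx)
    rw [← hG, hxval, hGM, formOf_mul] at h1
    exact formOf_inj e' P' h1
  obtain ⟨B, c, hc, hdet, hsymm, hMtB⟩ :=
    power_form_of_inv R habsR hinvR Mt hMt0 (by omega) hfix
  have hentry : ∀ a b, Mt a b = f ((P' : Matrix (Fin n) (Fin n) F) *ᵥ Pi.single (e'.symm a) 1)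
      ((P' : Matrix (Fin n) (Fin n) F) *ᵥ Pi.single (e'.symm b) 1) := by
    intro a b
    rw [hMt, hG, ← gram_conj_apply hf]
    rfl
  have hskew : ∀ a b, Mt b a = - Mt a b := fun a b => by rw [hentry, hentry, hf.skew]
  have hBentry : ∀ a b, Mt a b = c * ∏ i, B (a i) (b i) := by
    intro a b
    rw [hMtB, Matrix.smul_apply, ptM_apply, smul_eq_mul]
  obtain ⟨a₁, b₁, hab⟩ : ∃ a b, Mt a b ≠ 0 := by
    by_contra hcon
    push Not at hcon
    exact hMt0 (by ext a b; exact hcon a b)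
  have hcontra : Mt b₁ a₁ = Mt a₁ b₁ → False := by
    intro h1
    have h3 := hskew a₁ b₁
    rw [h1] at h3
    have h4 : (2 : F) * Mt a₁ b₁ = 0 := by linear_combination h3
    rcases mul_eq_zero.mp h4 with h | h
    · exact h2 h
    · exact hab h
  have hBskew : Bᵀ = -B := by
    rcases hsymm with h | h
    · exfalso
      apply hcontra
      rw [hBentry, hBentry]
      congr 1
      apply Finset.prod_congr rfl
      intro i _
      have := congrFun (congrFun h (a₁ i)) (b₁ i)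
      rw [Matrix.transpose_apply] at this
      exact this
    · exact h
  have hodd : Odd t := by
    by_contra hno
    have heven : Even t := Nat.not_odd_iff_even.mp hno
    apply hcontra
    rw [hBentry, hBentry]
    congr 1
    have h5 : ∀ i, B (b₁ i) (a₁ i) = -B (a₁ i) (b₁ i) := by
      intro i
      have := congrFun (congrFun hBskew (a₁ i)) (b₁ i)
      rw [Matrix.transpose_apply, Matrix.neg_apply] at this
      exact this
    simp_rw [h5]
    rw [Finset.prod_neg, Finset.card_univ, Fintype.card_fin, heven.neg_one_pow, one_mul]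
  have ht3 : 3 ≤ t := by
    obtain ⟨j, hj⟩ := hodd
    omega
  refine ⟨t, e', P', bf B, hodd, ht3, ?_, bf_symplectic_odd h2 B hdet hBskew,
    tensor_power_form_structure hf e' P' B c hc (by rw [← hG, hGM, hMtB]), hle⟩
  rintro ⟨hq, rfl⟩
  exact cp_not_three_two hCP.tensor hCP.subPerfect hCP.notScalar hq

end Cfsg.Agent.Helper96.Sy
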