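-- helper96 library: the case analysis of `composite_core` for arbitrary subgroups (no maximality).
import Cfsg.Agent.Helper96.Composite

set_option autoImplicit false
open Cfsg Cfsg.Geo Matrix

namespace Cfsg.Agent.Helper96

variable {F : Type*} [Field F] {n : ℕ}

/-- Core case analysis for an arbitrary subgroup of `GL_n(q)`, `n ≥ 3`. -/
theorem general_core [Fintype F] (hn3 : 3 ≤ n)
    (H : Subgroup (GL (Fin n) F)) :
    (∃ W : Submodule F (Fin n → F), W ≠ ⊥ ∧ W ≠ ⊤ ∧
      H ≤ subspaceStabilizer W) ∨
    (∃ (t m : ℕ) (D : Fin t → Submodule F (Fin n → F)), IsMDecomposition m D ∧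
      H ≤ decompositionStabilizer D) ∨
    (∃ (r : ℕ) (K : Subalgebra F (Matrix (Fin n) (Fin n) F)), r.Prime ∧ IsFieldSubalgebra r K ∧
      H ≤ subalgebraNormalizer K) ∨
    (∃ (d k : ℕ) (e : Fin n ≃ Fin d × Fin k) (P : GL (Fin n) F), 2 ≤ d ∧ 2 ≤ k ∧
      H ≤ tensorProductSubgroup d k e P) ∨
    (∃ (F₀ : Subfield F) (r : ℕ) (P : GL (Fin n) F), r.Prime ∧ Fintype.card F = Nat.card F₀ ^ r ∧
      H ≤ subfieldSubgroup F₀ P) ∨
    (Odd (Fintype.card F) ∧ ∃ Q : (Fin n → F) → F, IsNondegenerateQuadraticForm Q ∧
      H ≤ quadSimilarityGroup Q) ∨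
    (∃ f : (Fin n → F) → (Fin n → F) → F, IsSymplecticForm f ∧
      H ≤ similarityGroup f) ∨
    (∃ (σ : F ≃+* F) (f : (Fin n → F) → (Fin n → F) → F), IsUnitaryForm σ f ∧
      H ≤ similarityGroup f) ∨
    InLinearResidualClass H ∨
    (∃ N : Subgroup (GL (Fin n) F), C2Data H N) ∨
    (∃ (N S : Subgroup (GL (Fin n) F)) (d k : ℕ) (e : Fin n ≃ Fin d × Fin k) (Pm : GL (Fin n) F)
      (ρ : Matrix (Fin n) (Fin n) F → Matrix (Fin d) (Fin d) F), CPData H N S d k e Pm ρ) := by
  classical
  obtain ⟨p, hchar⟩ := CharP.exists F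
  have hp : p.Prime := (CharP.char_is_prime_or_zero F p).resolve_right (CharP.char_ne_zero_of_finite F p)
  have hfact : Fact p.Prime := ⟨hp⟩
  have hn2 : 2 ≤ n := by omega
  have hnz : NeZero n := ⟨by omega⟩
  have hZc : ∀ z ∈ scalars (Fin n) F, ∀ g : GL (Fin n) F, z * g = g * z :=
    fun z hz g => Helper97.scalars_comm hz g
  by_cases hirr : ActsIrreducibly (matrixSet H)
  swap
  · -- reducible: class 1
    have hex : ∃ W : Submodule F (Fin n → F),
        (∀ s ∈ matrixSet H, W.map (Matrix.toLin' s) ≤ W) ∧ W ≠ ⊥ ∧ W ≠ ⊤ := by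
      by_contra hcon
      apply hirr
      intro W hW
      by_contra hW'
      rw [not_or] at hW'
      exact hcon ⟨W, hW, hW'.1, hW'.2⟩
    obtain ⟨W, hW, hW0, hW1⟩ := hex
    left
    have hle : H ≤ subspaceStabilizer W := Helper97.le_subspaceStabilizer H W
      (fun g hg v hv => hW _ (Helper97.coe_mem_matrixSet hg) ⟨v, hv, by rw [Matrix.toLin'_apply]⟩)
    exact ⟨W, hW0, hW1, hle⟩
  -- irreducible
  have hHZ : ¬ H ≤ scalars (Fin n) F := Helper97.not_le_scalars_of_irreducible hn2 H hirr
  obtain ⟨N, hNH, hNn, hNZ, hNmin⟩ := Helper97.exists_minimal_normal (scalars (Fin n) F) H hHZ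
  rcases general_clifford (by omega) H N hirr hNn with
    ⟨t, m, D, hD, hHD⟩ | ⟨r, K, hr, hK, hHK⟩ | ⟨d, k, e, P, ρ, hTD⟩
  · right; left
    exact ⟨t, m, D, hD, hHD⟩
  · right; right; left
    exact ⟨r, K, hr, hK, hHK⟩
  -- tensor coordinates for `N`
  by_cases hd1 : d = 1
  · exact absurd (hTD.le_scalars_of_one hd1) hNZ
  have hd2 : 2 ≤ d := by have := hTD.hd; omega
  by_cases hk1 : k = 1
  swap
  · have hk2 : 2 ≤ k := by have := hTD.hk; omega
    right; right; right; left
    have hle : H ≤ tensorProductSubgroup d k e P := by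
      intro h hh
      refine hTD.normalizer_mem h (hNn h hh) ?_
      have := hNn h⁻¹ (H.inv_mem hh)
      simpa using this
    exact ⟨d, k, e, P, hd2, hk2, hle⟩
  -- `N` is absolutely irreducible
  have habs : ActsAbsolutelyIrreducibly (matrixSet N) := hTD.absIrred_of_one hk1
  have hCN : ⁅N, N⁆ ≤ N := by
    rw [Subgroup.commutator_le]
    intro a ha b hb
    rw [commutatorElement_def]
    exact N.mul_mem (N.mul_mem (N.mul_mem ha hb) (N.inv_mem ha)) (N.inv_mem hb)
  rcases hNmin ⁅N, N⁆ hCN (Helper97.commutator_normalized H N hNn) with hC | hC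
  · -- class two modulo scalars
    have hab : ∀ a ∈ N, ∀ b ∈ N, a * b * a⁻¹ * b⁻¹ ∈ scalars (Fin n) F := by
      intro a ha b hb
      have := Subgroup.commutator_mem_commutator ha hb
      rw [commutatorElement_def] at this
      exact hC this
    obtain ⟨r, hr, hpow⟩ := Helper97.exists_prime_pow_mem (scalars (Fin n) F) H N hZc hNn hNZ hNmin hab
    obtain ⟨j, hj⟩ := sq_eq_prime_pow_of_class_two N habs hab r hr hpow
    right; right; right; right; right; right; right; right; right; left
    exact ⟨N, hNH, hNn, hNZ, hNmin, habs, hab, r, j, hr, hj, hpow⟩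
  -- perfect
  have hperf : ⁅N, N⁆ = N := hC
  have hirrN : ActsIrreducibly (matrixSet N) := habs.1
  have hcentN : ∀ c : GL (Fin n) F, (∀ s ∈ N, c * s = s * c) → c ∈ scalars (Fin n) F := by
    intro c hc
    obtain ⟨a, ha⟩ := habs.2 (c : Matrix (Fin n) (Fin n) F) (by
      rintro _ ⟨s, hs, rfl⟩
      rw [← Units.val_mul, ← Units.val_mul, hc s hs])
    exact (Helper97.scalar_mem_scalars_iff c).mpr ⟨a, ha⟩
  rcases perfect_structure (scalars (Fin n) F) H N hZc hNn hNZ hNmin hperf with
    hsimple | ⟨S, hSN, hSn, hSZ, hSperf, hne, hcomm, hgen⟩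
  swap
  · -- central product of conjugates
    have hsc : ∀ M, ZCent (matrixSet S) M → ∃ c : F, M = c • (1 : Matrix (Fin n) (Fin n) F) := by
      intro M hM
      apply habs.2
      have hyc : ∀ h ∈ H, ∀ y ∈ Helper97.cj h S,
          M * (y : Matrix (Fin n) (Fin n) F) = (y : Matrix (Fin n) (Fin n) F) * M := by
        intro h hh y hy'
        rcases hcomm h hh with h1 | h1
        · rw [h1] at hy'
          exact hM.1 _ (Helper97.coe_mem_matrixSet hy')
        · apply hM.2
          rintro _ ⟨s', hs', rfl⟩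
          rw [← Units.val_mul, ← Units.val_mul, h1 s' hs' y hy']
      have key : ∀ x ∈ Subgroup.closure {x | ∃ h ∈ H, x ∈ Helper97.cj h S},
          M * (x : Matrix (Fin n) (Fin n) F) = (x : Matrix (Fin n) (Fin n) F) * M ∧
          M * ((x⁻¹ : GL (Fin n) F) : Matrix (Fin n) (Fin n) F) =
            ((x⁻¹ : GL (Fin n) F) : Matrix (Fin n) (Fin n) F) * M := by
        intro x hx
        induction hx using Subgroup.closure_induction with
        | mem y hy =>
          obtain ⟨h, hh, hy'⟩ := hy
          exact ⟨hyc h hh y hy', hyc h hh y⁻¹ (Subgroup.inv_mem _ hy')⟩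
        | one =>
          rw [inv_one, Units.val_one, mul_one, one_mul]
          exact ⟨rfl, rfl⟩
        | mul y z _ _ hy hz =>
          rw [_root_.mul_inv_rev, Units.val_mul, Units.val_mul]
          constructor
          · rw [← mul_assoc, hy.1, mul_assoc, hz.1, ← mul_assoc]
          · rw [← mul_assoc, hz.2, mul_assoc, hy.2, ← mul_assoc]
        | inv y _ hy =>
          rw [inv_inv]
          exact ⟨hy.2, hy.1⟩
      rintro _ ⟨x, hx, rfl⟩
      exact (key x (by rw [hgen]; exact hx)).1
    obtain ⟨d', k', e', P', ρ', hTD'⟩ := tensorData_of_zcent_scalar (by omega) N S hirrN hSn hsc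
    have hd'2 : 2 ≤ d' := by
      have h1 := hTD'.hd
      have h2 : d' ≠ 1 := fun h => hSZ (hTD'.le_scalars_of_one h)
      omega
    have hpow := eq_pow_of_central_product H N S hTD' habs hne hcomm hgen
    right; right; right; right; right; right; right; right; right; right
    exact ⟨N, S, d', k', e', P', ρ', hNH, hNn, hperf, habs, hSN, hSn, hSperf, hSZ, hne, hcomm, hgen,
      hTD', hd'2, hpow⟩
  -- simple modulo scalars
  by_cases hsub : ∃ F₀ : Subfield F, F₀ ≠ ⊤ ∧ RealisableOver F₀ (matrixSet N)
  · obtain ⟨F₀, hF₀, hreal⟩ := hsub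
    obtain ⟨F₁, r, B, hr, hcard, hnorm'⟩ :=
      Helper97.normalizer_le_subfield_of_realisable N habs F₀ hF₀ hreal
    right; right; right; right; left
    have hle : H ≤ subfieldSubgroup F₁ B := fun h hh => hnorm' h (hNn h hh)
    exact ⟨F₁, r, B, hr, hcard, hle⟩
  have hcore : IsResidualCore H N :=
    { le := hNH
      normal := hNn
      perfect := hperf
      simple := Helper97.isSimpleGroup_quot (scalars (Fin n) F) N hNZ hsimple
      nonabelian := Helper97.not_commutative_quot (scalars (Fin n) F) N hNZ hperf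
      centralizer_scalar := fun h _ hh =>
        Helper97.mem_of_centralizes_mod (scalars (Fin n) F) N hZc hperf hcentN h hh
      absIrred := habs
      no_subfield := fun F₀ hF₀ hreal => hsub ⟨F₀, hF₀, hreal⟩ }
  by_cases hquad : ∃ Q : (Fin n → F) → F,
      IsNondegenerateQuadraticForm Q ∧ FixesQuadForm (matrixSet N) Q
  · obtain ⟨Q, hQ, hfix⟩ := hquad
    by_cases h2 : (2 : F) = 0
    · -- characteristic two: the polar form is symplectic
      have hsympQ : IsSymplecticForm (QuadraticMap.polar Q) := by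
        refine ⟨hQ.polar_bilinear, ?_, ?_, hQ.nondegenerate⟩
        · intro v w
          rw [QuadraticMap.polar_comm]
          have : QuadraticMap.polar Q w v + QuadraticMap.polar Q w v = 0 := by
            rw [← two_mul, h2, zero_mul]
          exact eq_neg_of_add_eq_zero_left this
        · intro v
          rw [Helper97.polar_self Q hQ, h2, zero_mul]
      have hle : H ≤ similarityGroup (QuadraticMap.polar Q) := fun h hh =>
        Helper97.normalizer_le_similarity N habs (RingEquiv.refl F) _
          (Helper97.isSesq_of_bilinear hQ.polar_bilinear)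
          (fun v hv => (hQ.nondegenerate v hv).1) (Helper97.fixesForm_polar _ Q hfix) h (hNn h hh)
      right; right; right; right; right; right; left
      exact ⟨_, hsympQ, hle⟩
    · right; right; right; right; right; left
      have hle : H ≤ quadSimilarityGroup Q :=
        fun h hh => Helper97.normalizer_le_quadSimilarity N habs Q hQ h2 hfix h (hNn h hh)
      refine ⟨?_, Q, hQ, hle⟩
      obtain ⟨e, -, hcard⟩ := FiniteField.card F p
      rw [hcard]
      apply Odd.pow
      rcases hp.eq_two_or_odd' with h | h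
      · exfalso
        apply h2
        have h3 := CharP.cast_eq_zero F p
        rw [h] at h3
        exact_mod_cast h3
      · exact h
  by_cases hsymp : ∃ f : (Fin n → F) → (Fin n → F) → F,
      IsSymplecticForm f ∧ FixesForm (matrixSet N) f
  · obtain ⟨f, hf, hfix⟩ := hsymp
    have hle : H ≤ similarityGroup f := fun h hh =>
      Helper97.normalizer_le_similarity N habs (RingEquiv.refl F) f
        (Helper97.isSesq_of_bilinear hf.bilinear)
        (fun v hv => (hf.nondegenerate v hv).1) hfix h (hNn h hh)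
    right; right; right; right; right; right; left
    exact ⟨f, hf, hle⟩
  by_cases hunit : ∃ (σ : F ≃+* F) (f : (Fin n → F) → (Fin n → F) → F),
      IsUnitaryForm σ f ∧ FixesForm (matrixSet N) f
  · obtain ⟨σ, f, hf, hfix⟩ := hunit
    right; right; right; right; right; right; right; left
    have hle : H ≤ similarityGroup f := fun h hh =>
      Helper97.normalizer_le_similarity N habs σ f (Helper97.isSesq_of_unitary hf)
        (fun v hv => (hf.nondegenerate v hv).1) hfix h (hNn h hh)
    exact ⟨σ, f, hf, hle⟩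
  right; right; right; right; right; right; right; right; left
  exact ⟨N, hcore, hquad, hsymp, hunit⟩

end Cfsg.Agent.Helper96
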