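-- helper96 library: an absolutely irreducible linear group with scalar commutators has index n^2 over its scalars.
import Cfsg.Agent.Helper96.Clifford2

set_option autoImplicit false
open Cfsg Cfsg.Geo Matrix

namespace Cfsg.Agent.Helper96

variable {F : Type*} [Field F] {n : ℕ}

theorem scalar_eq_entry [NeZero n] {z : GL (Fin n) F} (hz : z ∈ scalars (Fin n) F) :
    ∃ c : F, (z : Matrix (Fin n) (Fin n) F) = c • (1 : Matrix (Fin n) (Fin n) F) ∧
      (z : Matrix (Fin n) (Fin n) F) 0 0 = c := by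
  obtain ⟨c, hc⟩ := (Helper97.scalar_mem_scalars_iff z).mp hz
  refine ⟨c, hc, ?_⟩
  rw [hc, Matrix.smul_apply, Matrix.one_apply_eq, smul_eq_mul, mul_one]

/-- The commutator character `h ↦ [h, g]` of a group with scalar commutators. -/
noncomputable def commChar [NeZero n] (N : Subgroup (GL (Fin n) F))
    (hab : ∀ a ∈ N, ∀ b ∈ N, a * b * a⁻¹ * b⁻¹ ∈ scalars (Fin n) F) (g : N) : N →* F where
  toFun h := (((h : GL (Fin n) F) * (g : GL (Fin n) F) * (h : GL (Fin n) F)⁻¹ *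
    (g : GL (Fin n) F)⁻¹ : GL (Fin n) F) : Matrix (Fin n) (Fin n) F) 0 0
  map_one' := by simp
  map_mul' h h' := by
    have h1 := hab h' h'.2 g g.2
    have h2 := hab h h.2 g g.2
    have hc := Helper97.scalars_comm h1
    have e : ((h * h' : N) : GL (Fin n) F) * (g : GL (Fin n) F) * ((h * h' : N) : GL (Fin n) F)⁻¹ *
        (g : GL (Fin n) F)⁻¹ =
        ((h : GL (Fin n) F) * (g : GL (Fin n) F) * (h : GL (Fin n) F)⁻¹ * (g : GL (Fin n) F)⁻¹) *
        ((h' : GL (Fin n) F) * (g : GL (Fin n) F) * (h' : GL (Fin n) F)⁻¹ * (g : GL (Fin n) F)⁻¹) := by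
      rw [← hc]
      rw [Subgroup.coe_mul]
      calc (h : GL (Fin n) F) * (h' : GL (Fin n) F) * (g : GL (Fin n) F) *
            ((h : GL (Fin n) F) * (h' : GL (Fin n) F))⁻¹ * (g : GL (Fin n) F)⁻¹
          = (h : GL (Fin n) F) * ((h' : GL (Fin n) F) * (g : GL (Fin n) F) * (h' : GL (Fin n) F)⁻¹ *
            (g : GL (Fin n) F)⁻¹) * ((g : GL (Fin n) F) * (h : GL (Fin n) F)⁻¹ * (g : GL (Fin n) F)⁻¹) := by
            group
        _ = ((h' : GL (Fin n) F) * (g : GL (Fin n) F) * (h' : GL (Fin n) F)⁻¹ * (g : GL (Fin n) F)⁻¹) *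
            (h : GL (Fin n) F) * ((g : GL (Fin n) F) * (h : GL (Fin n) F)⁻¹ * (g : GL (Fin n) F)⁻¹) := by
            rw [hc (h : GL (Fin n) F)]
        _ = _ := by group
    obtain ⟨a, ha, ha'⟩ := scalar_eq_entry h2
    obtain ⟨b, hb, hb'⟩ := scalar_eq_entry h1
    show (((h * h' : N) : GL (Fin n) F) * (g : GL (Fin n) F) * ((h * h' : N) : GL (Fin n) F)⁻¹ *
        (g : GL (Fin n) F)⁻¹ : GL (Fin n) F).val 0 0 = _
    rw [e, Units.val_mul, ha', hb', ha, hb, Matrix.smul_mul, Matrix.one_mul, Matrix.smul_apply,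
      Matrix.smul_apply, Matrix.one_apply_eq, smul_eq_mul, smul_eq_mul, mul_one]

theorem commChar_apply [NeZero n] (N : Subgroup (GL (Fin n) F))
    (hab : ∀ a ∈ N, ∀ b ∈ N, a * b * a⁻¹ * b⁻¹ ∈ scalars (Fin n) F) (g h : N) :
    commChar N hab g h = (((h : GL (Fin n) F) * (g : GL (Fin n) F) * (h : GL (Fin n) F)⁻¹ *
      (g : GL (Fin n) F)⁻¹ : GL (Fin n) F) : Matrix (Fin n) (Fin n) F) 0 0 := rfl

/-- Conjugation formula: `h g h⁻¹ = χ_g(h) g`. -/
theorem conj_eq_commChar [NeZero n] (N : Subgroup (GL (Fin n) F))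
    (hab : ∀ a ∈ N, ∀ b ∈ N, a * b * a⁻¹ * b⁻¹ ∈ scalars (Fin n) F) (g h : N) :
    ((h : GL (Fin n) F) : Matrix (Fin n) (Fin n) F) * ((g : GL (Fin n) F) : Matrix (Fin n) (Fin n) F) *
      (((h : GL (Fin n) F)⁻¹ : GL (Fin n) F) : Matrix (Fin n) (Fin n) F) =
      commChar N hab g h • ((g : GL (Fin n) F) : Matrix (Fin n) (Fin n) F) := by
  obtain ⟨a, ha, ha'⟩ := scalar_eq_entry (hab h h.2 g g.2)
  rw [commChar_apply, ha']
  have h1 : (h : GL (Fin n) F) * (g : GL (Fin n) F) * (h : GL (Fin n) F)⁻¹ =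
      ((h : GL (Fin n) F) * (g : GL (Fin n) F) * (h : GL (Fin n) F)⁻¹ * (g : GL (Fin n) F)⁻¹) *
        (g : GL (Fin n) F) := by group
  have h2 := congrArg (fun x : GL (Fin n) F => (x : Matrix (Fin n) (Fin n) F)) h1
  simp only [Units.val_mul] at h2
  rw [h2, ← Units.val_mul, ← Units.val_mul, ← Units.val_mul, ha, Matrix.smul_mul, Matrix.one_mul]

theorem commChar_inj [NeZero n] (N : Subgroup (GL (Fin n) F))
    (habs : ActsAbsolutelyIrreducibly (matrixSet N))
    (hab : ∀ a ∈ N, ∀ b ∈ N, a * b * a⁻¹ * b⁻¹ ∈ scalars (Fin n) F) (g g' : N)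
    (h : commChar N hab g = commChar N hab g') :
    (g : GL (Fin n) F)⁻¹ * (g' : GL (Fin n) F) ∈ scalars (Fin n) F := by
  rw [Helper97.scalar_mem_scalars_iff]
  apply habs.2
  rintro _ ⟨s, hs, rfl⟩
  have h1 := conj_eq_commChar N hab g ⟨s, hs⟩
  have h2 := conj_eq_commChar N hab g' ⟨s, hs⟩
  rw [← h] at h2
  obtain ⟨c, hc⟩ : ∃ c : F, c = commChar N hab g ⟨s, hs⟩ := ⟨_, rfl⟩
  rw [← hc] at h1 h2
  simp only [Subgroup.coe_mk] at h1 h2
  have hc0 : c ≠ 0 := by
    rintro rfl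
    rw [zero_smul] at h1
    have h3 : ((s * (g : GL (Fin n) F) * s⁻¹ : GL (Fin n) F) : Matrix (Fin n) (Fin n) F) = 0 := by
      rw [Units.val_mul, Units.val_mul]; exact h1
    have h4 := (s * (g : GL (Fin n) F) * s⁻¹ : GL (Fin n) F).inv_mul
    rw [h3, mul_zero] at h4
    have h5 := congrFun (congrFun h4 0) 0
    simp at h5
  -- `s g⁻¹ s⁻¹ = c⁻¹ g⁻¹`
  have h3 : (s : Matrix (Fin n) (Fin n) F) * (((g : GL (Fin n) F)⁻¹ : GL (Fin n) F) : Matrix (Fin n) (Fin n) F) *
      ((s⁻¹ : GL (Fin n) F) : Matrix (Fin n) (Fin n) F) =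
      c⁻¹ • (((g : GL (Fin n) F)⁻¹ : GL (Fin n) F) : Matrix (Fin n) (Fin n) F) := by
    have h4 : ((s * (g : GL (Fin n) F)⁻¹ * s⁻¹ : GL (Fin n) F) : Matrix (Fin n) (Fin n) F) *
        ((s * (g : GL (Fin n) F) * s⁻¹ : GL (Fin n) F) : Matrix (Fin n) (Fin n) F) = 1 := by
      rw [← Units.val_mul]
      have : s * (g : GL (Fin n) F)⁻¹ * s⁻¹ * (s * (g : GL (Fin n) F) * s⁻¹) = 1 := by group
      rw [this, Units.val_one]
    have h5 : ((s * (g : GL (Fin n) F) * s⁻¹ : GL (Fin n) F) : Matrix (Fin n) (Fin n) F) =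
        c • ((g : GL (Fin n) F) : Matrix (Fin n) (Fin n) F) := by
      rw [Units.val_mul, Units.val_mul]; exact h1
    rw [h5, Matrix.mul_smul] at h4
    have h6 : ((s * (g : GL (Fin n) F)⁻¹ * s⁻¹ : GL (Fin n) F) : Matrix (Fin n) (Fin n) F) *
        ((g : GL (Fin n) F) : Matrix (Fin n) (Fin n) F) = c⁻¹ • 1 := by
      rw [← h4, smul_smul, inv_mul_cancel₀ hc0, one_smul]
    have h7 := congrArg (fun M : Matrix (Fin n) (Fin n) F =>
      M * (((g : GL (Fin n) F)⁻¹ : GL (Fin n) F) : Matrix (Fin n) (Fin n) F)) h6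
    simp only [mul_assoc, Matrix.smul_mul, Matrix.one_mul] at h7
    rw [← Units.val_mul (g : GL (Fin n) F), mul_inv_cancel, Units.val_one, mul_one] at h7
    rw [← h7, Units.val_mul, Units.val_mul, mul_assoc]
  have hsi : ((s⁻¹ : GL (Fin n) F) : Matrix (Fin n) (Fin n) F) * (s : Matrix (Fin n) (Fin n) F) = 1 := by
    rw [← Units.val_mul, inv_mul_cancel, Units.val_one]
  -- now compute
  have h8 : (s : Matrix (Fin n) (Fin n) F) *
      (((g : GL (Fin n) F)⁻¹ * (g' : GL (Fin n) F) : GL (Fin n) F) : Matrix (Fin n) (Fin n) F) *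
      ((s⁻¹ : GL (Fin n) F) : Matrix (Fin n) (Fin n) F) =
      (((g : GL (Fin n) F)⁻¹ * (g' : GL (Fin n) F) : GL (Fin n) F) : Matrix (Fin n) (Fin n) F) := by
    rw [Units.val_mul]
    calc (s : Matrix (Fin n) (Fin n) F) * ((((g : GL (Fin n) F)⁻¹ : GL (Fin n) F) : Matrix (Fin n) (Fin n) F) *
          ((g' : GL (Fin n) F) : Matrix (Fin n) (Fin n) F)) * ((s⁻¹ : GL (Fin n) F) : Matrix (Fin n) (Fin n) F)
        = ((s : Matrix (Fin n) (Fin n) F) * (((g : GL (Fin n) F)⁻¹ : GL (Fin n) F) : Matrix (Fin n) (Fin n) F) *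
          ((s⁻¹ : GL (Fin n) F) : Matrix (Fin n) (Fin n) F)) * ((s : Matrix (Fin n) (Fin n) F) *
          ((g' : GL (Fin n) F) : Matrix (Fin n) (Fin n) F) * ((s⁻¹ : GL (Fin n) F) : Matrix (Fin n) (Fin n) F)) := by
          simp only [mul_assoc]
          rw [← mul_assoc ((s⁻¹ : GL (Fin n) F) : Matrix (Fin n) (Fin n) F), hsi, one_mul]
      _ = _ := by
          rw [h3, h2, Matrix.smul_mul, Matrix.mul_smul, smul_smul, inv_mul_cancel₀ hc0, one_smul]
  have h9 := congrArg (fun M : Matrix (Fin n) (Fin n) F => M * (s : Matrix (Fin n) (Fin n) F)) h8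
  simp only [mul_assoc] at h9
  rw [hsi, mul_one] at h9
  exact h9.symm

/-- For an absolutely irreducible group with scalar commutators, the index of its scalars is `n²`. -/
theorem card_quot_of_class_two [NeZero n] [Finite F] (N : Subgroup (GL (Fin n) F))
    (habs : ActsAbsolutelyIrreducibly (matrixSet N))
    (hab : ∀ a ∈ N, ∀ b ∈ N, a * b * a⁻¹ * b⁻¹ ∈ scalars (Fin n) F) :
    Nat.card (N ⧸ (scalars (Fin n) F).subgroupOf N) = n * n := by
  classical
  have hfin : Fintype (N ⧸ (scalars (Fin n) F).subgroupOf N) := Fintype.ofFinite _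
  obtain ⟨v, hv⟩ : ∃ v : N ⧸ (scalars (Fin n) F).subgroupOf N → Matrix (Fin n) (Fin n) F,
      ∀ q, v q = (((Quotient.out q : N) : GL (Fin n) F) : Matrix (Fin n) (Fin n) F) := ⟨_, fun _ => rfl⟩
  have hχinj : Function.Injective
      (fun q : N ⧸ (scalars (Fin n) F).subgroupOf N => commChar N hab (Quotient.out q)) := by
    intro q q' h
    have h1 := commChar_inj N habs hab _ _ h
    have h2 : (Quotient.out q : N)⁻¹ * (Quotient.out q' : N) ∈ (scalars (Fin n) F).subgroupOf N := by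
      rw [Subgroup.mem_subgroupOf]
      exact h1
    have h3 := QuotientGroup.eq.mpr h2
    rw [QuotientGroup.out_eq', QuotientGroup.out_eq'] at h3
    exact h3
  have hχli := (linearIndependent_monoidHom N F).comp _ hχinj
  have hli : LinearIndependent F v := by
    rw [Fintype.linearIndependent_iff]
    intro c hc q
    -- pick a non-zero entry of `v q`
    obtain ⟨i, j, hij⟩ : ∃ i j, v q i j ≠ 0 := by
      by_contra hcon
      have h0 : v q = 0 := by
        ext i j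
        by_contra hne
        exact hcon ⟨i, j, hne⟩
      have h4 := ((Quotient.out q : N) : GL (Fin n) F).inv_mul
      rw [hv] at h0
      rw [h0, mul_zero] at h4
      have h5 := congrFun (congrFun h4 0) 0
      simp at h5
    have hfun : ∑ q', (c q' * v q' i j) • (fun h : N => commChar N hab (Quotient.out q') h) = 0 := by
      funext h
      rw [Finset.sum_apply, Pi.zero_apply]
      have h1 : ((h : GL (Fin n) F) : Matrix (Fin n) (Fin n) F) * (∑ q', c q' • v q') *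
          (((h : GL (Fin n) F)⁻¹ : GL (Fin n) F) : Matrix (Fin n) (Fin n) F) = 0 := by
        rw [hc, mul_zero, zero_mul]
      rw [Finset.mul_sum, Finset.sum_mul] at h1
      have h2 := congrFun (congrFun h1 i) j
      rw [Matrix.sum_apply, Matrix.zero_apply] at h2
      rw [← h2]
      apply Finset.sum_congr rfl
      intro q' _
      rw [Matrix.mul_smul, Matrix.smul_mul, hv, conj_eq_commChar N hab, Matrix.smul_apply,
        Matrix.smul_apply, Pi.smul_apply, smul_eq_mul, smul_eq_mul, smul_eq_mul]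
      ring
    have h3 := Fintype.linearIndependent_iff.mp hχli (fun q' => c q' * v q' i j) hfun q
    exact (mul_eq_zero.mp h3).resolve_right hij
  have hsp : ⊤ ≤ Submodule.span F (Set.range v) := by
    rw [← span_matrixSet_eq_top N habs]
    apply Submodule.span_le.mpr
    rintro _ ⟨g, hg, rfl⟩
    obtain ⟨z, hz⟩ := QuotientGroup.mk_out_eq_mul ((scalars (Fin n) F).subgroupOf N) (⟨g, hg⟩ : N)
    have hz' : ((z : N) : GL (Fin n) F) ∈ scalars (Fin n) F := Subgroup.mem_subgroupOf.mp z.2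
    have hzi : (((z : N) : GL (Fin n) F))⁻¹ ∈ scalars (Fin n) F := Subgroup.inv_mem _ hz'
    obtain ⟨c, hc⟩ := (Helper97.scalar_mem_scalars_iff _).mp hzi
    have h1 : g = ((Quotient.out (QuotientGroup.mk (⟨g, hg⟩ : N) :
        N ⧸ (scalars (Fin n) F).subgroupOf N) : N) : GL (Fin n) F) * (((z : N) : GL (Fin n) F))⁻¹ := by
      rw [hz]
      simp
    have h2 : (g : Matrix (Fin n) (Fin n) F) = c • v (QuotientGroup.mk (⟨g, hg⟩ : N)) := by
      rw [hv]
      conv_lhs => rw [h1]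
      rw [Units.val_mul, hc, Matrix.mul_smul, Matrix.mul_one]
    show (g : Matrix (Fin n) (Fin n) F) ∈ _
    rw [h2]
    exact Submodule.smul_mem _ _ (Submodule.subset_span ⟨_, rfl⟩)
  have hb := Module.finrank_eq_card_basis (Module.Basis.mk hli hsp)
  rw [Module.finrank_matrix, Fintype.card_fin, Module.finrank_self, mul_one] at hb
  rw [Nat.card_eq_fintype_card, ← hb]

/-- If moreover all `r`-th powers are scalar (`r` prime), then `n * n` is a power of `r`. -/
theorem sq_eq_prime_pow_of_class_two [NeZero n] [Finite F] (N : Subgroup (GL (Fin n) F))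
    (habs : ActsAbsolutelyIrreducibly (matrixSet N))
    (hab : ∀ a ∈ N, ∀ b ∈ N, a * b * a⁻¹ * b⁻¹ ∈ scalars (Fin n) F)
    (r : ℕ) (hr : r.Prime) (hpow : ∀ x ∈ N, x ^ r ∈ scalars (Fin n) F) :
    ∃ j : ℕ, n * n = r ^ j := by
  have hfact : Fact r.Prime := ⟨hr⟩
  have hp : IsPGroup r (N ⧸ (scalars (Fin n) F).subgroupOf N) := by
    intro q
    refine ⟨1, ?_⟩
    induction q using QuotientGroup.induction_on with
    | H x =>
      rw [pow_one, ← QuotientGroup.mk_pow, QuotientGroup.eq_one_iff, Subgroup.mem_subgroupOf]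
      exact hpow x x.2
  obtain ⟨j, hj⟩ := hp.exists_card_eq
  exact ⟨j, by rw [← hj, card_quot_of_class_two N habs hab]⟩

end Cfsg.Agent.Helper96
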