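-- helper96 library: monomial bases for absolutely irreducible groups of class two modulo scalars.
import Cfsg.Agent.Helper96.Class2
import Cfsg.Agent.Helper97.Extra2

set_option autoImplicit false
open Cfsg Cfsg.Geo Matrix

namespace Cfsg.Agent.Helper96

variable {F : Type*} [Field F] {n : ℕ}

/-- An element of finite order `k`, over a field with a primitive `k`-th root of unity, has an
eigenvector in every non-zero invariant subspace. -/
theorem exists_eigen_of_inv {k : ℕ} (hk : 0 < k) {ζ : F} (hζ : IsPrimitiveRoot ζ k)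
    (g : Matrix (Fin n) (Fin n) F) (hg : g ^ k = 1) (E : Submodule F (Fin n → F)) (hE : E ≠ ⊥)
    (hinv : ∀ w ∈ E, g *ᵥ w ∈ E) : ∃ w ∈ E, w ≠ 0 ∧ ∃ μ : F, g *ᵥ w = μ • w := by
  classical
  have hmaps : ∀ w ∈ E, Matrix.toLin' g w ∈ E := fun w hw => by
    rw [Matrix.toLin'_apply]; exact hinv w hw
  obtain ⟨f, hf⟩ : ∃ f : Module.End F E, f = (Matrix.toLin' g).restrict hmaps := ⟨_, rfl⟩
  have hfv : ∀ w : E, ((f w : E) : Fin n → F) = g *ᵥ (w : Fin n → F) := by
    intro w
    rw [hf, LinearMap.restrict_coe_apply, Matrix.toLin'_apply]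
  have hpow : ∀ (j : ℕ) (w : E), (((f ^ j) w : E) : Fin n → F) = (g ^ j) *ᵥ (w : Fin n → F) := by
    intro j
    induction j with
    | zero => intro w; simp
    | succ j ih =>
      intro w
      rw [pow_succ, Module.End.mul_apply, ih, hfv, pow_succ, Matrix.mulVec_mulVec]
  have hfn : f ^ k = 1 := by
    apply LinearMap.ext
    intro w
    apply Subtype.ext
    rw [hpow, hg, Matrix.one_mulVec]
    rfl
  have hnt : Nontrivial E := Submodule.nontrivial_iff_ne_bot.mpr hE
  have h1 : minpoly F f ∣ (Polynomial.X ^ k - Polynomial.C 1 : Polynomial F) := by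
    apply minpoly.dvd
    simp [hfn]
  have h2 : (Polynomial.X ^ k - Polynomial.C 1 : Polynomial F).Splits :=
    Polynomial.X_pow_sub_one_splits hζ
  have h3 : (Polynomial.X ^ k - Polynomial.C 1 : Polynomial F) ≠ 0 :=
    Polynomial.X_pow_sub_C_ne_zero hk 1
  have h4 : (minpoly F f).Splits := Polynomial.Splits.of_dvd h2 h3 h1
  have hint : IsIntegral F f := Algebra.IsIntegral.isIntegral f
  have h5 : (minpoly F f).degree ≠ 0 := ne_of_gt (minpoly.degree_pos hint)
  obtain ⟨μ, hμ⟩ := h4.exists_eval_eq_zero h5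
  have h6 : f.HasEigenvalue μ := Module.End.hasEigenvalue_of_isRoot hμ
  obtain ⟨v, hv⟩ := h6.exists_hasEigenvector
  rw [Module.End.hasEigenvector_iff, Module.End.mem_eigenspace_iff] at hv
  refine ⟨v, v.2, fun h => hv.2 (Subtype.ext h), μ, ?_⟩
  rw [← hfv, hv.1]
  rfl

/-- The stabiliser in `N` of the line spanned by `v`. -/
def lineStab (N : Subgroup (GL (Fin n) F)) (v : Fin n → F) : Subgroup (GL (Fin n) F) where
  carrier := {g | g ∈ N ∧ ∃ c : F, (g : Matrix (Fin n) (Fin n) F) *ᵥ v = c • v}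
  one_mem' := ⟨N.one_mem, 1, by simp⟩
  mul_mem' := by
    rintro a b ⟨ha, c, hc⟩ ⟨hb, d, hd⟩
    refine ⟨N.mul_mem ha hb, d * c, ?_⟩
    rw [Units.val_mul, ← Matrix.mulVec_mulVec, hd, Matrix.mulVec_smul, hc, smul_smul]
  inv_mem' := by
    rintro a ⟨ha, c, hc⟩
    refine ⟨N.inv_mem ha, ?_⟩
    have h1 : ((a⁻¹ : GL (Fin n) F) : Matrix (Fin n) (Fin n) F) *ᵥ
        ((a : Matrix (Fin n) (Fin n) F) *ᵥ v) = v := by
      rw [Matrix.mulVec_mulVec, ← Units.val_mul, inv_mul_cancel, Units.val_one, Matrix.one_mulVec]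
    rw [hc, Matrix.mulVec_smul] at h1
    by_cases hc0 : c = 0
    · refine ⟨0, ?_⟩
      rw [hc0, zero_smul] at h1
      rw [← h1, Matrix.mulVec_zero, smul_zero]
    · refine ⟨c⁻¹, ?_⟩
      nth_rewrite 2 [← h1]
      rw [smul_smul, inv_mul_cancel₀ hc0, one_smul]

theorem mem_lineStab {N : Subgroup (GL (Fin n) F)} {v : Fin n → F} {g : GL (Fin n) F} :
    g ∈ lineStab N v ↔ g ∈ N ∧ ∃ c : F, (g : Matrix (Fin n) (Fin n) F) *ᵥ v = c • v := Iff.rfl

/-- Two elements with the same commutator character at `h` differ by an element commuting with `h`. -/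
theorem commChar_eq_comm [NeZero n] (N : Subgroup (GL (Fin n) F))
    (hab : ∀ a ∈ N, ∀ b ∈ N, a * b * a⁻¹ * b⁻¹ ∈ scalars (Fin n) F) (g g' h : N)
    (heq : commChar N hab g h = commChar N hab g' h) :
    (h : GL (Fin n) F) * ((g : GL (Fin n) F)⁻¹ * (g' : GL (Fin n) F)) =
      ((g : GL (Fin n) F)⁻¹ * (g' : GL (Fin n) F)) * (h : GL (Fin n) F) := by
  obtain ⟨c, hc, hc'⟩ := scalar_eq_entry (hab h h.2 g g.2)
  obtain ⟨c₂, hc₂, hc₂'⟩ := scalar_eq_entry (hab h h.2 g' g'.2)
  rw [commChar_apply, commChar_apply, hc', hc₂'] at heq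
  have hz : (h : GL (Fin n) F) * g * (h : GL (Fin n) F)⁻¹ * (g : GL (Fin n) F)⁻¹ =
      (h : GL (Fin n) F) * g' * (h : GL (Fin n) F)⁻¹ * (g' : GL (Fin n) F)⁻¹ := by
    apply Units.ext
    rw [hc, hc₂, heq]
  obtain ⟨z, hzdef⟩ : ∃ z : GL (Fin n) F,
      z = (h : GL (Fin n) F) * g * (h : GL (Fin n) F)⁻¹ * (g : GL (Fin n) F)⁻¹ := ⟨_, rfl⟩
  have hzc : ∀ w : GL (Fin n) F, z * w = w * z := fun w =>
    Helper97.scalars_comm (hzdef ▸ hab h h.2 g g.2) w
  have e1 : (h : GL (Fin n) F) * g = z * g * h := by rw [hzdef]; group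
  have e2 : (h : GL (Fin n) F) * g' = z * g' * h := by rw [hzdef, hz]; group
  have e3 : (g : GL (Fin n) F) * h = z⁻¹ * (h * g) := by rw [e1]; group
  have e4 : (g : GL (Fin n) F) * ((h : GL (Fin n) F) * ((g : GL (Fin n) F)⁻¹ * g')) =
      g * (((g : GL (Fin n) F)⁻¹ * g') * h) := by
    calc (g : GL (Fin n) F) * ((h : GL (Fin n) F) * ((g : GL (Fin n) F)⁻¹ * g'))
        = (g * h) * (g : GL (Fin n) F)⁻¹ * g' := by group
      _ = z⁻¹ * (h * g) * (g : GL (Fin n) F)⁻¹ * g' := by rw [e3]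
      _ = z⁻¹ * (h * g') := by group
      _ = z⁻¹ * (z * g' * h) := by rw [e2]
      _ = g * (((g : GL (Fin n) F)⁻¹ * g') * h) := by group
  exact mul_left_cancel e4

/-- Power iteration on an eigenvector. -/
theorem pow_mulVec_of_eigen (a : GL (Fin n) F) (v : Fin n → F) (c : F)
    (h : (a : Matrix (Fin n) (Fin n) F) *ᵥ v = c • v) (k : ℕ) :
    ((a ^ k : GL (Fin n) F) : Matrix (Fin n) (Fin n) F) *ᵥ v = c ^ k • v := by
  induction k with
  | zero => simp
  | succ k ih =>
    rw [pow_succ, Units.val_mul, ← Matrix.mulVec_mulVec, h, Matrix.mulVec_smul, ih, smul_smul,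
      pow_succ, mul_comm]

/-- A monomial basis: an absolutely irreducible group with scalar commutators and exponent `k`,
over a field with the `k`-th roots of unity, acts monomially on some basis, with roots of unity
as coefficients. -/
theorem exists_mono_basis [Finite F] [NeZero n] (N : Subgroup (GL (Fin n) F))
    (habs : ActsAbsolutelyIrreducibly (matrixSet N))
    (hab : ∀ a ∈ N, ∀ b ∈ N, a * b * a⁻¹ * b⁻¹ ∈ scalars (Fin n) F)
    {k : ℕ} (hk : 0 < k) {ζ : F} (hζ : IsPrimitiveRoot ζ k) (hexp : ∀ x ∈ N, x ^ k = 1) :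
    ∃ b : Module.Basis (Fin n) F (Fin n → F), ∀ g ∈ N, ∀ i, ∃ j, ∃ c : F, c ^ k = 1 ∧
      (g : Matrix (Fin n) (Fin n) F) *ᵥ b i = c • b j := by
  classical
  have hne : Nonempty {v : Fin n → F // v ≠ 0} :=
    ⟨⟨fun _ => 1, fun h => one_ne_zero (congrFun h 0)⟩⟩
  obtain ⟨⟨v, hv⟩, hmax⟩ := Finite.exists_max
    (fun v : {v : Fin n → F // v ≠ 0} => Nat.card (lineStab N v.1))
  obtain ⟨A, hA⟩ : ∃ A : Subgroup (GL (Fin n) F), A = lineStab N v := ⟨_, rfl⟩
  have hAN : A ≤ N := by rw [hA]; exact fun g hg => hg.1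
  have hAex : ∀ a : GL (Fin n) F, a ∈ A → ∃ c : F, (a : Matrix (Fin n) (Fin n) F) *ᵥ v = c • v := by
    intro a ha
    rw [hA] at ha
    exact ha.2
  choose! χ hχ using hAex
  have hχk : ∀ a ∈ A, χ a ^ k = 1 := by
    intro a ha
    have h1 := pow_mulVec_of_eigen a v (χ a) (hχ a ha) k
    rw [hexp a (hAN ha), Units.val_one, Matrix.one_mulVec] at h1
    have h2 : (χ a ^ k - 1) • v = 0 := by rw [sub_smul, one_smul, ← h1, sub_self]
    rcases smul_eq_zero.mp h2 with h | h
    · exact sub_eq_zero.mp h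
    · exact absurd h hv
  have hχ0 : ∀ a ∈ A, χ a ≠ 0 := by
    intro a ha h0
    have := hχk a ha
    rw [h0, zero_pow hk.ne'] at this
    exact zero_ne_one this
  -- `A` is self-centralising in `N`
  have hself : ∀ g ∈ N, (∀ a ∈ A, g * a = a * g) → g ∈ A := by
    intro g hg hcomm
    obtain ⟨E, hE⟩ : ∃ E : Submodule F (Fin n → F), ∀ w, w ∈ E ↔
        ∀ a ∈ A, (a : Matrix (Fin n) (Fin n) F) *ᵥ w = χ a • w := by
      refine ⟨{ carrier := {w | ∀ a ∈ A, (a : Matrix (Fin n) (Fin n) F) *ᵥ w = χ a • w}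
                add_mem' := ?_
                zero_mem' := ?_
                smul_mem' := ?_ }, fun w => Iff.rfl⟩
      · intro x y hx hy a ha
        rw [Matrix.mulVec_add, hx a ha, hy a ha, smul_add]
      · intro a ha
        rw [Matrix.mulVec_zero, smul_zero]
      · intro c x hx a ha
        rw [Matrix.mulVec_smul, hx a ha, smul_comm]
    have hvE : v ∈ E := (hE v).mpr hχ
    have hEne : E ≠ ⊥ := by
      intro h
      rw [h, Submodule.mem_bot] at hvE
      exact hv hvE
    have hgk : (g : Matrix (Fin n) (Fin n) F) ^ k = 1 := by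
      rw [← Units.val_pow_eq_pow_val, hexp g hg, Units.val_one]
    have hinv : ∀ w ∈ E, (g : Matrix (Fin n) (Fin n) F) *ᵥ w ∈ E := by
      intro w hw
      rw [hE] at hw ⊢
      intro a ha
      rw [Matrix.mulVec_mulVec, ← Units.val_mul, ← hcomm a ha, Units.val_mul, ← Matrix.mulVec_mulVec,
        hw a ha, Matrix.mulVec_smul]
    obtain ⟨w, hwE, hw0, μ, hμ⟩ := exists_eigen_of_inv hk hζ _ hgk E hEne hinv
    have hle : A ≤ lineStab N w := by
      intro a ha
      exact ⟨hAN ha, χ a, (hE w).mp hwE a ha⟩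
    have hcard : Nat.card (lineStab N w) ≤ Nat.card A := by
      rw [hA]
      exact hmax ⟨w, hw0⟩
    have heq : A = lineStab N w := Subgroup.eq_of_le_of_card_ge hle hcard
    rw [heq]
    exact ⟨hg, μ, hμ⟩
  -- the coset representatives
  have hfin : Fintype (N ⧸ A.subgroupOf N) := Fintype.ofFinite _
  obtain ⟨w, hw⟩ : ∃ w : N ⧸ A.subgroupOf N → (Fin n → F),
      ∀ q, w q = (((Quotient.out q : N) : GL (Fin n) F) : Matrix (Fin n) (Fin n) F) *ᵥ v :=
    ⟨_, fun _ => rfl⟩
  have hw0 : ∀ q, w q ≠ 0 := by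
    intro q h0
    apply hv
    rw [hw] at h0
    exact Helper97.mulVec_injective _ (by simpa using h0 :
      (((Quotient.out q : N) : GL (Fin n) F) : Matrix (Fin n) (Fin n) F) *ᵥ v
        = (((Quotient.out q : N) : GL (Fin n) F) : Matrix (Fin n) (Fin n) F) *ᵥ 0)
  -- the action of `N` on these vectors
  have hact : ∀ g ∈ N, ∀ q, ∃ q', ∃ c : F, c ^ k = 1 ∧
      (g : Matrix (Fin n) (Fin n) F) *ᵥ w q = c • w q' := by
    intro g hg q
    obtain ⟨h, hh⟩ := QuotientGroup.mk_out_eq_mul (A.subgroupOf N) ((⟨g, hg⟩ : N) * Quotient.out q)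
    obtain ⟨q', hq'⟩ : ∃ q' : N ⧸ A.subgroupOf N,
        q' = (((⟨g, hg⟩ : N) * Quotient.out q : N) : N ⧸ A.subgroupOf N) := ⟨_, rfl⟩
    rw [← hq'] at hh
    have hhA : ((h : N) : GL (Fin n) F) ∈ A := Subgroup.mem_subgroupOf.mp h.2
    have hhA' : (((h : N) : GL (Fin n) F))⁻¹ ∈ A := A.inv_mem hhA
    have h1 : g * ((Quotient.out q : N) : GL (Fin n) F) =
        ((Quotient.out q' : N) : GL (Fin n) F) * (((h : N) : GL (Fin n) F))⁻¹ := by
      have h2 := congrArg (fun x : N => (x : GL (Fin n) F)) hh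
      simp only [Subgroup.coe_mul] at h2
      rw [h2]
      group
    refine ⟨q', χ (((h : N) : GL (Fin n) F))⁻¹, hχk _ hhA', ?_⟩
    rw [hw, hw, Matrix.mulVec_mulVec, ← Units.val_mul, h1, Units.val_mul, ← Matrix.mulVec_mulVec,
      hχ _ hhA', Matrix.mulVec_smul]
  -- the characters are distinct
  obtain ⟨ψ, hψ⟩ : ∃ ψ : N ⧸ A.subgroupOf N → (A.subgroupOf N →* F),
      ∀ q, ψ q = (commChar N hab (Quotient.out q)).comp (A.subgroupOf N).subtype := ⟨_, fun _ => rfl⟩
  have hψinj : Function.Injective ψ := by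
    intro q q' hqq
    have hmem : (Quotient.out q : N)⁻¹ * (Quotient.out q' : N) ∈ A.subgroupOf N := by
      rw [Subgroup.mem_subgroupOf]
      simp only [Subgroup.coe_mul, Subgroup.coe_inv]
      apply hself _ (N.mul_mem (N.inv_mem (Quotient.out q).2) (Quotient.out q').2)
      intro a ha
      have h1 := DFunLike.congr_fun hqq (⟨⟨a, hAN ha⟩, Subgroup.mem_subgroupOf.mpr ha⟩ : A.subgroupOf N)
      rw [hψ, hψ] at h1
      simp only [MonoidHom.comp_apply, Subgroup.coe_subtype] at h1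
      exact (commChar_eq_comm N hab (Quotient.out q) (Quotient.out q') ⟨a, hAN ha⟩ h1).symm
    have h2 : ((Quotient.out q : N) : N ⧸ A.subgroupOf N) = ((Quotient.out q' : N) : N ⧸ A.subgroupOf N) :=
      QuotientGroup.eq.mpr hmem
    rw [QuotientGroup.out_eq', QuotientGroup.out_eq'] at h2
    exact h2
  have hψli : LinearIndependent F (fun q : N ⧸ A.subgroupOf N => (ψ q : A.subgroupOf N → F)) :=
    (linearIndependent_monoidHom (A.subgroupOf N) F).comp ψ hψinj
  -- the action of `A` on the vectors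
  have hAact : ∀ (a : A.subgroupOf N) (q : N ⧸ A.subgroupOf N),
      (((a : N) : GL (Fin n) F) : Matrix (Fin n) (Fin n) F) *ᵥ w q =
        (ψ q a * χ ((a : N) : GL (Fin n) F)) • w q := by
    intro a q
    have haA : ((a : N) : GL (Fin n) F) ∈ A := Subgroup.mem_subgroupOf.mp a.2
    have h1 := conj_eq_commChar N hab (Quotient.out q) (a : N)
    have h2 : (((a : N) : GL (Fin n) F) : Matrix (Fin n) (Fin n) F) *
        (((Quotient.out q : N) : GL (Fin n) F) : Matrix (Fin n) (Fin n) F) =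
        commChar N hab (Quotient.out q) (a : N) •
          ((((Quotient.out q : N) : GL (Fin n) F) : Matrix (Fin n) (Fin n) F) *
            (((a : N) : GL (Fin n) F) : Matrix (Fin n) (Fin n) F)) := by
      rw [← Matrix.smul_mul, ← h1, Matrix.mul_assoc, Units.inv_mul, Matrix.mul_one]
    rw [hw, Matrix.mulVec_mulVec, h2, Matrix.smul_mulVec, ← Matrix.mulVec_mulVec, hχ _ haA,
      Matrix.mulVec_smul, smul_smul, hψ]
    rfl
  have hli : LinearIndependent F w := by
    rw [Fintype.linearIndependent_iff]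
    intro c hc q
    have h1 : ∀ a : A.subgroupOf N, ∑ q, (c q * ψ q a) • w q = 0 := by
      intro a
      have haA : ((a : N) : GL (Fin n) F) ∈ A := Subgroup.mem_subgroupOf.mp a.2
      have h2 := congrArg (fun u => (((a : N) : GL (Fin n) F) : Matrix (Fin n) (Fin n) F) *ᵥ u) hc
      simp only [Matrix.mulVec_sum, Matrix.mulVec_smul, Matrix.mulVec_zero] at h2
      have h3 : ∑ q, c q • (((a : N) : GL (Fin n) F) : Matrix (Fin n) (Fin n) F) *ᵥ w q =
          χ ((a : N) : GL (Fin n) F) • ∑ q, (c q * ψ q a) • w q := by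
        rw [Finset.smul_sum]
        apply Finset.sum_congr rfl
        intro q _
        rw [hAact, smul_smul, smul_smul]
        congr 1
        ring
      rw [h3] at h2
      rcases smul_eq_zero.mp h2 with h | h
      · exact absurd h (hχ0 _ haA)
      · exact h
    obtain ⟨i, hi⟩ : ∃ i, w q i ≠ 0 := by
      by_contra hcon
      apply hw0 q
      funext i
      by_contra h
      exact hcon ⟨i, h⟩
    have h4 : ∑ q, (c q * w q i) • (ψ q : A.subgroupOf N → F) = 0 := by
      funext a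
      have h5 := congrFun (h1 a) i
      simp only [Finset.sum_apply, Pi.smul_apply, smul_eq_mul, Pi.zero_apply] at h5 ⊢
      rw [← h5]
      apply Finset.sum_congr rfl
      intro q _
      ring
    have h6 := Fintype.linearIndependent_iff.mp hψli (fun q => c q * w q i) h4 q
    rcases mul_eq_zero.mp h6 with h | h
    · exact h
    · exact absurd h hi
  -- the span is everything
  have hspan : Submodule.span F (Set.range w) = ⊤ := by
    have hinv : ∀ s ∈ matrixSet N, (Submodule.span F (Set.range w)).map (Matrix.toLin' s) ≤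
        Submodule.span F (Set.range w) := by
      rintro _ ⟨g, hg, rfl⟩
      rw [Submodule.map_span_le]
      rintro _ ⟨q, rfl⟩
      obtain ⟨q', c, -, hc⟩ := hact g hg q
      rw [Matrix.toLin'_apply, hc]
      exact Submodule.smul_mem _ _ (Submodule.subset_span ⟨q', rfl⟩)
    rcases habs.1 _ hinv with h | h
    · exfalso
      have h1 : w (QuotientGroup.mk 1) ∈ Submodule.span F (Set.range w) :=
        Submodule.subset_span ⟨_, rfl⟩
      rw [h, Submodule.mem_bot] at h1
      exact hw0 _ h1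
    · exact h
  obtain ⟨B, hB⟩ : ∃ B : Module.Basis (N ⧸ A.subgroupOf N) F (Fin n → F), ∀ q, B q = w q :=
    ⟨Module.Basis.mk hli (by rw [hspan]), fun q => by rw [Module.Basis.mk_apply]⟩
  have hcard : Fintype.card (N ⧸ A.subgroupOf N) = n := by
    rw [← Module.finrank_eq_card_basis B, Module.finrank_fin_fun]
  obtain ⟨e, -⟩ : ∃ e : (N ⧸ A.subgroupOf N) ≃ Fin n, True := ⟨Fintype.equivFinOfCardEq hcard, trivial⟩
  refine ⟨B.reindex e, ?_⟩
  intro g hg i
  obtain ⟨q', c, hck, hc⟩ := hact g hg (e.symm i)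
  refine ⟨e q', c, hck, ?_⟩
  rw [Module.Basis.reindex_apply, Module.Basis.reindex_apply, hB, hB, Equiv.symm_apply_apply, hc]

/-- A group acting monomially with coefficients in a subfield is realisable over it. -/
theorem mono_realisable (N : Subgroup (GL (Fin n) F)) (b : Module.Basis (Fin n) F (Fin n → F))
    {k : ℕ} (hmono : ∀ g ∈ N, ∀ i, ∃ j, ∃ c : F, c ^ k = 1 ∧
      (g : Matrix (Fin n) (Fin n) F) *ᵥ b i = c • b j)
    (F₀ : Subfield F) (hF₀ : ∀ c : F, c ^ k = 1 → c ∈ F₀) : RealisableOver F₀ (matrixSet N) := by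
  classical
  obtain ⟨B, hB⟩ : ∃ B : GL (Fin n) F, B = ⟨b.toMatrix (Pi.basisFun F (Fin n)),
      (Pi.basisFun F (Fin n)).toMatrix b, Module.Basis.toMatrix_mul_toMatrix_flip _ _,
      Module.Basis.toMatrix_mul_toMatrix_flip _ _⟩ := ⟨_, rfl⟩
  have hBv : (B : Matrix (Fin n) (Fin n) F) = b.toMatrix (Pi.basisFun F (Fin n)) := by rw [hB]
  have hBi : ((B⁻¹ : GL (Fin n) F) : Matrix (Fin n) (Fin n) F) = (Pi.basisFun F (Fin n)).toMatrix b := by
    rw [hB]; rfl
  refine ⟨B, ?_⟩
  rintro _ ⟨g, hg, rfl⟩ i j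
  obtain ⟨j', c, hck, hc⟩ := hmono g hg j
  have h1 : (B : Matrix (Fin n) (Fin n) F) * (g : Matrix (Fin n) (Fin n) F)
      * ((B⁻¹ : GL (Fin n) F) : Matrix (Fin n) (Fin n) F)
      = LinearMap.toMatrix b b (Matrix.toLin' (g : Matrix (Fin n) (Fin n) F)) := by
    rw [hBv, hBi]
    have h2 := basis_toMatrix_mul_linearMap_toMatrix_mul_basis_toMatrix b (Pi.basisFun F (Fin n)) b
      (Pi.basisFun F (Fin n)) (Matrix.toLin' (g : Matrix (Fin n) (Fin n) F))
    rw [LinearMap.toMatrix_eq_toMatrix', LinearMap.toMatrix'_toLin'] at h2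
    exact h2
  show ((B : Matrix (Fin n) (Fin n) F) * (g : Matrix (Fin n) (Fin n) F)
      * ((B⁻¹ : GL (Fin n) F) : Matrix (Fin n) (Fin n) F)) i j ∈ F₀
  rw [h1, LinearMap.toMatrix_apply, Matrix.toLin'_apply, hc, map_smul,
    Finsupp.smul_apply, Module.Basis.repr_self, smul_eq_mul]
  apply F₀.mul_mem (hF₀ c hck)
  by_cases h : j' = i
  · rw [h, Finsupp.single_eq_same]; exact F₀.one_mem
  · rw [Finsupp.single_eq_of_ne (Ne.symm h)]; exact F₀.zero_mem

/-- A group acting monomially with coefficients inverted by `σ` fixes the standard hermitian form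
of the basis. -/
theorem mono_fixes_herm (N : Subgroup (GL (Fin n) F)) (b : Module.Basis (Fin n) F (Fin n → F))
    {k : ℕ} (hmono : ∀ g ∈ N, ∀ i, ∃ j, ∃ c : F, c ^ k = 1 ∧
      (g : Matrix (Fin n) (Fin n) F) *ᵥ b i = c • b j)
    (σ : F ≃+* F) (hσ : ∀ c : F, c ^ k = 1 → σ c = c⁻¹) :
    FixesForm (matrixSet N) (Helper97.ExtraBasis.herm b σ) := by
  classical
  rintro _ ⟨g, hg, rfl⟩ u v
  choose π c hck hc using hmono g hg
  have hb0 : ∀ i, b i ≠ 0 := fun i => b.ne_zero i
  have hc0 : ∀ i, c i ≠ 0 := by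
    intro i h0
    have h1 := hc i
    rw [h0, zero_smul] at h1
    exact hb0 i (Helper97.mulVec_injective g (by simpa using h1 :
      (g : Matrix (Fin n) (Fin n) F) *ᵥ b i = (g : Matrix (Fin n) (Fin n) F) *ᵥ 0))
  have hπinj : Function.Injective π := by
    intro i i' hii
    by_contra hne
    have h1 : (g : Matrix (Fin n) (Fin n) F) *ᵥ (c i' • b i - c i • b i') = 0 := by
      rw [Matrix.mulVec_sub, Matrix.mulVec_smul, Matrix.mulVec_smul, hc i, hc i', hii, smul_smul,
        smul_smul, mul_comm, sub_self]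
    have h2 : c i' • b i - c i • b i' = 0 := Helper97.mulVec_injective g (by simpa using h1 :
      (g : Matrix (Fin n) (Fin n) F) *ᵥ (c i' • b i - c i • b i') =
        (g : Matrix (Fin n) (Fin n) F) *ᵥ 0)
    have h3 := congrArg (fun x => b.repr x i) h2
    simp only [map_sub, map_smul, Module.Basis.repr_self, Finsupp.sub_apply, Finsupp.smul_apply,
      smul_eq_mul, map_zero, Finsupp.zero_apply] at h3
    rw [Finsupp.single_eq_same, Finsupp.single_eq_of_ne hne, mul_one, mul_zero, sub_zero] at h3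
    exact hc0 i' h3
  have hπbij : Function.Bijective π := Finite.injective_iff_bijective.mp hπinj
  have hco : ∀ (x : Fin n → F) (i : Fin n),
      b.repr ((g : Matrix (Fin n) (Fin n) F) *ᵥ x) (π i) = c i * b.repr x i := by
    intro x i
    have h : (b.coord (π i)).comp (Matrix.toLin' (g : Matrix (Fin n) (Fin n) F)) = c i • b.coord i := by
      apply b.ext
      intro l
      simp only [LinearMap.comp_apply, Matrix.toLin'_apply, LinearMap.smul_apply,
        Module.Basis.coord_apply, smul_eq_mul]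
      rw [hc l, map_smul, Finsupp.smul_apply, Module.Basis.repr_self, Module.Basis.repr_self,
        smul_eq_mul]
      by_cases hli : l = i
      · subst hli; rw [Finsupp.single_eq_same, Finsupp.single_eq_same]
      · rw [Finsupp.single_eq_of_ne (Ne.symm hli), mul_zero,
          Finsupp.single_eq_of_ne (fun h => hli (hπinj h).symm), mul_zero]
    have := LinearMap.congr_fun h x
    simpa using this
  rw [Helper97.ExtraBasis.herm_apply, Helper97.ExtraBasis.herm_apply,
    ← Equiv.sum_comp (Equiv.ofBijective π hπbij)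
      (fun i => b.repr ((g : Matrix (Fin n) (Fin n) F) *ᵥ u) i
        * σ (b.repr ((g : Matrix (Fin n) (Fin n) F) *ᵥ v) i))]
  apply Finset.sum_congr rfl
  intro j _
  rw [Equiv.ofBijective_apply, hco, hco, map_mul, hσ _ (hck j)]
  have := hc0 j
  field_simp

end Cfsg.Agent.Helper96
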