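-- helper96 library: minimal normal subgroups of class two modulo scalars (symplectic type).
import Cfsg.Agent.Helper96.Mono
import Cfsg.Agent.Helper97.Extra3

set_option autoImplicit false
open Cfsg Cfsg.Geo Matrix

namespace Cfsg.Agent.Helper96

variable {F : Type*} [Field F] {n : ℕ}

/-- An absolutely irreducible non-scalar group is not abelian. -/
theorem exists_noncomm (N : Subgroup (GL (Fin n) F)) (hNZ : ¬ N ≤ scalars (Fin n) F)
    (habs : ActsAbsolutelyIrreducibly (matrixSet N)) : ∃ x ∈ N, ∃ y ∈ N, x * y ≠ y * x := by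
  by_contra hcon
  apply hNZ
  intro g hg
  have h1 : ∀ s ∈ matrixSet N, (g : Matrix (Fin n) (Fin n) F) * s = s * (g : Matrix (Fin n) (Fin n) F) := by
    rintro _ ⟨s, hs, rfl⟩
    rw [← Units.val_mul, ← Units.val_mul]
    congr 1
    by_contra hne
    exact hcon ⟨g, hg, s, hs, hne⟩
  obtain ⟨c, hc⟩ := habs.2 _ h1
  exact (Helper97.scalar_mem_scalars_iff g).mpr ⟨c, hc⟩

/-- If the `k`-th power map is a homomorphism into the scalars, a minimal normal non-scalar
absolutely irreducible subgroup has exponent dividing `k`. -/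
theorem c2_exponent [Finite F] (H N : Subgroup (GL (Fin n) F))
    (hNn : ∀ h ∈ H, ∀ x ∈ N, h * x * h⁻¹ ∈ N) (hNZ : ¬ N ≤ scalars (Fin n) F)
    (hNmin : ∀ N' : Subgroup (GL (Fin n) F), N' ≤ N → (∀ h ∈ H, ∀ x ∈ N', h * x * h⁻¹ ∈ N') →
      N' ≤ scalars (Fin n) F ∨ N' = N)
    (habs : ActsAbsolutelyIrreducibly (matrixSet N)) (k : ℕ)
    (hpowk : ∀ x ∈ N, x ^ k ∈ scalars (Fin n) F)
    (hmul : ∀ a ∈ N, ∀ b ∈ N, (a * b) ^ k = a ^ k * b ^ k) : ∀ x ∈ N, x ^ k = 1 := by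
  classical
  obtain ⟨Ω, hΩ⟩ : ∃ Ω : Subgroup (GL (Fin n) F), ∀ g, g ∈ Ω ↔ g ∈ N ∧ g ^ k = 1 := by
    refine ⟨{ carrier := {g | g ∈ N ∧ g ^ k = 1}
              one_mem' := ⟨N.one_mem, one_pow _⟩
              mul_mem' := ?_
              inv_mem' := ?_ }, fun g => Iff.rfl⟩
    · rintro a b ⟨ha, ha'⟩ ⟨hb, hb'⟩
      exact ⟨N.mul_mem ha hb, by rw [hmul a ha b hb, ha', hb', one_mul]⟩
    · rintro a ⟨ha, ha'⟩
      exact ⟨N.inv_mem ha, by rw [inv_pow, ha', inv_one]⟩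
  have hΩN : Ω ≤ N := fun g hg => ((hΩ g).mp hg).1
  have hΩn : ∀ h ∈ H, ∀ g ∈ Ω, h * g * h⁻¹ ∈ Ω := by
    intro h hh g hg
    rw [hΩ] at hg ⊢
    exact ⟨hNn h hh g hg.1, by rw [conj_pow, hg.2]; group⟩
  rcases hNmin Ω hΩN hΩn with hle | heq
  · exfalso
    obtain ⟨x, hx, y, hy, hxy⟩ := exists_noncomm N hNZ habs
    have hcyc : IsCyclic (scalars (Fin n) F) := by
      unfold scalars
      exact isCyclic_of_surjective _ (MonoidHom.rangeRestrict_surjective _)
    obtain ⟨φ, hφ⟩ : ∃ φ : N →* scalars (Fin n) F, ∀ g : N,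
        ((φ g : scalars (Fin n) F) : GL (Fin n) F) = (g : GL (Fin n) F) ^ k :=
      ⟨{ toFun := fun g => ⟨(g : GL (Fin n) F) ^ k, hpowk g g.2⟩
         map_one' := Subtype.ext (by simp)
         map_mul' := fun a b => Subtype.ext (by
           simp only [Subgroup.coe_mul]
           exact hmul a a.2 b b.2) }, fun g => rfl⟩
    have hker : φ.ker ≤ Subgroup.center N := by
      intro g hg
      rw [MonoidHom.mem_ker] at hg
      have h1 : (g : GL (Fin n) F) ^ k = 1 := by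
        rw [← hφ, hg]; rfl
      have h2 : (g : GL (Fin n) F) ∈ scalars (Fin n) F := hle ((hΩ _).mpr ⟨g.2, h1⟩)
      rw [Subgroup.mem_center_iff]
      intro w
      apply Subtype.ext
      simp only [Subgroup.coe_mul]
      exact (Helper97.scalars_comm h2 (w : GL (Fin n) F)).symm
    have h3 := commutative_of_cyclic_center_quotient φ hker ⟨x, hx⟩ ⟨y, hy⟩
    exact hxy (congrArg Subtype.val h3)
  · intro x hx
    rw [← heq, hΩ] at hx
    exact hx.2

/-- Commutators have `r`-th power one when `r`-th powers are scalar. -/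
theorem c2_comm_pow (N : Subgroup (GL (Fin n) F))
    (hab : ∀ a ∈ N, ∀ b ∈ N, a * b * a⁻¹ * b⁻¹ ∈ scalars (Fin n) F)
    (r : ℕ) (hpow : ∀ x ∈ N, x ^ r ∈ scalars (Fin n) F) :
    ∀ a ∈ N, ∀ b ∈ N, (b * a * b⁻¹ * a⁻¹) ^ r = 1 := by
  intro a ha b hb
  have hcZ := hab b hb a ha
  have hc : b * a = (b * a * b⁻¹ * a⁻¹) * a * b := by group
  have h1 := Helper97.pow_mul_of_comm_central hc (Helper97.scalars_comm hcZ a)
    (Helper97.scalars_comm hcZ b) r
  have h2 : b ^ r * a = a * b ^ r := Helper97.scalars_comm (hpow b hb) a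
  have h4 : (b * a * b⁻¹ * a⁻¹) ^ r * (a * b ^ r) = a * b ^ r := by rw [← mul_assoc, ← h1, h2]
  exact mul_eq_right.mp h4

/-- Exponent `r` for odd `r`. -/
theorem c2_exponent_odd [Finite F] (H N : Subgroup (GL (Fin n) F))
    (hNn : ∀ h ∈ H, ∀ x ∈ N, h * x * h⁻¹ ∈ N) (hNZ : ¬ N ≤ scalars (Fin n) F)
    (hNmin : ∀ N' : Subgroup (GL (Fin n) F), N' ≤ N → (∀ h ∈ H, ∀ x ∈ N', h * x * h⁻¹ ∈ N') →
      N' ≤ scalars (Fin n) F ∨ N' = N)
    (hab : ∀ a ∈ N, ∀ b ∈ N, a * b * a⁻¹ * b⁻¹ ∈ scalars (Fin n) F)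
    (habs : ActsAbsolutelyIrreducibly (matrixSet N)) (r : ℕ) (hodd : Odd r)
    (hpow : ∀ x ∈ N, x ^ r ∈ scalars (Fin n) F) : ∀ x ∈ N, x ^ r = 1 := by
  apply c2_exponent H N hNn hNZ hNmin habs r hpow
  intro a ha b hb
  have hc : b * a = (b * a * b⁻¹ * a⁻¹) * a * b := by group
  have hcZ := hab b hb a ha
  have h1 := Helper97.mul_pow_of_comm_central hc (Helper97.scalars_comm hcZ a)
    (Helper97.scalars_comm hcZ b) r
  obtain ⟨k, hk⟩ := Helper97.dvd_sum_range_of_odd hodd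
  rw [h1, hk, pow_mul, c2_comm_pow N hab r hpow a ha b hb, one_pow, one_mul]

/-- Exponent `4` for `r = 2`. -/
theorem c2_exponent_two [Finite F] (H N : Subgroup (GL (Fin n) F))
    (hNn : ∀ h ∈ H, ∀ x ∈ N, h * x * h⁻¹ ∈ N) (hNZ : ¬ N ≤ scalars (Fin n) F)
    (hNmin : ∀ N' : Subgroup (GL (Fin n) F), N' ≤ N → (∀ h ∈ H, ∀ x ∈ N', h * x * h⁻¹ ∈ N') →
      N' ≤ scalars (Fin n) F ∨ N' = N)
    (hab : ∀ a ∈ N, ∀ b ∈ N, a * b * a⁻¹ * b⁻¹ ∈ scalars (Fin n) F)
    (habs : ActsAbsolutelyIrreducibly (matrixSet N))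
    (hpow : ∀ x ∈ N, x ^ 2 ∈ scalars (Fin n) F) : ∀ x ∈ N, x ^ 4 = 1 := by
  apply c2_exponent H N hNn hNZ hNmin habs 4
  · intro x hx
    have : x ^ 4 = x ^ 2 * x ^ 2 := by group
    rw [this]
    exact Subgroup.mul_mem _ (hpow x hx) (hpow x hx)
  intro a ha b hb
  have hc : b * a = (b * a * b⁻¹ * a⁻¹) * a * b := by group
  have hcZ := hab b hb a ha
  have h1 := Helper97.mul_pow_of_comm_central hc (Helper97.scalars_comm hcZ a)
    (Helper97.scalars_comm hcZ b) 4
  have h2 : ∑ i ∈ Finset.range 4, i = 2 * 3 := by decide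
  rw [h1, h2, pow_mul, c2_comm_pow N hab 2 hpow a ha b hb, one_pow, one_mul]

/-- A non-trivial commutator of `N`, a scalar of prime order `r`. -/
theorem c2_root [NeZero n] (N : Subgroup (GL (Fin n) F)) (hNZ : ¬ N ≤ scalars (Fin n) F)
    (hab : ∀ a ∈ N, ∀ b ∈ N, a * b * a⁻¹ * b⁻¹ ∈ scalars (Fin n) F)
    (habs : ActsAbsolutelyIrreducibly (matrixSet N)) (r : ℕ) (hr : r.Prime)
    (hpow : ∀ x ∈ N, x ^ r ∈ scalars (Fin n) F) :
    ∃ (x y z : GL (Fin n) F) (ζ : F), x ∈ N ∧ y ∈ N ∧ z ∈ N ∧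
      (z : Matrix (Fin n) (Fin n) F) = ζ • (1 : Matrix (Fin n) (Fin n) F) ∧ IsPrimitiveRoot ζ r ∧
      x * y = z * y * x := by
  obtain ⟨x, hxN, y, hyN, hxy_ne⟩ := exists_noncomm N hNZ habs
  obtain ⟨z, hzdef⟩ : ∃ z : GL (Fin n) F, z = x * y * x⁻¹ * y⁻¹ := ⟨_, rfl⟩
  have hzN : z ∈ N := by
    rw [hzdef]; exact N.mul_mem (N.mul_mem (N.mul_mem hxN hyN) (N.inv_mem hxN)) (N.inv_mem hyN)
  have hzZ : z ∈ scalars (Fin n) F := by rw [hzdef]; exact hab x hxN y hyN
  have hxy : x * y = z * y * x := by rw [hzdef]; group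
  have hz1 : z ≠ 1 := by
    intro h
    apply hxy_ne
    rw [hxy, h, one_mul]
  obtain ⟨ζ, hζ⟩ := (Helper97.scalar_mem_scalars_iff z).mp hzZ
  have hζ1 : ζ ≠ 1 := by
    intro h
    apply hz1
    apply Units.ext
    rw [hζ, h, one_smul, Units.val_one]
  have hzr : z ^ r = 1 := by
    rw [hzdef]
    exact c2_comm_pow N hab r hpow y hyN x hxN
  have hζr : ζ ^ r = 1 := by
    have h5 := congrArg Units.val hzr
    rw [Helper97.scalar_pow_val hζ, Units.val_one] at h5
    exact (Helper97.smul_one_eq_one_iff _).mp h5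
  have hord_ne : orderOf ζ ≠ 1 := fun h => hζ1 (orderOf_eq_one_iff.mp h)
  have hordr : orderOf ζ = r :=
    ((Nat.dvd_prime hr).mp (orderOf_dvd_of_pow_eq_one hζr)).resolve_left hord_ne
  exact ⟨x, y, z, ζ, hxN, hyN, hzN, hζ, IsPrimitiveRoot.iff_orderOf.mpr hordr, hxy⟩

/-- The centre of an absolutely irreducible group consists of its scalars. -/
theorem c2_center_eq (N : Subgroup (GL (Fin n) F))
    (habs : ActsAbsolutelyIrreducibly (matrixSet N)) :
    Subgroup.center N = (scalars (Fin n) F).subgroupOf N := by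
  apply le_antisymm
  · intro g hg
    rw [Subgroup.mem_center_iff] at hg
    rw [Subgroup.mem_subgroupOf, Helper97.scalar_mem_scalars_iff]
    apply habs.2
    rintro _ ⟨s, hs, rfl⟩
    have h1 := congrArg Subtype.val (hg ⟨s, hs⟩)
    simp only [Subgroup.coe_mul] at h1
    rw [← Units.val_mul, ← Units.val_mul, h1]
  · intro g hg
    rw [Subgroup.mem_subgroupOf] at hg
    rw [Subgroup.mem_center_iff]
    intro w
    apply Subtype.ext
    simp only [Subgroup.coe_mul]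
    exact (Helper97.scalars_comm hg (w : GL (Fin n) F)).symm

/-- With exponent `r`, the scalars of `N` are the powers of a scalar of order `r`. -/
theorem c2_scalars_eq_zpowers [NeZero n] (N : Subgroup (GL (Fin n) F)) (r : ℕ) (hr : r.Prime)
    (hexp : ∀ x ∈ N, x ^ r = 1) (z : GL (Fin n) F) (hz : z ∈ N) (ζ : F)
    (hzv : (z : Matrix (Fin n) (Fin n) F) = ζ • (1 : Matrix (Fin n) (Fin n) F))
    (hζ : IsPrimitiveRoot ζ r) :
    (scalars (Fin n) F).subgroupOf N = Subgroup.zpowers (⟨z, hz⟩ : N) := by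
  have hrz : NeZero r := ⟨hr.ne_zero⟩
  apply le_antisymm
  · intro g hg
    rw [Subgroup.mem_subgroupOf] at hg
    obtain ⟨c, hc⟩ := (Helper97.scalar_mem_scalars_iff _).mp hg
    have h1 := congrArg Units.val (hexp g g.2)
    rw [Helper97.scalar_pow_val hc, Units.val_one] at h1
    have hcr : c ^ r = 1 := (Helper97.smul_one_eq_one_iff _).mp h1
    obtain ⟨i, -, hi⟩ := hζ.eq_pow_of_pow_eq_one hcr
    rw [Subgroup.mem_zpowers_iff]
    refine ⟨(i : ℤ), ?_⟩
    apply Subtype.ext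
    rw [zpow_natCast, Subgroup.coe_pow]
    apply Units.ext
    rw [Helper97.scalar_pow_val hzv, hi, hc]
  · rw [Subgroup.zpowers_le, Subgroup.mem_subgroupOf]
    exact (Helper97.scalar_mem_scalars_iff z).mpr ⟨ζ, hzv⟩

/-- The order of `N`: `r · n²`. -/
theorem c2_card [NeZero n] [Finite F] (N : Subgroup (GL (Fin n) F))
    (hab : ∀ a ∈ N, ∀ b ∈ N, a * b * a⁻¹ * b⁻¹ ∈ scalars (Fin n) F)
    (habs : ActsAbsolutelyIrreducibly (matrixSet N)) (r : ℕ) (hr : r.Prime)
    (hexp : ∀ x ∈ N, x ^ r = 1) (z : GL (Fin n) F) (hz : z ∈ N) (ζ : F)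
    (hzv : (z : Matrix (Fin n) (Fin n) F) = ζ • (1 : Matrix (Fin n) (Fin n) F))
    (hζ : IsPrimitiveRoot ζ r) :
    Nat.card (Subgroup.center N) = r ∧ Nat.card N = n * n * r := by
  have hfact : Fact r.Prime := ⟨hr⟩
  have hz1 : z ≠ 1 := by
    intro h
    rw [h, Units.val_one] at hzv
    exact hζ.ne_one hr.one_lt ((Helper97.smul_one_eq_one_iff ζ).mp hzv.symm)
  have hcS : Nat.card ((scalars (Fin n) F).subgroupOf N) = r := by
    rw [c2_scalars_eq_zpowers N r hr hexp z hz ζ hzv hζ, Nat.card_zpowers, Subgroup.orderOf_mk]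
    exact orderOf_eq_prime (hexp z hz) hz1
  refine ⟨by rw [c2_center_eq N habs, hcS], ?_⟩
  rw [Subgroup.card_eq_card_quotient_mul_card_subgroup ((scalars (Fin n) F).subgroupOf N), hcS,
    card_quot_of_class_two N habs hab]

/-- Characteristic abelian subgroups of a minimal normal non-abelian subgroup are cyclic. -/
theorem c2_char_cyclic [Finite F] (H N : Subgroup (GL (Fin n) F))
    (hNn : ∀ h ∈ H, ∀ x ∈ N, h * x * h⁻¹ ∈ N) (hNZ : ¬ N ≤ scalars (Fin n) F)
    (hNmin : ∀ N' : Subgroup (GL (Fin n) F), N' ≤ N → (∀ h ∈ H, ∀ x ∈ N', h * x * h⁻¹ ∈ N') →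
      N' ≤ scalars (Fin n) F ∨ N' = N)
    (habs : ActsAbsolutelyIrreducibly (matrixSet N))
    (A : Subgroup N) (hchar : A.Characteristic) (hcomm : IsMulCommutative A) : IsCyclic A := by
  obtain ⟨A', hA'⟩ : ∃ A' : Subgroup (GL (Fin n) F), A' = A.map N.subtype := ⟨_, rfl⟩
  have hA'N : A' ≤ N := by
    rw [hA']
    rintro _ ⟨a, -, rfl⟩
    exact a.2
  have hA'n : ∀ h ∈ H, ∀ w ∈ A', h * w * h⁻¹ ∈ A' := by
    intro h hh w hw
    rw [hA'] at hw ⊢
    obtain ⟨a, ha, rfl⟩ := hw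
    obtain ⟨φ, hφ⟩ : ∃ φ : N ≃* N, ∀ g : N, ((φ g : N) : GL (Fin n) F) = h⁻¹ * g * h :=
      ⟨{ toFun := fun g => ⟨h⁻¹ * g * h, by
            have := hNn h⁻¹ (H.inv_mem hh) g g.2
            rwa [inv_inv] at this⟩
         invFun := fun g => ⟨h * g * h⁻¹, hNn h hh g g.2⟩
         left_inv := fun g => Subtype.ext (by simp only; group)
         right_inv := fun g => Subtype.ext (by simp only; group)
         map_mul' := fun a b => Subtype.ext (by simp only [Subgroup.coe_mul]; group) }, fun g => rfl⟩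
    have hfix := hchar.fixed φ
    have hmem : (⟨h * a * h⁻¹, hNn h hh a a.2⟩ : N) ∈ A := by
      rw [← hfix, Subgroup.mem_comap]
      have : φ.toMonoidHom ⟨h * a * h⁻¹, hNn h hh a a.2⟩ = a := by
        apply Subtype.ext
        show ((φ ⟨h * a * h⁻¹, hNn h hh a a.2⟩ : N) : GL (Fin n) F) = a
        rw [hφ]
        group
      rw [this]
      exact ha
    exact ⟨⟨h * a * h⁻¹, hNn h hh a a.2⟩, hmem, rfl⟩
  rcases hNmin A' hA'N hA'n with hsc | hAN
  · have hcyc : IsCyclic (scalars (Fin n) F) := by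
      unfold scalars
      exact isCyclic_of_surjective _ (MonoidHom.rangeRestrict_surjective _)
    have hmem : ∀ a : A, ((a : N) : GL (Fin n) F) ∈ scalars (Fin n) F := by
      intro a
      apply hsc
      rw [hA']
      exact ⟨a, a.2, rfl⟩
    obtain ⟨φ, hφ⟩ : ∃ φ : A →* scalars (Fin n) F, ∀ a : A,
        ((φ a : scalars (Fin n) F) : GL (Fin n) F) = ((a : N) : GL (Fin n) F) :=
      ⟨{ toFun := fun a => ⟨((a : N) : GL (Fin n) F), hmem a⟩
         map_one' := rfl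
         map_mul' := fun a b => rfl }, fun a => rfl⟩
    apply isCyclic_of_injective φ
    intro a b hab'
    apply Subtype.ext
    apply Subtype.ext
    rw [← hφ, ← hφ, hab']
  · exfalso
    obtain ⟨x, hx, y, hy, hxy⟩ := exists_noncomm N hNZ habs
    have hxA : x ∈ A' := hAN ▸ hx
    have hyA : y ∈ A' := hAN ▸ hy
    rw [hA'] at hxA hyA
    obtain ⟨a, ha, hax⟩ := hxA
    obtain ⟨c, hc, hcy⟩ := hyA
    have h1 := hcomm.is_comm.comm (⟨a, ha⟩ : A) ⟨c, hc⟩
    have h2 := congrArg (fun w : A => ((w : N) : GL (Fin n) F)) h1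
    simp only [Subgroup.coe_mul] at h2
    apply hxy
    rw [← hax, ← hcy]
    exact h2

/-- The normaliser of a class-two group of exponent `k` does not contain `SL`. -/
theorem c2_notSL [NeZero n] (N : Subgroup (GL (Fin n) F)) (k : ℕ) (hk : 0 < k) (ω : F)
    (hω : IsPrimitiveRoot ω k) (hexp : ∀ g ∈ N, g ^ k = 1)
    (x y z : GL (Fin n) F) (ζ : F) (hx : x ∈ N)
    (hzv : (z : Matrix (Fin n) (Fin n) F) = ζ • (1 : Matrix (Fin n) (Fin n) F)) (hζ1 : ζ ≠ 1)
    (hxy : x * y = z * y * x) : ¬ specialLinear (Fin n) F ≤ subgroupNormalizer N := by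
  classical
  have hkz : NeZero k := ⟨hk.ne'⟩
  have hkF : (k : F) ≠ 0 := (hω.neZero').ne
  have hxk : (x : Matrix (Fin n) (Fin n) F) ^ k = 1 := by
    rw [← Units.val_pow_eq_pow_val, hexp x hx, Units.val_one]
  have htop : (⊤ : Submodule F (Fin n → F)) ≠ ⊥ := by
    intro h
    have h1 : (fun _ => 1 : Fin n → F) ∈ (⊤ : Submodule F (Fin n → F)) := Submodule.mem_top
    rw [h, Submodule.mem_bot] at h1
    exact one_ne_zero (congrFun h1 0)
  obtain ⟨u, -, hu0, lam, hlam⟩ := exists_eigen_of_inv hk hω _ hxk ⊤ htop (fun _ _ => Submodule.mem_top)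
  have hlam0 : lam ≠ 0 := by
    rintro rfl
    rw [zero_smul] at hlam
    exact hu0 (Helper97.mulVec_injective x (by simpa using hlam :
      (x : Matrix (Fin n) (Fin n) F) *ᵥ u = (x : Matrix (Fin n) (Fin n) F) *ᵥ 0))
  have hyu0 : (y : Matrix (Fin n) (Fin n) F) *ᵥ u ≠ 0 := by
    intro h
    exact hu0 (Helper97.mulVec_injective y (by simpa using h :
      (y : Matrix (Fin n) (Fin n) F) *ᵥ u = (y : Matrix (Fin n) (Fin n) F) *ᵥ 0))
  have hxyu : (x : Matrix (Fin n) (Fin n) F) *ᵥ ((y : Matrix (Fin n) (Fin n) F) *ᵥ u) =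
      (ζ * lam) • ((y : Matrix (Fin n) (Fin n) F) *ᵥ u) := by
    have h1 := congrArg Units.val hxy
    rw [Units.val_mul, Units.val_mul, Units.val_mul, hzv] at h1
    rw [Matrix.mulVec_mulVec, h1, Matrix.smul_mul, Matrix.one_mul, Matrix.smul_mul,
      Matrix.smul_mulVec, ← Matrix.mulVec_mulVec, hlam, Matrix.mulVec_smul, smul_smul]
  have hdet : ((x : Matrix (Fin n) (Fin n) F) - (ζ * lam) • (1 : Matrix (Fin n) (Fin n) F)).det = 0 := by
    rw [← Matrix.exists_mulVec_eq_zero_iff]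
    refine ⟨_, hyu0, ?_⟩
    rw [Matrix.sub_mulVec, hxyu, Matrix.smul_mulVec, Matrix.one_mulVec, sub_self]
  obtain ⟨a, ha, hax⟩ := Matrix.exists_vecMul_eq_zero_iff.mpr hdet
  have hax' : a ᵥ* (x : Matrix (Fin n) (Fin n) F) = (ζ * lam) • a := by
    rw [Matrix.vecMul_sub, Matrix.vecMul_smul, Matrix.vecMul_one] at hax
    exact sub_eq_zero.mp hax
  refine Helper97.notSL_normalizer N k hkF hexp x hx u a lam (ζ * lam) hu0 ha hlam hax' ?_
  intro h
  have h1 : (1 : F) * lam = ζ * lam := by rw [one_mul]; exact h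
  exact hζ1 (mul_right_cancel₀ hlam0 h1).symm

/-- The class-two case for odd `r`: the normaliser of `N` lies in a subfield group, or in a unitary
similarity group, or `N` is a class-6 group. -/
theorem c2_odd_trichotomy [Fintype F] {p : ℕ} [Fact p.Prime] [CharP F p] [NeZero n] {r : ℕ}
    (hr : r.Prime) (hodd : Odd r) {m : ℕ} (hm : 1 ≤ m) (hnr : n = r ^ m)
    (H N : Subgroup (GL (Fin n) F))
    (hNn : ∀ h ∈ H, ∀ x ∈ N, h * x * h⁻¹ ∈ N) (hNZ : ¬ N ≤ scalars (Fin n) F)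
    (hNmin : ∀ N' : Subgroup (GL (Fin n) F), N' ≤ N → (∀ h ∈ H, ∀ x ∈ N', h * x * h⁻¹ ∈ N') →
      N' ≤ scalars (Fin n) F ∨ N' = N)
    (hab : ∀ a ∈ N, ∀ b ∈ N, a * b * a⁻¹ * b⁻¹ ∈ scalars (Fin n) F)
    (habs : ActsAbsolutelyIrreducibly (matrixSet N))
    (hpow : ∀ x ∈ N, x ^ r ∈ scalars (Fin n) F) :
    (∃ (F₁ : Subfield F) (s : ℕ) (B : GL (Fin n) F), s.Prime ∧ Fintype.card F = Nat.card F₁ ^ s ∧
      ∀ h : GL (Fin n) F, (∀ x ∈ N, h * x * h⁻¹ ∈ N) → h ∈ subfieldSubgroup F₁ B) ∨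
    (∃ (σ : F ≃+* F) (f : (Fin n → F) → (Fin n → F) → F), IsUnitaryForm σ f ∧
      ∀ h : GL (Fin n) F, (∀ x ∈ N, h * x * h⁻¹ ∈ N) → h ∈ similarityGroup f) ∨
    (IsLinearSymplecticTypeData r N ∧ ¬ specialLinear (Fin n) F ≤ subgroupNormalizer N ∧
      ∃ e : ℕ, Odd e ∧ Fintype.card F = p ^ e ∧ r ∣ p ^ e - 1 ∧
        ∀ d : ℕ, 0 < d → d < e → ¬ r ∣ p ^ d - 1) := by
  classical
  have hp := (Fact.out : p.Prime)
  have hrz : NeZero r := ⟨hr.ne_zero⟩
  have hexp := c2_exponent_odd H N hNn hNZ hNmin hab habs r hodd hpow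
  obtain ⟨x, y, z, ζ, hxN, hyN, hzN, hzv, hprim, hxy⟩ := c2_root N hNZ hab habs r hr hpow
  obtain ⟨b, hmono⟩ := exists_mono_basis N habs hab hr.pos hprim hexp
  obtain ⟨e', -, hcard⟩ := FiniteField.card F p
  obtain ⟨e, he⟩ : ∃ e : ℕ, e = (e' : ℕ) := ⟨_, rfl⟩
  rw [← he] at hcard
  have he0 : 0 < e := he ▸ e'.pos
  have hζ0 : ζ ≠ 0 := hprim.ne_zero hr.ne_zero
  have hζ1 : ζ ≠ 1 := hprim.ne_one hr.one_lt
  have hndvd : r ∣ p ^ e - 1 := by
    rw [← hcard, ← hprim.pow_eq_one_iff_dvd]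
    exact FiniteField.pow_card_sub_one_eq_one ζ hζ0
  have hroots : ∀ c : F, c ^ r = 1 → ∃ i : ℕ, c = ζ ^ i := by
    intro c hc
    obtain ⟨i, -, hi⟩ := hprim.eq_pow_of_pow_eq_one hc
    exact ⟨i, hi.symm⟩
  by_cases hmin : ∃ d, 0 < d ∧ d < e ∧ r ∣ p ^ d - 1
  · -- (A) a proper subfield contains `ζ`
    left
    obtain ⟨d, hd0, hde, hdn⟩ := hmin
    obtain ⟨F₀, hF₀⟩ : ∃ F₀ : Subfield F,
        F₀ = RingHom.eqLocusField (iterateFrobenius F p d) (RingHom.id F) := ⟨_, rfl⟩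
    have hmem : ∀ a : F, a ∈ F₀ ↔ a ^ p ^ d = a := by
      intro a
      rw [hF₀, RingHom.mem_eqLocusField, iterateFrobenius_def, RingHom.id_apply]
    have hpd : 1 ≤ p ^ d := Nat.one_le_pow _ _ hp.pos
    have hζF₀ : ζ ∈ F₀ := by
      rw [hmem]
      have h1 : ζ ^ (p ^ d - 1) = 1 := (hprim.pow_eq_one_iff_dvd _).mpr hdn
      calc ζ ^ p ^ d = ζ ^ (p ^ d - 1 + 1) := by rw [Nat.sub_add_cancel hpd]
        _ = ζ := by rw [pow_succ, h1, one_mul]
    have hF₀top : F₀ ≠ ⊤ := by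
      intro htop
      obtain ⟨g, hg⟩ := IsCyclic.exists_ofOrder_eq_natCard (α := Fˣ)
      rw [Nat.card_units, Nat.card_eq_fintype_card, hcard] at hg
      have h1 : (g : F) ∈ F₀ := by rw [htop]; exact Subfield.mem_top _
      rw [hmem] at h1
      have h2 : (g : F) ^ (p ^ d - 1) = 1 := by
        have h3 : (g : F) ^ (p ^ d - 1) * (g : F) = 1 * (g : F) := by
          rw [← pow_succ, Nat.sub_add_cancel hpd, h1, one_mul]
        exact mul_right_cancel₀ g.ne_zero h3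
      have h4 : g ^ (p ^ d - 1) = 1 := by
        apply Units.ext
        rw [Units.val_pow_eq_pow_val, h2, Units.val_one]
      have h5 := orderOf_dvd_of_pow_eq_one h4
      rw [hg] at h5
      have h6 : p ^ d < p ^ e := Nat.pow_lt_pow_right hp.one_lt hde
      have h7 : 2 ≤ p ^ d := by
        calc 2 ≤ p := hp.two_le
          _ = p ^ 1 := (pow_one p).symm
          _ ≤ p ^ d := Nat.pow_le_pow_right hp.pos hd0
      have h8 := Nat.le_of_dvd (by omega) h5
      omega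
    exact Helper97.normalizer_le_subfield_of_realisable N habs F₀ hF₀top
      (mono_realisable N b hmono F₀ (fun c hc => by
        obtain ⟨i, rfl⟩ := hroots c hc
        exact F₀.pow_mem hζF₀ i))
  · right
    have hmin' : ∀ d, 0 < d → d < e → ¬ r ∣ p ^ d - 1 := fun d h1 h2 h3 => hmin ⟨d, h1, h2, h3⟩
    rcases Nat.even_or_odd e with heven | hodd_e
    · -- (B) a unitary form
      left
      obtain ⟨m', hm'⟩ := heven
      have hm0 : 0 < m' := by omega
      have hme : m' < e := by omega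
      obtain ⟨σ, hσ⟩ : ∃ σ : F ≃+* F, σ = iterateFrobeniusEquiv F p m' := ⟨_, rfl⟩
      have hσa : ∀ a : F, σ a = a ^ p ^ m' := by
        intro a
        rw [hσ, coe_iterateFrobeniusEquiv, iterateFrobenius_def]
      have hinv : ∀ a : F, σ (σ a) = a := by
        intro a
        rw [hσa, hσa, ← pow_mul, ← pow_add, ← hm', ← hcard, FiniteField.pow_card]
      have hσζ : σ ζ = ζ⁻¹ := by
        have h1 : p ^ e - 1 = (p ^ m' - 1) * (p ^ m' + 1) := by
          rw [hm', pow_add]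
          obtain ⟨q, hq⟩ : ∃ q, p ^ m' = q + 1 :=
            ⟨p ^ m' - 1, by have := Nat.one_le_pow m' p hp.pos; omega⟩
          rw [hq, Nat.add_sub_cancel]
          have : (q + 1) * (q + 1) = q * (q + 1 + 1) + 1 := by ring
          rw [this, Nat.add_sub_cancel]
        have h2 : r ∣ p ^ m' + 1 := by
          rw [h1] at hndvd
          exact (hr.dvd_mul.mp hndvd).resolve_left (hmin' m' hm0 hme)
        have h3 : ζ ^ (p ^ m' + 1) = 1 := (hprim.pow_eq_one_iff_dvd _).mpr h2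
        rw [hσa]
        rw [pow_succ] at h3
        exact eq_inv_of_mul_eq_one_left h3
      have hne : σ ≠ RingEquiv.refl F := by
        intro h
        have h1 : σ ζ = ζ := by rw [h]; rfl
        rw [hσζ] at h1
        have h2 : ζ ^ 2 = 1 := by
          rw [pow_two]
          nth_rewrite 1 [← h1]
          exact inv_mul_cancel₀ hζ0
        have h3 := (hprim.pow_eq_one_iff_dvd _).mp h2
        have h4 := Nat.le_of_dvd (by norm_num) h3
        have h5 := hr.two_le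
        have h6 : r = 2 := by omega
        rw [h6] at hodd
        exact absurd hodd (by decide)
      have hU := Helper97.ExtraBasis.herm_unitary b σ hne hinv
      refine ⟨σ, Helper97.ExtraBasis.herm b σ, hU, ?_⟩
      intro h hh
      exact Helper97.normalizer_le_similarity N habs σ _ (Helper97.isSesq_of_unitary hU)
        (fun v hv => (hU.nondegenerate v hv).1) (mono_fixes_herm N b hmono σ (fun c hc => by
          obtain ⟨i, rfl⟩ := hroots c hc
          rw [map_pow, hσζ, inv_pow])) h hh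
    · -- (C) the class-6 data
      right
      have hnp : r ≠ p := by
        intro hnp
        rw [← hnp] at hndvd
        have h1 : r ∣ r ^ e := dvd_pow_self r (by omega)
        have h2 : r ∣ r ^ e - (r ^ e - 1) := Nat.dvd_sub h1 hndvd
        have h3 : r ^ e - (r ^ e - 1) = 1 := by have := Nat.one_le_pow e r hr.pos; omega
        rw [h3] at h2
        exact hr.one_lt.ne' (Nat.dvd_one.mp h2)
      have hpowN : ∀ g : N, g ^ r = 1 := by
        intro g
        apply Subtype.ext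
        rw [Subgroup.coe_pow, hexp g g.2]
        rfl
      obtain ⟨hcc, hcN⟩ := c2_card N hab habs r hr hexp z hzN ζ hzv hprim
      have hz1 : z ≠ 1 := by
        intro h
        rw [h, Units.val_one] at hzv
        exact hζ1 ((Helper97.smul_one_eq_one_iff ζ).mp hzv.symm)
      refine ⟨⟨⟨hr, ?_, ?_, ?_⟩, habs, ?_⟩,
        c2_notSL N r hr.pos ζ hprim hexp x y z ζ hxN hzv hζ1 hxy, e, hodd_e, hcard, hndvd, hmin'⟩
      · intro g
        exact ⟨1, by rw [pow_one]; exact hpowN g⟩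
      · exact c2_char_cyclic H N hNn hNZ hNmin habs
      · have h1 : Monoid.exponent N ∣ r := Monoid.exponent_dvd_of_forall_pow_eq_one hpowN
        have h2 : Monoid.exponent N ≠ 1 := by
          intro h
          rw [Monoid.exp_eq_one_iff] at h
          have h3 := Subsingleton.elim (⟨z, hzN⟩ : N) 1
          exact hz1 (congrArg Subtype.val h3)
        have h3 : Nat.gcd 2 r = 1 := Nat.coprime_two_left.mpr hodd
        rw [h3, mul_one]
        exact ((Nat.dvd_prime hr).mp h1).resolve_left h2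
      · refine ⟨p, e, hnp, ⟨hp, inferInstance, hcard, ?_, ?_⟩,
          Or.inl ⟨hodd, hodd_e, hcc, m, hm, ?_⟩⟩
        · rw [hcc]; exact hndvd
        · rw [hcc]; exact hmin'
        · rw [hcN, hnr]
          ring

end Cfsg.Agent.Helper96
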