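-- helper96 library: minimal normal subgroups of class two modulo scalars, the case `r = 2`.
import Cfsg.Agent.Helper96.SympOdd
import Cfsg.Agent.Helper96.FormDich

set_option autoImplicit false
open Cfsg Cfsg.Geo Matrix

namespace Cfsg.Agent.Helper96

variable {F : Type*} [Field F] {n : ℕ}

/-- Entries of `Aᵀ E_ij A`. -/
theorem transpose_single_mul_apply (A : Matrix (Fin n) (Fin n) F) (i j a b : Fin n) :
    (Aᵀ * Matrix.single i j (1 : F) * A) a b = A i a * A j b := by
  classical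
  rw [Matrix.mul_apply, Finset.sum_eq_single j]
  · rw [Matrix.mul_apply, Finset.sum_eq_single i]
    · rw [Matrix.transpose_apply, Matrix.single_apply_same, mul_one]
    · intro k _ hk
      rw [Matrix.single_apply_of_ne, mul_zero]
      intro h
      exact hk h.1.symm
    · intro h; exact absurd (Finset.mem_univ _) h
  · intro l _ hl
    have : (Aᵀ * Matrix.single i j (1 : F)) a l = 0 := by
      rw [Matrix.mul_apply]
      apply Finset.sum_eq_zero
      intro k _
      rw [Matrix.single_apply_of_ne, mul_zero]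
      intro h
      exact hl h.2.symm
    rw [this, zero_mul]
  · intro h; exact absurd (Finset.mem_univ _) h

/-- Without primitive fourth roots of unity, an element with fourth power one has square one. -/
theorem sq_eq_one_of_no_root (hno : ¬ ∃ ω : F, IsPrimitiveRoot ω 4) (c : F) (hc : c ^ 4 = 1) :
    c ^ 2 = 1 := by
  by_contra h2
  apply hno
  refine ⟨c, ?_⟩
  rw [IsPrimitiveRoot.iff_orderOf]
  have h1 : orderOf c ∣ 2 ^ 2 := orderOf_dvd_of_pow_eq_one (by norm_num; exact hc)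
  obtain ⟨k, hk, hk'⟩ := (Nat.dvd_prime_pow Nat.prime_two).mp h1
  interval_cases k
  · exfalso
    apply h2
    rw [pow_zero] at hk'
    rw [orderOf_eq_one_iff.mp hk', one_pow]
  · exfalso
    apply h2
    rw [pow_one] at hk'
    rw [← hk']
    exact pow_orderOf_eq_one c
  · rw [hk']
    norm_num

/-- The averaged invariant bilinear form of a class-two group whose scalars are `±1`. -/
theorem c2_two_form [Finite F] [NeZero n] (N : Subgroup (GL (Fin n) F))
    (hab : ∀ a ∈ N, ∀ b ∈ N, a * b * a⁻¹ * b⁻¹ ∈ scalars (Fin n) F)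
    (habs : ActsAbsolutelyIrreducibly (matrixSet N))
    (hpow : ∀ x ∈ N, x ^ 2 ∈ scalars (Fin n) F)
    (hexp : ∀ x ∈ N, x ^ 4 = 1)
    (hno : ¬ ∃ ω : F, IsPrimitiveRoot ω 4) (h2 : (2 : F) ≠ 0) (hnF : (n : F) ≠ 0) :
    ∃ M : Matrix (Fin n) (Fin n) F, M ≠ 0 ∧
      ∀ g ∈ N, (g : Matrix (Fin n) (Fin n) F)ᵀ * M * (g : Matrix (Fin n) (Fin n) F) = M := by
  classical
  have hfin : Fintype (N ⧸ (scalars (Fin n) F).subgroupOf N) := Fintype.ofFinite _
  -- scalars of `N` square to one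
  have hsc : ∀ w ∈ N, ∀ c : F, (w : Matrix (Fin n) (Fin n) F) = c • (1 : Matrix (Fin n) (Fin n) F) →
      c ^ 2 = 1 := by
    intro w hw c hc
    apply sq_eq_one_of_no_root hno
    have h1 := congrArg Units.val (hexp w hw)
    rw [Helper97.scalar_pow_val hc, Units.val_one] at h1
    exact (Helper97.smul_one_eq_one_iff _).mp h1
  -- non-scalar elements have trace zero
  have htr : ∀ g ∈ N, g ∉ scalars (Fin n) F → (g : Matrix (Fin n) (Fin n) F).trace = 0 := by
    intro g hg hgZ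
    have hex : ∃ h ∈ N, h * g ≠ g * h := by
      by_contra hcon
      apply hgZ
      rw [Helper97.scalar_mem_scalars_iff]
      apply habs.2
      rintro _ ⟨s, hs, rfl⟩
      rw [← Units.val_mul, ← Units.val_mul]
      congr 1
      by_contra hne
      exact hcon ⟨s, hs, fun h => hne h.symm⟩
    obtain ⟨h, hh, hne⟩ := hex
    obtain ⟨c, hc⟩ := (Helper97.scalar_mem_scalars_iff _).mp (hab h hh g hg)
    have hz2 := c2_comm_pow N hab 2 hpow g hg h hh
    have hc2 : c ^ 2 = 1 := by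
      have h1 := congrArg Units.val hz2
      rw [Helper97.scalar_pow_val hc, Units.val_one] at h1
      exact (Helper97.smul_one_eq_one_iff _).mp h1
    have hc1 : c ≠ 1 := by
      intro h1
      apply hne
      have h3 : h * g * h⁻¹ * g⁻¹ = 1 := by
        apply Units.ext
        rw [hc, h1, one_smul, Units.val_one]
      calc h * g = (h * g * h⁻¹ * g⁻¹) * (g * h) := by group
        _ = g * h := by rw [h3, one_mul]
    have hcm : c = -1 := by
      have : (c - 1) * (c + 1) = 0 := by ring_nf; rw [hc2]; ring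
      rcases mul_eq_zero.mp this with h | h
      · exact absurd (sub_eq_zero.mp h) hc1
      · exact eq_neg_of_add_eq_zero_left h
    have hconj : (h : Matrix (Fin n) (Fin n) F) * (g : Matrix (Fin n) (Fin n) F) *
        ((h⁻¹ : GL (Fin n) F) : Matrix (Fin n) (Fin n) F) = (-1 : F) • (g : Matrix (Fin n) (Fin n) F) := by
      have h4 : h * g * h⁻¹ = (h * g * h⁻¹ * g⁻¹) * g := by group
      have h5 := congrArg Units.val h4
      rw [Units.val_mul, Units.val_mul, Units.val_mul (h * g * h⁻¹ * g⁻¹), hc, hcm] at h5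
      rw [h5, Matrix.smul_mul, Matrix.one_mul]
    have h6 := congrArg Matrix.trace hconj
    rw [Matrix.trace_mul_comm, ← Matrix.mul_assoc, Units.inv_mul, Matrix.one_mul, Matrix.trace_smul,
      smul_eq_mul] at h6
    have h7 : 2 * (g : Matrix (Fin n) (Fin n) F).trace = 0 := by linear_combination h6
    exact (mul_eq_zero.mp h7).resolve_left h2
  obtain ⟨t, ht⟩ : ∃ t : N ⧸ (scalars (Fin n) F).subgroupOf N → Matrix (Fin n) (Fin n) F,
      ∀ q, t q = (((Quotient.out q : N) : GL (Fin n) F) : Matrix (Fin n) (Fin n) F) := ⟨_, fun _ => rfl⟩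
  -- the sum of squares of traces
  have hsum : ∑ q, (t q).trace ^ 2 = (n : F) ^ 2 := by
    rw [Finset.sum_eq_single (1 : N ⧸ (scalars (Fin n) F).subgroupOf N)]
    · have h1 : (Quotient.out (1 : N ⧸ (scalars (Fin n) F).subgroupOf N) : N) ∈
          (scalars (Fin n) F).subgroupOf N := by
        rw [← QuotientGroup.eq_one_iff, QuotientGroup.out_eq']
      rw [Subgroup.mem_subgroupOf] at h1
      obtain ⟨c, hc⟩ := (Helper97.scalar_mem_scalars_iff _).mp h1
      have hc2 := hsc _ (Quotient.out (1 : N ⧸ (scalars (Fin n) F).subgroupOf N)).2 c hc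
      rw [ht, hc, Matrix.trace_smul, Matrix.trace_one, Fintype.card_fin, smul_eq_mul, mul_pow, hc2,
        one_mul]
    · intro q _ hq
      have h1 : ((Quotient.out q : N) : GL (Fin n) F) ∉ scalars (Fin n) F := by
        intro h
        apply hq
        have h2 : (Quotient.out q : N) ∈ (scalars (Fin n) F).subgroupOf N :=
          Subgroup.mem_subgroupOf.mpr h
        rw [← QuotientGroup.eq_one_iff, QuotientGroup.out_eq'] at h2
        exact h2
      rw [ht, htr _ (Quotient.out q).2 h1]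
      ring
    · intro h; exact absurd (Finset.mem_univ _) h
  obtain ⟨Mf, hMf⟩ : ∃ Mf : Fin n → Fin n → Matrix (Fin n) (Fin n) F,
      ∀ i j, Mf i j = ∑ q, (t q)ᵀ * Matrix.single i j (1 : F) * t q := ⟨_, fun _ _ => rfl⟩
  have hex : ∃ i j, Mf i j ≠ 0 := by
    by_contra hcon
    have h0 : ∀ i j, Mf i j = 0 := by
      intro i j
      by_contra h
      exact hcon ⟨i, j, h⟩
    have h1 : ∑ q, (t q).trace ^ 2 = 0 := by
      have h3 : ∀ i j, ∑ q, t q i i * t q j j = 0 := by
        intro i j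
        have h4 := congrFun (congrFun (h0 i j) i) j
        rw [hMf, Matrix.sum_apply, Matrix.zero_apply] at h4
        rw [← h4]
        apply Finset.sum_congr rfl
        intro q _
        rw [transpose_single_mul_apply]
      have h5 : ∀ q, (t q).trace ^ 2 = ∑ i, ∑ j, t q i i * t q j j := by
        intro q
        rw [pow_two, Matrix.trace, Finset.sum_mul_sum]
        rfl
      simp only [h5]
      rw [Finset.sum_comm]
      apply Finset.sum_eq_zero
      intro i _
      rw [Finset.sum_comm]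
      apply Finset.sum_eq_zero
      intro j _
      exact h3 i j
    rw [hsum] at h1
    exact hnF (pow_eq_zero_iff (by norm_num) |>.mp h1)
  obtain ⟨i, j, hij⟩ := hex
  refine ⟨Mf i j, hij, ?_⟩
  intro g hg
  obtain ⟨gq, hgq⟩ : ∃ gq : N ⧸ (scalars (Fin n) F).subgroupOf N,
      gq = ((⟨g, hg⟩ : N) : N ⧸ (scalars (Fin n) F).subgroupOf N) := ⟨_, rfl⟩
  have hterm : ∀ q, (g : Matrix (Fin n) (Fin n) F)ᵀ * ((t q)ᵀ * Matrix.single i j (1 : F) * t q) *
      (g : Matrix (Fin n) (Fin n) F) = (t (q * gq))ᵀ * Matrix.single i j (1 : F) * t (q * gq) := by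
    intro q
    obtain ⟨z, hz⟩ := QuotientGroup.mk_out_eq_mul ((scalars (Fin n) F).subgroupOf N)
      (Quotient.out q * (⟨g, hg⟩ : N))
    have hq' : ((Quotient.out q * (⟨g, hg⟩ : N) : N) : N ⧸ (scalars (Fin n) F).subgroupOf N) =
        q * gq := by
      rw [QuotientGroup.mk_mul, QuotientGroup.out_eq', hgq]
    rw [hq'] at hz
    have hzi : (((z : N) : GL (Fin n) F))⁻¹ ∈ scalars (Fin n) F :=
      Subgroup.inv_mem _ (Subgroup.mem_subgroupOf.mp z.2)
    obtain ⟨c, hc⟩ := (Helper97.scalar_mem_scalars_iff _).mp hzi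
    have hc2 : c ^ 2 = 1 := hsc _ (N.inv_mem (z : N).2) c hc
    have h1 : ((Quotient.out q : N) : GL (Fin n) F) * g =
        ((Quotient.out (q * gq) : N) : GL (Fin n) F) * (((z : N) : GL (Fin n) F))⁻¹ := by
      rw [hz]
      simp
    have h2' : t q * (g : Matrix (Fin n) (Fin n) F) = c • t (q * gq) := by
      rw [ht, ht, ← Units.val_mul, h1, Units.val_mul, hc, Matrix.mul_smul, Matrix.mul_one]
    calc (g : Matrix (Fin n) (Fin n) F)ᵀ * ((t q)ᵀ * Matrix.single i j (1 : F) * t q) *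
          (g : Matrix (Fin n) (Fin n) F)
        = (t q * (g : Matrix (Fin n) (Fin n) F))ᵀ * Matrix.single i j (1 : F) *
            (t q * (g : Matrix (Fin n) (Fin n) F)) := by
          rw [Matrix.transpose_mul]
          simp only [Matrix.mul_assoc]
      _ = (c • t (q * gq))ᵀ * Matrix.single i j (1 : F) * (c • t (q * gq)) := by rw [h2']
      _ = (c ^ 2) • ((t (q * gq))ᵀ * Matrix.single i j (1 : F) * t (q * gq)) := by
          rw [Matrix.transpose_smul, Matrix.smul_mul, Matrix.smul_mul, Matrix.mul_smul, smul_smul,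
            pow_two]
      _ = (t (q * gq))ᵀ * Matrix.single i j (1 : F) * t (q * gq) := by rw [hc2, one_smul]
  rw [hMf, Finset.mul_sum, Finset.sum_mul,
    ← Equiv.sum_comp (Equiv.mulRight gq) (fun q => (t q)ᵀ * Matrix.single i j (1 : F) * t q)]
  apply Finset.sum_congr rfl
  intro q _
  rw [hterm q]
  rfl

/-- Commutators are unchanged by central factors. -/
theorem comm_central_mul {G : Type*} [Group G] (x x' c c' : G) (hc : ∀ k, c * k = k * c)
    (hc' : ∀ k, c' * k = k * c') :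
    (x * c) * (x' * c') * (x * c)⁻¹ * (x' * c')⁻¹ = x * x' * x⁻¹ * x'⁻¹ := by
  have h1 : c * (x' * c') = (x' * c') * c := hc _
  have h2 : c' * x⁻¹ = x⁻¹ * c' := hc' _
  calc (x * c) * (x' * c') * (x * c)⁻¹ * (x' * c')⁻¹
      = x * (c * (x' * c')) * c⁻¹ * x⁻¹ * c'⁻¹ * x'⁻¹ := by group
    _ = x * ((x' * c') * c) * c⁻¹ * x⁻¹ * c'⁻¹ * x'⁻¹ := by rw [h1]
    _ = x * x' * (c' * x⁻¹) * c'⁻¹ * x'⁻¹ := by group
    _ = x * x' * (x⁻¹ * c') * c'⁻¹ * x'⁻¹ := by rw [h2]
    _ = x * x' * x⁻¹ * x'⁻¹ := by group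

/-- With exponent `k`, the scalars of `N` are the powers of a scalar of order `k`. -/
theorem c2_scalars_eq_zpowers' [NeZero n] (N : Subgroup (GL (Fin n) F)) (k : ℕ) [NeZero k]
    (hexp : ∀ x ∈ N, x ^ k = 1) (z : GL (Fin n) F) (hz : z ∈ N) (ζ : F)
    (hzv : (z : Matrix (Fin n) (Fin n) F) = ζ • (1 : Matrix (Fin n) (Fin n) F))
    (hζ : IsPrimitiveRoot ζ k) :
    (scalars (Fin n) F).subgroupOf N = Subgroup.zpowers (⟨z, hz⟩ : N) := by
  apply le_antisymm
  · intro g hg
    rw [Subgroup.mem_subgroupOf] at hg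
    obtain ⟨c, hc⟩ := (Helper97.scalar_mem_scalars_iff _).mp hg
    have h1 := congrArg Units.val (hexp g g.2)
    rw [Helper97.scalar_pow_val hc, Units.val_one] at h1
    have hcr : c ^ k = 1 := (Helper97.smul_one_eq_one_iff _).mp h1
    obtain ⟨i, -, hi⟩ := hζ.eq_pow_of_pow_eq_one hcr
    rw [Subgroup.mem_zpowers_iff]
    refine ⟨(i : ℤ), ?_⟩
    apply Subtype.ext
    rw [zpow_natCast, Subgroup.coe_pow]
    apply Units.ext
    rw [Helper97.scalar_pow_val hzv, hi, hc]
  · rw [Subgroup.zpowers_le, Subgroup.mem_subgroupOf]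
    exact (Helper97.scalar_mem_scalars_iff z).mpr ⟨ζ, hzv⟩

/-- Characteristic abelian subgroups of `R = N · (scalars)` are cyclic. -/
theorem c2_char_cyclic_sup [Finite F] (H N R : Subgroup (GL (Fin n) F))
    (hNn : ∀ h ∈ H, ∀ x ∈ N, h * x * h⁻¹ ∈ N)
    (hRn : ∀ h ∈ H, ∀ x ∈ R, h * x * h⁻¹ ∈ R) (hNZ : ¬ N ≤ scalars (Fin n) F)
    (hNmin : ∀ N' : Subgroup (GL (Fin n) F), N' ≤ N → (∀ h ∈ H, ∀ x ∈ N', h * x * h⁻¹ ∈ N') →
      N' ≤ scalars (Fin n) F ∨ N' = N)
    (habs : ActsAbsolutelyIrreducibly (matrixSet N))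
    (hRdec : ∀ g ∈ R, ∃ x ∈ N, ∃ c ∈ scalars (Fin n) F, g = x * c)
    (A : Subgroup R) (hchar : A.Characteristic) (hcomm : IsMulCommutative A) : IsCyclic A := by
  obtain ⟨A', hA'⟩ : ∃ A' : Subgroup (GL (Fin n) F), A' = A.map R.subtype := ⟨_, rfl⟩
  have hA'R : A' ≤ R := by
    rw [hA']
    rintro _ ⟨a, -, rfl⟩
    exact a.2
  have hA'n : ∀ h ∈ H, ∀ w ∈ A', h * w * h⁻¹ ∈ A' := by
    intro h hh w hw
    rw [hA'] at hw ⊢
    obtain ⟨a, ha, rfl⟩ := hw
    obtain ⟨φ, hφ⟩ : ∃ φ : R ≃* R, ∀ g : R, ((φ g : R) : GL (Fin n) F) = h⁻¹ * g * h :=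
      ⟨{ toFun := fun g => ⟨h⁻¹ * g * h, by
            have := hRn h⁻¹ (H.inv_mem hh) g g.2
            rwa [inv_inv] at this⟩
         invFun := fun g => ⟨h * g * h⁻¹, hRn h hh g g.2⟩
         left_inv := fun g => Subtype.ext (by simp only; group)
         right_inv := fun g => Subtype.ext (by simp only; group)
         map_mul' := fun a b => Subtype.ext (by simp only [Subgroup.coe_mul]; group) }, fun g => rfl⟩
    have hfix := hchar.fixed φ
    have hmem : (⟨h * a * h⁻¹, hRn h hh a a.2⟩ : R) ∈ A := by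
      rw [← hfix, Subgroup.mem_comap]
      have : φ.toMonoidHom ⟨h * a * h⁻¹, hRn h hh a a.2⟩ = a := by
        apply Subtype.ext
        show ((φ ⟨h * a * h⁻¹, hRn h hh a a.2⟩ : R) : GL (Fin n) F) = a
        rw [hφ]
        group
      rw [this]
      exact ha
    exact ⟨⟨h * a * h⁻¹, hRn h hh a a.2⟩, hmem, rfl⟩
  have hA'comm : ∀ a ∈ A', ∀ b ∈ A', a * b = b * a := by
    intro a ha b hb
    rw [hA'] at ha hb
    obtain ⟨a', ha', rfl⟩ := ha
    obtain ⟨b', hb', rfl⟩ := hb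
    have h1 := hcomm.is_comm.comm (⟨a', ha'⟩ : A) ⟨b', hb'⟩
    have h2 := congrArg (fun w : A => ((w : R) : GL (Fin n) F)) h1
    simp only [Subgroup.coe_mul] at h2
    exact h2
  obtain ⟨B, hB⟩ : ∃ B : Subgroup (GL (Fin n) F), ∀ x, x ∈ B ↔
      x ∈ N ∧ ∃ c ∈ scalars (Fin n) F, x * c ∈ A' := by
    refine ⟨{ carrier := {x | x ∈ N ∧ ∃ c ∈ scalars (Fin n) F, x * c ∈ A'}
              one_mem' := ⟨N.one_mem, 1, Subgroup.one_mem _, by rw [mul_one]; exact A'.one_mem⟩
              mul_mem' := ?_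
              inv_mem' := ?_ }, fun x => Iff.rfl⟩
    · rintro x y ⟨hx, c, hc, hxc⟩ ⟨hy, d, hd, hyd⟩
      refine ⟨N.mul_mem hx hy, c * d, Subgroup.mul_mem _ hc hd, ?_⟩
      have h1 : x * y * (c * d) = (x * c) * (y * d) := by
        rw [mul_assoc x c, ← mul_assoc c y, Helper97.scalars_comm hc y]
        group
      rw [h1]
      exact A'.mul_mem hxc hyd
    · rintro x ⟨hx, c, hc, hxc⟩
      refine ⟨N.inv_mem hx, c⁻¹, Subgroup.inv_mem _ hc, ?_⟩
      have h1 : x⁻¹ * c⁻¹ = (x * c)⁻¹ := by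
        rw [_root_.mul_inv_rev, Helper97.scalars_comm (Subgroup.inv_mem _ hc) x⁻¹]
      rw [h1]
      exact A'.inv_mem hxc
  have hBN : B ≤ N := fun x hx => ((hB x).mp hx).1
  have hBn : ∀ h ∈ H, ∀ x ∈ B, h * x * h⁻¹ ∈ B := by
    intro h hh x hx
    rw [hB] at hx ⊢
    obtain ⟨hxN, c, hc, hxc⟩ := hx
    refine ⟨hNn h hh x hxN, c, hc, ?_⟩
    have h1 : h * x * h⁻¹ * c = h * (x * c) * h⁻¹ := by
      calc h * x * h⁻¹ * c = h * x * (h⁻¹ * c) := by group
        _ = h * x * (c * h⁻¹) := by rw [Helper97.scalars_comm hc h⁻¹]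
        _ = h * (x * c) * h⁻¹ := by group
    rw [h1]
    exact hA'n h hh _ hxc
  rcases hNmin B hBN hBn with hsc | hBN'
  · have hcyc : IsCyclic (scalars (Fin n) F) := by
      unfold scalars
      exact isCyclic_of_surjective _ (MonoidHom.rangeRestrict_surjective _)
    have hmem : ∀ a : A, ((a : R) : GL (Fin n) F) ∈ scalars (Fin n) F := by
      intro a
      have ha' : ((a : R) : GL (Fin n) F) ∈ A' := by
        rw [hA']
        exact ⟨a, a.2, rfl⟩
      obtain ⟨x, hx, c, hc, hxc⟩ := hRdec _ (hA'R ha')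
      have hxB : x ∈ B := (hB x).mpr ⟨hx, c, hc, hxc ▸ ha'⟩
      rw [hxc]
      exact Subgroup.mul_mem _ (hsc hxB) hc
    obtain ⟨φ, hφ⟩ : ∃ φ : A →* scalars (Fin n) F, ∀ a : A,
        ((φ a : scalars (Fin n) F) : GL (Fin n) F) = ((a : R) : GL (Fin n) F) :=
      ⟨{ toFun := fun a => ⟨((a : R) : GL (Fin n) F), hmem a⟩
         map_one' := rfl
         map_mul' := fun a b => rfl }, fun a => rfl⟩
    apply isCyclic_of_injective φ
    intro a b hab'
    apply Subtype.ext
    apply Subtype.ext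
    rw [← hφ, ← hφ, hab']
  · exfalso
    obtain ⟨x, hx, y, hy, hxy⟩ := exists_noncomm N hNZ habs
    rw [← hBN'] at hx hy
    obtain ⟨-, c, hc, hxc⟩ := (hB x).mp hx
    obtain ⟨-, d, hd, hyd⟩ := (hB y).mp hy
    have h1 := hA'comm _ hxc _ hyd
    apply hxy
    have h2 : x * c * (y * d) = x * y * (c * d) := by
      rw [mul_assoc x c, ← mul_assoc c y, Helper97.scalars_comm hc y]
      group
    have h3 : y * d * (x * c) = y * x * (c * d) := by
      rw [mul_assoc y d, ← mul_assoc d x, Helper97.scalars_comm hd x, Helper97.scalars_comm hc d]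
      group
    rw [h2, h3] at h1
    exact mul_right_cancel h1

/-- The class-two case for `r = 2` when the field contains the fourth roots of unity: the normaliser
of `N` lies in a subfield group, or in a unitary similarity group, or `N · μ₄` is a class-6 group. -/
theorem c2_two_trichotomy [Fintype F] {p : ℕ} [Fact p.Prime] [CharP F p] [NeZero n] (hn4 : 4 ≤ n)
    {m : ℕ} (hnr : n = 2 ^ m) (H N : Subgroup (GL (Fin n) F))
    (hNn : ∀ h ∈ H, ∀ x ∈ N, h * x * h⁻¹ ∈ N) (hNZ : ¬ N ≤ scalars (Fin n) F)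
    (hNmin : ∀ N' : Subgroup (GL (Fin n) F), N' ≤ N → (∀ h ∈ H, ∀ x ∈ N', h * x * h⁻¹ ∈ N') →
      N' ≤ scalars (Fin n) F ∨ N' = N)
    (hab : ∀ a ∈ N, ∀ b ∈ N, a * b * a⁻¹ * b⁻¹ ∈ scalars (Fin n) F)
    (habs : ActsAbsolutelyIrreducibly (matrixSet N))
    (hpow : ∀ x ∈ N, x ^ 2 ∈ scalars (Fin n) F) (ω : F) (hω : IsPrimitiveRoot ω 4) :
    (∃ (F₁ : Subfield F) (s : ℕ) (B : GL (Fin n) F), s.Prime ∧ Fintype.card F = Nat.card F₁ ^ s ∧
      ∀ h : GL (Fin n) F, (∀ x ∈ N, h * x * h⁻¹ ∈ N) → h ∈ subfieldSubgroup F₁ B) ∨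
    (∃ (σ : F ≃+* F) (f : (Fin n → F) → (Fin n → F) → F), IsUnitaryForm σ f ∧
      ∀ h : GL (Fin n) F, (∀ x ∈ N, h * x * h⁻¹ ∈ N) → h ∈ similarityGroup f) ∨
    (∃ R : Subgroup (GL (Fin n) F), IsLinearSymplecticTypeData 2 R ∧
      ¬ specialLinear (Fin n) F ≤ subgroupNormalizer R ∧ H ≤ subgroupNormalizer R ∧
      Fintype.card F = p ∧ p % 4 = 1) := by
  classical
  have hp := (Fact.out : p.Prime)
  have hexp := c2_exponent_two H N hNn hNZ hNmin hab habs hpow
  obtain ⟨x, y, z, ζ, hxN, hyN, hzN, hzv, hprim2, hxy⟩ := c2_root N hNZ hab habs 2 Nat.prime_two hpow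
  have hζ1 : ζ ≠ 1 := hprim2.ne_one (by norm_num)
  have hω0 : ω ≠ 0 := hω.ne_zero (by norm_num)
  have hω4 : ω ^ 4 = 1 := hω.pow_eq_one
  obtain ⟨w, hw⟩ : ∃ w : GL (Fin n) F,
      (w : Matrix (Fin n) (Fin n) F) = ω • (1 : Matrix (Fin n) (Fin n) F) :=
    ⟨⟨ω • 1, ω⁻¹ • 1, by rw [Matrix.smul_mul, Matrix.one_mul, smul_smul, mul_inv_cancel₀ hω0, one_smul],
      by rw [Matrix.smul_mul, Matrix.one_mul, smul_smul, inv_mul_cancel₀ hω0, one_smul]⟩, rfl⟩
  have hwZ : w ∈ scalars (Fin n) F := (Helper97.scalar_mem_scalars_iff w).mpr ⟨ω, hw⟩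
  have hw4 : w ^ 4 = 1 := by
    apply Units.ext
    rw [Helper97.scalar_pow_val hw, hω4, one_smul, Units.val_one]
  have hwjZ : ∀ j : ℕ, w ^ j ∈ scalars (Fin n) F := fun j => Subgroup.pow_mem _ hwZ j
  obtain ⟨R, hR⟩ : ∃ R : Subgroup (GL (Fin n) F), ∀ g, g ∈ R ↔ ∃ x ∈ N, ∃ j : ℕ, g = x * w ^ j := by
    refine ⟨{ carrier := {g | ∃ x ∈ N, ∃ j : ℕ, g = x * w ^ j}
              one_mem' := ⟨1, N.one_mem, 0, by simp⟩
              mul_mem' := ?_
              inv_mem' := ?_ }, fun g => Iff.rfl⟩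
    · rintro _ _ ⟨a, ha, j, rfl⟩ ⟨b, hb, l, rfl⟩
      refine ⟨a * b, N.mul_mem ha hb, j + l, ?_⟩
      rw [pow_add, mul_assoc a, ← mul_assoc (w ^ j) b, Helper97.scalars_comm (hwjZ j) b]
      group
    · rintro _ ⟨a, ha, j, rfl⟩
      refine ⟨a⁻¹, N.inv_mem ha, 3 * j, ?_⟩
      have h1 : (w ^ j)⁻¹ = w ^ (3 * j) := by
        apply inv_eq_of_mul_eq_one_right
        rw [← pow_add, show j + 3 * j = 4 * j by ring, pow_mul, hw4, one_pow]
      rw [_root_.mul_inv_rev, h1, Helper97.scalars_comm (hwjZ (3 * j)) a⁻¹]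
  have hNR : N ≤ R := fun g hg => (hR g).mpr ⟨g, hg, 0, by simp⟩
  have hwR : w ∈ R := (hR w).mpr ⟨1, N.one_mem, 1, by simp⟩
  have hRdec : ∀ g ∈ R, ∃ x ∈ N, ∃ c ∈ scalars (Fin n) F, g = x * c := by
    intro g hg
    obtain ⟨a, ha, j, rfl⟩ := (hR g).mp hg
    exact ⟨a, ha, w ^ j, hwjZ j, rfl⟩
  have habsR : ActsAbsolutelyIrreducibly (matrixSet R) := by
    constructor
    · intro W hW
      exact habs.1 W (fun s hs => hW s (by
        obtain ⟨g, hg, rfl⟩ := hs
        exact ⟨g, hNR hg, rfl⟩))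
    · intro M hM
      exact habs.2 M (fun s hs => hM s (by
        obtain ⟨g, hg, rfl⟩ := hs
        exact ⟨g, hNR hg, rfl⟩))
  have habR : ∀ a ∈ R, ∀ b ∈ R, a * b * a⁻¹ * b⁻¹ ∈ scalars (Fin n) F := by
    intro a ha b hb
    obtain ⟨a', ha', j, rfl⟩ := (hR a).mp ha
    obtain ⟨b', hb', l, rfl⟩ := (hR b).mp hb
    rw [comm_central_mul a' b' (w ^ j) (w ^ l) (fun k => Helper97.scalars_comm (hwjZ j) k)
      (fun k => Helper97.scalars_comm (hwjZ l) k)]
    exact hab a' ha' b' hb'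
  have hexpR : ∀ g ∈ R, g ^ 4 = 1 := by
    intro g hg
    obtain ⟨a, ha, j, rfl⟩ := (hR g).mp hg
    have hc : Commute a (w ^ j) := (Helper97.scalars_comm (hwjZ j) a).symm
    rw [hc.mul_pow, hexp a ha, one_mul, ← pow_mul, mul_comm, pow_mul, hw4, one_pow]
  have hRnorm : ∀ h : GL (Fin n) F, (∀ x ∈ N, h * x * h⁻¹ ∈ N) → ∀ x ∈ R, h * x * h⁻¹ ∈ R := by
    intro h hh g hg
    obtain ⟨a, ha, j, rfl⟩ := (hR g).mp hg
    refine (hR _).mpr ⟨h * a * h⁻¹, hh a ha, j, ?_⟩
    calc h * (a * w ^ j) * h⁻¹ = h * a * (w ^ j * h⁻¹) := by group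
      _ = h * a * (h⁻¹ * w ^ j) := by rw [Helper97.scalars_comm (hwjZ j) h⁻¹]
      _ = h * a * h⁻¹ * w ^ j := by group
  obtain ⟨b, hmonoR⟩ := exists_mono_basis R habsR habR (by norm_num : 0 < 4) hω hexpR
  have hmono : ∀ g ∈ N, ∀ i, ∃ j, ∃ c : F, c ^ 4 = 1 ∧
      (g : Matrix (Fin n) (Fin n) F) *ᵥ b i = c • b j := fun g hg => hmonoR g (hNR hg)
  obtain ⟨e', -, hcard⟩ := FiniteField.card F p
  obtain ⟨e, he⟩ : ∃ e : ℕ, e = (e' : ℕ) := ⟨_, rfl⟩
  rw [← he] at hcard
  have he0 : 0 < e := he ▸ e'.pos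
  have hndvd : 4 ∣ p ^ e - 1 := by
    rw [← hcard, ← hω.pow_eq_one_iff_dvd]
    exact FiniteField.pow_card_sub_one_eq_one ω hω0
  have hroots : ∀ c : F, c ^ 4 = 1 → ∃ i : ℕ, c = ω ^ i := by
    intro c hc
    obtain ⟨i, -, hi⟩ := hω.eq_pow_of_pow_eq_one hc
    exact ⟨i, hi.symm⟩
  have hpe1 : 1 ≤ p ^ e := Nat.one_le_pow _ _ hp.pos
  have hpe4 : p ^ e % 4 = 1 := by
    obtain ⟨c, hc⟩ := hndvd
    omega
  have hpodd : p % 2 = 1 := by
    have h1 : p ^ e % 2 = 1 := by omega
    rw [Nat.pow_mod] at h1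
    rcases Nat.mod_two_eq_zero_or_one p with h | h
    · rw [h, zero_pow he0.ne'] at h1
      omega
    · exact h
  by_cases hmin : ∃ d, 0 < d ∧ d < e ∧ 4 ∣ p ^ d - 1
  · -- (A) a proper subfield contains `ω`
    left
    obtain ⟨d, hd0, hde, hdn⟩ := hmin
    obtain ⟨F₀, hF₀⟩ : ∃ F₀ : Subfield F,
        F₀ = RingHom.eqLocusField (iterateFrobenius F p d) (RingHom.id F) := ⟨_, rfl⟩
    have hmem : ∀ a : F, a ∈ F₀ ↔ a ^ p ^ d = a := by
      intro a
      rw [hF₀, RingHom.mem_eqLocusField, iterateFrobenius_def, RingHom.id_apply]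
    have hpd : 1 ≤ p ^ d := Nat.one_le_pow _ _ hp.pos
    have hζF₀ : ω ∈ F₀ := by
      rw [hmem]
      have h1 : ω ^ (p ^ d - 1) = 1 := (hω.pow_eq_one_iff_dvd _).mpr hdn
      calc ω ^ p ^ d = ω ^ (p ^ d - 1 + 1) := by rw [Nat.sub_add_cancel hpd]
        _ = ω := by rw [pow_succ, h1, one_mul]
    have hF₀top : F₀ ≠ ⊤ := by
      intro htop
      obtain ⟨g, hg⟩ := IsCyclic.exists_ofOrder_eq_natCard (α := Fˣ)
      rw [Nat.card_units, Nat.card_eq_fintype_card, hcard] at hg
      have h1 : (g : F) ∈ F₀ := by rw [htop]; exact Subfield.mem_top _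
      rw [hmem] at h1
      have h2 : (g : F) ^ (p ^ d - 1) = 1 := by
        have h3 : (g : F) ^ (p ^ d - 1) * (g : F) = 1 * (g : F) := by
          rw [← pow_succ, Nat.sub_add_cancel hpd, h1, one_mul]
        exact mul_right_cancel₀ g.ne_zero h3
      have h4 : g ^ (p ^ d - 1) = 1 := by
        apply Units.ext
        rw [Units.val_pow_eq_pow_val, h2, Units.val_one]
      have h5 := orderOf_dvd_of_pow_eq_one h4
      rw [hg] at h5
      have h6 : p ^ d < p ^ e := Nat.pow_lt_pow_right hp.one_lt hde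
      have h7 : 2 ≤ p ^ d := by
        calc 2 ≤ p := hp.two_le
          _ = p ^ 1 := (pow_one p).symm
          _ ≤ p ^ d := Nat.pow_le_pow_right hp.pos hd0
      have h8 := Nat.le_of_dvd (by omega) h5
      omega
    exact Helper97.normalizer_le_subfield_of_realisable N habs F₀ hF₀top
      (mono_realisable N b hmono F₀ (fun c hc => by
        obtain ⟨i, rfl⟩ := hroots c hc
        exact F₀.pow_mem hζF₀ i))
  · right
    have hmin' : ∀ d, 0 < d → d < e → ¬ 4 ∣ p ^ d - 1 := fun d h1 h2 h3 => hmin ⟨d, h1, h2, h3⟩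
    rcases Nat.even_or_odd e with heven | hodd_e
    · -- (B) a unitary form
      left
      obtain ⟨m', hm'⟩ := heven
      have hm0 : 0 < m' := by omega
      have hme : m' < e := by omega
      obtain ⟨σ, hσ⟩ : ∃ σ : F ≃+* F, σ = iterateFrobeniusEquiv F p m' := ⟨_, rfl⟩
      have hσa : ∀ a : F, σ a = a ^ p ^ m' := by
        intro a
        rw [hσ, coe_iterateFrobeniusEquiv, iterateFrobenius_def]
      have hinv : ∀ a : F, σ (σ a) = a := by
        intro a
        rw [hσa, hσa, ← pow_mul, ← pow_add, ← hm', ← hcard, FiniteField.pow_card]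
      have hσζ : σ ω = ω⁻¹ := by
        have h2 : 4 ∣ p ^ m' + 1 := by
          have h3 : ¬ 4 ∣ p ^ m' - 1 := hmin' m' hm0 hme
          have h4 : p ^ m' % 2 = 1 := by
            rw [Nat.pow_mod, hpodd, one_pow]
            norm_num
          have h5 : 1 ≤ p ^ m' := Nat.one_le_pow _ _ hp.pos
          obtain ⟨P, hP⟩ : ∃ P : ℕ, P = p ^ m' := ⟨_, rfl⟩
          rw [← hP] at h3 h4 h5 ⊢
          omega
        have h3 : ω ^ (p ^ m' + 1) = 1 := (hω.pow_eq_one_iff_dvd _).mpr h2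
        rw [hσa]
        rw [pow_succ] at h3
        exact eq_inv_of_mul_eq_one_left h3
      have hne : σ ≠ RingEquiv.refl F := by
        intro h
        have h1 : σ ω = ω := by rw [h]; rfl
        rw [hσζ] at h1
        have h2 : ω ^ 2 = 1 := by
          rw [pow_two]
          nth_rewrite 1 [← h1]
          exact inv_mul_cancel₀ hω0
        have h3 := (hω.pow_eq_one_iff_dvd _).mp h2
        have h4 := Nat.le_of_dvd (by norm_num) h3
        omega
      have hU := Helper97.ExtraBasis.herm_unitary b σ hne hinv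
      refine ⟨σ, Helper97.ExtraBasis.herm b σ, hU, ?_⟩
      intro h hh
      exact Helper97.normalizer_le_similarity N habs σ _ (Helper97.isSesq_of_unitary hU)
        (fun v hv => (hU.nondegenerate v hv).1) (mono_fixes_herm N b hmono σ (fun c hc => by
          obtain ⟨i, rfl⟩ := hroots c hc
          rw [map_pow, hσζ, inv_pow])) h hh
    · -- (C) the class-6 data
      right
      have hp4 : p % 4 = 1 := by
        have h3 : p % 4 = 1 ∨ p % 4 = 3 := by omega
        rcases h3 with h3 | h3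
        · exact h3
        · exfalso
          obtain ⟨k, hk⟩ := hodd_e
          have h4 : p ^ e % 4 = 3 := by
            rw [Nat.pow_mod, h3, hk, pow_succ, pow_mul, Nat.mul_mod, Nat.pow_mod]
            have h9 : (3 : ℕ) ^ 2 % 4 = 1 := by norm_num
            rw [h9, one_pow]
            norm_num
          omega
      have he1 : e = 1 := by
        by_contra hne
        exact hmin' 1 (by norm_num) (by omega) (by rw [pow_one]; omega)
      have hpowR : ∀ g : R, g ^ 4 = 1 := by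
        intro g
        apply Subtype.ext
        rw [Subgroup.coe_pow, hexpR g g.2]
        rfl
      have hcenter : Subgroup.center R = Subgroup.zpowers (⟨w, hwR⟩ : R) := by
        rw [c2_center_eq R habsR]
        exact c2_scalars_eq_zpowers' R 4 hexpR w hwR ω hw hω
      have hw2 : w ^ 2 ≠ 1 := by
        intro h
        have h1 := congrArg Units.val h
        rw [Helper97.scalar_pow_val hw, Units.val_one] at h1
        have h2 : ω ^ 2 = 1 := (Helper97.smul_one_eq_one_iff _).mp h1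
        have h3 := (hω.pow_eq_one_iff_dvd 2).mp h2
        have h4 := Nat.le_of_dvd (by norm_num) h3
        omega
      have hordw : orderOf (⟨w, hwR⟩ : R) = 4 := by
        rw [Subgroup.orderOf_mk]
        have := orderOf_eq_prime_pow (p := 2) (n := 1) (x := w) (by simpa using hw2) (by simpa using hw4)
        simpa using this
      have hcc : Nat.card (Subgroup.center R) = 4 := by rw [hcenter, Nat.card_zpowers, hordw]
      have hcS : Nat.card ((scalars (Fin n) F).subgroupOf R) = 4 := by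
        rw [← c2_center_eq R habsR, hcc]
      have hcR : Nat.card R = n * n * 4 := by
        rw [Subgroup.card_eq_card_quotient_mul_card_subgroup ((scalars (Fin n) F).subgroupOf R),
          hcS, card_quot_of_class_two R habsR habR]
      have hRH : ∀ h ∈ H, ∀ x ∈ R, h * x * h⁻¹ ∈ R := fun h hh => hRnorm h (hNn h hh)
      refine ⟨R, ⟨⟨Nat.prime_two, ?_, ?_, ?_⟩, habsR, ?_⟩,
        c2_notSL R 4 (by norm_num) ω hω hexpR x y z ζ (hNR hxN) hzv hζ1 hxy,
        Helper97.le_subgroupNormalizer H R hRH, ?_, hp4⟩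
      · intro g
        exact ⟨2, by rw [show (2 : ℕ) ^ 2 = 4 by norm_num]; exact hpowR g⟩
      · exact c2_char_cyclic_sup H N R hNn hRH hNZ hNmin habs hRdec
      · have h1 : Monoid.exponent R ∣ 4 := Monoid.exponent_dvd_of_forall_pow_eq_one hpowR
        have h2 : 4 ∣ Monoid.exponent R := by
          rw [← hordw]
          exact Monoid.order_dvd_exponent _
        have h3 : Nat.gcd 2 2 = 2 := by norm_num
        rw [h3]
        exact Nat.dvd_antisymm h1 h2
      · refine ⟨p, e, ?_, ⟨hp, inferInstance, hcard, ?_, ?_⟩,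
          Or.inr (Or.inl ⟨rfl, he1, hcc, ?_, m, ?_⟩)⟩
        · intro h
          rw [← h] at hpodd
          omega
        · rw [hcc]; exact hndvd
        · rw [hcc]; exact hmin'
        · rw [Fintype.card_fin]; exact hn4
        · rw [hcR, hnr]
          ring
      · rw [hcard, he1, pow_one]

end Cfsg.Agent.Helper96
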