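-- helper96 library: the class-two (odd) and tensor-square outcomes for maximal subgroups of SL_n(q).
import Cfsg.Agent.Helper96.Composite
import Cfsg.Agent.Helper96.SympOdd
import Cfsg.Agent.Helper96.TensorWreath
import Cfsg.Agent.Helper97.PrimeDim

set_option autoImplicit false
open Cfsg Cfsg.Geo Matrix
open scoped Kronecker

namespace Cfsg.Agent.Helper96

variable {F : Type*} [Field F] {n : ℕ}

/-- The class-two outcome of `composite_core` for an odd prime `r` with `n = r ^ m`. -/
theorem c2_odd_cases [Fintype F] {p : ℕ} [Fact p.Prime] [CharP F p] (hn3 : 3 ≤ n) {r m : ℕ}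
    (hr : r.Prime) (hodd : Odd r) (hm : 1 ≤ m) (hnr : n = r ^ m)
    (H N : Subgroup (GL (Fin n) F)) (hH : IsMaximalIn (specialLinear (Fin n) F) H)
    (hN : C2Data H N) (hpow : ∀ x ∈ N, x ^ r ∈ scalars (Fin n) F) :
    (∃ (F₀ : Subfield F) (s : ℕ) (P : GL (Fin n) F), s.Prime ∧ Fintype.card F = Nat.card F₀ ^ s ∧
      H = subfieldSubgroup F₀ P ⊓ specialLinear (Fin n) F) ∨
    (∃ (σ : F ≃+* F) (f : (Fin n → F) → (Fin n → F) → F), IsUnitaryForm σ f ∧
      H = similarityGroup f ⊓ specialLinear (Fin n) F) ∨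
    (∃ R : Subgroup (GL (Fin n) F), IsLinearSymplecticTypeData r R ∧
      H = subgroupNormalizer R ⊓ specialLinear (Fin n) F ∧
      ∃ e : ℕ, Odd e ∧ Fintype.card F = p ^ e ∧ r ∣ p ^ e - 1 ∧
        ∀ d : ℕ, 0 < d → d < e → ¬ r ∣ p ^ d - 1) := by
  classical
  have hnz : NeZero n := ⟨by omega⟩
  have hn2 : 2 ≤ n := by omega
  rcases c2_odd_trichotomy hr hodd hm hnr H N hN.normal hN.notScalar hN.minimal hN.comm hN.absIrred
    hpow with ⟨F₁, s, B, hs, hcard, hnorm⟩ | ⟨σ, f, hf, hnorm⟩ | ⟨hdata, hnotSL, e, he, hcard, hdvd, hmin⟩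
  · left
    have hle : H ≤ subfieldSubgroup F₁ B := fun h hh => hnorm h (hN.normal h hh)
    exact ⟨F₁, s, B, hs, hcard, Helper97.eq_inf_of_isMaximalIn hH hle
      (Helper97.notSL_subfield hn2 F₁ (Helper97.subfield_ne_top_of_card F₁ s hs hcard) B)⟩
  · right; left
    have hle : H ≤ similarityGroup f := fun h hh => hnorm h (hN.normal h hh)
    exact ⟨σ, f, hf, Helper97.eq_inf_of_isMaximalIn hH hle (Helper97.notSL_unitary (p := p) hn3 σ f hf)⟩
  · right; right
    exact ⟨N, hdata, Helper97.eq_inf_of_isMaximalIn hH (Helper97.le_subgroupNormalizer H N hN.normal)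
      hnotSL, e, he, hcard, hdvd, hmin⟩

/-- A maximal subgroup inside a tensor product subgroup with equal factors is a tensor-wreath
subgroup. -/
theorem tensor_square_cases [Finite F] {m : ℕ} (hm : 2 ≤ m) (H : Subgroup (GL (Fin n) F))
    (hH : IsMaximalIn (specialLinear (Fin n) F) H) (e : Fin n ≃ Fin m × Fin m) (P : GL (Fin n) F)
    (hle : H ≤ tensorProductSubgroup m m e P) :
    H = tensorWreathSubgroup m 2 (e.trans (eps m)) P ⊓ specialLinear (Fin n) F :=
  Helper97.eq_inf_of_isMaximalIn hH (hle.trans (tensor_le_wreath e P))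
    (notSL_tensorWreath hm _ P)

/-- The central-product outcome of `composite_core` with two factors. -/
theorem cp_square_cases [Finite F] {m : ℕ} (hm : 2 ≤ m) (H N S : Subgroup (GL (Fin n) F))
    (hH : IsMaximalIn (specialLinear (Fin n) F) H) (e : Fin n ≃ Fin m × Fin m) (Pm : GL (Fin n) F)
    (ρ : Matrix (Fin n) (Fin n) F → Matrix (Fin m) (Fin m) F) (hCP : CPData H N S m m e Pm ρ) :
    H = tensorWreathSubgroup m 2 (e.trans (eps m)) Pm ⊓ specialLinear (Fin n) F := by
  apply Helper97.eq_inf_of_isMaximalIn hH _ (notSL_tensorWreath hm _ Pm)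
  intro h hh
  rcases hCP.comm h hh with h1 | h1
  · apply tensor_le_wreath e Pm
    apply hCP.tensor.normalizer_mem h
    · intro x hx
      have := Helper97.conj_mem_cj (h := h) hx
      rwa [h1] at this
    · intro x hx
      rw [← h1] at hx
      exact Helper97.mem_cj.mp hx
  · exact cp_swap_mem S e Pm ρ hCP.tensor h h1

end Cfsg.Agent.Helper96
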