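-- helper96 library: the class-two outcome for `r = 2` for maximal subgroups of SL_n(q).
import Cfsg.Agent.Helper96.SympTwo
import Cfsg.Agent.Helper96.SympCases
import Cfsg.Agent.Helper96.CPForm

set_option autoImplicit false
open Cfsg Cfsg.Geo Matrix

namespace Cfsg.Agent.Helper96

variable {F : Type*} [Field F] {n : ℕ}

/-- The class-two outcome of `composite_core` for `r = 2`, `n = 2 ^ m ≥ 4`. -/
theorem c2_two_cases [Fintype F] {p : ℕ} [Fact p.Prime] [CharP F p] (hn4 : 4 ≤ n) {m : ℕ}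
    (hnr : n = 2 ^ m) (H N : Subgroup (GL (Fin n) F))
    (hH : IsMaximalIn (specialLinear (Fin n) F) H) (hN : C2Data H N)
    (hpow : ∀ x ∈ N, x ^ 2 ∈ scalars (Fin n) F) :
    (∃ (F₀ : Subfield F) (s : ℕ) (P : GL (Fin n) F), s.Prime ∧ Fintype.card F = Nat.card F₀ ^ s ∧
      H = subfieldSubgroup F₀ P ⊓ specialLinear (Fin n) F) ∨
    (∃ (σ : F ≃+* F) (f : (Fin n → F) → (Fin n → F) → F), IsUnitaryForm σ f ∧
      H = similarityGroup f ⊓ specialLinear (Fin n) F) ∨
    (∃ R : Subgroup (GL (Fin n) F), IsLinearSymplecticTypeData 2 R ∧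
      H = subgroupNormalizer R ⊓ specialLinear (Fin n) F ∧ Fintype.card F = p ∧ p % 4 = 1) ∨
    (Odd (Fintype.card F) ∧ ∃ Q : (Fin n → F) → F, IsNondegenerateQuadraticForm Q ∧
      H = quadSimilarityGroup Q ⊓ specialLinear (Fin n) F) ∨
    (∃ f : (Fin n → F) → (Fin n → F) → F, IsSymplecticForm f ∧
      H = similarityGroup f ⊓ specialLinear (Fin n) F) := by
  classical
  have hnz : NeZero n := ⟨by omega⟩
  have hn2 : 2 ≤ n := by omega
  have hn3 : 3 ≤ n := by omega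
  by_cases hroot : ∃ ω : F, IsPrimitiveRoot ω 4
  · obtain ⟨ω, hω⟩ := hroot
    rcases c2_two_trichotomy hn4 hnr H N hN.normal hN.notScalar hN.minimal hN.comm hN.absIrred
      hpow ω hω with ⟨F₁, s, B, hs, hcard, hnorm⟩ | ⟨σ, f, hf, hnorm⟩ | ⟨R, hdata, hnotSL, hle, hcard, hp4⟩
    · left
      have hle : H ≤ subfieldSubgroup F₁ B := fun h hh => hnorm h (hN.normal h hh)
      exact ⟨F₁, s, B, hs, hcard, Helper97.eq_inf_of_isMaximalIn hH hle
        (Helper97.notSL_subfield hn2 F₁ (Helper97.subfield_ne_top_of_card F₁ s hs hcard) B)⟩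
    · right; left
      have hle : H ≤ similarityGroup f := fun h hh => hnorm h (hN.normal h hh)
      exact ⟨σ, f, hf, Helper97.eq_inf_of_isMaximalIn hH hle (Helper97.notSL_unitary (p := p) hn3 σ f hf)⟩
    · right; right; left
      exact ⟨R, hdata, Helper97.eq_inf_of_isMaximalIn hH hle hnotSL, hcard, hp4⟩
  · right; right; right
    have hexp := c2_exponent_two H N hN.normal hN.notScalar hN.minimal hN.comm hN.absIrred hpow
    obtain ⟨x, y, z, ζ, -, -, -, -, hprim2, -⟩ :=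
      c2_root N hN.notScalar hN.comm hN.absIrred 2 Nat.prime_two hpow
    have h2 : (2 : F) ≠ 0 := by
      intro h
      have hζ1 : ζ ≠ 1 := hprim2.ne_one (by norm_num)
      have hζ2 : ζ ^ 2 = 1 := hprim2.pow_eq_one
      have h3 : (ζ - 1) * (ζ + 1) = 0 := by ring_nf; rw [hζ2]; ring
      rcases mul_eq_zero.mp h3 with h4 | h4
      · exact hζ1 (sub_eq_zero.mp h4)
      · apply hζ1
        have h5 : ζ + 1 = ζ - 1 := by
          have : (ζ + 1) - (ζ - 1) = 2 := by ring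
          exact sub_eq_zero.mp (by rw [this, h])
        rw [h5] at h4
        exact sub_eq_zero.mp h4
    have hnF : (n : F) ≠ 0 := by
      rw [hnr, Nat.cast_pow]
      exact pow_ne_zero _ (by exact_mod_cast h2)
    obtain ⟨M, hM, hfix⟩ := c2_two_form N hN.comm hN.absIrred hpow hexp hroot h2 hnF
    exact form_cases (p := p) hn3 H N hH hN.normal hN.absIrred M hM hfix

/-- The central-product outcome of `composite_core` with factors of degree two. -/
theorem cp_two_cases [Fintype F] {p : ℕ} [Fact p.Prime] [CharP F p] (hn3 : 3 ≤ n)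
    (H N S : Subgroup (GL (Fin n) F)) (hH : IsMaximalIn (specialLinear (Fin n) F) H) {k : ℕ}
    (e : Fin n ≃ Fin 2 × Fin k) (Pm : GL (Fin n) F)
    (ρ : Matrix (Fin n) (Fin n) F → Matrix (Fin 2) (Fin 2) F) (hCP : CPData H N S 2 k e Pm ρ) :
    (Odd (Fintype.card F) ∧ ∃ Q : (Fin n → F) → F, IsNondegenerateQuadraticForm Q ∧
      H = quadSimilarityGroup Q ⊓ specialLinear (Fin n) F) ∨
    (∃ f : (Fin n → F) → (Fin n → F) → F, IsSymplecticForm f ∧
      H = similarityGroup f ⊓ specialLinear (Fin n) F) := by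
  classical
  obtain ⟨𝒮, h𝒮⟩ : ∃ 𝒮 : Set (Subgroup (GL (Fin n) F)), 𝒮 = {T | ∃ h ∈ H, T = Helper97.cj h S} :=
    ⟨_, rfl⟩
  have hgen : N = Subgroup.closure {x | ∃ T ∈ 𝒮, x ∈ T} := by
    rw [← hCP.gen]
    congr 1
    ext x
    constructor
    · rintro ⟨h, hh, hx⟩
      exact ⟨Helper97.cj h S, by rw [h𝒮]; exact ⟨h, hh, rfl⟩, hx⟩
    · rintro ⟨T, hT, hx⟩
      rw [h𝒮] at hT
      obtain ⟨h, hh, rfl⟩ := hT
      exact ⟨h, hh, hx⟩
  have hperf : ∀ T ∈ 𝒮, ⁅T, T⁆ = T := by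
    intro T hT
    rw [h𝒮] at hT
    obtain ⟨h, hh, rfl⟩ := hT
    unfold Helper97.cj
    rw [← Subgroup.map_commutator, hCP.subPerfect]
  have hcomm : ∀ T ∈ 𝒮, ∀ T' ∈ 𝒮, T = T' ∨ ∀ s ∈ T, ∀ t ∈ T', s * t = t * s := by
    intro T hT T' hT'
    rw [h𝒮] at hT hT'
    obtain ⟨h, hh, rfl⟩ := hT
    obtain ⟨h', hh', rfl⟩ := hT'
    rcases hCP.comm (h⁻¹ * h') (H.mul_mem (H.inv_mem hh) hh') with h1 | h1
    · left
      have e1 : Helper97.cj h' S = Helper97.cj (h * (h⁻¹ * h')) S := by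
        congr 1
        group
      rw [e1, cj_mul, h1]
    · right
      intro s hs t ht
      rw [Helper97.mem_cj] at hs ht
      have ht' : h⁻¹ * t * h ∈ Helper97.cj (h⁻¹ * h') S := by
        rw [Helper97.mem_cj]
        have : (h⁻¹ * h')⁻¹ * (h⁻¹ * t * h) * (h⁻¹ * h') = h'⁻¹ * t * h' := by group
        rw [this]
        exact ht
      have h2 := h1 _ hs _ ht'
      calc s * t = h * ((h⁻¹ * s * h) * (h⁻¹ * t * h)) * h⁻¹ := by group
        _ = h * ((h⁻¹ * t * h) * (h⁻¹ * s * h)) * h⁻¹ := by rw [h2]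
        _ = t * s := by group
  have hdim : ∀ T ∈ 𝒮, Module.finrank F (Algebra.adjoin F (matrixSet T)) = 4 := by
    intro T hT
    rw [h𝒮] at hT
    obtain ⟨h, hh, rfl⟩ := hT
    exact (hCP.tensor.conj h).finrank_adjoin
  have hne : 𝒮.Nonempty := ⟨Helper97.cj 1 S, by rw [h𝒮]; exact ⟨1, H.one_mem, rfl⟩⟩
  obtain ⟨M, hM, hfix⟩ := cp_form n N 𝒮 hgen hperf hcomm hdim hCP.absIrred hne
  exact form_cases (p := p) hn3 H N hH hCP.normal hCP.absIrred M hM hfix

end Cfsg.Agent.Helper96
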