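-- helper96 library: the form, class-two and central-product outcomes for arbitrary subgroups
-- (versions of `form_cases`, `c2_two_cases`, `cp_two_cases` without maximality), and the membership
-- of an arbitrary subgroup of `GL_n(q)`, `n ≥ 3`, in a geometric class or the residual class.
import Cfsg.Agent.Helper96.SympCases2
import Cfsg.Agent.Helper96.General
import Cfsg.Agent.Helper96.TensorTwo
import Cfsg.Agent.Helper96.TensorPower2

set_option autoImplicit false
open Cfsg Cfsg.Geo Matrix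

namespace Cfsg.Agent.Helper96

variable {F : Type*} [Field F] {n : ℕ}

/-- A group normalising an absolutely irreducible subgroup with an invariant non-zero bilinear form
lies in a quadratic or a symplectic similarity group. -/
theorem form_le [Fintype F] {p : ℕ} [Fact p.Prime] [CharP F p] (hn3 : 3 ≤ n)
    (H N : Subgroup (GL (Fin n) F))
    (hNn : ∀ h ∈ H, ∀ x ∈ N, h * x * h⁻¹ ∈ N)
    (habs : ActsAbsolutelyIrreducibly (matrixSet N))
    (M : Matrix (Fin n) (Fin n) F) (hM : M ≠ 0)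
    (hfix : ∀ g ∈ N, (g : Matrix (Fin n) (Fin n) F)ᵀ * M * (g : Matrix (Fin n) (Fin n) F) = M) :
    (Odd (Fintype.card F) ∧ ∃ Q : (Fin n → F) → F, IsNondegenerateQuadraticForm Q ∧
      H ≤ quadSimilarityGroup Q) ∨
    (∃ f : (Fin n → F) → (Fin n → F) → F, IsSymplecticForm f ∧ H ≤ similarityGroup f) := by
  classical
  have hp := (Fact.out : p.Prime)
  have hnz : NeZero n := ⟨by omega⟩
  rcases form_dichotomy (by omega) N habs M hM hfix with ⟨f, hf, hfix'⟩ | ⟨h2, Q, hQ, hfix'⟩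
  · right
    have hle : H ≤ similarityGroup f := fun h hh =>
      Helper97.normalizer_le_similarity N habs (RingEquiv.refl F) f
        (Helper97.isSesq_of_bilinear hf.bilinear)
        (fun v hv => (hf.nondegenerate v hv).1) hfix' h (hNn h hh)
    exact ⟨f, hf, hle⟩
  · left
    have hle : H ≤ quadSimilarityGroup Q :=
      fun h hh => Helper97.normalizer_le_quadSimilarity N habs Q hQ h2 hfix' h (hNn h hh)
    refine ⟨?_, Q, hQ, hle⟩
    obtain ⟨e, -, hcard⟩ := FiniteField.card F p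
    rw [hcard]
    apply Odd.pow
    rcases hp.eq_two_or_odd' with h | h
    · exfalso
      apply h2
      have h3 := CharP.cast_eq_zero F p
      rw [h] at h3
      exact_mod_cast h3
    · exact h

/-- The class-two outcome for `r = 2`, `n = 2 ^ m ≥ 4`, without maximality. -/
theorem c2_two_le [Fintype F] {p : ℕ} [Fact p.Prime] [CharP F p] (hn4 : 4 ≤ n) {m : ℕ}
    (hnr : n = 2 ^ m) (H N : Subgroup (GL (Fin n) F)) (hN : C2Data H N)
    (hpow : ∀ x ∈ N, x ^ 2 ∈ scalars (Fin n) F) :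
    (∃ (F₀ : Subfield F) (s : ℕ) (P : GL (Fin n) F), s.Prime ∧ Fintype.card F = Nat.card F₀ ^ s ∧
      H ≤ subfieldSubgroup F₀ P) ∨
    (∃ (σ : F ≃+* F) (f : (Fin n → F) → (Fin n → F) → F), IsUnitaryForm σ f ∧ H ≤ similarityGroup f) ∨
    (∃ R : Subgroup (GL (Fin n) F), IsLinearSymplecticTypeData 2 R ∧ H ≤ subgroupNormalizer R) ∨
    (Odd (Fintype.card F) ∧ ∃ Q : (Fin n → F) → F, IsNondegenerateQuadraticForm Q ∧
      H ≤ quadSimilarityGroup Q) ∨
    (∃ f : (Fin n → F) → (Fin n → F) → F, IsSymplecticForm f ∧ H ≤ similarityGroup f) := by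
  classical
  have hnz : NeZero n := ⟨by omega⟩
  have hn2 : 2 ≤ n := by omega
  have hn3 : 3 ≤ n := by omega
  by_cases hroot : ∃ ω : F, IsPrimitiveRoot ω 4
  · obtain ⟨ω, hω⟩ := hroot
    rcases c2_two_trichotomy hn4 hnr H N hN.normal hN.notScalar hN.minimal hN.comm hN.absIrred
      hpow ω hω with ⟨F₁, s, B, hs, hcard, hnorm⟩ | ⟨σ, f, hf, hnorm⟩ | ⟨R, hdata, hnotSL, hle, hcard, hp4⟩
    · left
      exact ⟨F₁, s, B, hs, hcard, fun h hh => hnorm h (hN.normal h hh)⟩
    · right; left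
      exact ⟨σ, f, hf, fun h hh => hnorm h (hN.normal h hh)⟩
    · right; right; left
      exact ⟨R, hdata, hle⟩
  · right; right; right
    have hexp := c2_exponent_two H N hN.normal hN.notScalar hN.minimal hN.comm hN.absIrred hpow
    obtain ⟨x, y, z, ζ, -, -, -, -, hprim2, -⟩ :=
      c2_root N hN.notScalar hN.comm hN.absIrred 2 Nat.prime_two hpow
    have h2 : (2 : F) ≠ 0 := by
      intro h
      have hζ1 : ζ ≠ 1 := hprim2.ne_one (by norm_num)
      have hζ2 : ζ ^ 2 = 1 := hprim2.pow_eq_one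
      have h3 : (ζ - 1) * (ζ + 1) = 0 := by ring_nf; rw [hζ2]; ring
      rcases mul_eq_zero.mp h3 with h4 | h4
      · exact hζ1 (sub_eq_zero.mp h4)
      · apply hζ1
        have h5 : ζ + 1 = ζ - 1 := by
          have : (ζ + 1) - (ζ - 1) = 2 := by ring
          exact sub_eq_zero.mp (by rw [this, h])
        rw [h5] at h4
        exact sub_eq_zero.mp h4
    have hnF : (n : F) ≠ 0 := by
      rw [hnr, Nat.cast_pow]
      exact pow_ne_zero _ (by exact_mod_cast h2)
    obtain ⟨M, hM, hfix⟩ := c2_two_form N hN.comm hN.absIrred hpow hexp hroot h2 hnF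
    exact form_le (p := p) hn3 H N hN.normal hN.absIrred M hM hfix

/-- The central-product outcome with factors of degree two, without maximality. -/
theorem cp_two_le [Fintype F] {p : ℕ} [Fact p.Prime] [CharP F p] (hn3 : 3 ≤ n)
    (H N S : Subgroup (GL (Fin n) F)) {k : ℕ}
    (e : Fin n ≃ Fin 2 × Fin k) (Pm : GL (Fin n) F)
    (ρ : Matrix (Fin n) (Fin n) F → Matrix (Fin 2) (Fin 2) F) (hCP : CPData H N S 2 k e Pm ρ) :
    (Odd (Fintype.card F) ∧ ∃ Q : (Fin n → F) → F, IsNondegenerateQuadraticForm Q ∧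
      H ≤ quadSimilarityGroup Q) ∨
    (∃ f : (Fin n → F) → (Fin n → F) → F, IsSymplecticForm f ∧ H ≤ similarityGroup f) := by
  classical
  obtain ⟨𝒮, h𝒮⟩ : ∃ 𝒮 : Set (Subgroup (GL (Fin n) F)), 𝒮 = {T | ∃ h ∈ H, T = Helper97.cj h S} :=
    ⟨_, rfl⟩
  have hgen : N = Subgroup.closure {x | ∃ T ∈ 𝒮, x ∈ T} := by
    rw [← hCP.gen]
    congr 1
    ext x
    constructor
    · rintro ⟨h, hh, hx⟩
      exact ⟨Helper97.cj h S, by rw [h𝒮]; exact ⟨h, hh, rfl⟩, hx⟩
    · rintro ⟨T, hT, hx⟩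
      rw [h𝒮] at hT
      obtain ⟨h, hh, rfl⟩ := hT
      exact ⟨h, hh, hx⟩
  have hperf : ∀ T ∈ 𝒮, ⁅T, T⁆ = T := by
    intro T hT
    rw [h𝒮] at hT
    obtain ⟨h, hh, rfl⟩ := hT
    unfold Helper97.cj
    rw [← Subgroup.map_commutator, hCP.subPerfect]
  have hcomm : ∀ T ∈ 𝒮, ∀ T' ∈ 𝒮, T = T' ∨ ∀ s ∈ T, ∀ t ∈ T', s * t = t * s := by
    intro T hT T' hT'
    rw [h𝒮] at hT hT'
    obtain ⟨h, hh, rfl⟩ := hT
    obtain ⟨h', hh', rfl⟩ := hT'
    by_cases heq : Helper97.cj h S = Helper97.cj h' S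
    · exact Or.inl heq
    · exact Or.inr (fun s hs t ht => cj_comm_of_ne H S hCP.comm h h' hh hh' heq s hs t ht)
  have hdim : ∀ T ∈ 𝒮, Module.finrank F (Algebra.adjoin F (matrixSet T)) = 4 := by
    intro T hT
    rw [h𝒮] at hT
    obtain ⟨h, hh, rfl⟩ := hT
    exact (hCP.tensor.conj h).finrank_adjoin
  have hne : 𝒮.Nonempty := ⟨Helper97.cj 1 S, by rw [h𝒮]; exact ⟨1, H.one_mem, rfl⟩⟩
  obtain ⟨M, hM, hfix⟩ := cp_form n N 𝒮 hgen hperf hcomm hdim hCP.absIrred hne
  exact form_le (p := p) hn3 H N hCP.normal hCP.absIrred M hM hfix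

end Cfsg.Agent.Helper96
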