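-- helper96 library: subfield structures carrying a symplectic form (adapted from helper97's
-- orthogonal version).
import Cfsg.Agent.Helper96.SpBasic
import Cfsg.Agent.Helper97.OSubfield

set_option autoImplicit false
set_option linter.unusedSectionVars false
set_option linter.unusedVariables false
open Cfsg Cfsg.Geo Matrix

namespace Cfsg.Agent.Helper96.Sy

open Cfsg.Agent.Helper97.Gen

variable {κ : Type} [Fintype κ] [DecidableEq κ] {F : Type*} [Field F]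

theorem gram_iso_gen {f : (κ → F) → (κ → F) → F} (hf : IsSymplecticForm f) {g : GL κ F}
    (hg : g ∈ isoSub f) :
    (g : Matrix κ κ F)ᵀ * gram f * (g : Matrix κ κ F) = gram f := by
  have h1 := (isSesq_of_bilinear hf.bilinear).gram_of_similar
    (g : Matrix κ κ F) 1 (fun u v => by rw [one_mul]; exact iso_apply hg u v)
  rwa [one_smul, map_refl] at h1

/-- An absolutely irreducible group of isometries of a symplectic form realisable over a subfield: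
its normaliser lies in a subfield group whose structure carries a multiple of the form. -/
theorem sp_subfield_structure [Nonempty κ] {f : (κ → F) → (κ → F) → F} (hf : IsSymplecticForm f)
    (F₁ : Subfield F) (N : Subgroup (GL κ F)) (hNO : N ≤ isoSub f)
    (habs : ActsAbsolutelyIrreducibly (matrixSet N)) (B : GL κ F)
    (hB : ∀ s ∈ matrixSet N, ∀ i j,
      ((B : Matrix κ κ F) * s * ((B⁻¹ : GL κ F) : Matrix κ κ F)) i j ∈ F₁) :
    ∃ (P' : GL κ F) (ζ : F), ζ ≠ 0 ∧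
      (∀ g : GL κ F, (∀ x ∈ N, g * x * g⁻¹ ∈ N) → g ∈ subfieldSubgroup F₁ P') ∧
      IsFormRationalStructure f F₁ ζ P' := by
  classical
  obtain ⟨i0⟩ := ‹Nonempty κ›
  obtain ⟨G, hGdef⟩ : ∃ G : Matrix κ κ F, G = gram f := ⟨_, rfl⟩
  have hdetG : G.det ≠ 0 := hGdef ▸ det_gram_ne_zero hf
  have hGu : IsUnit G.det := isUnit_iff_ne_zero.mpr hdetG
  obtain ⟨Pm, hPm⟩ : ∃ Pm : Matrix κ κ F, Pm = ((B⁻¹ : GL κ F) : Matrix κ κ F) := ⟨_, rfl⟩
  obtain ⟨Bm, hBm⟩ : ∃ Bm : Matrix κ κ F, Bm = (B : Matrix κ κ F) := ⟨_, rfl⟩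
  have hPB : Pm * Bm = 1 := by rw [hPm, hBm, val_inv_mul_val]
  have hBP : Bm * Pm = 1 := by rw [hPm, hBm, val_mul_val_inv]
  have hBtPt : Bmᵀ * Pmᵀ = 1 := by rw [← Matrix.transpose_mul, hPB, Matrix.transpose_one]
  have hPtBt : Pmᵀ * Bmᵀ = 1 := by rw [← Matrix.transpose_mul, hBP, Matrix.transpose_one]
  obtain ⟨M, hM⟩ : ∃ M : Matrix κ κ F, M = Pmᵀ * G * Pm := ⟨_, rfl⟩
  obtain ⟨Mi, hMi⟩ : ∃ Mi : Matrix κ κ F, Mi = Bm * G⁻¹ * Bmᵀ := ⟨_, rfl⟩
  have hM1 : M * Mi = 1 := by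
    rw [hM, hMi]
    calc Pmᵀ * G * Pm * (Bm * G⁻¹ * Bmᵀ) = Pmᵀ * (G * (Pm * Bm) * G⁻¹) * Bmᵀ := by
          simp only [mul_assoc]
      _ = 1 := by rw [hPB, mul_one, Matrix.mul_nonsing_inv G hGu, mul_one, hPtBt]
  have hM2 : Mi * M = 1 := by
    rw [hM, hMi]
    calc Bm * G⁻¹ * Bmᵀ * (Pmᵀ * G * Pm) = Bm * (G⁻¹ * (Bmᵀ * Pmᵀ) * G) * Pm := by
          simp only [mul_assoc]
      _ = 1 := by rw [hBtPt, mul_one, Matrix.nonsing_inv_mul G hGu, mul_one, hBP]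
  have hM0 : M ≠ 0 := by
    intro h0
    rw [h0, zero_mul] at hM1
    have := congrFun (congrFun hM1 i0) i0
    simp at this
  have hs₁ : ∀ g ∈ N, ∀ i j, ((B * g * B⁻¹ : GL κ F) : Matrix κ κ F) i j ∈ F₁ := by
    intro g hg i j
    have := hB _ (coe_mem_matrixSet hg) i j
    simpa only [Units.val_mul] using this
  have hsval : ∀ g : GL κ F, ((B * g * B⁻¹ : GL κ F) : Matrix κ κ F)
      = Bm * (g : Matrix κ κ F) * Pm := by
    intro g
    rw [Units.val_mul, Units.val_mul, hBm, hPm]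
  have hinvM : ∀ g ∈ N, ((B * g * B⁻¹ : GL κ F) : Matrix κ κ F)ᵀ * M
      * ((B * g * B⁻¹ : GL κ F) : Matrix κ κ F) = M := by
    intro g hg
    have hgU := gram_iso_gen hf (hNO hg)
    rw [← hGdef] at hgU
    rw [hsval, Matrix.transpose_mul, Matrix.transpose_mul, hM]
    calc Pmᵀ * ((g : Matrix κ κ F)ᵀ * Bmᵀ) * (Pmᵀ * G * Pm) * (Bm * (g : Matrix κ κ F) * Pm)
        = Pmᵀ * (g : Matrix κ κ F)ᵀ * (Bmᵀ * Pmᵀ) * G * (Pm * Bm) * (g : Matrix κ κ F) * Pm := by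
          simp only [mul_assoc]
      _ = Pmᵀ * ((g : Matrix κ κ F)ᵀ * G * (g : Matrix κ κ F)) * Pm := by
          rw [hBtPt, hPB]
          simp only [mul_one, mul_assoc]
      _ = Pmᵀ * G * Pm := by rw [hgU]
  obtain ⟨S, hSdef⟩ : ∃ S : Set (Matrix κ κ F),
      S = {s | ∃ g ∈ N, s = ((B * g * B⁻¹ : GL κ F) : Matrix κ κ F)} := ⟨_, rfl⟩
  have hScomm : ∀ C : Matrix κ κ F, (∀ s ∈ S, C * s = s * C) →
      ∃ c : F, C = c • (1 : Matrix κ κ F) := by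
    intro C hC
    exact commutant_conj N habs B C (fun g hg => hC _ (by rw [hSdef]; exact ⟨g, hg, rfl⟩))
  have hMS : ∀ s ∈ S, (∀ i j, s i j ∈ F₁) ∧
      ∃ s' : Matrix κ κ F, (∀ i j, s' i j ∈ F₁) ∧ M * s = s' * M := by
    intro s hs
    rw [hSdef] at hs
    obtain ⟨g, hg, rfl⟩ := hs
    refine ⟨fun i j => hs₁ g hg i j,
      ((B * g⁻¹ * B⁻¹ : GL κ F) : Matrix κ κ F)ᵀ,
      fun i j => hs₁ g⁻¹ (N.inv_mem hg) j i, ?_⟩
    have h1 := hinvM g hg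
    have h2 : ((B * g⁻¹ * B⁻¹ : GL κ F) : Matrix κ κ F)ᵀ
        * ((B * g * B⁻¹ : GL κ F) : Matrix κ κ F)ᵀ = 1 := by
      rw [← Matrix.transpose_mul, ← Units.val_mul]
      have e : B * g * B⁻¹ * (B * g⁻¹ * B⁻¹) = 1 := by group
      rw [e, Units.val_one, Matrix.transpose_one]
    calc M * ((B * g * B⁻¹ : GL κ F) : Matrix κ κ F)
        = (((B * g⁻¹ * B⁻¹ : GL κ F) : Matrix κ κ F)ᵀ
            * ((B * g * B⁻¹ : GL κ F) : Matrix κ κ F)ᵀ) * M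
            * ((B * g * B⁻¹ : GL κ F) : Matrix κ κ F) := by rw [h2, one_mul]
      _ = ((B * g⁻¹ * B⁻¹ : GL κ F) : Matrix κ κ F)ᵀ
            * (((B * g * B⁻¹ : GL κ F) : Matrix κ κ F)ᵀ * M
            * ((B * g * B⁻¹ : GL κ F) : Matrix κ κ F)) := by
          simp only [mul_assoc]
      _ = _ := by rw [h1]
  obtain ⟨μ, M₁, hμ0, hMμ⟩ := exists_subfield_multiple F₁ S hScomm M Mi hM1 hM2 hM0 hMS
  refine ⟨B⁻¹, μ⁻¹, inv_ne_zero hμ0, fun g hg => normalizer_mem_subfieldSubgroup F₁ N habs B hB g hg, ?_⟩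
  intro u v hu hv
  have h1 := (isSesq_of_bilinear hf.bilinear).apply_mulVec ((B⁻¹ : GL κ F) : Matrix κ κ F) u v
  rw [map_refl, ← hGdef, ← hPm, ← hM, hMμ, Matrix.smul_mulVec, dotProduct_smul, smul_eq_mul] at h1
  rw [← hPm, h1, ← mul_assoc, inv_mul_cancel₀ hμ0, one_mul]
  refine Subfield.sum_mem F₁ (fun i _ => F₁.mul_mem (hu i) ?_)
  exact Subfield.sum_mem F₁ (fun j _ => F₁.mul_mem (SetLike.coe_mem _) (hv j))

end Cfsg.Agent.Helper96.Sy
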