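-- helper96 library: an absolutely irreducible group preserving a non-degenerate bilinear form given by
-- a Gram matrix and fixing a unitary form is realisable over the fixed field of the involution
-- (adapted from helper97's orthogonal version, with the bilinear form given by its Gram matrix).
import Cfsg.Agent.Helper97.OResidual

set_option autoImplicit false
set_option linter.unusedSectionVars false
set_option linter.unusedVariables false
open Cfsg Cfsg.Geo Matrix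

namespace Cfsg.Agent.Helper96.Sy

open Cfsg.Agent.Helper97.Gen

variable {κ : Type} [Fintype κ] [DecidableEq κ] {F : Type*} [Field F]

theorem realisable_of_fixes_unitary_gram [Fintype F] [Nonempty κ]
    (A : Matrix κ κ F) (hdetA : A.det ≠ 0)
    (N : Subgroup (GL κ F))
    (hAfix : ∀ g ∈ N, (g : Matrix κ κ F)ᵀ * A * (g : Matrix κ κ F) = A)
    (habs : ActsAbsolutelyIrreducibly (matrixSet N))
    (σ : F ≃+* F) (f : (κ → F) → (κ → F) → F) (hf : IsUnitaryForm σ f)
    (hfix : FixesForm (matrixSet N) f) :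
    ∃ F₀ : Subfield F, F₀ ≠ ⊤ ∧ RealisableOver F₀ (matrixSet N) := by
  classical
  have hinv := hf.involutive
  obtain ⟨q, hF, hpow⟩ := exists_pow_of_involution σ hf.ne_refl hinv
  have hsig : Cfsg.Agent.Helper97.IsSigma q σ := ⟨hpow, hinv, hf.ne_refl⟩
  obtain ⟨i₀⟩ := ‹Nonempty κ›
  have hsf : IsSesq σ f := isSesq_of_unitary hf
  obtain ⟨J₀, hJ₀⟩ : ∃ J₀ : Matrix κ κ F, J₀ = gram f := ⟨_, rfl⟩
  have hdetJ : J₀.det ≠ 0 := hJ₀ ▸ hsf.det_gram_ne_zero (fun v hv => (hf.nondegenerate v hv).1)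
  have hAu : IsUnit A.det := isUnit_iff_ne_zero.mpr hdetA
  have hJu : IsUnit J₀.det := isUnit_iff_ne_zero.mpr hdetJ
  obtain ⟨Ai, hAi⟩ : ∃ Ai : Matrix κ κ F, Ai = A⁻¹ := ⟨_, rfl⟩
  have hAAi : A * Ai = 1 := by rw [hAi, Matrix.mul_nonsing_inv A hAu]
  have hAiA : Ai * A = 1 := by rw [hAi, Matrix.nonsing_inv_mul A hAu]
  obtain ⟨Ji, hJi⟩ : ∃ Ji : Matrix κ κ F, Ji = J₀⁻¹ := ⟨_, rfl⟩
  have hJJi : J₀ * Ji = 1 := by rw [hJi, Matrix.mul_nonsing_inv J₀ hJu]
  have hJiJ : Ji * J₀ = 1 := by rw [hJi, Matrix.nonsing_inv_mul J₀ hJu]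
  obtain ⟨C, hC⟩ : ∃ C : Matrix κ κ F, C = Ai * J₀ := ⟨_, rfl⟩
  obtain ⟨Ci, hCi⟩ : ∃ Ci : Matrix κ κ F, Ci = Ji * A := ⟨_, rfl⟩
  have hCiC : Ci * C = 1 := by
    rw [hCi, hC]
    calc Ji * A * (Ai * J₀) = Ji * (A * Ai) * J₀ := by simp only [mul_assoc]
      _ = 1 := by rw [hAAi, mul_one, hJiJ]
  have hσ1 : (1 : Matrix κ κ F).map σ = 1 := Matrix.map_one _ (map_zero σ) (map_one σ)
  -- the basic intertwining relation
  have hCg : ∀ g ∈ N, C * (g : Matrix κ κ F).map σ = (g : Matrix κ κ F) * C := by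
    intro g hg
    have h1 : (g : Matrix κ κ F)ᵀ * A * (g : Matrix κ κ F) = A := hAfix g hg
    have h2 : (g : Matrix κ κ F)ᵀ * J₀ * (g : Matrix κ κ F).map σ = J₀ := by
      have h3 := hsf.gram_of_similar (g : Matrix κ κ F) 1
        (fun u v => by rw [one_mul]; exact hfix _ (coe_mem_matrixSet hg) u v)
      rwa [one_smul, ← hJ₀] at h3
    -- gᵀ = A g⁻¹ A⁻¹
    have h4 : (g : Matrix κ κ F)ᵀ * A = A * ((g⁻¹ : GL κ F) : Matrix κ κ F) := by
      calc (g : Matrix κ κ F)ᵀ * A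
          = (g : Matrix κ κ F)ᵀ * A * ((g : Matrix κ κ F) * ((g⁻¹ : GL κ F) : Matrix κ κ F)) := by
            rw [val_mul_val_inv, mul_one]
        _ = ((g : Matrix κ κ F)ᵀ * A * (g : Matrix κ κ F)) * ((g⁻¹ : GL κ F) : Matrix κ κ F) := by
            simp only [mul_assoc]
        _ = A * ((g⁻¹ : GL κ F) : Matrix κ κ F) := by rw [h1]
    have h5 : (g : Matrix κ κ F)ᵀ = A * ((g⁻¹ : GL κ F) : Matrix κ κ F) * Ai := by
      calc (g : Matrix κ κ F)ᵀ = (g : Matrix κ κ F)ᵀ * (A * Ai) := by rw [hAAi, mul_one]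
        _ = ((g : Matrix κ κ F)ᵀ * A) * Ai := (mul_assoc _ _ _).symm
        _ = A * ((g⁻¹ : GL κ F) : Matrix κ κ F) * Ai := by rw [h4]
    rw [h5] at h2
    -- A g⁻¹ A⁻¹ J σ(g) = J
    calc C * (g : Matrix κ κ F).map σ
        = (g : Matrix κ κ F) * (Ai * (A * ((g⁻¹ : GL κ F) : Matrix κ κ F) * Ai * J₀
            * (g : Matrix κ κ F).map σ)) := by
          rw [hC]
          simp only [← mul_assoc]
          rw [mul_assoc (g : Matrix κ κ F) Ai A, hAiA, mul_one, val_mul_val_inv, one_mul]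
      _ = (g : Matrix κ κ F) * C := by rw [h2, hC]
  have hCσg : ∀ g ∈ N, C.map σ * (g : Matrix κ κ F)
      = (g : Matrix κ κ F).map σ * C.map σ := by
    intro g hg
    have h1 := congrArg (fun X : Matrix κ κ F => X.map σ) (hCg g hg)
    simp only [map_mul_equiv, map_sigma_sigma σ hinv] at h1
    exact h1
  -- `C * σ(C)` is a scalar
  have hDcomm : ∀ s ∈ matrixSet N, (C * C.map σ) * s = s * (C * C.map σ) := by
    rintro _ ⟨g, hg, rfl⟩
    calc C * C.map σ * (g : Matrix κ κ F)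
        = C * (C.map σ * (g : Matrix κ κ F)) := mul_assoc _ _ _
      _ = C * ((g : Matrix κ κ F).map σ * C.map σ) := by rw [hCσg g hg]
      _ = (C * (g : Matrix κ κ F).map σ) * C.map σ := (mul_assoc _ _ _).symm
      _ = (g : Matrix κ κ F) * (C * C.map σ) := by rw [hCg g hg, mul_assoc]
  obtain ⟨c, hc⟩ := habs.2 _ hDcomm
  have hc0 : c ≠ 0 := by
    rintro rfl
    rw [zero_smul] at hc
    have h1 : C.map σ = 0 := by
      calc C.map σ = (Ci * C) * C.map σ := by rw [hCiC, one_mul]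
        _ = Ci * (C * C.map σ) := mul_assoc _ _ _
        _ = 0 := by rw [hc, mul_zero]
    have h2 : C = 0 := by
      have h3 := congrArg (fun X : Matrix κ κ F => X.map σ) h1
      simp only [map_sigma_sigma σ hinv] at h3
      rw [h3]
      ext i j
      simp
    rw [h2, mul_zero] at hCiC
    have h4 := congrFun (congrFun hCiC i₀) i₀
    simp at h4
  have hσc : σ c = c := by
    have h1 : C.map σ * C = σ c • (1 : Matrix κ κ F) := by
      have h2 := congrArg (fun X : Matrix κ κ F => X.map σ) hc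
      simp only [map_mul_equiv, map_sigma_sigma σ hinv, map_smul_sigma, hσ1] at h2
      exact h2
    have h3 : C.map σ * C = c • (1 : Matrix κ κ F) := by
      have h5 : C * Ci = 1 := mul_eq_one_comm.mp hCiC
      calc C.map σ * C = (Ci * C) * C.map σ * C := by rw [hCiC, one_mul]
        _ = Ci * (C * C.map σ) * C := by simp only [mul_assoc]
        _ = c • (1 : Matrix κ κ F) := by
            rw [hc, Matrix.mul_smul, Matrix.smul_mul, mul_one, hCiC]
    rw [h3] at h1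
    have h4 := congrFun (congrFun h1 i₀) i₀
    simp only [Matrix.smul_apply, Matrix.one_apply_eq, smul_eq_mul, mul_one] at h4
    exact h4.symm
  obtain ⟨lam, hlam⟩ := hsig.exists_norm_eq hF c⁻¹ (by rw [map_inv₀, hσc]) (inv_ne_zero hc0)
  obtain ⟨C', hC'⟩ : ∃ C' : Matrix κ κ F, C' = lam • C := ⟨_, rfl⟩
  have hC'1 : C' * C'.map σ = 1 := by
    rw [hC', map_smul_sigma, Matrix.smul_mul, Matrix.mul_smul, smul_smul, hc, smul_smul]
    rw [hlam, inv_mul_cancel₀ hc0, one_smul]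
  have hC'2 : C'.map σ * C' = 1 := mul_eq_one_comm.mp hC'1
  have hC'g : ∀ g ∈ N, C' * (g : Matrix κ κ F).map σ = (g : Matrix κ κ F) * C' := by
    intro g hg
    rw [hC', Matrix.smul_mul, hCg g hg, Matrix.mul_smul]
  -- the semilinear involution
  obtain ⟨J, hJ⟩ : ∃ J : (κ → F) → (κ → F), ∀ v, J v = C' *ᵥ (fun i => σ (v i)) :=
    ⟨_, fun _ => rfl⟩
  have hJJ : ∀ v, J (J v) = v := by
    intro v
    rw [hJ, hJ, sigma_mulVec, Matrix.mulVec_mulVec, hC'1]
    simp [hinv]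
  have hJadd : ∀ v w, J (v + w) = J v + J w := by
    intro v w
    rw [hJ, hJ, hJ, ← Matrix.mulVec_add]
    congr 1
    funext i
    simp
  have hJsmul : ∀ (a : F) v, J (a • v) = σ a • J v := by
    intro a v
    rw [hJ, hJ, ← Matrix.mulVec_smul]
    congr 1
    funext i
    simp
  obtain ⟨θ, hθ⟩ := hsig.exists_ne
  obtain ⟨Vfix, hVfix⟩ : ∃ Vfix : Set (κ → F), ∀ v, v ∈ Vfix ↔ J v = v :=
    ⟨{v | J v = v}, fun _ => Iff.rfl⟩
  have hspan : Submodule.span F Vfix = ⊤ := by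
    rw [eq_top_iff]
    intro v _
    have ha : v + J v ∈ Vfix := by
      rw [hVfix, hJadd, hJJ, add_comm]
    have hb : θ • v + σ θ • J v ∈ Vfix := by
      rw [hVfix, hJadd, hJsmul, hJsmul, hJJ, hinv, add_comm]
    have hne : σ θ - θ ≠ 0 := sub_ne_zero.mpr hθ
    have e : v = (σ θ - θ)⁻¹ • (σ θ • (v + J v) - (θ • v + σ θ • J v)) := by
      have e1 : σ θ • (v + J v) - (θ • v + σ θ • J v) = (σ θ - θ) • v := by
        rw [smul_add, sub_smul]
        abel
      rw [e1, smul_smul, inv_mul_cancel₀ hne, one_smul]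
    rw [e]
    exact Submodule.smul_mem _ _ (Submodule.sub_mem _
      (Submodule.smul_mem _ _ (Submodule.subset_span ha)) (Submodule.subset_span hb))
  obtain ⟨f₁, hf₁, -, hli⟩ := Submodule.exists_fun_fin_finrank_span_eq F Vfix
  have hd : Module.finrank F (Submodule.span F Vfix) = Fintype.card κ := by
    rw [hspan, finrank_top, Module.finrank_fintype_fun_eq_card]
  obtain ⟨e₀⟩ : Nonempty (κ ≃ Fin (Module.finrank F (Submodule.span F Vfix))) :=
    ⟨(Fintype.equivFin κ).trans (finCongr hd.symm)⟩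
  obtain ⟨f', hf'⟩ : ∃ f' : κ → (κ → F), f' = fun i => f₁ (e₀ i) := ⟨_, rfl⟩
  have hli' : LinearIndependent F f' := by
    rw [hf']
    exact hli.comp _ e₀.injective
  have hf'fix : ∀ j, J (f' j) = f' j := by
    intro j
    have h1 := (hVfix _).mp (hf₁ (e₀ j))
    rw [hf']
    exact h1
  obtain ⟨Pmat, hPmat⟩ : ∃ Pmat : Matrix κ κ F, Pmat = Matrix.of (fun i j => f' j i) :=
    ⟨_, rfl⟩
  have hcol : Pmat.col = f' := by
    funext j i
    rw [hPmat]
    rfl
  have hPu : IsUnit Pmat := by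
    rw [← Matrix.linearIndependent_cols_iff_isUnit, hcol]
    exact hli'
  have hPdet : Pmat.det ≠ 0 := ((Matrix.isUnit_iff_isUnit_det Pmat).mp hPu).ne_zero
  obtain ⟨PG, hPG⟩ : ∃ PG : GL κ F, PG = Matrix.GeneralLinearGroup.mkOfDetNeZero Pmat hPdet :=
    ⟨_, rfl⟩
  have hPGval : (PG : Matrix κ κ F) = Pmat := by
    rw [hPG]
    rfl
  obtain ⟨Pinv, hPinv⟩ : ∃ Pinv : Matrix κ κ F,
      Pinv = ((PG⁻¹ : GL κ F) : Matrix κ κ F) := ⟨_, rfl⟩
  have hPP : Pmat * Pinv = 1 := by rw [← hPGval, hPinv, val_mul_val_inv]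
  have hPP' : Pinv * Pmat = 1 := by rw [← hPGval, hPinv, val_inv_mul_val]
  have hCP : C' * Pmat.map σ = Pmat := by
    ext i j
    have h1 := congrFun (hf'fix j) i
    rw [hJ] at h1
    have e : (C' * Pmat.map σ) i j = (C' *ᵥ (fun k => σ (f' j k))) i := by
      rw [hPmat]
      rfl
    rw [e, h1, hPmat]
    rfl
  have hPσ : Pmat.map σ = C'.map σ * Pmat := by
    calc Pmat.map σ = (C'.map σ * C') * Pmat.map σ := by rw [hC'2, one_mul]
      _ = C'.map σ * (C' * Pmat.map σ) := mul_assoc _ _ _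
      _ = C'.map σ * Pmat := by rw [hCP]
  have hPiσ : Pinv.map σ = Pinv * C' := by
    have h1 : Pmat.map σ * Pinv.map σ = 1 := by rw [← map_mul_equiv, hPP, hσ1]
    calc Pinv.map σ = (Pinv * Pmat) * Pinv.map σ := by rw [hPP', one_mul]
      _ = Pinv * (C' * Pmat.map σ) * Pinv.map σ := by rw [hCP]
      _ = Pinv * C' * (Pmat.map σ * Pinv.map σ) := by simp only [mul_assoc]
      _ = Pinv * C' := by rw [h1, mul_one]
  obtain ⟨F₀, hF₀⟩ : ∃ F₀ : Subfield F,
      F₀ = RingHom.eqLocusField (σ : F →+* F) (RingHom.id F) := ⟨_, rfl⟩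
  have hmem : ∀ a : F, a ∈ F₀ ↔ σ a = a := by
    intro a
    rw [hF₀, RingHom.mem_eqLocusField, RingHom.id_apply]
    rfl
  refine ⟨F₀, ?_, PG⁻¹, ?_⟩
  · intro htop
    apply hθ
    rw [← hmem, htop]
    exact Subfield.mem_top _
  · rintro _ ⟨g, hg, rfl⟩ i j
    rw [inv_inv, hPGval, ← hPinv, hmem]
    have hX : (Pinv * (g : Matrix κ κ F) * Pmat).map σ
        = Pinv * (g : Matrix κ κ F) * Pmat := by
      rw [map_mul_equiv, map_mul_equiv, hPσ, hPiσ]
      calc Pinv * C' * (g : Matrix κ κ F).map σ * (C'.map σ * Pmat)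
          = Pinv * (C' * (g : Matrix κ κ F).map σ) * C'.map σ * Pmat := by
            simp only [mul_assoc]
        _ = Pinv * ((g : Matrix κ κ F) * C') * C'.map σ * Pmat := by rw [hC'g g hg]
        _ = Pinv * (g : Matrix κ κ F) * (C' * C'.map σ) * Pmat := by simp only [mul_assoc]
        _ = Pinv * (g : Matrix κ κ F) * Pmat := by rw [hC'1, mul_one]
    have h1 := congrFun (congrFun hX i) j
    rw [Matrix.map_apply] at h1
    exact h1

end Cfsg.Agent.Helper96.Sy
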