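-- helper96 library: the absolutely irreducible case of the analysis of symplectic groups.
import Cfsg.Agent.Helper96.SpTensor3
import Cfsg.Agent.Helper96.SpSubfield
import Cfsg.Agent.Helper96.SpUnitary
import Cfsg.Agent.Helper96.SpOut
import Cfsg.Agent.Helper96.Composite

set_option autoImplicit false
set_option linter.unusedSectionVars false
set_option linter.unusedVariables false
open Cfsg Cfsg.Geo Matrix
open scoped Kronecker

namespace Cfsg.Agent.Helper96.Sy

variable {F : Type*} [Field F] {n : ℕ} {f : (Fin n → F) → (Fin n → F) → F}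

theorem matrixSet_inv (N : Subgroup (GL (Fin n) F)) :
    ∀ x ∈ matrixSet N, ∃ y ∈ matrixSet N, x * y = 1 ∧ y * x = 1 := by
  rintro _ ⟨g, hg, rfl⟩
  exact ⟨_, Helper97.coe_mem_matrixSet (N.inv_mem hg), by
    rw [← Units.val_mul, mul_inv_cancel, Units.val_one], by
    rw [← Units.val_mul, inv_mul_cancel, Units.val_one]⟩

/-- An absolutely irreducible normal subgroup of a group of isometries of a symplectic form that fixes
a non-degenerate quadratic form: the characteristic is two and the whole group preserves a quadratic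
form polarising to the symplectic form. -/
theorem quad_fixed [Fintype F] (hn : 2 ≤ n) (hf : IsSymplecticForm f)
    (H N : Subgroup (GL (Fin n) F)) (hH : H ≤ isoSub f) (hNH : N ≤ H)
    (hNn : ∀ h ∈ H, ∀ x ∈ N, h * x * h⁻¹ ∈ N) (habs : ActsAbsolutelyIrreducibly (matrixSet N))
    (Q : (Fin n → F) → F) (hQ : IsNondegenerateQuadraticForm Q)
    (hfix : FixesQuadForm (matrixSet N) Q) :
    (2 : F) = 0 ∧ ∃ Q' : (Fin n → F) → F, IsNondegenerateQuadraticForm Q' ∧
      (∀ u v, QuadraticMap.polar Q' u v = f u v) ∧ H ≤ quadSimilarityGroup Q' := by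
  classical
  have hNiso : N ≤ isoSub f := hNH.trans hH
  obtain ⟨G, hG⟩ : ∃ G, G = Helper97.Gen.gram f := ⟨_, rfl⟩
  obtain ⟨Gq, hGq⟩ : ∃ Gq, Gq = Helper97.Gen.gram (QuadraticMap.polar Q) := ⟨_, rfl⟩
  have hGfix : ∀ x ∈ matrixSet N, xᵀ * G * x = G := by
    rintro _ ⟨g, hg, rfl⟩
    rw [hG]
    exact gram_iso hf (hNiso hg)
  have hsq := Helper97.Gen.isSesq_of_bilinear hQ.polar_bilinear
  have hGqfix : ∀ x ∈ matrixSet N, xᵀ * Gq * x = Gq := by
    intro x hx
    have h1 := hsq.gram_of_similar x 1 (fun u v => by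
      rw [one_mul]
      exact Helper97.Gen.fixesForm_polar _ Q hfix x hx u v)
    rwa [one_smul, map_refl', ← hGq] at h1
  obtain ⟨e0, he0⟩ : ∃ e0 : Fin n → F, e0 = Pi.single ⟨0, by omega⟩ 1 := ⟨_, rfl⟩
  obtain ⟨e1, he1⟩ : ∃ e1 : Fin n → F, e1 = Pi.single ⟨1, by omega⟩ 1 := ⟨_, rfl⟩
  have he00 : e0 ≠ 0 := by
    intro h
    have := congrFun h ⟨0, by omega⟩
    rw [he0] at this
    simp at this
  have he10 : e1 ≠ 0 := by
    intro h
    have := congrFun h ⟨1, by omega⟩
    rw [he1] at this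
    simp at this
  have hG0 : G ≠ 0 := by
    intro h0
    have : Nonempty (Fin n) := ⟨⟨0, by omega⟩⟩
    apply det_gram_ne_zero hf
    rw [← hG, h0]
    exact Matrix.det_zero
  obtain ⟨-, hprop⟩ := inv_form_set (matrixSet N) habs (matrixSet_inv N) G hG0 hGfix
  obtain ⟨c, hc⟩ := hprop Gq hGqfix
  have hpolar : ∀ u v, QuadraticMap.polar Q u v = c * f u v := by
    intro u v
    have h1 := hsq.apply_eq u v
    rw [← hGq, hc] at h1
    rw [h1, apply_eq hf, ← hG, Matrix.smul_mulVec, dotProduct_smul, smul_eq_mul]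
    rfl
  have hc0 : c ≠ 0 := by
    rintro rfl
    obtain ⟨⟨x, hx⟩, -⟩ := hQ.nondegenerate e0 he00
    apply hx
    rw [hpolar, zero_mul]
  have h2 : (2 : F) = 0 := by
    by_contra h2
    obtain ⟨⟨x, hx⟩, -⟩ := hf.nondegenerate e0 he00
    apply hx
    have h1 : c * f x e0 = c * f e0 x := by
      rw [← hpolar, ← hpolar, QuadraticMap.polar_comm]
    have h3 : f x e0 = f e0 x := mul_left_cancel₀ hc0 h1
    have h4 := hf.skew x e0
    have h5 : (2 : F) * f x e0 = 0 := by linear_combination h3 + h4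
    exact (mul_eq_zero.mp h5).resolve_left h2
  refine ⟨h2, ?_⟩
  obtain ⟨Q', hQ'⟩ : ∃ Q' : (Fin n → F) → F, Q' = fun v => c⁻¹ * Q v := ⟨_, rfl⟩
  have hQ'x : ∀ v, Q' v = c⁻¹ * Q v := fun v => by rw [hQ']
  have hpol' : ∀ u v, QuadraticMap.polar Q' u v = f u v := by
    intro u v
    have h1 := hpolar u v
    rw [QuadraticMap.polar] at h1 ⊢
    rw [hQ'x, hQ'x, hQ'x]
    field_simp
    linear_combination h1
  have hpolf : QuadraticMap.polar Q' = f := by
    funext u v
    exact hpol' u v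
  have hQ'nd : IsNondegenerateQuadraticForm Q' := by
    refine ⟨?_, by rw [hpolf]; exact hf.bilinear, by rw [hpolf]; exact hf.nondegenerate⟩
    intro a v
    rw [hQ'x, hQ'x, hQ.smul]
    ring
  refine ⟨Q', hQ'nd, hpol', ?_⟩
  have hQ'add : ∀ u v, Q' (u + v) = Q' u + Q' v + f u v := by
    intro u v
    have := hpol' u v
    rw [QuadraticMap.polar] at this
    linear_combination this
  have hQ'fix : ∀ x ∈ N, ∀ v, Q' ((x : Matrix (Fin n) (Fin n) F) *ᵥ v) = Q' v := by
    intro x hx v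
    rw [hQ'x, hQ'x, hfix _ (Helper97.coe_mem_matrixSet hx)]
  intro h hh
  refine ⟨1, fun v => ?_⟩
  rw [Units.val_one, one_mul]
  obtain ⟨D, hD⟩ : ∃ D : (Fin n → F) → F,
      D = fun v => Q' ((h : Matrix (Fin n) (Fin n) F) *ᵥ v) - Q' v := ⟨_, rfl⟩
  have hDx : ∀ v, D v = Q' ((h : Matrix (Fin n) (Fin n) F) *ᵥ v) - Q' v := fun v => by rw [hD]
  have hDadd : ∀ u v, D (u + v) = D u + D v := by
    intro u v
    rw [hDx, hDx, hDx, Matrix.mulVec_add, hQ'add, hQ'add, iso_apply (hH hh)]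
    ring
  have hDsmul : ∀ (a : F) v, D (a • v) = a ^ 2 * D v := by
    intro a v
    rw [hDx, hDx, Matrix.mulVec_smul, hQ'nd.smul, hQ'nd.smul]
    ring
  have hDinv : ∀ x ∈ N, ∀ v, D ((x : Matrix (Fin n) (Fin n) F) *ᵥ v) = D v := by
    intro x hx v
    rw [hDx, hDx, hQ'fix x hx]
    have h1 : (h : Matrix (Fin n) (Fin n) F) *ᵥ ((x : Matrix (Fin n) (Fin n) F) *ᵥ v)
        = ((h * x * h⁻¹ : GL (Fin n) F) : Matrix (Fin n) (Fin n) F) *ᵥ
          ((h : Matrix (Fin n) (Fin n) F) *ᵥ v) := by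
      rw [Matrix.mulVec_mulVec, Matrix.mulVec_mulVec, ← Units.val_mul, ← Units.val_mul]
      congr 2
      group
    rw [h1, hQ'fix _ (hNn h hh x hx)]
  obtain ⟨U, hU⟩ : ∃ U : Submodule F (Fin n → F), ∀ v, v ∈ U ↔ D v = 0 := by
    refine ⟨{ carrier := {v | D v = 0}, add_mem' := ?_, zero_mem' := ?_, smul_mem' := ?_ },
      fun v => Iff.rfl⟩
    · intro u v hu hv
      have hu' : D u = 0 := hu
      have hv' : D v = 0 := hv
      show D (u + v) = 0
      rw [hDadd, hu', hv', add_zero]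
    · show D 0 = 0
      have := hDsmul 0 0
      rw [zero_smul] at this
      rw [this]
      ring
    · intro a v hv
      have hv' : D v = 0 := hv
      show D (a • v) = 0
      rw [hDsmul, hv', mul_zero]
  have hUinv : ∀ s ∈ matrixSet N, U.map (Matrix.toLin' s) ≤ U := by
    rintro _ ⟨x, hx, rfl⟩ _ ⟨v, hv, rfl⟩
    rw [hU, Matrix.toLin'_apply, hDinv x hx]
    exact (hU v).mp hv
  rcases habs.1 U hUinv with hbot | htop
  · exfalso
    by_cases hD1 : D e1 = 0
    · have : e1 ∈ U := (hU e1).mpr hD1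
      rw [hbot] at this
      exact he10 ((Submodule.mem_bot F).mp this)
    · obtain ⟨r, hr⟩ := exists_sqrt_char2 h2 (D e0 / D e1)
      have h3 : D (e0 + r • e1) = 0 := by
        rw [hDadd, hDsmul]
        have h4 : r ^ 2 * D e1 = D e0 := by
          rw [pow_two, hr]
          field_simp
        rw [h4]
        linear_combination (D e0) * h2
      have : e0 + r • e1 ∈ U := (hU _).mpr h3
      rw [hbot] at this
      have h5 := congrFun ((Submodule.mem_bot F).mp this) ⟨0, by omega⟩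
      rw [he0, he1] at h5
      simp [Pi.single_apply, Fin.ext_iff] at h5
  · have : v ∈ U := by rw [htop]; exact Submodule.mem_top
    have h3 := (hU v).mp this
    rw [hDx] at h3
    exact sub_eq_zero.mp h3

/-- A class-two normal subgroup with `r`-th powers scalar cannot be absolutely irreducible and
non-scalar in characteristic `r`. -/
theorem c2_char_ne [Fintype F] (hn : 0 < n) (N : Subgroup (GL (Fin n) F))
    (hNZ : ¬ N ≤ scalars (Fin n) F) (habs : ActsAbsolutelyIrreducibly (matrixSet N))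
    (hab : ∀ a ∈ N, ∀ b ∈ N, a * b * a⁻¹ * b⁻¹ ∈ scalars (Fin n) F)
    (r : ℕ) (hr : r.Prime) (hpow : ∀ x ∈ N, x ^ r ∈ scalars (Fin n) F) : ((r : ℕ) : F) ≠ 0 := by
  classical
  intro hr0
  have hfact : Fact r.Prime := ⟨hr⟩
  have hchar : CharP F r := by
    obtain ⟨p, hp⟩ := CharP.exists F
    have hpp : p.Prime := (CharP.char_is_prime_or_zero F p).resolve_right (CharP.char_ne_zero_of_finite F p)
    have hdvd : p ∣ r := (CharP.cast_eq_zero_iff F p r).mp hr0
    have : p = r := (Nat.prime_dvd_prime_iff_eq hpp hr).mp hdvd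
    rw [← this]
    exact hp
  apply hNZ
  have hcomm : ∀ a ∈ N, ∀ b ∈ N, a * b = b * a := by
    intro a ha b hb
    obtain ⟨ζ, hζ⟩ := (Helper97.scalar_mem_scalars_iff _).mp (hab a ha b hb)
    obtain ⟨μ, hμ⟩ := (Helper97.scalar_mem_scalars_iff _).mp (hpow b hb)
    have hz : a * b * a⁻¹ * b⁻¹ ∈ scalars (Fin n) F := hab a ha b hb
    -- a b a⁻¹ = z b with z scalar, so a b^r a⁻¹ = z^r b^r
    obtain ⟨z, hzdef⟩ : ∃ z, z = a * b * a⁻¹ * b⁻¹ := ⟨_, rfl⟩
    rw [← hzdef] at hz hζ
    have hzb : a * b * a⁻¹ = z * b := by rw [hzdef]; group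
    have hzc : ∀ g : GL (Fin n) F, z * g = g * z := fun g => Helper97.scalars_comm hz g
    have h1 : (a * b * a⁻¹) ^ r = a * b ^ r * a⁻¹ := by
      rw [← conj_pow]
    have h2 : (z * b) ^ r = z ^ r * b ^ r := (Commute.mul_pow (hzc b) r)
    have h3 : a * b ^ r * a⁻¹ = b ^ r := by
      have := Helper97.scalars_comm (hpow b hb) a
      rw [← this]
      group
    have h4 : z ^ r = 1 := by
      have h5 : z ^ r * b ^ r = b ^ r := by rw [← h2, ← hzb, h1, h3]
      exact mul_right_cancel (h5.trans (one_mul _).symm)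
    have hζr : ζ ^ r = 1 := by
      have h5 := congrArg (fun g : GL (Fin n) F => (g : Matrix (Fin n) (Fin n) F)) h4
      simp only [Units.val_pow_eq_pow_val, Units.val_one] at h5
      rw [hζ, smul_pow, one_pow] at h5
      have h6 := congrFun (congrFun h5 ⟨0, hn⟩) ⟨0, hn⟩
      simpa using h6
    have hζ1 : ζ = 1 := by
      have h5 : (ζ - 1) ^ r = 0 := by
        rw [sub_pow_char, hζr, one_pow, sub_self]
      exact sub_eq_zero.mp (pow_eq_zero_iff hr.ne_zero |>.mp h5)
    have hz1 : z = 1 := by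
      apply Units.ext
      rw [hζ, hζ1, one_smul, Units.val_one]
    have h6 : a * b * a⁻¹ * b⁻¹ = 1 := by rw [← hzdef, hz1]
    calc a * b = (a * b * a⁻¹ * b⁻¹) * (b * a) := by group
      _ = b * a := by rw [h6, one_mul]
  intro a ha
  rw [Helper97.scalar_mem_scalars_iff]
  apply habs.2
  rintro _ ⟨b, hb, rfl⟩
  rw [← Units.val_mul, ← Units.val_mul, hcomm a ha b hb]

end Cfsg.Agent.Helper96.Sy
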