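-- helper96 library: class-two cores of groups of isometries of a symplectic form (the structure of
-- the normal subgroup in Aschbacher's class C6, symplectic case).
import Cfsg.Agent.Helper96.SpCore

set_option autoImplicit false
set_option linter.unusedSectionVars false
set_option linter.unusedVariables false
open Cfsg Cfsg.Geo Matrix

namespace Cfsg.Agent.Helper96.Sy

variable {κ : Type} [Fintype κ] [DecidableEq κ] {F : Type*} [Field F]

/-- A minimal normal, absolutely irreducible subgroup of class two modulo scalars. -/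
structure IsC2Core (H N : Subgroup (GL κ F)) : Prop where
  le : N ≤ H
  normal : ∀ h ∈ H, ∀ x ∈ N, h * x * h⁻¹ ∈ N
  absIrred : ActsAbsolutelyIrreducibly (matrixSet N)
  class2 : ∀ a ∈ N, ∀ b ∈ N, a * b * a⁻¹ * b⁻¹ ∈ scalars κ F
  minimal : ∀ N' : Subgroup (GL κ F), N' ≤ N → (∀ h ∈ H, ∀ x ∈ N', h * x * h⁻¹ ∈ N') →
    N' ≤ scalars κ F ∨ N' = N
  notScalar : ¬ N ≤ scalars κ F
  card : Nat.card (N ⧸ (scalars κ F).subgroupOf N) = Fintype.card κ * Fintype.card κ
  rpow : ∃ r : ℕ, r.Prime ∧ ∀ x ∈ N, x ^ r ∈ scalars κ F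

variable {f : (κ → F) → (κ → F) → F}

/-- A scalar isometry of a symplectic form is `±1`. -/
theorem scalar_iso_pm [Nonempty κ] (hf : IsSymplecticForm f) {z : GL κ F} (hz : z ∈ scalars κ F)
    (hz' : z ∈ isoSub f) : (z : Matrix κ κ F) = 1 ∨ (z : Matrix κ κ F) = -1 := by
  classical
  obtain ⟨c, hc⟩ := (Helper97.Gen.scalar_mem_scalars_iff z).mp hz
  obtain ⟨i⟩ := ‹Nonempty κ›
  have hne : (Pi.single i (1 : F) : κ → F) ≠ 0 := by
    intro h
    have := congrFun h i
    simp at this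
  obtain ⟨-, ⟨y, hy⟩⟩ := hf.nondegenerate _ hne
  have h1 := iso_apply hz' (Pi.single i 1) y
  rw [hc, Matrix.smul_mulVec, Matrix.one_mulVec, Matrix.smul_mulVec, Matrix.one_mulVec,
    hf.bilinear.smul_left, hf.bilinear.smul_right] at h1
  have h2 : (c - 1) * (c + 1) = 0 := by
    have h3 : ((c - 1) * (c + 1)) * f (Pi.single i 1) y = 0 := by linear_combination h1
    exact (mul_eq_zero.mp h3).resolve_right hy
  rcases mul_eq_zero.mp h2 with h | h
  · left
    rw [hc, sub_eq_zero.mp h, one_smul]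
  · right
    rw [hc, eq_neg_of_add_eq_zero_left h, neg_one_smul]

theorem c2_comm_pm [Nonempty κ] (hf : IsSymplecticForm f) {N : Subgroup (GL κ F)} (hN : N ≤ isoSub f)
    (hab : ∀ a ∈ N, ∀ b ∈ N, a * b * a⁻¹ * b⁻¹ ∈ scalars κ F) {a b : GL κ F} (ha : a ∈ N)
    (hb : b ∈ N) :
    ((a * b * a⁻¹ * b⁻¹ : GL κ F) : Matrix κ κ F) = 1 ∨
      ((a * b * a⁻¹ * b⁻¹ : GL κ F) : Matrix κ κ F) = -1 :=
  scalar_iso_pm hf (hab a ha b hb)
    (hN (N.mul_mem (N.mul_mem (N.mul_mem ha hb) (N.inv_mem ha)) (N.inv_mem hb)))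

/-- A non-scalar element is anticommuted by some element. -/
theorem c2_exists_anti [Nonempty κ] (hf : IsSymplecticForm f) {N : Subgroup (GL κ F)}
    (hN : N ≤ isoSub f) (habs : ActsAbsolutelyIrreducibly (matrixSet N))
    (hab : ∀ a ∈ N, ∀ b ∈ N, a * b * a⁻¹ * b⁻¹ ∈ scalars κ F) {a : GL κ F} (ha : a ∈ N)
    (hns : a ∉ scalars κ F) :
    ∃ b ∈ N, b * a ≠ a * b ∧ (b : Matrix κ κ F) * (a : Matrix κ κ F) *
      ((b⁻¹ : GL κ F) : Matrix κ κ F) = -(a : Matrix κ κ F) := by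
  by_contra hcon
  push Not at hcon
  apply hns
  rw [Helper97.Gen.scalar_mem_scalars_iff]
  apply habs.2
  rintro _ ⟨b, hb, rfl⟩
  by_cases hcomm : b * a = a * b
  · rw [← Units.val_mul, ← Units.val_mul, hcomm]
  exfalso
  apply hcon b hb hcomm
  rcases c2_comm_pm hf hN hab hb ha with h | h
  · exfalso
    apply hcomm
    have h1 : b * a * b⁻¹ * a⁻¹ = 1 := Units.ext h
    calc b * a = (b * a * b⁻¹ * a⁻¹) * (a * b) := by group
      _ = a * b := by rw [h1, one_mul]
  · have h1 : (b * a * b⁻¹ : GL κ F) = (b * a * b⁻¹ * a⁻¹) * a := by group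
    have h2 := congrArg (fun g : GL κ F => (g : Matrix κ κ F)) h1
    simp only [Units.val_mul] at h2
    rw [h2]
    simp only [Units.val_mul] at h
    rw [h, neg_one_mul]

/-- The element `-1`, a non-commuting pair, and odd characteristic. -/
theorem c2_neg_one [Nonempty κ] (hf : IsSymplecticForm f) {N : Subgroup (GL κ F)}
    (hN : N ≤ isoSub f) (habs : ActsAbsolutelyIrreducibly (matrixSet N))
    (hab : ∀ a ∈ N, ∀ b ∈ N, a * b * a⁻¹ * b⁻¹ ∈ scalars κ F) (hNZ : ¬ N ≤ scalars κ F) :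
    (∃ z ∈ N, (z : Matrix κ κ F) = -1) ∧ (2 : F) ≠ 0 ∧
      ∃ a ∈ N, ∃ b ∈ N, b * a ≠ a * b ∧ (b : Matrix κ κ F) * (a : Matrix κ κ F) *
        ((b⁻¹ : GL κ F) : Matrix κ κ F) = -(a : Matrix κ κ F) := by
  obtain ⟨a, ha, hns⟩ := SetLike.not_le_iff_exists.mp hNZ
  obtain ⟨b, hb, hne, hanti⟩ := c2_exists_anti hf hN habs hab ha hns
  refine ⟨⟨b * a * b⁻¹ * a⁻¹, N.mul_mem (N.mul_mem (N.mul_mem hb ha) (N.inv_mem hb)) (N.inv_mem ha),
    ?_⟩, ?_, a, ha, b, hb, hne, hanti⟩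
  · rw [Units.val_mul, Units.val_mul, Units.val_mul, hanti, neg_mul, ← Units.val_mul,
      mul_inv_cancel, Units.val_one]
  · intro h2
    apply hne
    have h3 : (-(a : Matrix κ κ F)) = (a : Matrix κ κ F) := by
      have : (-1 : F) = 1 := by linear_combination -h2
      rw [← neg_one_smul F (a : Matrix κ κ F), this, one_smul]
    rw [h3] at hanti
    have h4 : b * a * b⁻¹ = a := by
      apply Units.ext
      rw [Units.val_mul, Units.val_mul]
      exact hanti
    calc b * a = (b * a * b⁻¹) * b := by group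
      _ = a * b := by rw [h4]

/-- Squares are `±1`. -/
theorem c2_sq [Nonempty κ] (hf : IsSymplecticForm f) {H N : Subgroup (GL κ F)} (hN : N ≤ isoSub f)
    (hc : IsC2Core H N) {a : GL κ F} (ha : a ∈ N) :
    (a : Matrix κ κ F) * (a : Matrix κ κ F) = 1 ∨ (a : Matrix κ κ F) * (a : Matrix κ κ F) = -1 := by
  obtain ⟨r, hr, hpow⟩ := hc.rpow
  obtain ⟨-, h2, x, hx, y, hy, hne, hanti⟩ := c2_neg_one hf hN hc.absIrred hc.class2 hc.notScalar
  have hr2 : r = 2 := by
    rcases hr.eq_two_or_odd' with h | hodd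
    · exact h
    exfalso
    -- `y x^r y⁻¹ = (-x)^r = -x^r`, but `x^r` is central
    have h1 : y * x ^ r * y⁻¹ = x ^ r := by
      have := Helper97.Gen.scalars_comm (hpow x hx) y
      calc y * x ^ r * y⁻¹ = (x ^ r * y) * y⁻¹ := by rw [this]
        _ = x ^ r := by group
    have h3 : ((y * x * y⁻¹) ^ r : GL κ F) = y * x ^ r * y⁻¹ := conj_pow
    have h4 : (((y * x * y⁻¹) ^ r : GL κ F) : Matrix κ κ F) = -((x ^ r : GL κ F) : Matrix κ κ F) := by
      rw [Units.val_pow_eq_pow_val, Units.val_mul, Units.val_mul, hanti, neg_pow, hodd.neg_one_pow,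
        neg_one_mul, Units.val_pow_eq_pow_val]
    rw [h3, h1] at h4
    have h5 : (2 : F) • ((x ^ r : GL κ F) : Matrix κ κ F) = 0 := by
      rw [two_smul]
      nth_rewrite 1 [h4]
      exact neg_add_cancel _
    rcases smul_eq_zero.mp h5 with h6 | h6
    · exact h2 h6
    · exact Units.ne_zero _ h6
  subst hr2
  have h1 := hpow a ha
  have h3 : a ^ 2 ∈ isoSub f := hN (N.pow_mem ha 2)
  have h4 := scalar_iso_pm hf h1 h3
  rw [Units.val_pow_eq_pow_val, pow_two] at h4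
  exact h4

theorem c2_pow_four [Nonempty κ] (hf : IsSymplecticForm f) {H N : Subgroup (GL κ F)}
    (hN : N ≤ isoSub f) (hc : IsC2Core H N) {a : GL κ F} (ha : a ∈ N) : a ^ 4 = 1 := by
  apply Units.ext
  rw [Units.val_pow_eq_pow_val, Units.val_one]
  have h1 : (a : Matrix κ κ F) ^ 4 = ((a : Matrix κ κ F) * (a : Matrix κ κ F)) *
      ((a : Matrix κ κ F) * (a : Matrix κ κ F)) := by
    rw [show (4 : ℕ) = 2 + 2 from rfl, pow_add, pow_two]
  rw [h1]
  rcases c2_sq hf hN hc ha with h | h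
  · rw [h, one_mul]
  · rw [h, neg_mul_neg, one_mul]

end Cfsg.Agent.Helper96.Sy
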