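-- helper96 library: the complete list of structures stabilised by a group of isometries of a
-- symplectic form (the two arithmetic leftovers of `SpOutcome` replaced by structures).
import Cfsg.Agent.Helper96.SpX1

set_option autoImplicit false
set_option linter.unusedSectionVars false
set_option linter.unusedVariables false
open Cfsg Cfsg.Geo Matrix

namespace Cfsg.Agent.Helper96.Sy

/-- The structures that a group `H` of isometries of the symplectic form `f` can stabilise, with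
the class-two core and the tensor-power structure made explicit. -/
def SpOutcome2 {ι : Type} [Fintype ι] [DecidableEq ι] {F : Type*} [Field F] [Fintype F]
    (f : (ι → F) → (ι → F) → F) (H : Subgroup (GL ι F)) : Prop :=
  (∃ W : Submodule F (ι → F), W ≠ ⊥ ∧ IsTotallySingularFor f W ∧ H ≤ subspaceStabilizer W) ∨
  (∃ W W' : Submodule F (ι → F), W ≠ ⊥ ∧ W' ≠ ⊥ ∧ IsNondegenerateOn f W ∧
    IsNondegenerateOn f W' ∧ AreOrthogonalFor f W W' ∧ W ⊓ W' = ⊥ ∧ W ⊔ W' = ⊤ ∧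
    H ≤ subspaceStabilizer W ∧ H ≤ subspaceStabilizer W') ∨
  (∃ (t k : ℕ) (D : Fin t → Submodule F (ι → F)),
    IsNondegenerateMDecomposition f k D ∧ H ≤ decompositionStabilizer D) ∨
  ((2 : F) ≠ 0 ∧ ∃ (k : ℕ) (D : Fin 2 → Submodule F (ι → F)), IsMDecomposition k D ∧
    (∀ i, IsTotallySingularFor f (D i)) ∧ H ≤ decompositionStabilizer D) ∨
  (∃ (r : ℕ) (K : Subalgebra F (Matrix ι ι F)), r.Prime ∧ IsFieldSubalgebra r K ∧
    IsSelfAdjointFor f K ∧ (∀ k ∈ K, ∀ v : ι → F, f (k *ᵥ v) v = 0) ∧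
    H ≤ subalgebraNormalizer K) ∨
  ((2 : F) ≠ 0 ∧ ∃ K : Subalgebra F (Matrix ι ι F), IsFieldSubalgebra 2 K ∧
    IsAdjointClosedFor f K ∧ ¬ IsSelfAdjointFor f K ∧ H ≤ subalgebraNormalizer K) ∨
  ((2 : F) ≠ 0 ∧ ∃ (n₁ n₂ : ℕ) (e : ι ≃ Fin n₁ × Fin n₂) (P : GL ι F)
    (f₁ : (Fin n₁ → F) → (Fin n₁ → F) → F) (f₂ : (Fin n₂ → F) → (Fin n₂ → F) → F),
    2 ≤ n₂ ∧ IsSymplecticForm f₁ ∧ IsSymmetricForm f₂ ∧ IsTensorFormStructure id f f₁ f₂ e P ∧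
    H ≤ tensorProductSubgroup n₁ n₂ e P) ∨
  ((2 : F) = 0 ∧ ∃ (n₁ n₂ : ℕ) (e : ι ≃ Fin n₁ × Fin n₂) (P : GL ι F)
    (f₁ : (Fin n₁ → F) → (Fin n₁ → F) → F) (f₂ : (Fin n₂ → F) → (Fin n₂ → F) → F),
    IsSymplecticForm f₁ ∧ IsSymplecticForm f₂ ∧ IsTensorFormStructure id f f₁ f₂ e P ∧
    H ≤ tensorProductSubgroup n₁ n₂ e P) ∨
  (∃ (F₀ : Subfield F) (r : ℕ) (P : GL ι F) (ζ : F), r.Prime ∧
    Fintype.card F = Nat.card F₀ ^ r ∧ ζ ≠ 0 ∧ IsFormRationalStructure f F₀ ζ P ∧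
    H ≤ subfieldSubgroup F₀ P) ∨
  ((2 : F) = 0 ∧ ∃ Q : (ι → F) → F, IsNondegenerateQuadraticForm Q ∧
    (∀ u v, QuadraticMap.polar Q u v = f u v) ∧ H ≤ quadSimilarityGroup Q) ∨
  InSymplecticResidualClass H ∨
  (∃ N : Subgroup (GL ι F), IsC2Core H N) ∨
  ((2 : F) ≠ 0 ∧ ∃ (k t : ℕ) (e : ι ≃ (Fin t → Fin k)) (P : GL ι F)
    (f₁ : (Fin k → F) → (Fin k → F) → F), Odd t ∧ 3 ≤ t ∧ ¬ (Fintype.card F = 3 ∧ k = 2) ∧
    IsSymplecticForm f₁ ∧ IsTensorPowerFormStructure id f f₁ e P ∧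
    H ≤ tensorWreathSubgroup k t e P)

end Cfsg.Agent.Helper96.Sy
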