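-- helper96 library: the complete structure theorem for groups of isometries of a symplectic form
-- on `F^n` (class-two and central-product cases resolved).
import Cfsg.Agent.Helper96.SpAbs
import Cfsg.Agent.Helper96.SpOut2
import Cfsg.Agent.Helper96.SpY3
import Cfsg.Agent.Helper96.SpTQ2

set_option autoImplicit false
set_option linter.unusedSectionVars false
set_option linter.unusedVariables false
open Cfsg Cfsg.Geo Matrix
open scoped Kronecker

namespace Cfsg.Agent.Helper96.Sy

variable {F : Type*} [Field F] {n : ℕ} {f : (Fin n → F) → (Fin n → F) → F}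

/-- Every group of isometries of a symplectic form stabilises one of the listed structures. -/
theorem sp_core2 [Fintype F] (hn : 2 ≤ n) (hf : IsSymplecticForm f) (H : Subgroup (GL (Fin n) F))
    (hH : H ≤ isoSub f) : SpOutcome2 f H := by
  classical
  have hnz : NeZero n := ⟨by omega⟩
  have hZc : ∀ z ∈ scalars (Fin n) F, ∀ g : GL (Fin n) F, z * g = g * z :=
    fun z hz g => Helper97.scalars_comm hz g
  by_cases hirr : ActsIrreducibly (matrixSet H)
  swap
  · rcases reducible_cases hf H hH hirr with h | h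
    · exact Or.inl h
    · exact Or.inr (Or.inl h)
  have hHZ : ¬ H ≤ scalars (Fin n) F := Helper97.not_le_scalars_of_irreducible hn H hirr
  obtain ⟨N, hNH, hNn, hNZ, hNmin⟩ := Helper97.exists_minimal_normal (scalars (Fin n) F) H hHZ
  have hNiso : N ≤ isoSub f := hNH.trans hH
  rcases z_analysis (by omega) hf H N hH hirr hNH hNn with h | h | h | h | h | hsc
  · exact Or.inr (Or.inr (Or.inl h))
  · exact Or.inr (Or.inr (Or.inr (Or.inl h)))
  · exact Or.inr (Or.inr (Or.inr (Or.inr (Or.inl h))))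
  · exact Or.inr (Or.inr (Or.inr (Or.inr (Or.inr (Or.inl h)))))
  · exact Or.inr (Or.inr (Or.inr (Or.inr (Or.inr (Or.inr (Or.inr (Or.inr (Or.inr (Or.inl h)))))))))
  obtain ⟨d, k, e, P, ρ, hTD⟩ := tensorData_of_zcent_scalar (by omega) H N hirr hNn hsc
  by_cases hd1 : d = 1
  · exact absurd (hTD.le_scalars_of_one hd1) hNZ
  have hd2 : 2 ≤ d := by have := hTD.hd; omega
  by_cases hk1 : k = 1
  swap
  · have hk2 : 2 ≤ k := by have := hTD.hk; omega
    rcases tensor_cases hf H N hH hirr hNH hNn hTD hd2 hk2 with h | h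
    · exact Or.inr (Or.inr (Or.inr (Or.inr (Or.inr (Or.inr (Or.inl h))))))
    · exact Or.inr (Or.inr (Or.inr (Or.inr (Or.inr (Or.inr (Or.inr (Or.inl h)))))))
  -- `N` is absolutely irreducible
  have habs : ActsAbsolutelyIrreducibly (matrixSet N) := hTD.absIrred_of_one hk1
  have hCN : ⁅N, N⁆ ≤ N := by
    rw [Subgroup.commutator_le]
    intro a ha b hb
    rw [commutatorElement_def]
    exact N.mul_mem (N.mul_mem (N.mul_mem ha hb) (N.inv_mem ha)) (N.inv_mem hb)
  rcases hNmin ⁅N, N⁆ hCN (Helper97.commutator_normalized H N hNn) with hC | hC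
  · -- class two modulo scalars
    have hab : ∀ a ∈ N, ∀ b ∈ N, a * b * a⁻¹ * b⁻¹ ∈ scalars (Fin n) F := by
      intro a ha b hb
      have := Subgroup.commutator_mem_commutator ha hb
      rw [commutatorElement_def] at this
      exact hC this
    obtain ⟨r, hr, hpow⟩ := Helper97.exists_prime_pow_mem (scalars (Fin n) F) H N hZc hNn hNZ hNmin hab
    have hcardq := card_quot_of_class_two N habs hab
    refine Or.inr (Or.inr (Or.inr (Or.inr (Or.inr (Or.inr (Or.inr (Or.inr (Or.inr (Or.inr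
      (Or.inr (Or.inl ⟨N, hNH, hNn, habs, hab, hNmin, hNZ, ?_, r, hr, hpow⟩)))))))))))
    rw [Fintype.card_fin]
    exact hcardq
  -- perfect
  have hperf : ⁅N, N⁆ = N := hC
  have hirrN : ActsIrreducibly (matrixSet N) := habs.1
  have hcentN : ∀ c : GL (Fin n) F, (∀ s ∈ N, c * s = s * c) → c ∈ scalars (Fin n) F := by
    intro c hc
    obtain ⟨a, ha⟩ := habs.2 (c : Matrix (Fin n) (Fin n) F) (by
      rintro _ ⟨s, hs, rfl⟩
      rw [← Units.val_mul, ← Units.val_mul, hc s hs])
    exact (Helper97.scalar_mem_scalars_iff c).mpr ⟨a, ha⟩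
  rcases perfect_structure (scalars (Fin n) F) H N hZc hNn hNZ hNmin hperf with
    hsimple | ⟨S, hSN, hSn, hSZ, hSperf, hne, hcomm, hgen⟩
  swap
  · -- central product of conjugates
    have hsc' : ∀ M, ZCent (matrixSet S) M → ∃ c : F, M = c • (1 : Matrix (Fin n) (Fin n) F) := by
      intro M hM
      apply habs.2
      have hyc : ∀ h ∈ H, ∀ y ∈ Helper97.cj h S,
          M * (y : Matrix (Fin n) (Fin n) F) = (y : Matrix (Fin n) (Fin n) F) * M := by
        intro h hh y hy'
        rcases hcomm h hh with h1 | h1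
        · rw [h1] at hy'
          exact hM.1 _ (Helper97.coe_mem_matrixSet hy')
        · apply hM.2
          rintro _ ⟨s', hs', rfl⟩
          rw [← Units.val_mul, ← Units.val_mul, h1 s' hs' y hy']
      have key : ∀ x ∈ Subgroup.closure {x | ∃ h ∈ H, x ∈ Helper97.cj h S},
          M * (x : Matrix (Fin n) (Fin n) F) = (x : Matrix (Fin n) (Fin n) F) * M ∧
          M * ((x⁻¹ : GL (Fin n) F) : Matrix (Fin n) (Fin n) F) =
            ((x⁻¹ : GL (Fin n) F) : Matrix (Fin n) (Fin n) F) * M := by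
        intro x hx
        induction hx using Subgroup.closure_induction with
        | mem y hy =>
          obtain ⟨h, hh, hy'⟩ := hy
          exact ⟨hyc h hh y hy', hyc h hh y⁻¹ (Subgroup.inv_mem _ hy')⟩
        | one =>
          rw [inv_one, Units.val_one, mul_one, one_mul]
          exact ⟨rfl, rfl⟩
        | mul y z _ _ hy hz =>
          rw [_root_.mul_inv_rev, Units.val_mul, Units.val_mul]
          constructor
          · rw [← mul_assoc, hy.1, mul_assoc, hz.1, ← mul_assoc]
          · rw [← mul_assoc, hz.2, mul_assoc, hy.2, ← mul_assoc]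
        | inv y _ hy =>
          rw [inv_inv]
          exact ⟨hy.2, hy.1⟩
      rintro _ ⟨x, hx, rfl⟩
      exact (key x (by rw [hgen]; exact hx)).1
    obtain ⟨d', k', e', P', ρ', hTD'⟩ := tensorData_of_zcent_scalar (by omega) N S hirrN hSn hsc'
    have hd'2 : 2 ≤ d' := by
      have h1 := hTD'.hd
      have h2 : d' ≠ 1 := fun h => hSZ (hTD'.le_scalars_of_one h)
      omega
    have hpow := eq_pow_of_central_product H N S hTD' habs hne hcomm hgen
    by_cases h2 : (2 : F) = 0
    · -- characteristic two: a quadratic form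
      obtain ⟨t, ht, hnt⟩ := hpow
      have hk'2 : 2 ≤ k' := by
        have h1 := Fintype.card_congr e'
        rw [Fintype.card_fin, Fintype.card_prod, Fintype.card_fin, Fintype.card_fin] at h1
        obtain ⟨t', rfl⟩ : ∃ t', t = t' + 2 := ⟨t - 2, by omega⟩
        rw [hnt, pow_succ, mul_comm] at h1
        have h3 : d' ^ (t' + 1) = k' := Nat.eq_of_mul_eq_mul_left (by omega) h1
        rw [← h3, pow_succ]
        have h4 : 1 ≤ d' ^ t' := Nat.one_le_pow _ _ (by omega)
        nlinarith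
      rcases tensor_cases hf N S hNiso hirrN hSN hSn hTD' hd'2 hk'2 with
        ⟨h2', -⟩ | ⟨-, n₁, n₂, e₁, P₁, f₁, f₂, hf₁, hf₂, hT, hle⟩
      · exact absurd h2 h2'
      obtain ⟨Q, hQ, hpol, hQfix⟩ := tensor_quad hf e₁ P₁ f₁ f₂ hf₁ hf₂ hT
      have hfixN : FixesQuadForm (matrixSet N) Q := by
        rintro _ ⟨g, hg, rfl⟩ v
        exact hQfix g ⟨hle hg, hNiso hg⟩ v
      exact Or.inr (Or.inr (Or.inr (Or.inr (Or.inr (Or.inr (Or.inr (Or.inr (Or.inr (Or.inl
        (quad_fixed hn hf H N hH hNH hNn habs Q hQ hfixN))))))))))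
    · obtain ⟨t, e'', P'', f₁, hodd, ht3, hex, hf₁, hT, hle⟩ := cp_power_outcome h2 hf H N S hH e' P' ρ'
        ⟨hNH, hNn, hperf, habs, hSN, hSn, hSperf, hSZ, hne, hcomm, hgen, hTD', hd'2, hpow⟩
      exact Or.inr (Or.inr (Or.inr (Or.inr (Or.inr (Or.inr (Or.inr (Or.inr (Or.inr (Or.inr
        (Or.inr (Or.inr ⟨h2, d', t, e'', P'', f₁, hodd, ht3, hex, hf₁, hT, hle⟩)))))))))))
  -- simple modulo scalars
  have hne0 : Nonempty (Fin n) := ⟨⟨0, by omega⟩⟩
  by_cases hsub : ∃ F₀ : Subfield F, F₀ ≠ ⊤ ∧ RealisableOver F₀ (matrixSet N)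
  · obtain ⟨F₀, hF₀, B, hB⟩ := hsub
    obtain ⟨F₁, r, hle, hr, hcard⟩ := Helper97.Gen.exists_prime_index_subfield F₀ hF₀
    obtain ⟨P', ζ, hζ, hnorm, hrat⟩ := sp_subfield_structure hf F₁ N hNiso habs B
      (fun s hs i j => hle (hB s hs i j))
    exact Or.inr (Or.inr (Or.inr (Or.inr (Or.inr (Or.inr (Or.inr (Or.inr (Or.inl
      ⟨F₁, r, P', ζ, hr, hcard, hζ, hrat, fun h hh => hnorm h (hNn h hh)⟩))))))))
  have hcore : IsResidualCore H N :=
    { le := hNH
      normal := hNn
      perfect := hperf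
      simple := Helper97.isSimpleGroup_quot (scalars (Fin n) F) N hNZ hsimple
      nonabelian := Helper97.not_commutative_quot (scalars (Fin n) F) N hNZ hperf
      centralizer_scalar := fun h _ hh =>
        Helper97.mem_of_centralizes_mod (scalars (Fin n) F) N hZc hperf hcentN h hh
      absIrred := habs
      no_subfield := fun F₀ hF₀ hreal => hsub ⟨F₀, hF₀, hreal⟩ }
  by_cases hquad : ∃ Q : (Fin n → F) → F,
      IsNondegenerateQuadraticForm Q ∧ FixesQuadForm (matrixSet N) Q
  · obtain ⟨Q, hQ, hfix⟩ := hquad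
    exact Or.inr (Or.inr (Or.inr (Or.inr (Or.inr (Or.inr (Or.inr (Or.inr (Or.inr (Or.inl
      (quad_fixed hn hf H N hH hNH hNn habs Q hQ hfix))))))))))
  by_cases hunit : ∃ (σ : F ≃+* F) (f' : (Fin n → F) → (Fin n → F) → F),
      IsUnitaryForm σ f' ∧ FixesForm (matrixSet N) f'
  · exfalso
    obtain ⟨σ, f', hf', hfix⟩ := hunit
    obtain ⟨F₀, hF₀, hreal⟩ := realisable_of_fixes_unitary_gram (Helper97.Gen.gram f)
      (det_gram_ne_zero hf) N (fun g hg => gram_iso hf (hNiso hg)) habs σ f' hf' hfix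
    exact hsub ⟨F₀, hF₀, hreal⟩
  exact Or.inr (Or.inr (Or.inr (Or.inr (Or.inr (Or.inr (Or.inr (Or.inr (Or.inr (Or.inr
    (Or.inl ⟨N, hcore, hquad, hunit⟩))))))))))

end Cfsg.Agent.Helper96.Sy
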