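-- helper96 library: transport of the complete outcome list along a bijection of index types, and
-- the complete structure theorem for subgroups of the standard symplectic group.
import Cfsg.Agent.Helper96.SpTr3
import Cfsg.Agent.Helper96.SpCore2

set_option autoImplicit false
set_option linter.unusedSectionVars false
set_option linter.unusedVariables false
open Cfsg Cfsg.Geo Matrix

namespace Cfsg.Agent.Helper96.Sy

variable {κ ι : Type} [Fintype κ] [DecidableEq κ] [Fintype ι] [DecidableEq ι] {F : Type*} [Field F]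

theorem pg_wreath (e : κ ≃ ι) {k t : ℕ} (e₁ : ι ≃ (Fin t → Fin k)) (P : GL ι F) {g : GL ι F}
    (hg : g ∈ tensorWreathSubgroup k t e₁ P) :
    pg e g ∈ tensorWreathSubgroup k t (e.trans e₁) (pg e P) := by
  obtain ⟨y, ⟨x, hx, rfl⟩, rfl⟩ := hg
  refine ⟨glReindex (e.trans e₁).symm x, ⟨x, hx, rfl⟩, ?_⟩
  show pg e P * glReindex (e.trans e₁).symm x * (pg e P)⁻¹ = pg e (P * glReindex e₁.symm x * P⁻¹)
  rw [map_mul, map_mul, map_inv]
  congr 2

theorem pf_tensorPower (e : κ ≃ ι) {f : (ι → F) → (ι → F) → F} {k t : ℕ}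
    {f₁ : (Fin k → F) → (Fin k → F) → F} {e₁ : ι ≃ (Fin t → Fin k)} {P : GL ι F}
    (h : IsTensorPowerFormStructure id f f₁ e₁ P) :
    IsTensorPowerFormStructure id (pf e f) f₁ (e.trans e₁) (pg e P) := by
  obtain ⟨c, hc, h⟩ := h
  refine ⟨c, hc, fun x y => ?_⟩
  show pf e f (((pg e P : GL κ F) : Matrix κ κ F) *ᵥ ((x ∘ e₁) ∘ e))
    (((pg e P : GL κ F) : Matrix κ κ F) *ᵥ ((y ∘ e₁) ∘ e)) = _
  rw [pg_mulVec, pg_mulVec, pf_comp]
  exact h x y

theorem pr_c2core (e : κ ≃ ι) {H N : Subgroup (GL ι F)} (h : IsC2Core H N) :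
    IsC2Core (H.map (pg e).toMonoidHom) (N.map (pg e).toMonoidHom) where
  le := Subgroup.map_mono h.le
  normal := by
    rintro _ ⟨a, ha, rfl⟩ _ ⟨x, hx, rfl⟩
    exact ⟨a * x * a⁻¹, h.normal a ha x hx, by simp⟩
  absIrred := pr_absIrred e h.absIrred
  class2 := by
    rintro _ ⟨a, ha, rfl⟩ _ ⟨b, hb, rfl⟩
    have h2 : (pg e).toMonoidHom a * (pg e).toMonoidHom b * ((pg e).toMonoidHom a)⁻¹ *
        ((pg e).toMonoidHom b)⁻¹ = pg e (a * b * a⁻¹ * b⁻¹) := by simp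
    rw [h2]
    exact (pg_scalars e).mpr (h.class2 a ha b hb)
  minimal := by
    intro N' hN' hnorm
    have h1 : N'.comap (pg e).toMonoidHom ≤ N := by
      intro x hx
      obtain ⟨y, hy, hxy⟩ := hN' hx
      have hyx : y = x := (pg (F := F) e).injective hxy
      rw [← hyx]
      exact hy
    have h2 : ∀ a ∈ H, ∀ x ∈ N'.comap (pg e).toMonoidHom,
        a * x * a⁻¹ ∈ N'.comap (pg e).toMonoidHom := by
      intro a ha x hx
      have h3 := hnorm _ ⟨a, ha, rfl⟩ _ hx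
      show (pg e).toMonoidHom (a * x * a⁻¹) ∈ N'
      rw [map_mul, map_mul, map_inv]
      exact h3
    have hsurj : Function.Surjective (pg (F := F) e).toMonoidHom := (pg (F := F) e).surjective
    rcases h.minimal _ h1 h2 with h3 | h3
    · left
      intro y hy
      obtain ⟨x, rfl⟩ := hsurj y
      exact (pg_scalars e).mpr (h3 hy)
    · right
      rw [← h3, Subgroup.map_comap_eq_self_of_surjective hsurj]
  notScalar := by
    intro hle
    apply h.notScalar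
    intro x hx
    exact (pg_scalars e).mp (hle ⟨x, hx, rfl⟩)
  card := by
    obtain ⟨E⟩ := pr_quot e N
    rw [← Nat.card_congr E.toEquiv, h.card, Fintype.card_congr e]
  rpow := by
    obtain ⟨r, hr, hpow⟩ := h.rpow
    refine ⟨r, hr, ?_⟩
    rintro _ ⟨x, hx, rfl⟩
    rw [← map_pow]
    exact (pg_scalars e).mpr (hpow x hx)

/-! ### the transport theorem -/

theorem sp_transport2 [Fintype F] (e : κ ≃ ι) {f : (ι → F) → (ι → F) → F} {H : Subgroup (GL ι F)}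
    (h : SpOutcome2 f H) : SpOutcome2 (pf e f) (H.map (pg e).toMonoidHom) := by
  unfold SpOutcome2 at h ⊢
  rcases h with ⟨W, hW0, hts, hle⟩ | ⟨W, W', h1, h2, h3, h4, h5, h6, h7, h8, h9⟩ |
    ⟨t, k, D, hD, hle⟩ | ⟨h2, k, D, hD, hts, hle⟩ | ⟨r, K, hr, hK, hsa, halt, hle⟩ |
    ⟨h2, K, hK, hac, hnsa, hle⟩ | ⟨h2, n₁, n₂, e₁, P, f₁, f₂, hn₂, hf₁, hf₂, hT, hle⟩ |
    ⟨h2, n₁, n₂, e₁, P, f₁, f₂, hf₁, hf₂, hT, hle⟩ | ⟨F₀, r, P, ζ, hr, hcard, hζ, hR, hle⟩ |
    ⟨h2, Q, hQ, hpol, hle⟩ | hres | ⟨N, hc⟩ |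
    ⟨h2, k, t, e₁, P, f₁, hodd, ht3, hex, hf₁, hT, hle⟩
  · exact Or.inl ⟨ps e W, ps_ne_bot e hW0, ps_ts e hts, map_le_of e (fun g hg => pg_stab e W hg) hle⟩
  · refine Or.inr (Or.inl ⟨ps e W, ps e W', ps_ne_bot e h1, ps_ne_bot e h2, ps_nondeg e h3,
      ps_nondeg e h4, ps_orth e h5, ?_, ?_, map_le_of e (fun g hg => pg_stab e W hg) h8,
      map_le_of e (fun g hg => pg_stab e W' hg) h9⟩)
    · rw [← ps_inf, h6, ps_bot]
    · rw [← ps_sup, h7, ps_top]
  · exact Or.inr (Or.inr (Or.inl ⟨t, k, fun i => ps e (D i), ps_ndecomp e hD,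
      map_le_of e (fun g hg => pg_dstab e D hg) hle⟩))
  · exact Or.inr (Or.inr (Or.inr (Or.inl ⟨h2, k, fun i => ps e (D i), ps_decomp e hD,
      fun i => ps_ts e (hts i), map_le_of e (fun g hg => pg_dstab e D hg) hle⟩)))
  · exact Or.inr (Or.inr (Or.inr (Or.inr (Or.inl ⟨r, pk e K, hr, pk_field e hK, pk_selfadj e hsa,
      pk_alt e halt, map_le_of e (fun g hg => pg_norm e K hg) hle⟩))))
  · exact Or.inr (Or.inr (Or.inr (Or.inr (Or.inr (Or.inl ⟨h2, pk e K, pk_field e hK,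
      pk_adjclosed e hac, fun hsa => hnsa (pk_selfadj_conv e hsa),
      map_le_of e (fun g hg => pg_norm e K hg) hle⟩)))))
  · exact Or.inr (Or.inr (Or.inr (Or.inr (Or.inr (Or.inr (Or.inl ⟨h2, n₁, n₂, e.trans e₁, pg e P,
      f₁, f₂, hn₂, hf₁, hf₂, pf_tensor e hT,
      map_le_of e (fun g hg => pg_tensor e e₁ P hg) hle⟩))))))
  · exact Or.inr (Or.inr (Or.inr (Or.inr (Or.inr (Or.inr (Or.inr (Or.inl ⟨h2, n₁, n₂, e.trans e₁,
      pg e P, f₁, f₂, hf₁, hf₂, pf_tensor e hT,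
      map_le_of e (fun g hg => pg_tensor e e₁ P hg) hle⟩)))))))
  · exact Or.inr (Or.inr (Or.inr (Or.inr (Or.inr (Or.inr (Or.inr (Or.inr (Or.inl ⟨F₀, r, pg e P, ζ,
      hr, hcard, hζ, pf_rational e hR,
      map_le_of e (fun g hg => pg_subfield e F₀ P hg) hle⟩))))))))
  · exact Or.inr (Or.inr (Or.inr (Or.inr (Or.inr (Or.inr (Or.inr (Or.inr (Or.inr (Or.inl ⟨h2,
      pq e Q, pq_nondeg e hQ, fun u v => hpol _ _,
      map_le_of e (fun g hg => pg_quad e Q hg) hle⟩)))))))))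
  · exact Or.inr (Or.inr (Or.inr (Or.inr (Or.inr (Or.inr (Or.inr (Or.inr (Or.inr (Or.inr (Or.inl
      (pr_residual e hres)))))))))))
  · exact Or.inr (Or.inr (Or.inr (Or.inr (Or.inr (Or.inr (Or.inr (Or.inr (Or.inr (Or.inr (Or.inr
      (Or.inl ⟨N.map (pg e).toMonoidHom, pr_c2core e hc⟩)))))))))))
  · exact Or.inr (Or.inr (Or.inr (Or.inr (Or.inr (Or.inr (Or.inr (Or.inr (Or.inr (Or.inr (Or.inr
      (Or.inr ⟨h2, k, t, e.trans e₁, pg e P, f₁, hodd, ht3, hex, hf₁, pf_tensorPower e hT,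
        map_le_of e (fun g hg => pg_wreath e e₁ P hg) hle⟩)))))))))))

/-- The structures stabilised by a subgroup of the standard symplectic group. -/
theorem sp_outcome_std2 [Fintype F] {m : ℕ} (hm : 1 ≤ m) (H : Subgroup (GL (Fin m ⊕ Fin m) F))
    (hH : H ≤ spGL m F) : SpOutcome2 (sympForm m F) H := by
  have hf : IsSymplecticForm (pf (finSumFinEquiv (m := m) (n := m)).symm (sympForm m F)) :=
    pf_symplectic _ (symp_std m)
  have hH' : H.map (pg (finSumFinEquiv (m := m) (n := m)).symm).toMonoidHom ≤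
      isoSub (pf (finSumFinEquiv (m := m) (n := m)).symm (sympForm m F)) :=
    map_le_of _ (fun g hg => pg_iso _ hg) hH
  have h1 := sp_core2 (by omega) hf _ hH'
  have h2 := sp_transport2 (finSumFinEquiv (m := m) (n := m)).symm.symm h1
  rw [pf_symm_pf, map_pg_map_pg] at h2
  exact h2

end Cfsg.Agent.Helper96.Sy
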