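-- helper96 library: the symplectic group lies in no tensor-wreath stabiliser of a tensor-power
-- structure of its form, and normalises no irreducible group of isometries with squares `±1`.
import Cfsg.Agent.Helper96.SpTr4
import Cfsg.Agent.Helper96.SpNot2
import Cfsg.Agent.Helper96.SpT2b

set_option autoImplicit false
set_option linter.unusedSectionVars false
set_option linter.unusedVariables false
open Cfsg Cfsg.Geo Matrix

namespace Cfsg.Agent.Helper96.Sy

variable {F : Type*} [Field F] {m : ℕ}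

/-- Pure vectors of a tensor power. -/
def IsPureVecT {k t : ℕ} (w : (Fin t → Fin k) → F) : Prop :=
  ∃ u : Fin t → Fin k → F, ∀ x, w x = ∏ i, u i (x i)

theorem std_pure_gen [Finite F] {k t : ℕ} (g : GL (Fin t → Fin k) F)
    (hg : g ∈ tensorWreathStandard k t F) :
    ∀ w : (Fin t → Fin k) → F, IsPureVecT w →
      IsPureVecT ((g : Matrix (Fin t → Fin k) (Fin t → Fin k) F) *ᵥ w) := by
  classical
  induction hg using Subgroup.closure_induction with
  | mem g hg =>
    rcases hg with ⟨gs, hgs⟩ | ⟨σ, hσ⟩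
    · rintro w ⟨u, hu⟩
      refine ⟨fun i => (gs i : Matrix (Fin k) (Fin k) F) *ᵥ u i, fun x => ?_⟩
      simp only [Matrix.mulVec, dotProduct]
      rw [Finset.prod_univ_sum, Fintype.piFinset_univ]
      apply Finset.sum_congr rfl
      intro y _
      rw [hgs, hu, Finset.prod_mul_distrib]
    · rintro w ⟨u, hu⟩
      have hval : ∀ x, ((g : Matrix (Fin t → Fin k) (Fin t → Fin k) F) *ᵥ w) x = w (x ∘ σ) := by
        intro x
        rw [Matrix.mulVec, dotProduct, Finset.sum_eq_single (x ∘ σ)]
        · rw [hσ, if_pos rfl, one_mul]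
        · intro y _ hy
          rw [hσ, if_neg hy, zero_mul]
        · intro h; exact absurd (Finset.mem_univ _) h
      refine ⟨fun i => u (σ.symm i), fun x => ?_⟩
      rw [hval, hu]
      rw [← Equiv.prod_comp σ (fun i => u (σ.symm i) (x i))]
      apply Finset.prod_congr rfl
      intro i _
      rw [Equiv.symm_apply_apply]
      rfl
  | one =>
    intro w hw
    rwa [Units.val_one, Matrix.one_mulVec]
  | mul x y _ _ hx hy =>
    intro w hw
    rw [Units.val_mul, ← Matrix.mulVec_mulVec]
    exact hx _ (hy w hw)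
  | inv x _ hx =>
    intro w hw
    have hpow : ∀ j : ℕ, IsPureVecT
        (((x ^ j : GL (Fin t → Fin k) F) : Matrix (Fin t → Fin k) (Fin t → Fin k) F) *ᵥ w) := by
      intro j
      induction j with
      | zero => simpa using hw
      | succ j ih =>
        rw [pow_succ', Units.val_mul, ← Matrix.mulVec_mulVec]
        exact hx _ ih
    have hfin : Finite (GL (Fin t → Fin k) F) := inferInstance
    have hinv : x⁻¹ = x ^ (orderOf x - 1) := by
      have h1 : x * x ^ (orderOf x - 1) = 1 := by
        rw [← pow_succ', Nat.sub_add_cancel (orderOf_pos x), pow_orderOf_eq_one]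
      exact inv_eq_of_mul_eq_one_right h1
    rw [hinv]
    exact hpow _

/-- The symplectic group is not contained in the stabiliser of a tensor-power structure of its
form. -/
theorem notSp_wreath [Finite F] (hm : 1 ≤ m) {k t : ℕ} (ht : 2 ≤ t)
    (e : (Fin m ⊕ Fin m) ≃ (Fin t → Fin k))
    (P : GL (Fin m ⊕ Fin m) F) (f₁ : (Fin k → F) → (Fin k → F) → F) (hf₁ : IsSymplecticForm f₁)
    (hT : IsTensorPowerFormStructure id (sympForm m F) f₁ e P) :
    ¬ spGL m F ≤ tensorWreathSubgroup k t e P := by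
  classical
  intro hle
  obtain ⟨c, hc, hform⟩ := hT
  have hpos : 0 < t := by omega
  have hk : 0 < k := by
    have x := e (Sum.inl ⟨0, by omega⟩)
    exact Fin.pos (x ⟨0, hpos⟩)
  -- a non-zero entry of the Gram matrix
  obtain ⟨a, b, hab⟩ : ∃ a b, gramMatrix f₁ a b ≠ 0 := by
    by_contra hcon
    push Not at hcon
    obtain ⟨u, u', huu⟩ := exists_ne_form hk hf₁.nondegenerate
    apply huu
    rw [bil_eq_sum hf₁.bilinear]
    refine Finset.sum_eq_zero (fun i _ => Finset.sum_eq_zero (fun j _ => ?_))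
    rw [hcon, mul_zero, zero_mul]
  have hane : a ≠ b := by
    rintro rfl
    apply hab
    unfold gramMatrix
    exact hf₁.alternating _
  obtain ⟨xa, hxa⟩ : ∃ xa : Fin t → Fin k, xa = fun _ => a := ⟨_, rfl⟩
  obtain ⟨xb, hxb⟩ : ∃ xb : Fin t → Fin k, xb = fun _ => b := ⟨_, rfl⟩
  obtain ⟨xz, hxz⟩ : ∃ xz : Fin t → Fin k, xz = Function.update xa ⟨0, hpos⟩ b := ⟨_, rfl⟩
  have hxab : xa ≠ xb := by
    intro h
    have := congrFun h ⟨0, hpos⟩
    rw [hxa, hxb] at this
    exact hane this
  have hxza : xz ≠ xa := by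
    intro h
    have := congrFun h ⟨0, hpos⟩
    rw [hxz, Function.update_self, hxa] at this
    exact hane this.symm
  have hxzb : xz ≠ xb := by
    intro h
    have := congrFun h ⟨1, by omega⟩
    rw [hxz, Function.update_of_ne (by intro h'; simpa using congrArg Fin.val h'), hxa, hxb] at this
    exact hane this
  obtain ⟨v, hv⟩ : ∃ v, v = (P : Matrix (Fin m ⊕ Fin m) (Fin m ⊕ Fin m) F) *ᵥ
      ((Pi.single xa (1 : F) : (Fin t → Fin k) → F) ∘ e) := ⟨_, rfl⟩
  obtain ⟨u, hu⟩ : ∃ u, u = (P : Matrix (Fin m ⊕ Fin m) (Fin m ⊕ Fin m) F) *ᵥ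
      ((Pi.single xb (1 : F) : (Fin t → Fin k) → F) ∘ e) := ⟨_, rfl⟩
  have hvu : sympForm m F v u = c * gramMatrix f₁ a b ^ t := by
    rw [hv, hu, hform]
    congr 1
    rw [Finset.sum_eq_single xa, Finset.sum_eq_single xb]
    · rw [Pi.single_eq_same, Pi.single_eq_same, one_mul, id, mul_one, hxa, hxb]
      simp
    · intro y _ hy
      rw [Pi.single_eq_of_ne hy, id, mul_zero]
    · intro h; exact absurd (Finset.mem_univ _) h
    · intro x _ hx
      refine Finset.sum_eq_zero (fun y _ => ?_)
      rw [Pi.single_eq_of_ne hx, zero_mul, zero_mul]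
    · intro h; exact absurd (Finset.mem_univ _) h
  have hlam : sympForm m F v u ≠ 0 := by
    rw [hvu]
    exact mul_ne_zero hc (pow_ne_zero _ hab)
  obtain ⟨y, ⟨s, hs, rfl⟩, hys⟩ := hle (Helper94.stGL_mem u 1)
  have hys' : P * pg e s * P⁻¹ = Helper94.stGL u 1 := hys
  -- the image of the pure vector
  have h1 : ((s : Matrix (Fin t → Fin k) (Fin t → Fin k) F) *ᵥ (Pi.single xa (1 : F))) =
      Pi.single xa (1 : F) + sympForm m F v u • Pi.single xb (1 : F) := by
    have h2 : ((Helper94.stGL u 1 : GL (Fin m ⊕ Fin m) F) :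
        Matrix (Fin m ⊕ Fin m) (Fin m ⊕ Fin m) F) *ᵥ v = v + (1 * sympForm m F v u) • u :=
      Helper94.stGL_mulVec u 1 v
    rw [← hys', Units.val_mul, Units.val_mul, ← Matrix.mulVec_mulVec, ← Matrix.mulVec_mulVec] at h2
    have hPv : ((P⁻¹ : GL (Fin m ⊕ Fin m) F) : Matrix (Fin m ⊕ Fin m) (Fin m ⊕ Fin m) F) *ᵥ v =
        (Pi.single xa (1 : F) : (Fin t → Fin k) → F) ∘ e := by
      rw [hv, Helper97.Gen.mulVec_inv_cancel]
    obtain ⟨lam, hlamdef⟩ : ∃ lam, lam = sympForm m F v u := ⟨_, rfl⟩
    rw [← hlamdef] at h2 ⊢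
    have hR : v + (1 * lam) • u = (P : Matrix (Fin m ⊕ Fin m) (Fin m ⊕ Fin m) F) *ᵥ
        ((Pi.single xa (1 : F) + lam • Pi.single xb (1 : F) :
          (Fin t → Fin k) → F) ∘ e) := by
      rw [one_mul, hv, hu, ← Matrix.mulVec_smul, ← Matrix.mulVec_add]
      rfl
    rw [hPv, pg_mulVec, hR] at h2
    have h3 := congrArg (fun z => ((P⁻¹ : GL (Fin m ⊕ Fin m) F) :
      Matrix (Fin m ⊕ Fin m) (Fin m ⊕ Fin m) F) *ᵥ z) h2
    simp only [Helper97.Gen.mulVec_inv_cancel] at h3
    funext x
    have h4 := congrFun h3 (e.symm x)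
    simp only [Function.comp_apply, Equiv.apply_symm_apply] at h4
    exact h4
  have hpure : IsPureVecT (Pi.single xa (1 : F) : (Fin t → Fin k) → F) := by
    refine ⟨fun _ => Pi.single a 1, fun x => ?_⟩
    by_cases hx : x = xa
    · rw [hx, Pi.single_eq_same, hxa]
      simp
    · rw [Pi.single_eq_of_ne hx]
      have : ∃ i, x i ≠ a := by
        by_contra hcon
        push Not at hcon
        apply hx
        rw [hxa]
        funext i
        exact hcon i
      obtain ⟨i, hi⟩ := this
      exact (Finset.prod_eq_zero (Finset.mem_univ i) (Pi.single_eq_of_ne hi _)).symm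
  obtain ⟨w, hw⟩ := std_pure_gen s hs _ hpure
  rw [h1] at hw
  have e1 := hw xa
  have e2 := hw xb
  have e3 := hw xz
  simp only [Pi.add_apply, Pi.smul_apply, Pi.single_eq_same, Pi.single_eq_of_ne hxab,
    Pi.single_eq_of_ne hxab.symm, Pi.single_eq_of_ne hxza, Pi.single_eq_of_ne hxzb, smul_eq_mul,
    mul_zero, add_zero, mul_one, zero_add] at e1 e2 e3
  -- all the factors are non-zero
  have ha' : ∀ i, w i a ≠ 0 := by
    intro i h
    rw [hxa, Finset.prod_eq_zero (Finset.mem_univ i) h] at e1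
    exact one_ne_zero e1
  have hb' : ∀ i, w i b ≠ 0 := by
    intro i h
    rw [hxb, Finset.prod_eq_zero (Finset.mem_univ i) h] at e2
    exact hlam e2
  have : ∏ i, w i (xz i) ≠ 0 := by
    rw [Finset.prod_ne_zero_iff]
    intro i _
    rw [hxz, hxa]
    by_cases hi : i = ⟨0, hpos⟩
    · rw [hi, Function.update_self]
      exact hb' _
    · rw [Function.update_of_ne hi]
      exact ha' _
  exact this e3.symm

theorem stGL_inv_eq (u : Fin m ⊕ Fin m → F) (c : F) :
    (Helper94.stGL u c)⁻¹ = Helper94.stGL u (-c) := Units.ext rfl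

/-- The symplectic group normalises no group of isometries with squares `±1` whose centraliser
consists of scalars. -/
theorem notSp_c6 (hm : 2 ≤ m) (h2 : (2 : F) ≠ 0) (N : Subgroup (GL (Fin m ⊕ Fin m) F))
    (hN : N ≤ spGL m F)
    (hsq : ∀ x ∈ N, (x : Matrix (Fin m ⊕ Fin m) (Fin m ⊕ Fin m) F) * (x : Matrix _ _ F) = 1 ∨
      (x : Matrix (Fin m ⊕ Fin m) (Fin m ⊕ Fin m) F) * (x : Matrix _ _ F) = -1)
    (hcent : ∀ M : Matrix (Fin m ⊕ Fin m) (Fin m ⊕ Fin m) F,
      (∀ s ∈ matrixSet N, M * s = s * M) → ∃ c : F, M = c • 1) :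
    ¬ spGL m F ≤ subgroupNormalizer N := by
  classical
  intro hle
  obtain ⟨u, hu0⟩ : ∃ u : Fin m ⊕ Fin m → F, u ≠ 0 := by
    refine ⟨Pi.single (Sum.inl ⟨0, by omega⟩) 1, fun h => ?_⟩
    have := congrFun h (Sum.inl ⟨0, by omega⟩)
    simp at this
  obtain ⟨t, htdef⟩ : ∃ t, t = Helper94.stGL u (1 : F) := ⟨_, rfl⟩
  have ht : t ∈ subgroupNormalizer N := by rw [htdef]; exact hle (Helper94.stGL_mem u 1)
  have htv : ∀ v, (t : Matrix (Fin m ⊕ Fin m) (Fin m ⊕ Fin m) F) *ᵥ v = v + sympForm m F v u • u := by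
    intro v
    rw [htdef, Helper94.stGL_mulVec, one_mul]
  have htiv : ∀ v, ((t⁻¹ : GL (Fin m ⊕ Fin m) F) : Matrix (Fin m ⊕ Fin m) (Fin m ⊕ Fin m) F) *ᵥ v =
      v - sympForm m F v u • u := by
    intro v
    rw [htdef, stGL_inv_eq, Helper94.stGL_mulVec, neg_one_mul, neg_smul, sub_eq_add_neg]
  have hcomm : ∀ x ∈ N, t * x = x * t := by
    intro x hx
    have hw : t * x * t⁻¹ * x⁻¹ ∈ N :=
      N.mul_mem ((Subgroup.mem_normalizer_iff.mp ht x).mp hx) (N.inv_mem hx)
    obtain ⟨z, hz⟩ : ∃ z, z = (x : Matrix (Fin m ⊕ Fin m) (Fin m ⊕ Fin m) F) *ᵥ u := ⟨_, rfl⟩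
    obtain ⟨a, ha⟩ : ∃ a, a = sympForm m F z u := ⟨_, rfl⟩
    have hxiso := (Helper94.mem_spGL_iff x).mp (hN hx)
    have hW : ∀ v, ((t * x * t⁻¹ * x⁻¹ : GL (Fin m ⊕ Fin m) F) :
        Matrix (Fin m ⊕ Fin m) (Fin m ⊕ Fin m) F) *ᵥ v =
        v - sympForm m F v z • z + (sympForm m F v u - sympForm m F v z * a) • u := by
      intro v
      have h1 : sympForm m F (((x⁻¹ : GL (Fin m ⊕ Fin m) F) :
          Matrix (Fin m ⊕ Fin m) (Fin m ⊕ Fin m) F) *ᵥ v) u = sympForm m F v z := by
        rw [← hxiso, Helper97.Gen.mulVec_cancel_inv, hz]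
      rw [Units.val_mul, Units.val_mul, Units.val_mul, ← Matrix.mulVec_mulVec,
        ← Matrix.mulVec_mulVec, ← Matrix.mulVec_mulVec, htiv, h1, Matrix.mulVec_sub,
        Helper97.Gen.mulVec_cancel_inv, Matrix.mulVec_smul, ← hz, htv, Helper94.sf_sub_left,
        Helper94.sf_smul_left, ← ha]
    have hp : ∀ y, sympForm m F (((t * x * t⁻¹ * x⁻¹ : GL (Fin m ⊕ Fin m) F) :
        Matrix (Fin m ⊕ Fin m) (Fin m ⊕ Fin m) F) *ᵥ y) u =
        sympForm m F y u - sympForm m F y z * a := by
      intro y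
      rw [hW, Helper94.sf_add_left, Helper94.sf_sub_left, Helper94.sf_smul_left,
        Helper94.sf_smul_left, Helper94.sf_self, ← ha]
      ring
    have hzu : sympForm m F u z = -a := by rw [ha, Helper94.sf_swap]
    have hq : ∀ y, sympForm m F (((t * x * t⁻¹ * x⁻¹ : GL (Fin m ⊕ Fin m) F) :
        Matrix (Fin m ⊕ Fin m) (Fin m ⊕ Fin m) F) *ᵥ y) z =
        sympForm m F y z * (1 + a * a) - sympForm m F y u * a := by
      intro y
      rw [hW, Helper94.sf_add_left, Helper94.sf_sub_left, Helper94.sf_smul_left,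
        Helper94.sf_smul_left, Helper94.sf_self, hzu]
      ring
    have hone : t * x * t⁻¹ * x⁻¹ = 1 := by
      rcases hsq _ hw with h1 | h1
      · -- an involution: `a = 0`, then the identity
        have hWW : ∀ v, ((t * x * t⁻¹ * x⁻¹ : GL (Fin m ⊕ Fin m) F) :
            Matrix (Fin m ⊕ Fin m) (Fin m ⊕ Fin m) F) *ᵥ
            (((t * x * t⁻¹ * x⁻¹ : GL (Fin m ⊕ Fin m) F) :
            Matrix (Fin m ⊕ Fin m) (Fin m ⊕ Fin m) F) *ᵥ v) = v := by
          intro v
          rw [Matrix.mulVec_mulVec, h1, Matrix.one_mulVec]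
        have ha0 : a = 0 := by
          by_contra hane
          have e1 := congrArg (fun y => sympForm m F y u) (hWW u)
          have e2 := congrArg (fun y => sympForm m F y z) (hWW u)
          simp only [hp, hq, Helper94.sf_self, hzu] at e1 e2
          have e3 : a * a * (a * a + 2) = 0 := by linear_combination e1
          have e4 : a * (a * a) * (a * a + 3) = 0 := by linear_combination -e2
          have e5 : a * a + 2 = 0 := by
            rcases mul_eq_zero.mp e3 with h | h
            · exact absurd (mul_self_eq_zero.mp h) hane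
            · exact h
          have e6 : a * a + 3 = 0 := by
            rcases mul_eq_zero.mp e4 with h | h
            · rcases mul_eq_zero.mp h with h' | h'
              · exact absurd h' hane
              · exact absurd (mul_self_eq_zero.mp h') hane
            · exact h
          have : (1 : F) = 0 := by linear_combination e6 - e5
          exact one_ne_zero this
        apply Helper97.Gen.gl_ext
        intro v
        rw [Units.val_one, Matrix.one_mulVec]
        have e1 := hWW v
        rw [hW (((t * x * t⁻¹ * x⁻¹ : GL (Fin m ⊕ Fin m) F) :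
            Matrix (Fin m ⊕ Fin m) (Fin m ⊕ Fin m) F) *ᵥ v), hp, hq, ha0] at e1
        rw [hW, ha0]
        simp only [mul_zero, sub_zero, add_zero, mul_one] at e1 ⊢
        rw [hW, ha0] at e1
        simp only [mul_zero, sub_zero] at e1
        have e2 : (2 : F) • (sympForm m F v u • u - sympForm m F v z • z) = 0 := by
          rw [two_smul]
          have : v - sympForm m F v z • z + sympForm m F v u • u - sympForm m F v z • z +
              sympForm m F v u • u - v = 0 := sub_eq_zero.mpr e1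
          rw [← this]
          abel
        have e3 := (smul_eq_zero.mp e2).resolve_left h2
        rw [sub_add_eq_add_sub, add_sub_assoc, e3, add_zero]
      · -- no element with square `-1` fixes a non-zero vector
        exfalso
        obtain ⟨L, hL⟩ : ∃ L : (Fin m ⊕ Fin m → F) →ₗ[F] (Fin 2 → F),
            ∀ v, L v = ![sympForm m F v u, sympForm m F v z] := by
          refine ⟨LinearMap.pi ![(Helper94.sympB m F).flip u, (Helper94.sympB m F).flip z],
            fun v => ?_⟩
          funext i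
          fin_cases i
          · simp [Helper94.sympB_apply]
          · simp [Helper94.sympB_apply]
        have hker : LinearMap.ker L ≠ ⊥ := by
          apply LinearMap.ker_ne_bot_of_finrank_lt
          rw [Module.finrank_fintype_fun_eq_card, Module.finrank_fintype_fun_eq_card, card_sum_fin,
            Fintype.card_fin]
          omega
        obtain ⟨v, hvker, hv0⟩ := (Submodule.ne_bot_iff _).mp hker
        rw [LinearMap.mem_ker, hL] at hvker
        have hvu : sympForm m F v u = 0 := by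
          have := congrFun hvker 0
          simpa using this
        have hvz : sympForm m F v z = 0 := by
          have := congrFun hvker 1
          simpa using this
        have e1 : ((t * x * t⁻¹ * x⁻¹ : GL (Fin m ⊕ Fin m) F) :
            Matrix (Fin m ⊕ Fin m) (Fin m ⊕ Fin m) F) *ᵥ v = v := by
          rw [hW, hvu, hvz]
          simp
        have e2 : ((t * x * t⁻¹ * x⁻¹ : GL (Fin m ⊕ Fin m) F) :
            Matrix (Fin m ⊕ Fin m) (Fin m ⊕ Fin m) F) *ᵥ
            (((t * x * t⁻¹ * x⁻¹ : GL (Fin m ⊕ Fin m) F) :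
            Matrix (Fin m ⊕ Fin m) (Fin m ⊕ Fin m) F) *ᵥ v) = -v := by
          rw [Matrix.mulVec_mulVec, h1, Matrix.neg_mulVec, Matrix.one_mulVec]
        rw [e1, e1] at e2
        have e3 : (2 : F) • v = 0 := by
          rw [two_smul]
          nth_rewrite 2 [e2]
          exact add_neg_cancel v
        exact hv0 ((smul_eq_zero.mp e3).resolve_left h2)
    calc t * x = (t * x * t⁻¹ * x⁻¹) * (x * t) := by group
      _ = x * t := by rw [hone, one_mul]
  obtain ⟨c, hc⟩ := hcent (t : Matrix (Fin m ⊕ Fin m) (Fin m ⊕ Fin m) F) (by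
    rintro _ ⟨x, hx, rfl⟩
    rw [← Units.val_mul, ← Units.val_mul, hcomm x hx])
  have h1 := htv u
  rw [hc, Matrix.smul_mulVec, Matrix.one_mulVec, Helper94.sf_self, zero_smul, add_zero] at h1
  have hc1 : c = 1 := by
    have : (c - 1) • u = 0 := by rw [sub_smul, one_smul, h1, sub_self]
    exact sub_eq_zero.mp ((smul_eq_zero.mp this).resolve_right hu0)
  obtain ⟨y, hy⟩ := Helper94.sf_exists_ne u hu0
  have h3 := htv y
  rw [hc, hc1, one_smul, Matrix.one_mulVec] at h3
  have h4 : sympForm m F y u • u = 0 := by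
    have := sub_eq_zero.mpr h3.symm
    simpa using this
  apply hy
  rw [Helper94.sf_swap, (smul_eq_zero.mp h4).resolve_right hu0, neg_zero]

end Cfsg.Agent.Helper96.Sy
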