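import Cfsg.Agent.Helper96.T5Defs
import Cfsg.Agent.Helper96.TensorPower
import Cfsg.Agent.Helper96.SpW1
import Cfsg.Agent.Helper97.OForm

/-!
# Helper96: definitions for the CALL S5707 (`Sp_k ≀ S_t` tensor stabiliser not maximal in `Ω⁺`,
`q` even, `k ∈ {2, 4}`).

Index type `Fin t → Fin k`.  `G` is the Gram matrix of the symplectic form on `F^k`, `GT t G` its
`t`-th tensor power.  `US t S` is the span of `1` and of the factor matrices `facM i X`, `X ∈ S`
(the "Clifford generators"); `NU t S` is its normaliser.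
-/

set_option autoImplicit false
set_option linter.unusedSectionVars false
set_option linter.unusedSimpArgs false
set_option linter.unusedVariables false

namespace Cfsg.Agent.Helper96.CW

open Matrix Cfsg Cfsg.Geo Cfsg.Agent.Helper96

variable {F : Type*} [Field F] {k t : ℕ}

/-- Gram matrix of the `t`-fold tensor power of the form with Gram matrix `G`. -/
def GT (t : ℕ) (G : Matrix (Fin k) (Fin k) F) : Matrix (Fin t → Fin k) (Fin t → Fin k) F :=
  ptM (fun _ : Fin t => G)

/-- The quadratic form data on the tensor power: `G` alternating non-degenerate, `Q` a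
non-degenerate quadratic form with polar form `G^{⊗t}`, vanishing on pure tensors. -/
structure TPQ (G : Matrix (Fin k) (Fin k) F) (Q : ((Fin t → Fin k) → F) → F) : Prop where
  alt : ∀ u, T5.bf G u u = 0
  det : G.det ≠ 0
  nq : IsNondegenerateQuadraticForm Q
  polar : ∀ v v', QuadraticMap.polar Q v v' = T5.bf (GT t G) v v'
  pure : ∀ us : Fin t → Fin k → F, Q (fun a => ∏ i, us i (a i)) = 0

/-- The span of `1` and the factor matrices `facM i X`, `X ∈ S`. -/
def US (t : ℕ) (S : Set (Matrix (Fin k) (Fin k) F)) :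
    Submodule F (Matrix (Fin t → Fin k) (Fin t → Fin k) F) :=
  Submodule.span F ({1} ∪ {Z | ∃ (i : Fin t) (X : Matrix (Fin k) (Fin k) F), X ∈ S ∧ Z = facM i X})

/-- The normaliser of `US t S` in `GL`. -/
def NU (t : ℕ) (S : Set (Matrix (Fin k) (Fin k) F)) : Subgroup (GL (Fin t → Fin k) F) where
  carrier := {g | ∀ Z ∈ US t S,
      (g : Matrix (Fin t → Fin k) (Fin t → Fin k) F) * Z *
          ((g⁻¹ : GL (Fin t → Fin k) F) : Matrix (Fin t → Fin k) (Fin t → Fin k) F) ∈ US t S ∧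
      ((g⁻¹ : GL (Fin t → Fin k) F) : Matrix (Fin t → Fin k) (Fin t → Fin k) F) * Z *
          (g : Matrix (Fin t → Fin k) (Fin t → Fin k) F) ∈ US t S}
  mul_mem' := by
    intro g h hg hh Z hZ
    constructor
    · have h1 := (hh Z hZ).1
      have h2 := (hg _ h1).1
      have e : ((g * h : GL (Fin t → Fin k) F) : Matrix (Fin t → Fin k) (Fin t → Fin k) F) * Z *
          (((g * h)⁻¹ : GL (Fin t → Fin k) F) : Matrix (Fin t → Fin k) (Fin t → Fin k) F)
          = (g : Matrix (Fin t → Fin k) (Fin t → Fin k) F) *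
            ((h : Matrix (Fin t → Fin k) (Fin t → Fin k) F) * Z *
              ((h⁻¹ : GL (Fin t → Fin k) F) : Matrix (Fin t → Fin k) (Fin t → Fin k) F)) *
            ((g⁻¹ : GL (Fin t → Fin k) F) : Matrix (Fin t → Fin k) (Fin t → Fin k) F) := by
        rw [_root_.mul_inv_rev, Units.val_mul, Units.val_mul]
        simp only [mul_assoc]
      rw [e]
      exact h2
    · have h1 := (hg Z hZ).2
      have h2 := (hh _ h1).2
      have e : (((g * h)⁻¹ : GL (Fin t → Fin k) F) : Matrix (Fin t → Fin k) (Fin t → Fin k) F) * Z *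
          ((g * h : GL (Fin t → Fin k) F) : Matrix (Fin t → Fin k) (Fin t → Fin k) F)
          = ((h⁻¹ : GL (Fin t → Fin k) F) : Matrix (Fin t → Fin k) (Fin t → Fin k) F) *
            (((g⁻¹ : GL (Fin t → Fin k) F) : Matrix (Fin t → Fin k) (Fin t → Fin k) F) * Z *
              (g : Matrix (Fin t → Fin k) (Fin t → Fin k) F)) *
            (h : Matrix (Fin t → Fin k) (Fin t → Fin k) F) := by
        rw [_root_.mul_inv_rev, Units.val_mul, Units.val_mul]
        simp only [mul_assoc]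
      rw [e]
      exact h2
  one_mem' := by
    intro Z hZ
    simp only [inv_one, Units.val_one, one_mul, mul_one]
    exact ⟨hZ, hZ⟩
  inv_mem' := by
    intro g hg Z hZ
    rw [inv_inv]
    exact ⟨(hg Z hZ).2, (hg Z hZ).1⟩

theorem mem_NU {S : Set (Matrix (Fin k) (Fin k) F)} {g : GL (Fin t → Fin k) F} :
    g ∈ NU t S ↔ ∀ Z ∈ US t S,
      (g : Matrix (Fin t → Fin k) (Fin t → Fin k) F) * Z *
          ((g⁻¹ : GL (Fin t → Fin k) F) : Matrix (Fin t → Fin k) (Fin t → Fin k) F) ∈ US t S ∧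
      ((g⁻¹ : GL (Fin t → Fin k) F) : Matrix (Fin t → Fin k) (Fin t → Fin k) F) * Z *
          (g : Matrix (Fin t → Fin k) (Fin t → Fin k) F) ∈ US t S := Iff.rfl

/-- The alternating operators `dm G x y` with `x ⊥ y`. -/
def SD (G : Matrix (Fin k) (Fin k) F) : Set (Matrix (Fin k) (Fin k) F) :=
  {X | ∃ x y : Fin k → F, T5.bf G x y = 0 ∧ X = T5.dm G x y}

/-- The trace zero `2 × 2` matrices. -/
def S2 (F : Type*) [Field F] : Set (Matrix (Fin 2) (Fin 2) F) := {X | X.trace = 0}

/-- Standard Gram matrix for `k = 2` (characteristic 2). -/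
def G2 (F : Type*) [Field F] : Matrix (Fin 2) (Fin 2) F := !![0, 1; 1, 0]

/-- The nilpotent `e₀ ↦ e₁`. -/
def E2 (F : Type*) [Field F] : Matrix (Fin 2) (Fin 2) F := !![0, 0; 1, 0]

/-- The nilpotent `e₁ ↦ e₀`. -/
def E2t (F : Type*) [Field F] : Matrix (Fin 2) (Fin 2) F := !![0, 1; 0, 0]

/-- Standard Gram matrix for `k = 4` (characteristic 2): `ω ⊗ ω`, basis `e_a ⊗ e_b` in
lexicographic order. -/
def G4 (F : Type*) [Field F] : Matrix (Fin 4) (Fin 4) F :=
  !![0, 0, 0, 1; 0, 0, 1, 0; 0, 1, 0, 0; 1, 0, 0, 0]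

/-- `E ⊗ 1`. -/
def Ca (F : Type*) [Field F] : Matrix (Fin 4) (Fin 4) F :=
  !![0, 0, 0, 0; 0, 0, 0, 0; 1, 0, 0, 0; 0, 1, 0, 0]

/-- `Eᵀ ⊗ 1`. -/
def Aa (F : Type*) [Field F] : Matrix (Fin 4) (Fin 4) F :=
  !![0, 0, 1, 0; 0, 0, 0, 1; 0, 0, 0, 0; 0, 0, 0, 0]

/-- `1 ⊗ E`. -/
def Cb (F : Type*) [Field F] : Matrix (Fin 4) (Fin 4) F :=
  !![0, 0, 0, 0; 1, 0, 0, 0; 0, 0, 0, 0; 0, 0, 1, 0]

/-- `1 ⊗ Eᵀ`. -/
def Ab (F : Type*) [Field F] : Matrix (Fin 4) (Fin 4) F :=
  !![0, 1, 0, 0; 0, 0, 0, 0; 0, 0, 0, 1; 0, 0, 0, 0]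

theorem facM_mul_facM (i : Fin t) (X Y : Matrix (Fin k) (Fin k) F) :
    facM i X * facM i Y = facM i (X * Y) := by
  classical
  rw [facM_eq_ptM, facM_eq_ptM, facM_eq_ptM, ptM_mul]
  congr 1
  funext l
  by_cases h : l = i
  · subst h
    simp only [Function.update_self]
  · simp only [Function.update_of_ne h, mul_one]

theorem facM_one (i : Fin t) : facM i (1 : Matrix (Fin k) (Fin k) F) = 1 := by
  classical
  rw [facM_eq_ptM]
  have h : Function.update (fun _ : Fin t => (1 : Matrix (Fin k) (Fin k) F)) i 1 = fun _ => 1 := by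
    funext l
    by_cases h : l = i
    · subst h
      simp only [Function.update_self]
    · simp only [Function.update_of_ne h]
  rw [h, ptM_one]

end Cfsg.Agent.Helper96.CW
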