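import Mathlib
import Cfsg.Prelude.Def_GeometricClasses
import Cfsg.Prelude.Def_Classical
import Cfsg.Agent.Helper13.TJDec
import Cfsg.Agent.Helper33.OType
import Cfsg.Agent.Helper31.OHOFIX
import Cfsg.Agent.Helper35.S88Defs
import Cfsg.Agent.Helper35.TSSTDP
import Cfsg.Agent.Helper80.TSNONSCAL
import Cfsg.Agent.Helper97.OForm
import Cfsg.Agent.Helper96.OHDefs
import Cfsg.Agent.Helper96.OHAux
import Cfsg.Agent.Helper96.OHAll

set_option autoImplicit false
set_option linter.unusedSectionVars false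
set_option linter.unusedVariables false

/-!
# CALL S88 (row S5988): the BAD stages for odd `r ≠ p`, generic cores (helper96)

Generic nondegenerate `Q` of plus type on `ι → F`, `card ι = 2 d`, `F` finite, ALL characteristics;
`T` an isometry with `T ^ r = 1`.
* `s88g_ker_split`, `s88g_ker_type_odd`, `s88g_ker_type_even`: the fixed space `ker (T - 1)` and
  its type;
* `s88g_inv`: an invariant nondegenerate `W` is `(W ⊓ ker (T - 1)) ⊥ PW`, `finrank PW = c s`;
* `s88g_odd_bad_core`, `s88g_even_bad_core`: what an invariant ELLIPTIC `m`-space of an isometry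
  with `finrank (ker (T - 1)) = (2 d) % c` forces;
* `s88g_even_bad_arith`: the pure-Nat step of OEB;
* `s88_odd_bad_of`, `s88_even_bad_of`: the stages OOB / OEB of `tools/calls/S88Skel.lean.txt` with
  the three inputs (an isometry of order `r` exists, the bad element of `Ω`, non-divisibility) as
  hypotheses.
-/

namespace Cfsg.Agent.Helper96.S88B

open Module Polynomial Cfsg Cfsg.Geo
open Cfsg.Agent.Helper13.TIu Cfsg.Agent.Helper96.OH Cfsg.Agent.Helper96.OHAll
open Cfsg.Agent.Helper96.OHAux Cfsg.Agent.Helper35.S88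
open scoped MatrixGroups

variable {ι : Type} [Fintype ι] [DecidableEq ι] {F : Type*} [Field F] (Q : (ι → F) → F)

/-- the fixed space and its invariant complement. -/
theorem s88g_ker_split [Fintype F] (hQ : IsNondegenerateQuadraticForm Q)
    (T : Module.End F (ι → F)) (hT : OPres Q T) (r : ℕ) [Fact r.Prime] (hr2 : 2 < r)
    (hrF : (r : F) ≠ 0) (hTr : T ^ r = 1) (i c : ℕ)
    (hi : i = orderOf ((Fintype.card F : ℕ) : ZMod r)) (hc : c = if Even i then i else 2 * i) :
    ∃ (ρ : ℕ) (P : Submodule F (ι → F)), finrank F P = c * ρ ∧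
      finrank F P + finrank F (LinearMap.ker (T - 1)) = Fintype.card ι ∧
      ONd Q (LinearMap.ker (T - 1)) ∧ ONd Q P ∧ OOrth Q (LinearMap.ker (T - 1)) P ∧
      LinearMap.ker (T - 1) ⊔ P = ⊤ ∧ P.map T ≤ P ∧ P ⊓ LinearMap.ker (T - 1) = ⊥ := by
  have hrpr : r.Prime := Fact.out
  obtain ⟨hFx, P, -, hPT, hP, hPk, hsup, horth, hdim⟩ :=
    Cfsg.Agent.Helper31.OH5992.o_fix Q hQ T hT r hrpr.pos hrF hTr ⊤ le_top (ond_top Q hQ)
  have hdvd := oall_cdvd Q hQ T hT r hr2 hrF hTr i c hi hc ⊤ le_top (ond_top Q hQ)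
  rw [top_inf_eq] at hFx hsup horth hdim hdvd
  have hn : finrank F P + finrank F (LinearMap.ker (T - 1)) = Fintype.card ι := by
    rw [hdim, finrank_top, Module.finrank_fintype_fun_eq_card]
  have hdvdP : c ∣ finrank F P := by
    have h3 : finrank F (⊤ : Submodule F (ι → F)) - finrank F (LinearMap.ker (T - 1)) =
        finrank F P := by omega
    rw [← h3]
    exact hdvd
  obtain ⟨ρ, hρ⟩ := hdvdP
  exact ⟨ρ, P, hρ, hn, hFx, hP, horth, hsup, hPT, hPk⟩

/-- decomposition of an invariant nondegenerate subspace. -/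
theorem s88g_inv [Fintype F] (hQ : IsNondegenerateQuadraticForm Q)
    (T : Module.End F (ι → F)) (hT : OPres Q T) (r : ℕ) [Fact r.Prime] (hr2 : 2 < r)
    (hrF : (r : F) ≠ 0) (hTr : T ^ r = 1) (i c : ℕ)
    (hi : i = orderOf ((Fintype.card F : ℕ) : ZMod r)) (hc : c = if Even i then i else 2 * i)
    (W : Submodule F (ι → F)) (hWT : W.map T ≤ W) (hW : ONd Q W) :
    ∃ (s : ℕ) (PW : Submodule F (ι → F)), PW ≤ W ∧ PW.map T ≤ PW ∧ ONd Q PW ∧
      PW ⊓ LinearMap.ker (T - 1) = ⊥ ∧ finrank F PW = c * s ∧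
      ONd Q (W ⊓ LinearMap.ker (T - 1)) ∧ OOrth Q (W ⊓ LinearMap.ker (T - 1)) PW ∧
      (W ⊓ LinearMap.ker (T - 1)) ⊔ PW = W ∧
      finrank F PW + finrank F (W ⊓ LinearMap.ker (T - 1) : Submodule F (ι → F)) =
        finrank F W := by
  have hrpr : r.Prime := Fact.out
  obtain ⟨hFx, PW, hPWW, hPT, hP, hPk, hsup, horth, hdim⟩ :=
    Cfsg.Agent.Helper31.OH5992.o_fix Q hQ T hT r hrpr.pos hrF hTr W hWT hW
  have hdvd := oall_cdvd Q hQ T hT r hr2 hrF hTr i c hi hc PW hPT hP
  rw [hPk, finrank_bot, Nat.sub_zero] at hdvd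
  obtain ⟨s, hs⟩ := hdvd
  exact ⟨s, PW, hPWW, hPT, hP, hPk, hs, hFx, horth, hsup, hdim⟩

/-- type of the fixed space, `i` odd. -/
theorem s88g_ker_type_odd [Fintype F] (hQ : IsNondegenerateQuadraticForm Q) (d : ℕ)
    (hcard : Fintype.card ι = 2 * d) (hpl : OPl Q ⊤)
    (T : Module.End F (ι → F)) (hT : OPres Q T) (r : ℕ) [Fact r.Prime] (hr2 : 2 < r)
    (hrF : (r : F) ≠ 0) (hTr : T ^ r = 1) (i : ℕ)
    (hi : i = orderOf ((Fintype.card F : ℕ) : ZMod r)) (hodd : Odd i) :
    OPl Q (LinearMap.ker (T - 1)) := by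
  have hc : 2 * i = if Even i then i else 2 * i := by
    rw [if_neg (Nat.not_even_iff_odd.mpr hodd)]
  obtain ⟨ρ, P, hρ, hn, hFx, hP, horth, hsup, hPT, hPk⟩ :=
    s88g_ker_split Q hQ T hT r hr2 hrF hTr i (2 * i) hi hc
  have hPpl : OPl Q P :=
    oall_type_odd Q hQ T hT r hr2 hrF hTr (by rw [← hi]; exact hodd) P hPT hP hPk
  have hPeven : Even (finrank F P) := by
    rw [hρ, mul_assoc]
    exact even_two_mul _
  have hFxeven : Even (finrank F (LinearMap.ker (T - 1))) := by
    have h1 : Even (finrank F P + finrank F (LinearMap.ker (T - 1))) := by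
      rw [hn, hcard]
      exact even_two_mul d
    exact (Nat.even_add.mp h1).mp hPeven
  have h1 := Cfsg.Agent.Helper33.o_type_mul Q hQ _ P hFx hP horth hFxeven hPeven
  rw [hsup] at h1
  exact (h1.mp hpl).mpr hPpl

/-- type of the fixed space, `i` even. -/
theorem s88g_ker_type_even [Fintype F] (hQ : IsNondegenerateQuadraticForm Q) (d : ℕ)
    (hcard : Fintype.card ι = 2 * d) (hpl : OPl Q ⊤)
    (T : Module.End F (ι → F)) (hT : OPres Q T) (r : ℕ) [Fact r.Prime] (hr2 : 2 < r)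
    (hrF : (r : F) ≠ 0) (hTr : T ^ r = 1) (i : ℕ)
    (hi : i = orderOf ((Fintype.card F : ℕ) : ZMod r)) (heven : Even i) :
    Even (finrank F (LinearMap.ker (T - 1))) ∧
    (OPl Q (LinearMap.ker (T - 1)) ↔
      Even ((2 * d - finrank F (LinearMap.ker (T - 1))) / i)) := by
  have hc : i = if Even i then i else 2 * i := by rw [if_pos heven]
  have hi0 : 0 < i := by
    rw [hi]
    exact Cfsg.Agent.Helper13.TIsp.ti_ord_pos_of_ne r hrF
  obtain ⟨ρ, P, hρ, hn, hFx, hP, horth, hsup, hPT, hPk⟩ :=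
    s88g_ker_split Q hQ T hT r hr2 hrF hTr i i hi hc
  have hPty : OPl Q P ↔ Even ρ := by
    have h := oall_type_even Q hQ T hT r hr2 hrF hTr (by rw [← hi]; exact heven) P hPT hP hPk
    rw [← hi, hρ, Nat.mul_div_cancel_left _ hi0] at h
    exact h
  have hPeven : Even (finrank F P) := by
    rw [hρ]
    exact heven.mul_right ρ
  have hFxeven : Even (finrank F (LinearMap.ker (T - 1))) := by
    have h1 : Even (finrank F P + finrank F (LinearMap.ker (T - 1))) := by
      rw [hn, hcard]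
      exact even_two_mul d
    exact (Nat.even_add.mp h1).mp hPeven
  have h1 := Cfsg.Agent.Helper33.o_type_mul Q hQ _ P hFx hP horth hFxeven hPeven
  rw [hsup] at h1
  have h3 : 2 * d - finrank F (LinearMap.ker (T - 1)) = i * ρ := by omega
  rw [h3, Nat.mul_div_cancel_left _ hi0]
  exact ⟨hFxeven, (h1.mp hpl).trans hPty⟩

/-- OOB core, generic (`i` odd): an invariant elliptic `m`-space of an isometry with fixed space of
dimension `(2 d) % (2 i)`. -/
theorem s88g_odd_bad_core [Fintype F] (hQ : IsNondegenerateQuadraticForm Q) (d m : ℕ)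
    (hcard : Fintype.card ι = 2 * d) (hpl : OPl Q ⊤) (hme : Even m)
    (T : Module.End F (ι → F)) (hT : OPres Q T) (r : ℕ) [Fact r.Prime] (hr2 : 2 < r)
    (hrF : (r : F) ≠ 0) (hTr : T ^ r = 1) (i : ℕ)
    (hi : i = orderOf ((Fintype.card F : ℕ) : ZMod r)) (hodd : Odd i)
    (hk : finrank F (LinearMap.ker (T - 1)) = (2 * d) % (2 * i))
    (W : Submodule F (ι → F)) (hW : finrank F W = m ∧ ONd Q W ∧ ¬ OPl Q W)
    (hWT : W.map T ≤ W) :
    0 < m % (2 * i) ∧ m % (2 * i) < (2 * d) % (2 * i) := by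
  have hc : 2 * i = if Even i then i else 2 * i := by
    rw [if_neg (Nat.not_even_iff_odd.mpr hodd)]
  have hi0 : 0 < i := by
    obtain ⟨k, hk⟩ := hodd
    omega
  obtain ⟨hWm, hWnd, hWty⟩ := hW
  obtain ⟨s, PW, hPWW, hPT, hP, hPk, hPdim, hFx, horth, hsup, hdim⟩ :=
    s88g_inv Q hQ T hT r hr2 hrF hTr i (2 * i) hi hc W hWT hWnd
  have hPWpl : OPl Q PW :=
    oall_type_odd Q hQ T hT r hr2 hrF hTr (by rw [← hi]; exact hodd) PW hPT hP hPk
  have hPeven : Even (finrank F PW) := by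
    rw [hPdim, mul_assoc]
    exact even_two_mul _
  have hweven : Even (finrank F (W ⊓ LinearMap.ker (T - 1) : Submodule F (ι → F))) := by
    have h1 : Even (finrank F PW +
        finrank F (W ⊓ LinearMap.ker (T - 1) : Submodule F (ι → F))) := by
      rw [hdim, hWm]
      exact hme
    exact (Nat.even_add.mp h1).mp hPeven
  have hmul := Cfsg.Agent.Helper33.o_type_mul Q hQ _ PW hFx hP horth hweven hPeven
  rw [hsup] at hmul
  have hwty : ¬ OPl Q (W ⊓ LinearMap.ker (T - 1)) := fun h =>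
    hWty (hmul.mpr ⟨fun _ => hPWpl, fun _ => h⟩)
  have hwle : finrank F (W ⊓ LinearMap.ker (T - 1) : Submodule F (ι → F)) ≤
      finrank F (LinearMap.ker (T - 1)) := Submodule.finrank_mono inf_le_right
  have hklt : (2 * d) % (2 * i) < 2 * i := Nat.mod_lt _ (by omega)
  have hmod : m % (2 * i) = finrank F (W ⊓ LinearMap.ker (T - 1) : Submodule F (ι → F)) := by
    rw [← hWm, ← hdim, hPdim, Nat.mul_add_mod]
    exact Nat.mod_eq_of_lt (by omega)
  rw [hmod]
  constructor
  · rw [Nat.pos_iff_ne_zero]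
    intro h0
    apply hwty
    rw [Submodule.finrank_eq_zero.mp h0]
    exact Cfsg.Agent.Helper33.o_plus_bot Q hQ
  · refine lt_of_le_of_ne (by rw [← hk]; exact hwle) ?_
    intro heq
    apply hwty
    have h1 : W ⊓ LinearMap.ker (T - 1) = LinearMap.ker (T - 1) :=
      Submodule.eq_of_le_of_finrank_eq inf_le_right (by rw [heq, hk])
    rw [h1]
    exact s88g_ker_type_odd Q hQ d hcard hpl T hT r hr2 hrF hTr i hi hodd

/-- OEB core, generic (`i` even): an invariant elliptic `m`-space of an isometry with fixed space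
of dimension `(2 d) % i`. -/
theorem s88g_even_bad_core [Fintype F] (hQ : IsNondegenerateQuadraticForm Q) (d m : ℕ)
    (hcard : Fintype.card ι = 2 * d) (hpl : OPl Q ⊤) (hme : Even m)
    (T : Module.End F (ι → F)) (hT : OPres Q T) (r : ℕ) [Fact r.Prime] (hr2 : 2 < r)
    (hrF : (r : F) ≠ 0) (hTr : T ^ r = 1) (i : ℕ)
    (hi : i = orderOf ((Fintype.card F : ℕ) : ZMod r)) (heven : Even i)
    (hk : finrank F (LinearMap.ker (T - 1)) = (2 * d) % i)
    (W : Submodule F (ι → F)) (hW : finrank F W = m ∧ ONd Q W ∧ ¬ OPl Q W)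
    (hWT : W.map T ≤ W) :
    (0 < m % i ∧ m % i < (2 * d) % i) ∨ (m % i = 0 ∧ Odd (m / i)) ∨
      (0 < m % i ∧ m % i = (2 * d) % i ∧ Odd (m / i + (2 * d) / i)) := by
  have hc : i = if Even i then i else 2 * i := by rw [if_pos heven]
  have hi0 : 0 < i := by
    rw [hi]
    exact Cfsg.Agent.Helper13.TIsp.ti_ord_pos_of_ne r hrF
  obtain ⟨hWm, hWnd, hWty⟩ := hW
  obtain ⟨s, PW, hPWW, hPT, hP, hPk, hPdim, hFx, horth, hsup, hdim⟩ :=
    s88g_inv Q hQ T hT r hr2 hrF hTr i i hi hc W hWT hWnd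
  have hPWty : OPl Q PW ↔ Even s := by
    have h := oall_type_even Q hQ T hT r hr2 hrF hTr (by rw [← hi]; exact heven) PW hPT hP hPk
    rw [← hi, hPdim, Nat.mul_div_cancel_left _ hi0] at h
    exact h
  have hPeven : Even (finrank F PW) := by
    rw [hPdim]
    exact heven.mul_right s
  have hweven : Even (finrank F (W ⊓ LinearMap.ker (T - 1) : Submodule F (ι → F))) := by
    have h1 : Even (finrank F PW +
        finrank F (W ⊓ LinearMap.ker (T - 1) : Submodule F (ι → F))) := by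
      rw [hdim, hWm]
      exact hme
    exact (Nat.even_add.mp h1).mp hPeven
  have hmul := Cfsg.Agent.Helper33.o_type_mul Q hQ _ PW hFx hP horth hweven hPeven
  rw [hsup] at hmul
  have hwle : finrank F (W ⊓ LinearMap.ker (T - 1) : Submodule F (ι → F)) ≤
      finrank F (LinearMap.ker (T - 1)) := Submodule.finrank_mono inf_le_right
  have hklt : (2 * d) % i < i := Nat.mod_lt _ hi0
  have hwlt : finrank F (W ⊓ LinearMap.ker (T - 1) : Submodule F (ι → F)) < i := by omega
  have hmod : m % i = finrank F (W ⊓ LinearMap.ker (T - 1) : Submodule F (ι → F)) := by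
    rw [← hWm, ← hdim, hPdim, Nat.mul_add_mod]
    exact Nat.mod_eq_of_lt hwlt
  have hdiv : m / i = s := by
    rw [← hWm, ← hdim, hPdim, Nat.mul_add_div hi0, Nat.div_eq_of_lt hwlt, add_zero]
  rw [hmod, hdiv]
  rcases Nat.eq_zero_or_pos (finrank F (W ⊓ LinearMap.ker (T - 1) : Submodule F (ι → F)))
    with h0 | hpos
  · right; left
    refine ⟨h0, ?_⟩
    rw [← Nat.not_even_iff_odd]
    intro hs
    apply hWty
    refine hmul.mpr ⟨fun _ => hPWty.mpr hs, fun _ => ?_⟩
    rw [Submodule.finrank_eq_zero.mp h0]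
    exact Cfsg.Agent.Helper33.o_plus_bot Q hQ
  · rcases lt_or_eq_of_le (show finrank F (W ⊓ LinearMap.ker (T - 1) : Submodule F (ι → F)) ≤
        (2 * d) % i by rw [← hk]; exact hwle) with hlt | heq
    · exact Or.inl ⟨hpos, hlt⟩
    · right; right
      refine ⟨hpos, heq, ?_⟩
      have h1 : W ⊓ LinearMap.ker (T - 1) = LinearMap.ker (T - 1) :=
        Submodule.eq_of_le_of_finrank_eq inf_le_right (by rw [heq, hk])
      obtain ⟨-, hkty⟩ := s88g_ker_type_even Q hQ d hcard hpl T hT r hr2 hrF hTr i hi heven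
      have h3 : (2 * d - finrank F (LinearMap.ker (T - 1))) / i = (2 * d) / i := by
        rw [hk]
        have h4 := Nat.div_add_mod (2 * d) i
        have h5 : 2 * d - (2 * d) % i = i * ((2 * d) / i) := by omega
        rw [h5, Nat.mul_div_cancel_left _ hi0]
      rw [h3] at hkty
      rw [h1] at hmul
      -- `¬ (Even n' ↔ Even s)`
      have hne : ¬ (Even ((2 * d) / i) ↔ Even s) := fun h =>
        hWty (hmul.mpr (hkty.trans (h.trans hPWty.symm)))
      rw [Nat.odd_add]
      constructor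
      · intro hs
        by_contra hn
        exact hne ⟨fun h => absurd h hn, fun h => absurd hs (Nat.not_odd_iff_even.mpr h)⟩
      · intro hn
        by_contra hs
        exact hne ⟨fun _ => Nat.not_odd_iff_even.mp hs, fun _ => hn⟩

/-- the pure-Nat step of OEB. -/
theorem s88g_even_bad_arith (d m i : ℕ) (hi0 : 0 < i)
    (hcore : (0 < (2 * d) % i ∨ Even ((2 * d) / i)) →
      ((0 < m % i ∧ m % i < (2 * d) % i) ∨ (m % i = 0 ∧ Odd (m / i)) ∨
        (0 < m % i ∧ m % i = (2 * d) % i ∧ Odd (m / i + (2 * d) / i))))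
    (hndiv : m < i → (m < (2 * d) % i ∨ (m = (2 * d) % i ∧ Odd ((2 * d) / i))) → False) :
    ((2 * d) % i = 0 ∧ (Odd ((2 * d) / i) ∨ (m % i = 0 ∧ Odd (m / i)))) ∨
      (i ≤ m ∧ ((0 < m % i ∧ m % i < (2 * d) % i) ∨
        (0 < m % i ∧ m % i = (2 * d) % i ∧ Odd ((2 * d + m - 2 * ((2 * d) % i)) / i)) ∨
        (m % i = 0 ∧ 0 < (2 * d) % i ∧ Odd (m / i)))) := by
  by_cases hadm : 0 < (2 * d) % i ∨ Even ((2 * d) / i)
  · rcases hcore hadm with ⟨h1, h2⟩ | ⟨h1, h2⟩ | ⟨h1, h2, h3⟩
    · by_cases him : i ≤ m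
      · exact Or.inr ⟨him, Or.inl ⟨h1, h2⟩⟩
      · exfalso
        have hlt : m < i := by omega
        rw [Nat.mod_eq_of_lt hlt] at h2
        exact hndiv hlt (Or.inl h2)
    · have him : i ≤ m := by
        by_contra hcon
        have hlt : m < i := by omega
        rw [Nat.div_eq_of_lt hlt] at h2
        exact absurd h2 (by decide)
      by_cases hk0 : (2 * d) % i = 0
      · exact Or.inl ⟨hk0, Or.inr ⟨h1, h2⟩⟩
      · exact Or.inr ⟨him, Or.inr (Or.inr ⟨h1, by omega, h2⟩)⟩
    · by_cases him : i ≤ m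
      · refine Or.inr ⟨him, Or.inr (Or.inl ⟨h1, h2, ?_⟩)⟩
        have hsum : (2 * d + m - 2 * ((2 * d) % i)) / i = (2 * d) / i + m / i := by
          have h4 := Nat.div_add_mod (2 * d) i
          have h5 := Nat.div_add_mod m i
          have h6 : 2 * d + m - 2 * ((2 * d) % i) = i * ((2 * d) / i + m / i) := by
            rw [Nat.mul_add]; omega
          rw [h6, Nat.mul_div_cancel_left _ hi0]
        rw [hsum, add_comm]
        exact h3
      · exfalso
        have hlt : m < i := by omega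
        rw [Nat.mod_eq_of_lt hlt] at h2
        rw [Nat.div_eq_of_lt hlt, zero_add] at h3
        exact hndiv hlt (Or.inr ⟨h2, h3⟩)
  · push Not at hadm
    exact Or.inl ⟨by omega, Or.inl (Nat.not_even_iff_odd.mp hadm.2), ⟩

end Cfsg.Agent.Helper96.S88B
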