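import Mathlib
import Cfsg.Prelude.Def_GeometricClasses
import Cfsg.Prelude.Def_Classical
import Cfsg.Agent.Helper35.S88Defs
import Cfsg.Agent.Helper35.TSSTDP
import Cfsg.Agent.Helper80.TSNONSCAL
import Cfsg.Agent.Helper97.OForm
import Cfsg.Agent.Helper96.OHAux
import Cfsg.Agent.Helper96.S88Bad

set_option autoImplicit false
set_option linter.unusedSectionVars false
set_option linter.unusedVariables false

/-!
# CALL S88 (row S5988): the stages OOB / OEB with their three inputs as hypotheses (helper96)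

`s88_odd_bad_of`, `s88_even_bad_of`: the conclusions of `s88_odd_bad` / `s88_even_bad`
(`tools/calls/S88Skel.lean.txt`) from `hall`, given
* `hbad`: an element `x ∈ Ω`, `x ^ r = 1`, `x ≠ 1` whose fixed space has dimension `(2 d) % c`
  (for `i` even only when `0 < (2 d) % i ∨ Even ((2 d) / i)`), and
* `hndiv`: the non-divisibility statement NDIV already combined with `hrΩ`.
-/

namespace Cfsg.Agent.Helper96.S88

open Module Cfsg Cfsg.Geo Cfsg.Agent.Helper35.S88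
open Cfsg.Agent.Helper96.OH Cfsg.Agent.Helper96.OHAux Cfsg.Agent.Helper96.S88B
open scoped MatrixGroups

variable {F : Type*} [Field F] [Fintype F]

/-- OOB from the bad element and NDIV. -/
theorem s88_odd_bad_of {p : ℕ} [Fact p.Prime] [CharP F p] {q : ℕ} (hq : Fintype.card F = q)
    (d m : ℕ) (hme : Even m) (r : ℕ) [Fact r.Prime]
    (hr2 : 2 < r) (hrp : r ≠ p) (i : ℕ) (hi : i = orderOf (q : ZMod r)) (hodd : Odd i)
    (hbad : ∃ x : GL (Fin d ⊕ Fin d) F, x ∈ Cfsg.Geo.omegaGL (Cfsg.quadFormPlus d F) ∧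
      x ^ r = 1 ∧ x ≠ 1 ∧
      finrank F (LinearMap.ker (Matrix.toLin'
        (x : Matrix (Fin d ⊕ Fin d) (Fin d ⊕ Fin d) F) - 1)) = (2 * d) % (2 * i))
    (hndiv : m < 2 * i → m < (2 * d) % (2 * i) → False)
    (hall : AllEll (Cfsg.quadFormPlus d F) r m) :
    2 * i ≤ m ∧ 0 < m % (2 * i) ∧ m % (2 * i) < (2 * d) % (2 * i) := by
  classical
  subst hq
  have hrpr : r.Prime := Fact.out
  have hrodd : Odd r := hrpr.odd_of_ne_two (by omega)
  have hrF : (r : F) ≠ 0 := oh_rF p r hrp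
  have hQ := (Cfsg.Agent.Helper35.TS5973.ts_std_plus (F := F) d).1
  have hpl := (Cfsg.Agent.Helper35.TS5973.ts_std_plus (F := F) d).2
  have hcard : Fintype.card (Fin d ⊕ Fin d) = 2 * d := by simp; omega
  obtain ⟨x, hx, hxr, hx1, hxk⟩ := hbad
  have hxiso := Cfsg.Agent.Helper97.Gen.omegaGL_le _ hx
  have hns := Cfsg.Agent.Helper80.TS5973.ts_nonscalar (Cfsg.quadFormPlus d F) hQ r hrodd x hxiso
    hxr hx1
  obtain ⟨W, hW, hWT⟩ := hall x hx ⟨1, by rw [hxr, one_smul]; rfl⟩ hns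
  have hT := oh_opres_toLin' (Cfsg.quadFormPlus d F) x hxiso
  have hTr : Matrix.toLin' (x : Matrix (Fin d ⊕ Fin d) (Fin d ⊕ Fin d) F) ^ r = 1 := by
    have h2 : (x : Matrix (Fin d ⊕ Fin d) (Fin d ⊕ Fin d) F) ^ r = 1 := by
      rw [← Units.val_pow_eq_pow_val, hxr]; rfl
    rw [oh_toLin'_pow_eq, h2, Matrix.toLin'_one]; rfl
  obtain ⟨h1, h2⟩ := s88g_odd_bad_core (Cfsg.quadFormPlus d F) hQ d m hcard hpl hme _ hT r hr2
    hrF hTr i hi hodd hxk W hW hWT
  refine ⟨?_, h1, h2⟩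
  by_contra hcon
  have hlt : m < 2 * i := by omega
  rw [Nat.mod_eq_of_lt hlt] at h2
  exact hndiv hlt h2

/-- OEB from the bad element and NDIV. -/
theorem s88_even_bad_of {p : ℕ} [Fact p.Prime] [CharP F p] {q : ℕ} (hq : Fintype.card F = q)
    (d m : ℕ) (hme : Even m) (r : ℕ) [Fact r.Prime]
    (hr2 : 2 < r) (hrp : r ≠ p) (i : ℕ) (hi : i = orderOf (q : ZMod r)) (heven : Even i)
    (hbad : (0 < (2 * d) % i ∨ Even ((2 * d) / i)) →
      ∃ x : GL (Fin d ⊕ Fin d) F, x ∈ Cfsg.Geo.omegaGL (Cfsg.quadFormPlus d F) ∧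
      x ^ r = 1 ∧ x ≠ 1 ∧
      finrank F (LinearMap.ker (Matrix.toLin'
        (x : Matrix (Fin d ⊕ Fin d) (Fin d ⊕ Fin d) F) - 1)) = (2 * d) % i)
    (hndiv : m < i → (m < (2 * d) % i ∨ (m = (2 * d) % i ∧ Odd ((2 * d) / i))) → False)
    (hall : AllEll (Cfsg.quadFormPlus d F) r m) :
    ((2 * d) % i = 0 ∧ (Odd ((2 * d) / i) ∨ (m % i = 0 ∧ Odd (m / i)))) ∨
      (i ≤ m ∧ ((0 < m % i ∧ m % i < (2 * d) % i) ∨
        (0 < m % i ∧ m % i = (2 * d) % i ∧ Odd ((2 * d + m - 2 * ((2 * d) % i)) / i)) ∨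
        (m % i = 0 ∧ 0 < (2 * d) % i ∧ Odd (m / i)))) := by
  classical
  subst hq
  have hrpr : r.Prime := Fact.out
  have hrodd : Odd r := hrpr.odd_of_ne_two (by omega)
  have hrF : (r : F) ≠ 0 := oh_rF p r hrp
  have hQ := (Cfsg.Agent.Helper35.TS5973.ts_std_plus (F := F) d).1
  have hpl := (Cfsg.Agent.Helper35.TS5973.ts_std_plus (F := F) d).2
  have hcard : Fintype.card (Fin d ⊕ Fin d) = 2 * d := by simp; omega
  have hi0 : 0 < i := by
    rw [hi]
    exact Cfsg.Agent.Helper13.TIsp.ti_ord_pos_of_ne r hrF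
  apply s88g_even_bad_arith d m i hi0 ?_ hndiv
  intro hadm
  obtain ⟨x, hx, hxr, hx1, hxk⟩ := hbad hadm
  have hxiso := Cfsg.Agent.Helper97.Gen.omegaGL_le _ hx
  have hns := Cfsg.Agent.Helper80.TS5973.ts_nonscalar (Cfsg.quadFormPlus d F) hQ r hrodd x hxiso
    hxr hx1
  obtain ⟨W, hW, hWT⟩ := hall x hx ⟨1, by rw [hxr, one_smul]; rfl⟩ hns
  have hT := oh_opres_toLin' (Cfsg.quadFormPlus d F) x hxiso
  have hTr : Matrix.toLin' (x : Matrix (Fin d ⊕ Fin d) (Fin d ⊕ Fin d) F) ^ r = 1 := by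
    have h2 : (x : Matrix (Fin d ⊕ Fin d) (Fin d ⊕ Fin d) F) ^ r = 1 := by
      rw [← Units.val_pow_eq_pow_val, hxr]; rfl
    rw [oh_toLin'_pow_eq, h2, Matrix.toLin'_one]; rfl
  exact s88g_even_bad_core (Cfsg.quadFormPlus d F) hQ d m hcard hpl hme _ hT r hr2 hrF hTr i hi
    heven hxk W hW hWT

end Cfsg.Agent.Helper96.S88
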