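import Mathlib
import Cfsg.Prelude.Def_GeometricClasses
import Cfsg.Prelude.Def_Classical
import Cfsg.Agent.Helper58.TSDefs
import Cfsg.Agent.Helper43.PrimeOrdO3
import Cfsg.Agent.Helper33.OType
import Cfsg.Agent.Helper43.OrthStd
import Cfsg.Agent.Helper43.TBXISO
import Cfsg.Agent.Helper35.TBXODD
import Cfsg.Agent.Helper35.TBFULL
import Cfsg.Agent.Helper35.TSSTDP
import Cfsg.Agent.Helper37.TBBLKO
import Cfsg.Agent.Helper37.TBBLKE
import Cfsg.Agent.Helper98.TBSPLIT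
import Cfsg.Agent.Helper31.TBPRODND
import Cfsg.Agent.Helper93.TBTYPEPROD

set_option autoImplicit false
set_option linter.unusedSectionVars false
set_option linter.unusedVariables false

/-!
# CALL S88 (row S5988): the BAD elements of `Ω⁺_{2d}(q)` for odd `r ≠ p` (helper96)

`s88_bad_odd`, `s88_bad_even`: an element `x ∈ Ω(quadFormPlus d F)` with `x ^ r = 1`, `x ≠ 1`
whose fixed space has dimension `(2 d) % (2 i)` (`i` odd) resp. `(2 d) % i` (`i` even, when
`0 < (2 d) % i` or `(2 d) / i` is even).  Built from the TB pieces (`tb_blk_odd`, `tb_blk_even`,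
`tb_fixed_space`, `tb_prod_nd`, `tb_type_prod`, `tb_xiso`, `tb_xodd`) as in `tb_full` / `tb_xfer`,
keeping track of `ker (T - 1)` instead of the totally singular subspaces.
-/

namespace Cfsg.Agent.Helper96.S88E

open Module Polynomial Cfsg Cfsg.Geo Cfsg.Agent.Helper58.TS
open Cfsg.Agent.Helper43 Cfsg.Agent.Helper43.OrthEven Cfsg.Agent.Helper43.CycFactors
  Cfsg.Agent.Helper43.PrimeOrdMat
open scoped MatrixGroups

universe u

section models

variable {F : Type u} [Field F] [Fintype F]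

/-- glue a fixed space of dimension `2 k₀` and type defect `ε₀` to a block; the fixed space of
the result has dimension `2 k₀`. -/
theorem s88_full_ker (r : ℕ) [Fact r.Prime] (hrF : (r : F) ≠ 0) {V₁ : Type u} [AddCommGroup V₁]
    [Module F V₁] [FiniteDimensional F V₁] (Q₁ : QuadraticForm F V₁) (T₁ : Module.End F V₁)
    (hnd : PolarNondeg Q₁) (hT : ∀ v, Q₁ (T₁ v) = Q₁ v) (hcyc : aeval T₁ (cyclotomic r F) = 0)
    (l : ℕ) (hl : 1 ≤ l) (hV₁ : finrank F V₁ = 2 * l) (k₀ ε₀ : ℕ) (hε : ε₀ ≤ 1) (hεk : ε₀ ≤ k₀) :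
    ∃ (V' : Type u) (_ : AddCommGroup V') (_ : Module F V') (_ : FiniteDimensional F V')
      (Q' : QuadraticForm F V') (T : Module.End F V'),
      PolarNondeg Q' ∧ finrank F V' = 2 * (k₀ + l) ∧
      (HasTS Q' (k₀ + l) ↔ (ε₀ = 0 ↔ HasTS Q₁ l)) ∧ (∀ v, Q' (T v) = Q' v) ∧ T ^ r = 1 ∧ T ≠ 1 ∧
      finrank F (LinearMap.ker (T - 1)) = 2 * k₀ := by
  classical
  have hrp : r.Prime := Fact.out
  obtain ⟨V₀, _, _, _, Q₀, hnd₀, hdim₀, htype₀, -⟩ :=
    Cfsg.Agent.Helper35.TB.tb_fixed_space (F := F) k₀ ε₀ hε hεk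
  obtain ⟨T, hTdef⟩ : ∃ T : Module.End F (V₀ × V₁), T = (1 : Module.End F V₀).prodMap T₁ :=
    ⟨_, rfl⟩
  have hTapp : ∀ v : V₀ × V₁, T v = (v.1, T₁ v.2) := by
    intro v
    rw [hTdef]
    rfl
  have hXr : (X ^ r - 1 : F[X]) = cyclotomic r F * (X - 1) :=
    (cyclotomic_prime_mul_X_sub_one F r).symm
  have hT₁r : aeval T₁ (X ^ r - 1 : F[X]) = 0 := by
    rw [hXr, map_mul, hcyc, zero_mul]
  have hTr : T ^ r = 1 := by
    have h1 : aeval T (X ^ r - 1 : F[X]) = 0 := by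
      rw [hTdef, Cfsg.Agent.Helper98.TB.tb_aeval_prod, hT₁r]
      have h2 : aeval (1 : Module.End F V₀) (X ^ r - 1 : F[X]) = 0 := by simp
      rw [h2]
      exact LinearMap.prodMap_zero
    have h3 : aeval T (X ^ r - 1 : F[X]) = T ^ r - 1 := by simp
    rw [h3] at h1
    exact sub_eq_zero.mp h1
  -- `T₁` has no nonzero fixed vector
  have hfix : ∀ v : V₁, T₁ v = v → v = 0 := by
    intro v hv
    by_contra hv0
    have hev : T₁.HasEigenvector 1 v :=
      ⟨Module.End.mem_eigenspace_iff.mpr (by rw [hv, one_smul]), hv0⟩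
    have h5 := Module.End.aeval_apply_of_hasEigenvector hev (p := cyclotomic r F)
    rw [hcyc, eval_one_cyclotomic_prime, LinearMap.zero_apply] at h5
    rcases smul_eq_zero.mp h5.symm with h6 | h6
    · exact hrF h6
    · exact hv0 h6
  have hTne : T ≠ 1 := by
    intro h1
    have hnt : Nontrivial V₁ := by
      apply Module.nontrivial_of_finrank_pos (R := F)
      omega
    obtain ⟨v, hv⟩ := exists_ne (0 : V₁)
    apply hv
    apply hfix
    have h2 := hTapp (0, v)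
    rw [h1] at h2
    exact (congrArg Prod.snd h2).symm
  refine ⟨V₀ × V₁, inferInstance, inferInstance, inferInstance, Q₀.prod Q₁, T,
    Cfsg.Agent.Helper31.TB.tb_prod_nd Q₀ Q₁ hnd₀ hnd, ?_, ?_, ?_, hTr, hTne, ?_⟩
  · rw [Module.finrank_prod, hdim₀, hV₁]
    ring
  · rw [Cfsg.Agent.Helper93.TB.tb_type_prod Q₀ Q₁ hnd₀ hnd k₀ l hdim₀ hV₁, htype₀]
  · intro v
    rw [hTapp, QuadraticMap.prod_apply, QuadraticMap.prod_apply, hT]
  · have hker : LinearMap.ker (T - 1) = LinearMap.range (LinearMap.inl F V₀ V₁) := by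
      ext v
      rw [LinearMap.mem_ker, LinearMap.sub_apply, Module.End.one_apply, sub_eq_zero, hTapp]
      constructor
      · intro h
        have h2 : T₁ v.2 = v.2 := congrArg Prod.snd h
        have h3 : v.2 = 0 := hfix v.2 h2
        exact ⟨v.1, Prod.ext rfl h3.symm⟩
      · rintro ⟨a, rfl⟩
        simp
    rw [hker, LinearMap.finrank_range_of_inj LinearMap.inl_injective, hdim₀]

end models

section xfer

variable {ι : Type} [Fintype ι] [DecidableEq ι] {F : Type u} [Field F] [Fintype F]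

/-- transfer of an isometry of odd order of a model space to `Ω(Q)`, keeping the dimension of the
fixed space. -/
theorem s88_xfer_ker (Q : (ι → F) → F) (hQ : IsNondegenerateQuadraticForm Q) (d δ : ℕ)
    (hd : 4 ≤ d) (hcard : Fintype.card ι = 2 * d) (hδ : TypeDefect Q δ) (r : ℕ) (hr : Odd r)
    {V' : Type u} [AddCommGroup V'] [Module F V'] [FiniteDimensional F V']
    (Q' : QuadraticForm F V') (hnd : PolarNondeg Q') (hdim : finrank F V' = 2 * d)
    (htype : HasTS Q' d ↔ δ = 0) (T : Module.End F V') (hT : ∀ v, Q' (T v) = Q' v)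
    (hTr : T ^ r = 1) (hT1 : T ≠ 1) :
    ∃ x : GL ι F, x ∈ Cfsg.Geo.omegaGL Q ∧ x ^ r = 1 ∧ x ≠ 1 ∧
      finrank F (LinearMap.ker (Matrix.toLin' (x : Matrix ι ι F) - 1)) =
        finrank F (LinearMap.ker (T - 1)) := by
  classical
  obtain ⟨Φ, hΦ⟩ := Cfsg.Agent.Helper43.TB.tb_xiso Q hQ d δ (by omega) hcard hδ Q' hnd hdim htype
  let b : Module.Basis ι F V' := Module.Basis.ofEquivFun Φ
  obtain ⟨A, hAdef⟩ : ∃ A : Matrix ι ι F, A = LinearMap.toMatrix b b T := ⟨_, rfl⟩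
  have hAΦ : ∀ v, A.mulVec (Φ v) = Φ (T v) := by
    intro v
    rw [hAdef]
    exact LinearMap.toMatrix_mulVec_repr b b T v
  have hA : ∀ x, Q (A.mulVec x) = Q x := by
    intro x
    obtain ⟨v, rfl⟩ := Φ.surjective x
    rw [hAΦ, hΦ, hΦ, hT]
  have hAr : A ^ r = 1 := by
    rw [hAdef, ← Cfsg.Agent.Helper43.OrthStd.toMatrix_pow', hTr, LinearMap.toMatrix_one]
  have hrpos : 0 < r := hr.pos
  have hr1 : r - 1 + 1 = r := Nat.sub_add_cancel hrpos
  let g0 : GL ι F := ⟨A, A ^ (r - 1), by rw [← pow_succ', hr1, hAr], by rw [← pow_succ, hr1, hAr]⟩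
  have hg0 : g0 ∈ Cfsg.isometryGroup F Q := by
    intro u v
    exact hA u
  have hg0r : g0 ^ r = 1 := by
    apply Units.ext
    rw [Units.val_pow_eq_pow_val]
    exact hAr
  have hg01 : g0 ≠ 1 := by
    intro h1
    have h3 : A = 1 := congrArg (fun y : GL ι F => (y : Matrix ι ι F)) h1
    apply hT1
    apply (LinearMap.toMatrix b b).injective
    rw [← hAdef, h3, LinearMap.toMatrix_one]
  refine ⟨g0, Cfsg.Agent.Helper35.TB.tb_xodd Q hQ (by omega) g0 hg0 r hr hg0r, hg0r, hg01, ?_⟩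
  have hker : LinearMap.ker (Matrix.toLin' (g0 : Matrix ι ι F) - 1) =
      (LinearMap.ker (T - 1)).map (Φ : V' →ₗ[F] (ι → F)) := by
    ext w
    rw [LinearMap.mem_ker, LinearMap.sub_apply, Module.End.one_apply, sub_eq_zero,
      Matrix.toLin'_apply]
    show A.mulVec w = w ↔ _
    constructor
    · intro h
      refine ⟨Φ.symm w, ?_, Φ.apply_symm_apply w⟩
      rw [SetLike.mem_coe, LinearMap.mem_ker, LinearMap.sub_apply, Module.End.one_apply,
        sub_eq_zero]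
      apply Φ.injective
      rw [← hAΦ, LinearEquiv.apply_symm_apply]
      exact h
    · rintro ⟨v, hv, rfl⟩
      rw [SetLike.mem_coe, LinearMap.mem_ker, LinearMap.sub_apply, Module.End.one_apply,
        sub_eq_zero] at hv
      show A.mulVec (Φ v) = Φ v
      rw [hAΦ, hv]
  rw [hker, LinearEquiv.finrank_map_eq]

end xfer

section bad

variable {F : Type u} [Field F] [Fintype F]

/-- the bad element for `i` odd. -/
theorem s88_bad_odd (p : ℕ) [Fact p.Prime] [CharP F p] (d : ℕ) (hd : 4 ≤ d) (r : ℕ)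
    [Fact r.Prime] (hr2 : 2 < r) (hrp : r ≠ p) (i : ℕ)
    (hi : i = orderOf ((Fintype.card F : ℕ) : ZMod r)) (hodd : Odd i) (hid : i ≤ d) :
    ∃ x : GL (Fin d ⊕ Fin d) F, x ∈ Cfsg.Geo.omegaGL (Cfsg.quadFormPlus d F) ∧ x ^ r = 1 ∧
      x ≠ 1 ∧ finrank F (LinearMap.ker (Matrix.toLin'
        (x : Matrix (Fin d ⊕ Fin d) (Fin d ⊕ Fin d) F) - 1)) = (2 * d) % (2 * i) := by
  classical
  have hr : r.Prime := Fact.out
  have hipos : 0 < i := by
    obtain ⟨k, hk⟩ := hodd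
    omega
  have hrF : (r : F) ≠ 0 := natCast_ne_zero_of_ne (p := p) hr hrp
  have hrodd : Odd r := hr.odd_of_ne_two (by omega)
  have hodd' : Odd (orderOf ((Fintype.card F : ℕ) : ZMod r)) := by rw [← hi]; exact hodd
  have hQ := (Cfsg.Agent.Helper35.TS5973.ts_std_plus (F := F) d).1
  have hpl := (Cfsg.Agent.Helper35.TS5973.ts_std_plus (F := F) d).2
  have hcard : Fintype.card (Fin d ⊕ Fin d) = 2 * d := by simp; omega
  obtain ⟨a, ha⟩ : ∃ a, a = d / i := ⟨_, rfl⟩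
  have ha1 : 1 ≤ a := by
    rw [ha]
    exact (Nat.one_le_div_iff hipos).mpr hid
  have hdm := Nat.div_add_mod d i
  rw [← ha] at hdm
  obtain ⟨V₁, _, _, _, Q₁, T₁, hnd₁, hT₁, hcyc₁, hfr₁, hts₁, -⟩ :=
    Cfsg.Agent.Helper37.TB.tb_blk_odd (F := F) p r hr2 hrp hodd' a
  rw [← hi] at hfr₁ hts₁
  have hl : 1 ≤ i * a := Nat.mul_pos hipos ha1
  obtain ⟨V', _, _, _, Q', T, hnd', hdim', htype', hT', hTr, hT1, hker⟩ :=
    s88_full_ker r hrF Q₁ T₁ hnd₁ hT₁ hcyc₁ (i * a) hl hfr₁ (d - i * a) 0 (by omega) (by omega)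
  have hkl : d - i * a + i * a = d := by omega
  rw [hkl] at hdim' htype'
  have htype : HasTS Q' d ↔ (0 : ℕ) = 0 := by
    rw [htype']
    exact ⟨fun _ => rfl, fun _ => ⟨fun _ => hts₁, fun _ => rfl⟩⟩
  obtain ⟨x, hxΩ, hxr, hx1, hxk⟩ :=
    s88_xfer_ker (Cfsg.quadFormPlus d F) hQ d 0 hd hcard (typeDefect_plus hpl) r hrodd Q' hnd'
      hdim' htype T hT' hTr hT1
  refine ⟨x, hxΩ, hxr, hx1, ?_⟩
  rw [hxk, hker, Nat.mul_mod_mul_left]
  omega

/-- the bad element for `i` even. -/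
theorem s88_bad_even (p : ℕ) [Fact p.Prime] [CharP F p] (d : ℕ) (hd : 4 ≤ d) (r : ℕ)
    [Fact r.Prime] (hr2 : 2 < r) (hrp : r ≠ p) (i : ℕ)
    (hi : i = orderOf ((Fintype.card F : ℕ) : ZMod r)) (heven : Even i) (hid : i ≤ 2 * d)
    (hadm : 0 < (2 * d) % i ∨ Even ((2 * d) / i)) :
    ∃ x : GL (Fin d ⊕ Fin d) F, x ∈ Cfsg.Geo.omegaGL (Cfsg.quadFormPlus d F) ∧ x ^ r = 1 ∧
      x ≠ 1 ∧ finrank F (LinearMap.ker (Matrix.toLin'
        (x : Matrix (Fin d ⊕ Fin d) (Fin d ⊕ Fin d) F) - 1)) = (2 * d) % i := by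
  classical
  have hr : r.Prime := Fact.out
  have hipos : 0 < i := by rw [hi]; exact orderOf_pos_of_card (p := p) rfl hr hrp
  have hrF : (r : F) ≠ 0 := natCast_ne_zero_of_ne (p := p) hr hrp
  have hrodd : Odd r := hr.odd_of_ne_two (by omega)
  have heven' : Even (orderOf ((Fintype.card F : ℕ) : ZMod r)) := by rw [← hi]; exact heven
  have hQ := (Cfsg.Agent.Helper35.TS5973.ts_std_plus (F := F) d).1
  have hpl := (Cfsg.Agent.Helper35.TS5973.ts_std_plus (F := F) d).2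
  have hcard : Fintype.card (Fin d ⊕ Fin d) = 2 * d := by simp; omega
  obtain ⟨j, hj⟩ := heven
  have hj2 : i / 2 = j := by omega
  have hjpos : 0 < j := by omega
  have hij : i = 2 * j := by omega
  have hcardJ : (cycJ F r).card * i = r - 1 := by
    rw [hi]; exact cycJ_card_mul (p := p) rfl hr hrp
  have hJ1 : 1 ≤ (cycJ F r).card := by
    rcases Nat.eq_zero_or_pos (cycJ F r).card with h0 | h0
    · rw [h0, zero_mul] at hcardJ; omega
    · exact h0
  obtain ⟨P, hP⟩ := Finset.card_pos.mp hJ1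
  obtain ⟨A, hA⟩ : ∃ A, A = d / j := ⟨_, rfl⟩
  have hA1 : 1 ≤ A := by
    rw [hA]
    exact (Nat.one_le_div_iff hjpos).mpr (by omega)
  have hdm := Nat.div_add_mod d j
  rw [← hA] at hdm
  have hdiv : (2 * d) / i = A := by
    rw [hij, Nat.mul_div_mul_left _ _ (by norm_num : 0 < 2), hA]
  have hmod : (2 * d) % i = 2 * (d % j) := by
    rw [hij, Nat.mul_mod_mul_left]
  rw [hdiv, hmod] at hadm
  obtain ⟨V₁, _, _, _, Q₁, T₁, hnd₁, hT₁, hcyc₁, -, hfr₁, hts₁, -⟩ :=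
    Cfsg.Agent.Helper37.TB.tb_blk_even (F := F) p r hr2 hrp heven' P hP A
  rw [← hi, hj2] at hfr₁ hts₁
  have hl : 1 ≤ j * A := Nat.mul_pos hjpos hA1
  have hε1 : A % 2 ≤ 1 := by omega
  have hεk : A % 2 ≤ d - j * A := by
    rcases hadm with h | h
    · omega
    · have := Nat.even_iff.mp h
      omega
  obtain ⟨V', _, _, _, Q', T, hnd', hdim', htype', hT', hTr, hT1, hker⟩ :=
    s88_full_ker r hrF Q₁ T₁ hnd₁ hT₁ hcyc₁ (j * A) hl hfr₁ (d - j * A) (A % 2) hε1 hεk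
  have hkl : d - j * A + j * A = d := by omega
  rw [hkl] at hdim' htype'
  have htype : HasTS Q' d ↔ (0 : ℕ) = 0 := by
    rw [htype', hts₁, Nat.even_iff]
    exact ⟨fun _ => rfl, fun _ => Iff.rfl⟩
  obtain ⟨x, hxΩ, hxr, hx1, hxk⟩ :=
    s88_xfer_ker (Cfsg.quadFormPlus d F) hQ d 0 hd hcard (typeDefect_plus hpl) r hrodd Q' hnd'
      hdim' htype T hT' hTr hT1
  refine ⟨x, hxΩ, hxr, hx1, ?_⟩
  rw [hxk, hker, hmod]
  omega

end bad

end Cfsg.Agent.Helper96.S88E
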