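-- helper96 library: the invariants of a class-two core inside a symplectic group: an extraspecial
-- 2-group of symplectic type.
import Cfsg.Agent.Helper96.SpX1

set_option autoImplicit false
set_option linter.unusedSectionVars false
set_option linter.unusedVariables false
open Cfsg Cfsg.Geo Matrix

namespace Cfsg.Agent.Helper96.Sy

variable {κ : Type} [Fintype κ] [DecidableEq κ] {F : Type*} [Field F] [Fintype F]
variable {f : (κ → F) → (κ → F) → F}

/-- The centre consists of the scalars. -/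
theorem c2_center [Nonempty κ] {N : Subgroup (GL κ F)}
    (habs : ActsAbsolutelyIrreducibly (matrixSet N)) :
    Subgroup.center N = (scalars κ F).subgroupOf N := by
  ext z
  rw [Subgroup.mem_center_iff, Subgroup.mem_subgroupOf]
  constructor
  · intro hz
    rw [Helper97.Gen.scalar_mem_scalars_iff]
    apply habs.2
    rintro _ ⟨b, hb, rfl⟩
    have h1 := hz ⟨b, hb⟩
    have h2 : b * (z : GL κ F) = (z : GL κ F) * b := congrArg Subtype.val h1
    rw [← Units.val_mul, ← Units.val_mul, h2]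
  · intro hz g
    apply Subtype.ext
    exact (Helper97.Gen.scalars_comm hz (g : GL κ F)).symm

/-- The scalars of the core: exactly two. -/
theorem c2_card_scalars [Nonempty κ] (hf : IsSymplecticForm f) {H N : Subgroup (GL κ F)}
    (hN : N ≤ isoSub f) (hc : IsC2Core H N) : Nat.card ((scalars κ F).subgroupOf N) = 2 := by
  obtain ⟨⟨z, hzN, hz⟩, h2, -⟩ := c2_neg_one hf hN hc.absIrred hc.class2 hc.notScalar
  have hzs : z ∈ scalars κ F := by
    rw [Helper97.Gen.scalar_mem_scalars_iff]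
    exact ⟨-1, by rw [hz, neg_one_smul]⟩
  rw [Nat.card_eq_two_iff]
  refine ⟨1, ⟨⟨z, hzN⟩, hzs⟩, ?_, ?_⟩
  · intro h
    have h1 : (1 : GL κ F) = z := congrArg (fun x : (scalars κ F).subgroupOf N => ((x : N) : GL κ F)) h
    have h3 : (1 : Matrix κ κ F) = -1 := by
      rw [← hz, ← h1, Units.val_one]
    obtain ⟨i⟩ := ‹Nonempty κ›
    have h4 := congrFun (congrFun h3 i) i
    rw [Matrix.neg_apply, Matrix.one_apply_eq] at h4
    apply h2
    linear_combination h4
  · ext x
    simp only [Set.mem_insert_iff, Set.mem_singleton_iff, Set.mem_univ, iff_true]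
    have hx : ((x : N) : GL κ F) ∈ scalars κ F := x.2
    rcases scalar_iso_pm hf hx (hN (x : N).2) with h | h
    · left
      apply Subtype.ext
      apply Subtype.ext
      apply Units.ext
      rw [h]
      rfl
    · right
      apply Subtype.ext
      apply Subtype.ext
      apply Units.ext
      rw [h, ← hz]

theorem c2_card_center [Nonempty κ] (hf : IsSymplecticForm f) {H N : Subgroup (GL κ F)}
    (hN : N ≤ isoSub f) (hc : IsC2Core H N) : Nat.card (Subgroup.center N) = 2 := by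
  rw [c2_center hc.absIrred]
  exact c2_card_scalars hf hN hc

theorem c2_card [Nonempty κ] (hf : IsSymplecticForm f) {H N : Subgroup (GL κ F)}
    (hN : N ≤ isoSub f) (hc : IsC2Core H N) :
    Nat.card N = Fintype.card κ * Fintype.card κ * 2 := by
  rw [Subgroup.card_eq_card_quotient_mul_card_subgroup ((scalars κ F).subgroupOf N), hc.card,
    c2_card_scalars hf hN hc]

theorem c2_pgroup [Nonempty κ] (hf : IsSymplecticForm f) {H N : Subgroup (GL κ F)}
    (hN : N ≤ isoSub f) (hc : IsC2Core H N) : IsPGroup 2 N := by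
  intro g
  refine ⟨2, ?_⟩
  apply Subtype.ext
  have h1 := c2_pow_four hf hN hc g.2
  rw [Subgroup.coe_pow]
  exact h1

/-- The dimension is a power of two and the order is `2^(1+2k)`. -/
theorem c2_card_pow [Nonempty κ] (hf : IsSymplecticForm f) {H N : Subgroup (GL κ F)}
    (hN : N ≤ isoSub f) (hc : IsC2Core H N) :
    ∃ k : ℕ, Fintype.card κ = 2 ^ k ∧ Nat.card N = 2 ^ (1 + 2 * k) := by
  obtain ⟨a, ha⟩ := (IsPGroup.iff_card (p := 2)).mp (c2_pgroup hf hN hc)
  have h1 := c2_card hf hN hc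
  rw [ha] at h1
  have hdvd : Fintype.card κ ∣ 2 ^ a := by
    rw [h1]
    exact Dvd.intro (Fintype.card κ * 2) (by ring)
  obtain ⟨k, -, hk⟩ := (Nat.dvd_prime_pow Nat.prime_two).mp hdvd
  refine ⟨k, hk, ?_⟩
  rw [c2_card hf hN hc, hk]
  ring

/-- The exponent is four. -/
theorem c2_exponent [Nonempty κ] (hf : IsSymplecticForm f) {H N : Subgroup (GL κ F)}
    (hN : N ≤ isoSub f) (hc : IsC2Core H N) : Monoid.exponent N = 4 := by
  have h4 : Monoid.exponent N ∣ 4 := by
    apply Monoid.exponent_dvd_of_forall_pow_eq_one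
    intro g
    apply Subtype.ext
    rw [Subgroup.coe_pow]
    exact c2_pow_four hf hN hc g.2
  obtain ⟨-, -, x, hx, y, hy, hne, -⟩ := c2_neg_one hf hN hc.absIrred hc.class2 hc.notScalar
  have hn2 : ¬ Monoid.exponent N ∣ 2 := by
    intro h2
    have hsq : ∀ g : N, g * g = 1 := by
      intro g
      have := Monoid.exponent_dvd_iff_forall_pow_eq_one.mp h2 g
      rwa [pow_two] at this
    apply hne
    have h1 : (⟨y, hy⟩ : N) * ⟨x, hx⟩ = ⟨x, hx⟩ * ⟨y, hy⟩ := by
      calc (⟨y, hy⟩ : N) * ⟨x, hx⟩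
          = (⟨x, hx⟩ * ⟨x, hx⟩) * (⟨y, hy⟩ * ⟨x, hx⟩) * (⟨y, hy⟩ * ⟨y, hy⟩) := by
            rw [hsq, hsq, one_mul, mul_one]
        _ = ⟨x, hx⟩ * ((⟨x, hx⟩ * ⟨y, hy⟩) * (⟨x, hx⟩ * ⟨y, hy⟩)) * ⟨y, hy⟩ := by group
        _ = ⟨x, hx⟩ * ⟨y, hy⟩ := by rw [hsq, mul_one]
    exact congrArg Subtype.val h1
  obtain ⟨k, hk, hk'⟩ := (Nat.dvd_prime_pow Nat.prime_two (m := 2)).mp h4
  interval_cases k
  · exfalso; apply hn2; rw [hk']; norm_num
  · exfalso; apply hn2; rw [hk']; norm_num
  · rw [hk']; norm_num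

/-- Conjugation by a normalising element as an automorphism. -/
def conjEquiv {G : Type*} [Group G] (N : Subgroup G) (h : G) (h1 : ∀ x ∈ N, h * x * h⁻¹ ∈ N)
    (h2 : ∀ x ∈ N, h⁻¹ * x * h ∈ N) : N ≃* N where
  toFun x := ⟨h * x * h⁻¹, h1 x x.2⟩
  invFun x := ⟨h⁻¹ * x * h, h2 x x.2⟩
  left_inv x := by
    apply Subtype.ext
    show h⁻¹ * (h * (x : G) * h⁻¹) * h = x
    group
  right_inv x := by
    apply Subtype.ext
    show h * (h⁻¹ * (x : G) * h) * h⁻¹ = x
    group
  map_mul' x y := by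
    apply Subtype.ext
    show h * ((x : G) * (y : G)) * h⁻¹ = (h * (x : G) * h⁻¹) * (h * (y : G) * h⁻¹)
    group

theorem conjEquiv_apply {G : Type*} [Group G] (N : Subgroup G) (h : G) (h1 : ∀ x ∈ N, h * x * h⁻¹ ∈ N)
    (h2 : ∀ x ∈ N, h⁻¹ * x * h ∈ N) (x : N) :
    ((conjEquiv N h h1 h2 x : N) : G) = h * x * h⁻¹ := rfl

/-- Characteristic abelian subgroups are cyclic. -/
theorem c2_char_cyclic [Nonempty κ] (hf : IsSymplecticForm f) {H N : Subgroup (GL κ F)}
    (hN : N ≤ isoSub f) (hc : IsC2Core H N) (A : Subgroup N) (hA : A.Characteristic)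
    (hAc : IsMulCommutative A) : IsCyclic A := by
  obtain ⟨⟨z, hzN, hz⟩, -, x, hx, y, hy, hne, -⟩ :=
    c2_neg_one hf hN hc.absIrred hc.class2 hc.notScalar
  have hinv : ∀ h ∈ H, ∀ a ∈ A.map N.subtype, h * a * h⁻¹ ∈ A.map N.subtype := by
    rintro h hh _ ⟨a, ha, rfl⟩
    have h1 : ∀ x ∈ N, h * x * h⁻¹ ∈ N := hc.normal h hh
    have h2 : ∀ x ∈ N, h⁻¹ * x * h ∈ N := by
      intro x hx
      have := hc.normal h⁻¹ (H.inv_mem hh) x hx
      rwa [inv_inv] at this
    have h3 := hA.fixed (conjEquiv N h h1 h2)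
    have h4 : conjEquiv N h h1 h2 a ∈ A := by
      have : a ∈ A.comap (conjEquiv N h h1 h2).toMonoidHom := by rw [h3]; exact ha
      exact this
    exact ⟨conjEquiv N h h1 h2 a, h4, rfl⟩
  rcases hc.minimal (A.map N.subtype) (Subgroup.map_subtype_le A) hinv with hsc | htop
  · -- every element is `±1`
    have hpm : ∀ a : A, (((a : N) : GL κ F) : Matrix κ κ F) = 1 ∨
        (((a : N) : GL κ F) : Matrix κ κ F) = -1 := by
      intro a
      exact scalar_iso_pm hf (hsc ⟨(a : N), a.2, rfl⟩) (hN (a : N).2)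
    by_cases hzA : (⟨z, hzN⟩ : N) ∈ A
    · refine ⟨⟨⟨⟨z, hzN⟩, hzA⟩, fun a => ?_⟩⟩
      rcases hpm a with h | h
      · refine ⟨0, ?_⟩
        apply Subtype.ext
        apply Subtype.ext
        apply Units.ext
        rw [h]
        rfl
      · refine ⟨1, ?_⟩
        show (⟨⟨z, hzN⟩, hzA⟩ : A) ^ (1 : ℤ) = a
        rw [zpow_one]
        apply Subtype.ext
        apply Subtype.ext
        apply Units.ext
        rw [h, ← hz]
    · refine ⟨⟨1, fun a => ?_⟩⟩
      rcases hpm a with h | h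
      · refine ⟨0, ?_⟩
        apply Subtype.ext
        apply Subtype.ext
        apply Units.ext
        rw [h]
        rfl
      · exfalso
        apply hzA
        have h1 : (⟨z, hzN⟩ : N) = (a : N) := by
          apply Subtype.ext
          apply Units.ext
          rw [h, ← hz]
        rw [h1]
        exact a.2
  · exfalso
    apply hne
    have hxA : x ∈ A.map N.subtype := by rw [htop]; exact hx
    have hyA : y ∈ A.map N.subtype := by rw [htop]; exact hy
    obtain ⟨x', hx', rfl⟩ := hxA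
    obtain ⟨y', hy', rfl⟩ := hyA
    have h1 := hAc.is_comm.comm (⟨y', hy'⟩ : A) ⟨x', hx'⟩
    have h2 : y' * x' = x' * y' := congrArg Subtype.val h1
    exact congrArg Subtype.val h2

theorem c2_symplecticType [Nonempty κ] (hf : IsSymplecticForm f) {H N : Subgroup (GL κ F)}
    (hN : N ≤ isoSub f) (hc : IsC2Core H N) : IsSymplecticTypeGroup 2 N where
  prime := Nat.prime_two
  pGroup := c2_pgroup hf hN hc
  cyclic_of_characteristic := fun A hA hAc => c2_char_cyclic hf hN hc A hA hAc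
  exponent_eq := by
    rw [c2_exponent hf hN hc]
    norm_num

theorem c2_le_normalizer {H N : Subgroup (GL κ F)} (hc : IsC2Core H N) :
    H ≤ subgroupNormalizer N := by
  intro h hh
  show h ∈ Subgroup.normalizer (N : Set (GL κ F))
  rw [Subgroup.mem_normalizer_iff]
  intro x
  constructor
  · exact hc.normal h hh x
  · intro hx
    have := hc.normal h⁻¹ (H.inv_mem hh) _ hx
    have h2 : h⁻¹ * (h * x * h⁻¹) * h⁻¹⁻¹ = x := by group
    rwa [h2] at this

theorem iso_le_similarity {N : Subgroup (GL κ F)} (hN : N ≤ isoSub f) : N ≤ similarityGroup f := by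
  intro g hg
  exact ⟨1, fun u v => by rw [Units.val_one, one_mul]; exact iso_apply (hN hg) u v⟩

end Cfsg.Agent.Helper96.Sy
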