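-- helper96 library: Frobenius-twisted products of matrices, norms and the independence of the
-- powers of the Frobenius map of a finite field.
import Cfsg.Agent.Helper96.SpX2

set_option autoImplicit false
set_option linter.unusedSectionVars false
set_option linter.unusedVariables false
open Cfsg Cfsg.Geo Matrix

namespace Cfsg.Agent.Helper96.Sy

variable {κ : Type} [Fintype κ] [DecidableEq κ] {F : Type*} [Field F]

/-- The iterates of a ring endomorphism. -/
def itHom (σ : F →+* F) : ℕ → (F →+* F)
  | 0 => RingHom.id F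
  | k + 1 => σ.comp (itHom σ k)

theorem itHom_zero (σ : F →+* F) (a : F) : itHom σ 0 a = a := rfl

theorem itHom_succ (σ : F →+* F) (k : ℕ) (a : F) : itHom σ (k + 1) a = σ (itHom σ k a) := rfl

theorem itHom_pow (σ : F →+* F) (p : ℕ) (hσ : ∀ a, σ a = a ^ p) (k : ℕ) (a : F) :
    itHom σ k a = a ^ p ^ k := by
  induction k with
  | zero => rw [itHom_zero, pow_zero, pow_one]
  | succ k ih => rw [itHom_succ, ih, hσ, ← pow_mul, pow_succ]

theorem itHom_card [Fintype F] (σ : F →+* F) (p e : ℕ) (hσ : ∀ a, σ a = a ^ p)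
    (hcard : Fintype.card F = p ^ e) (a : F) : itHom σ e a = a := by
  rw [itHom_pow σ p hσ, ← hcard, FiniteField.pow_card]

/-- Twisted products `C σ(C) ⋯ σ^{k-1}(C)`. -/
def twProd (σ : F →+* F) (C : Matrix κ κ F) : ℕ → Matrix κ κ F
  | 0 => 1
  | k + 1 => C * (twProd σ C k).map σ

theorem twProd_zero (σ : F →+* F) (C : Matrix κ κ F) : twProd σ C 0 = 1 := rfl

theorem twProd_succ (σ : F →+* F) (C : Matrix κ κ F) (k : ℕ) :
    twProd σ C (k + 1) = C * (twProd σ C k).map σ := rfl

theorem map_itHom_zero (σ : F →+* F) (M : Matrix κ κ F) : M.map (itHom σ 0) = M := by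
  ext i j
  rfl

theorem map_itHom_succ (σ : F →+* F) (k : ℕ) (M : Matrix κ κ F) :
    M.map (itHom σ (k + 1)) = (M.map (itHom σ k)).map σ := by
  ext i j
  rfl

theorem map_one_hom (σ : F →+* F) : (1 : Matrix κ κ F).map σ = 1 :=
  Matrix.map_one _ (map_zero σ) (map_one σ)

theorem twProd_comm (σ : F →+* F) (C g : Matrix κ κ F) (hg : g * C = C * g.map σ) (k : ℕ) :
    g * twProd σ C k = twProd σ C k * g.map (itHom σ k) := by
  induction k with
  | zero => rw [twProd_zero, mul_one, one_mul, map_itHom_zero]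
  | succ k ih =>
    calc g * twProd σ C (k + 1) = (g * C) * (twProd σ C k).map σ := by
          rw [twProd_succ, mul_assoc]
      _ = C * (g * twProd σ C k).map σ := by rw [hg, mul_assoc, Matrix.map_mul]
      _ = C * (twProd σ C k).map σ * (g.map (itHom σ k)).map σ := by
          rw [ih, Matrix.map_mul, mul_assoc]
      _ = twProd σ C (k + 1) * g.map (itHom σ (k + 1)) := by rw [twProd_succ, map_itHom_succ]

theorem twProd_succ' (σ : F →+* F) (C : Matrix κ κ F) (k : ℕ) :
    twProd σ C (k + 1) = twProd σ C k * C.map (itHom σ k) := by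
  induction k with
  | zero => rw [twProd_succ, twProd_zero, map_one_hom, mul_one, one_mul, map_itHom_zero]
  | succ k ih =>
    calc twProd σ C (k + 1 + 1) = C * (twProd σ C (k + 1)).map σ := rfl
      _ = C * (twProd σ C k * C.map (itHom σ k)).map σ := by rw [ih]
      _ = (C * (twProd σ C k).map σ) * (C.map (itHom σ k)).map σ := by
          rw [Matrix.map_mul, mul_assoc]
      _ = twProd σ C (k + 1) * C.map (itHom σ (k + 1)) := by rw [twProd_succ, map_itHom_succ]

/-- The geometric sums `1 + p + ⋯ + p^{k-1}`. -/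
def gs (p : ℕ) : ℕ → ℕ
  | 0 => 0
  | k + 1 => 1 + p * gs p k

theorem gs_zero (p : ℕ) : gs p 0 = 0 := rfl

theorem gs_succ (p k : ℕ) : gs p (k + 1) = 1 + p * gs p k := rfl

theorem gs_mul (q k : ℕ) : gs (q + 1) k * q + 1 = (q + 1) ^ k := by
  induction k with
  | zero => rw [gs_zero, zero_mul, zero_add, pow_zero]
  | succ k ih =>
    rw [gs_succ, pow_succ, ← ih]
    ring

theorem twProd_smul (σ : F →+* F) (p : ℕ) (hσ : ∀ a, σ a = a ^ p) (l : F) (C : Matrix κ κ F)
    (k : ℕ) : twProd σ (l • C) k = l ^ gs p k • twProd σ C k := by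
  induction k with
  | zero => rw [twProd_zero, twProd_zero, gs_zero, pow_zero, one_smul]
  | succ k ih =>
    have h1 : (l ^ gs p k • twProd σ C k).map σ = (l ^ gs p k) ^ p • (twProd σ C k).map σ := by
      ext i j
      rw [Matrix.map_apply, Matrix.smul_apply, Matrix.smul_apply, Matrix.map_apply, smul_eq_mul,
        smul_eq_mul, map_mul, hσ (l ^ gs p k)]
    rw [twProd_succ, ih, twProd_succ, h1, Matrix.smul_mul, Matrix.mul_smul, smul_smul]
    congr 1
    rw [gs_succ, ← pow_mul, pow_add, pow_one, mul_comm (gs p k) p]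

/-- Surjectivity of the norm of a finite field onto its prime field. -/
theorem exists_norm_root [Fintype F] (q e : ℕ) (hcard : Fintype.card F = (q + 1) ^ e) (hq : 0 < q)
    (c : F) (hc : c ≠ 0) (hcp : c ^ (q + 1) = c) : ∃ l : F, l ^ gs (q + 1) e = c := by
  classical
  obtain ⟨γ, hγ⟩ := IsCyclic.exists_generator (α := Fˣ)
  have hord : orderOf γ = Fintype.card F - 1 := by
    rw [orderOf_eq_card_of_forall_mem_zpowers hγ, Nat.card_eq_fintype_card, Fintype.card_units]
  obtain ⟨j, hj⟩ : ∃ j : ℕ, γ ^ j = Units.mk0 c hc := by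
    have := hγ (Units.mk0 c hc)
    rw [← mem_powers_iff_mem_zpowers] at this
    exact this
  have h1 : (Units.mk0 c hc) ^ q = 1 := by
    apply Units.ext
    rw [Units.val_pow_eq_pow_val, Units.val_mk0, Units.val_one]
    have h2 : c ^ q * c = c := by rw [← pow_succ]; exact hcp
    have h3 : (c ^ q - 1) * c = 0 := by linear_combination h2
    rcases mul_eq_zero.mp h3 with h | h
    · exact sub_eq_zero.mp h
    · exact absurd h hc
  have h4 : orderOf γ ∣ j * q := by
    apply orderOf_dvd_of_pow_eq_one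
    rw [pow_mul, hj, h1]
  have h5 : gs (q + 1) e * q ∣ j * q := by
    have h6 := gs_mul q e
    rw [hord, hcard, ← h6, Nat.add_sub_cancel] at h4
    exact h4
  have h6 : gs (q + 1) e ∣ j := Nat.dvd_of_mul_dvd_mul_right hq h5
  obtain ⟨j', rfl⟩ := h6
  refine ⟨((γ ^ j' : Fˣ) : F), ?_⟩
  rw [← Units.val_pow_eq_pow_val, ← pow_mul, mul_comm, hj, Units.val_mk0]

/-- The powers `a ↦ a^(p^i)`, `i < e`, of the Frobenius map of a field with `p^e` elements are
linearly independent. -/
theorem frob_indep [Fintype F] (p e : ℕ) (hp : 2 ≤ p) (hcard : Fintype.card F = p ^ e) (c : ℕ → F)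
    (h : ∀ a : F, ∑ i ∈ Finset.range e, c i * a ^ p ^ i = 0) : ∀ i < e, c i = 0 := by
  classical
  intro i hi
  obtain ⟨P, hP⟩ : ∃ P : Polynomial F,
      P = ∑ i ∈ Finset.range e, Polynomial.C (c i) * Polynomial.X ^ p ^ i := ⟨_, rfl⟩
  have heval : ∀ a : F, P.eval a = 0 := by
    intro a
    rw [hP, Polynomial.eval_finset_sum]
    simp only [Polynomial.eval_mul, Polynomial.eval_C, Polynomial.eval_pow, Polynomial.eval_X]
    exact h a
  have hdeg : P.natDegree < Fintype.card F := by
    rw [hcard]
    have h1 : P.natDegree ≤ p ^ (e - 1) := by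
      rw [hP]
      apply Polynomial.natDegree_sum_le_of_forall_le
      intro j hj
      apply (Polynomial.natDegree_C_mul_X_pow_le _ _).trans
      apply Nat.pow_le_pow_right (by omega)
      have := Finset.mem_range.mp hj
      omega
    have h2 : p ^ (e - 1) < p ^ e := Nat.pow_lt_pow_right (by omega) (by omega)
    omega
  have hP0 : P = 0 :=
    Polynomial.eq_zero_of_natDegree_lt_card_of_eval_eq_zero' P Finset.univ (fun a _ => heval a)
      (by rw [Finset.card_univ]; exact hdeg)
  have hcoef : P.coeff (p ^ i) = c i := by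
    rw [hP, Polynomial.finset_sum_coeff]
    simp only [Polynomial.coeff_C_mul_X_pow]
    rw [Finset.sum_eq_single i]
    · rw [if_pos rfl]
    · intro j _ hji
      rw [if_neg]
      intro heq
      exact hji (Nat.pow_right_injective hp heq).symm
    · intro hni
      exact absurd (Finset.mem_range.mpr hi) hni
  rw [← hcoef, hP0, Polynomial.coeff_zero]

end Cfsg.Agent.Helper96.Sy
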