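-- helper96 library: Frobenius descent. An absolutely irreducible matrix group that is equivalent
-- to its Frobenius twist is realisable over the prime field.
import Cfsg.Agent.Helper96.SpX3

set_option autoImplicit false
set_option linter.unusedSectionVars false
set_option linter.unusedVariables false
open Cfsg Cfsg.Geo Matrix

namespace Cfsg.Agent.Helper96.Sy

variable {κ : Type} [Fintype κ] [DecidableEq κ] {F : Type*} [Field F]

theorem frob_descent [Fintype F] [Nonempty κ] (p e : ℕ) (hp : p.Prime)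
    (hcard : Fintype.card F = p ^ e) (σ : F →+* F) (hσ : ∀ a, σ a = a ^ p)
    (N : Subgroup (GL κ F)) (habs : ActsAbsolutelyIrreducibly (matrixSet N))
    (C : Matrix κ κ F) (hC : C ≠ 0)
    (hCg : ∀ g ∈ N, (g : Matrix κ κ F) * C = C * (g : Matrix κ κ F).map σ) :
    ∃ B : GL κ F, ∀ g ∈ N, ∀ i j,
      σ (((B : Matrix κ κ F) * (g : Matrix κ κ F) * ((B⁻¹ : GL κ F) : Matrix κ κ F)) i j) =
        ((B : Matrix κ κ F) * (g : Matrix κ κ F) * ((B⁻¹ : GL κ F) : Matrix κ κ F)) i j := by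
  classical
  obtain ⟨i₀⟩ := ‹Nonempty κ›
  have he : 0 < e := by
    rcases Nat.eq_zero_or_pos e with h | h
    · subst h
      have := Fintype.one_lt_card (α := F)
      rw [hcard, pow_zero] at this
      omega
    · exact h
  -- `C` is invertible
  have hCu : IsUnit C := by
    rw [← Matrix.mulVec_surjective_iff_isUnit]
    have hW : ∀ s ∈ matrixSet N, (LinearMap.range (Matrix.toLin' C)).map (Matrix.toLin' s) ≤
        LinearMap.range (Matrix.toLin' C) := by
      rintro _ ⟨g, hg, rfl⟩ _ ⟨_, ⟨v, rfl⟩, rfl⟩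
      refine ⟨(g : Matrix κ κ F).map σ *ᵥ v, ?_⟩
      rw [Matrix.toLin'_apply, Matrix.toLin'_apply, Matrix.toLin'_apply, Matrix.mulVec_mulVec,
        Matrix.mulVec_mulVec, hCg g hg]
    rcases habs.1 _ hW with h | h
    · exfalso
      apply hC
      ext i j
      have h1 : Matrix.toLin' C (Pi.single j 1) ∈ LinearMap.range (Matrix.toLin' C) := ⟨_, rfl⟩
      rw [h, Submodule.mem_bot, Matrix.toLin'_apply, Matrix.mulVec_single_one] at h1
      exact congrFun h1 i
    · intro w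
      have h1 : w ∈ LinearMap.range (Matrix.toLin' C) := by rw [h]; exact Submodule.mem_top
      obtain ⟨v, hv⟩ := h1
      exact ⟨v, by rw [← hv, Matrix.toLin'_apply]⟩
  obtain ⟨Ci, hCCi, hCiC⟩ : ∃ Ci : Matrix κ κ F, C * Ci = 1 ∧ Ci * C = 1 := by
    obtain ⟨u, hu⟩ := hCu
    exact ⟨((u⁻¹ : (Matrix κ κ F)ˣ) : Matrix κ κ F), by rw [← hu, Units.mul_inv],
      by rw [← hu, Units.inv_mul]⟩
  -- the full twisted product is a scalar
  have hD : ∀ s ∈ matrixSet N, twProd σ C e * s = s * twProd σ C e := by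
    rintro _ ⟨g, hg, rfl⟩
    have h1 := twProd_comm σ C (g : Matrix κ κ F) (hCg g hg) e
    have h2 : (g : Matrix κ κ F).map (itHom σ e) = (g : Matrix κ κ F) := by
      ext i j
      exact itHom_card σ p e hσ hcard _
    rw [h2] at h1
    exact h1.symm
  obtain ⟨c, hc⟩ := habs.2 _ hD
  have hinvk : ∀ k, ∃ Y : Matrix κ κ F, Y * twProd σ C k = 1 := by
    intro k
    induction k with
    | zero => exact ⟨1, by rw [twProd_zero, mul_one]⟩
    | succ k ih =>
      obtain ⟨Y, hY⟩ := ih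
      refine ⟨Y.map σ * Ci, ?_⟩
      rw [twProd_succ, mul_assoc, ← mul_assoc Ci, hCiC, one_mul, ← Matrix.map_mul, hY, map_one_hom]
  have hc0 : c ≠ 0 := by
    rintro rfl
    obtain ⟨Y, hY⟩ := hinvk e
    rw [hc, zero_smul, mul_zero] at hY
    have := congrFun (congrFun hY i₀) i₀
    simp at this
  have hσc : σ c = c := by
    have h1 : C * (twProd σ C e).map σ = twProd σ C e * C.map (itHom σ e) := by
      rw [← twProd_succ, twProd_succ']
    have h2 : C.map (itHom σ e) = C := by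
      ext i j
      exact itHom_card σ p e hσ hcard _
    rw [h2, hc] at h1
    have h3 : (c • (1 : Matrix κ κ F)).map σ = σ c • (1 : Matrix κ κ F) := by
      ext i j
      by_cases hij : i = j
      · subst hij
        simp
      · simp [hij]
    rw [h3, Matrix.mul_smul, mul_one, Matrix.smul_mul, one_mul] at h1
    obtain ⟨i, j, hij⟩ : ∃ i j, C i j ≠ 0 := by
      by_contra hcon
      push Not at hcon
      exact hC (by ext i j; exact hcon i j)
    have h4 := congrFun (congrFun h1 i) j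
    simp only [Matrix.smul_apply, smul_eq_mul] at h4
    exact mul_right_cancel₀ hij h4
  obtain ⟨q, rfl⟩ : ∃ q, p = q + 1 := ⟨p - 1, by have := hp.pos; omega⟩
  have hq : 0 < q := by have := hp.two_le; omega
  obtain ⟨l, hl⟩ := exists_norm_root q e hcard hq c⁻¹ (inv_ne_zero hc0)
    (by rw [inv_pow, ← hσ, hσc])
  obtain ⟨C', hC'⟩ : ∃ C' : Matrix κ κ F, C' = l • C := ⟨_, rfl⟩
  have hC'e : twProd σ C' e = 1 := by
    rw [hC', twProd_smul σ (q + 1) hσ, hl, hc, smul_smul, inv_mul_cancel₀ hc0, one_smul]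
  have hC'g : ∀ g ∈ N, (g : Matrix κ κ F) * C' = C' * (g : Matrix κ κ F).map σ := by
    intro g hg
    rw [hC', Matrix.mul_smul, hCg g hg, Matrix.smul_mul]
  have hl0 : l ≠ 0 := by
    rintro rfl
    have hgs : gs (q + 1) e ≠ 0 := by
      obtain ⟨e', rfl⟩ : ∃ e', e = e' + 1 := ⟨e - 1, by omega⟩
      rw [gs_succ]
      omega
    rw [zero_pow hgs] at hl
    exact inv_ne_zero hc0 hl.symm
  obtain ⟨C'i, hC'i⟩ : ∃ C'i : Matrix κ κ F, C'i = l⁻¹ • Ci := ⟨_, rfl⟩
  have hC'C'i : C' * C'i = 1 := by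
    rw [hC', hC'i, Matrix.smul_mul, Matrix.mul_smul, smul_smul, mul_inv_cancel₀ hl0, one_smul, hCCi]
  have hC'iC' : C'i * C' = 1 := by
    rw [hC', hC'i, Matrix.smul_mul, Matrix.mul_smul, smul_smul, inv_mul_cancel₀ hl0, one_smul, hCiC]
  -- the semilinear map
  obtain ⟨J, hJ⟩ : ∃ J : (κ → F) →+ (κ → F), ∀ v, J v = C' *ᵥ (fun i => σ (v i)) := by
    refine ⟨{ toFun := fun v => C' *ᵥ (fun i => σ (v i)), map_zero' := ?_, map_add' := ?_ },
      fun v => rfl⟩
    · have : (fun i : κ => σ ((0 : κ → F) i)) = 0 := by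
        funext i
        simp
      rw [this, Matrix.mulVec_zero]
    · intro v w
      have : (fun i : κ => σ ((v + w) i)) = (fun i => σ (v i)) + (fun i => σ (w i)) := by
        funext i
        simp
      rw [this, Matrix.mulVec_add]
  obtain ⟨Jk, hJk⟩ : ∃ Jk : ℕ → (κ → F) → (κ → F),
      ∀ k v, Jk k v = twProd σ C' k *ᵥ (fun i => itHom σ k (v i)) := ⟨_, fun _ _ => rfl⟩
  have hJk0 : ∀ v, Jk 0 v = v := by
    intro v
    rw [hJk, twProd_zero, Matrix.one_mulVec]
    rfl
  have hJke : ∀ v, Jk e v = v := by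
    intro v
    rw [hJk, hC'e, Matrix.one_mulVec]
    funext i
    exact itHom_card σ (q + 1) e hσ hcard _
  have hJJk : ∀ k v, J (Jk k v) = Jk (k + 1) v := by
    intro k v
    rw [hJ, hJk, hJk, twProd_succ, ← Matrix.mulVec_mulVec]
    congr 1
    funext i
    simp only [Matrix.mulVec, dotProduct, map_sum, map_mul, Matrix.map_apply, itHom_succ]
  have hJksmul : ∀ k (a : F) v, Jk k (a • v) = itHom σ k a • Jk k v := by
    intro k a v
    rw [hJk, hJk, ← Matrix.mulVec_smul]
    congr 1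
    funext i
    simp
  obtain ⟨Vfix, hVfix⟩ : ∃ Vfix : Set (κ → F), ∀ v, v ∈ Vfix ↔ J v = v :=
    ⟨{v | J v = v}, fun _ => Iff.rfl⟩
  have hfixsum : ∀ u : κ → F, ∑ i ∈ Finset.range e, Jk i u ∈ Vfix := by
    intro u
    rw [hVfix, map_sum]
    have h1 : ∑ i ∈ Finset.range e, J (Jk i u) = ∑ i ∈ Finset.range e, Jk (i + 1) u :=
      Finset.sum_congr rfl (fun i _ => hJJk i u)
    rw [h1]
    have h2 := Finset.sum_range_succ (fun i => Jk i u) e
    have h3 := Finset.sum_range_succ' (fun i => Jk i u) e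
    beta_reduce at h2 h3
    rw [h2, hJke, hJk0] at h3
    exact (add_right_cancel h3).symm
  have hspan : Submodule.span F Vfix = ⊤ := by
    by_contra hne
    obtain ⟨φ, hφ0, hφ⟩ := Submodule.exists_le_ker_of_lt_top _ (lt_top_iff_ne_top.mpr hne)
    apply hφ0
    refine LinearMap.ext (fun v => ?_)
    rw [LinearMap.zero_apply]
    have h1 : ∀ a : F, ∑ i ∈ Finset.range e, φ (Jk i v) * a ^ (q + 1) ^ i = 0 := by
      intro a
      have h2 : φ (∑ i ∈ Finset.range e, Jk i (a • v)) = 0 :=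
        LinearMap.mem_ker.mp (hφ (Submodule.subset_span (hfixsum (a • v))))
      rw [map_sum] at h2
      rw [← h2]
      apply Finset.sum_congr rfl
      intro i _
      rw [hJksmul, map_smul, smul_eq_mul, itHom_pow σ (q + 1) hσ, mul_comm]
    have h3 := frob_indep (q + 1) e (by omega) hcard (fun i => φ (Jk i v)) h1 0 he
    beta_reduce at h3
    rw [hJk0] at h3
    exact h3
  obtain ⟨f₁, hf₁, -, hli⟩ := Submodule.exists_fun_fin_finrank_span_eq F Vfix
  have hd : Module.finrank F (Submodule.span F Vfix) = Fintype.card κ := by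
    rw [hspan, finrank_top, Module.finrank_fintype_fun_eq_card]
  obtain ⟨e₀⟩ : Nonempty (κ ≃ Fin (Module.finrank F (Submodule.span F Vfix))) :=
    ⟨(Fintype.equivFin κ).trans (finCongr hd.symm)⟩
  obtain ⟨f', hf'⟩ : ∃ f' : κ → (κ → F), f' = fun i => f₁ (e₀ i) := ⟨_, rfl⟩
  have hli' : LinearIndependent F f' := by
    rw [hf']
    exact hli.comp _ e₀.injective
  have hf'fix : ∀ j, J (f' j) = f' j := by
    intro j
    have h1 := (hVfix _).mp (hf₁ (e₀ j))
    rw [hf']
    exact h1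
  obtain ⟨Pmat, hPmat⟩ : ∃ Pmat : Matrix κ κ F, Pmat = Matrix.of (fun i j => f' j i) :=
    ⟨_, rfl⟩
  have hcol : Pmat.col = f' := by
    funext j i
    rw [hPmat]
    rfl
  have hPu : IsUnit Pmat := by
    rw [← Matrix.linearIndependent_cols_iff_isUnit, hcol]
    exact hli'
  have hPdet : Pmat.det ≠ 0 := ((Matrix.isUnit_iff_isUnit_det Pmat).mp hPu).ne_zero
  obtain ⟨PG, hPG⟩ : ∃ PG : GL κ F, PG = Matrix.GeneralLinearGroup.mkOfDetNeZero Pmat hPdet :=
    ⟨_, rfl⟩
  have hPGval : (PG : Matrix κ κ F) = Pmat := by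
    rw [hPG]
    rfl
  obtain ⟨Pinv, hPinv⟩ : ∃ Pinv : Matrix κ κ F,
      Pinv = ((PG⁻¹ : GL κ F) : Matrix κ κ F) := ⟨_, rfl⟩
  have hPP : Pmat * Pinv = 1 := by
    rw [← hPGval, hPinv, ← Units.val_mul, mul_inv_cancel, Units.val_one]
  have hPP' : Pinv * Pmat = 1 := by
    rw [← hPGval, hPinv, ← Units.val_mul, inv_mul_cancel, Units.val_one]
  have hCP : C' * Pmat.map σ = Pmat := by
    ext i j
    have h1 := congrFun (hf'fix j) i
    rw [hJ] at h1
    have e : (C' * Pmat.map σ) i j = (C' *ᵥ (fun k => σ (f' j k))) i := by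
      rw [hPmat]
      rfl
    rw [e, h1, hPmat]
    rfl
  have hPσ : Pmat.map σ = C'i * Pmat := by
    calc Pmat.map σ = (C'i * C') * Pmat.map σ := by rw [hC'iC', one_mul]
      _ = C'i * (C' * Pmat.map σ) := mul_assoc _ _ _
      _ = C'i * Pmat := by rw [hCP]
  have hPiσ : Pinv.map σ = Pinv * C' := by
    have h1 : Pmat.map σ * Pinv.map σ = 1 := by rw [← Matrix.map_mul, hPP, map_one_hom]
    calc Pinv.map σ = (Pinv * Pmat) * Pinv.map σ := by rw [hPP', one_mul]
      _ = Pinv * (C' * Pmat.map σ) * Pinv.map σ := by rw [hCP]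
      _ = Pinv * C' * (Pmat.map σ * Pinv.map σ) := by simp only [mul_assoc]
      _ = Pinv * C' := by rw [h1, mul_one]
  refine ⟨PG⁻¹, fun g hg i j => ?_⟩
  have h1 : ((PG⁻¹ : GL κ F) : Matrix κ κ F) * (g : Matrix κ κ F) *
      (((PG⁻¹)⁻¹ : GL κ F) : Matrix κ κ F) = Pinv * (g : Matrix κ κ F) * Pmat := by
    rw [inv_inv, hPGval, hPinv]
  rw [h1]
  have h2 : (Pinv * (g : Matrix κ κ F) * Pmat).map σ = Pinv * (g : Matrix κ κ F) * Pmat := by
    rw [Matrix.map_mul, Matrix.map_mul, hPiσ, hPσ]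
    calc Pinv * C' * (g : Matrix κ κ F).map σ * (C'i * Pmat)
        = Pinv * (C' * (g : Matrix κ κ F).map σ) * C'i * Pmat := by simp only [mul_assoc]
      _ = Pinv * ((g : Matrix κ κ F) * C') * C'i * Pmat := by rw [hC'g g hg]
      _ = Pinv * (g : Matrix κ κ F) * (C' * C'i) * Pmat := by simp only [mul_assoc]
      _ = Pinv * (g : Matrix κ κ F) * Pmat := by rw [hC'C'i, mul_one]
  exact congrFun (congrFun h2 i) j

end Cfsg.Agent.Helper96.Sy
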