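import Mathlib
import Cfsg.Agent.Helper96.C3SDefs
import Cfsg.Agent.Helper81.C3SMAXB
import Cfsg.Agent.Helper81.C3SXF
import Cfsg.Agent.Helper3.C3SINV
import Cfsg.Agent.Helper3.C3SMAXA
import Cfsg.Agent.Helper39.C3STYPE2
import Cfsg.Agent.Helper39.C3SFINB3
import Cfsg.Agent.Helper66.C3SFINA
import Cfsg.Agent.Helper83.C3SFINB
import Cfsg.Agent.Helper28.C3SALL

/-!
# Assembly for CALL S5664: the maximal-intersection lemma and the abstract main theorem

`K/F` an extension of finite fields of prime degree, `φ` a nondegenerate alternating `K`-form on `V`.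
A group of `Tr ∘ φ`-isometries containing `Sp(V, φ)` and an element which is not `K`-semilinear
contains every `F`-transvection of `Tr ∘ φ`.

Pieces: Helper3 (BSP1, INV, MAXA), Helper28 (ELT, CONJ, TRANS, ALL), Helper39 (TYPE2, FINB3),
Helper66 (BSP2, CONJA, CONJB, FINA), Helper81 (MAXB, XF), Helper83 (HEIS, FND, HYPER, TR0, EXU, PERP2,
FINB1, FINB2).
-/

set_option autoImplicit false

namespace Cfsg.Agent.Helper96.C3S

open Module

variable {F K V : Type*} [Field F] [Field K] [Algebra F K] [AddCommGroup V] [Module F V]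
  [Module K V] [IsScalarTower F K V]

theorem c3s_exists_ne_zero_of_two_le_ncard (S : Set V) (h : 2 ≤ S.ncard) : ∃ x ∈ S, x ≠ 0 := by
  by_contra hcon
  push Not at hcon
  have hsub : S ⊆ {0} := fun x hx => hcon x hx
  have := Set.ncard_le_ncard hsub (Set.finite_singleton 0)
  rw [Set.ncard_singleton] at this
  omega

/-- assembly of the maximal-intersection lemma -/
theorem c3s_good [Fintype F] [Finite K] [Module.Finite K V] (hr : (finrank F K).Prime)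
    {φ : LinearMap.BilinForm K V} {P : Module.End F V → Prop} (h : Hyp φ P)
    (hd2 : 2 ≤ finrank K V)
    (hex : ∃ g₀ h₀ : Module.End F V, P g₀ ∧ g₀ * h₀ = 1 ∧ h₀ * g₀ = 1 ∧ ¬ Helper98.c3_N K g₀) :
    ∃ a b : V, φ a b = 1 ∧ InW K P (Wstar F K a b) := by
  classical
  haveI : Module.Finite F K := Module.Finite.of_finite
  haveI : Module.Finite F V := Module.Finite.trans K V
  haveI : Finite V := Module.finite_of_finite F
  obtain ⟨g₀, h₀, hPg₀, h1, h2, hnN⟩ := hex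
  -- a non-spread image
  have hsp : ¬ ∀ x : V, ∀ k : K, ∃ k' : K, g₀ (k • x) = k' • g₀ x :=
    fun hh => hnN (Helper98.c3_spread hd2 g₀ h₀ h1 h2 hh)
  push Not at hsp
  obtain ⟨x, k, hxk⟩ := hsp
  have hinj₀ : Function.Injective g₀ := Helper98.c3_inj_of_left_inv g₀ h₀ h2
  have hx0 : x ≠ 0 := by
    rintro rfl
    exact hxk 0 (by simp)
  have ha₀ : g₀ x ≠ 0 := fun h0 => hx0 (hinj₀ (by rw [h0, map_zero]))
  -- the starting pair
  have hY₀ : InW K P {y | ∃ k : K, y = g₀ (k • x)} := ⟨g₀, x, hPg₀, hx0, rfl⟩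
  have hZ₀ : InW K P (Kline K (g₀ x)) := Helper81.C3S.inW_kline h _ ha₀
  have hne₀ : {y | ∃ k : K, y = g₀ (k • x)} ≠ Kline K (g₀ x) := by
    intro heq
    have hmem : g₀ (k • x) ∈ {y | ∃ k : K, y = g₀ (k • x)} := ⟨k, rfl⟩
    rw [heq] at hmem
    obtain ⟨k', hk'⟩ := hmem
    exact hxk k' hk'
  have h2₀ : 2 ≤ ({y | ∃ k : K, y = g₀ (k • x)} ∩ Kline K (g₀ x)).ncard := by
    have hsub : ({0, g₀ x} : Set V) ⊆ {y | ∃ k : K, y = g₀ (k • x)} ∩ Kline K (g₀ x) := by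
      intro y hy
      rcases hy with rfl | rfl
      · exact ⟨⟨0, by simp⟩, ⟨0, by simp⟩⟩
      · exact ⟨⟨1, by simp⟩, ⟨1, by simp⟩⟩
    have := Set.ncard_le_ncard hsub (Set.toFinite _)
    rw [Set.ncard_pair (Ne.symm ha₀)] at this
    exact this
  -- the maximal intersection size
  let Q : ℕ → Prop := fun n => ∃ Y Z : Set V, InW K P Y ∧ InW K P Z ∧ Y ≠ Z ∧ (Y ∩ Z).ncard = n
  have hQbd : ∀ n, Q n → n ≤ Nat.card V := by
    rintro n ⟨Y, Z, -, -, -, rfl⟩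
    exact Set.ncard_le_card _
  have hQ₀ : Q ({y | ∃ k : K, y = g₀ (k • x)} ∩ Kline K (g₀ x)).ncard := ⟨_, _, hY₀, hZ₀, hne₀, rfl⟩
  obtain ⟨nmax, hQmax, hmaxn⟩ : ∃ n, Q n ∧ ∀ n', Q n' → n' ≤ n := by
    refine ⟨Nat.findGreatest Q (Nat.card V), Nat.findGreatest_spec (hQbd _ hQ₀) hQ₀, ?_⟩
    intro n' hn'
    exact Nat.le_findGreatest (hQbd _ hn') hn'
  have hn2 : 2 ≤ nmax := le_trans h2₀ (hmaxn _ hQ₀)
  obtain ⟨Y, Z, hY, hZ, hYZ, hcardYZ⟩ := hQmax
  -- normalise `Y` to a `K`-line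
  obtain ⟨g, a₁, hPg, ha₁, hYeq⟩ := hY
  obtain ⟨g', hgg', hg'g, hPg'⟩ := Helper3.C3S.p_inv h g hPg
  have hinj' : Function.Injective g' := Helper98.c3_inj_of_left_inv g' g hgg'
  have hg'g_apply : ∀ v, g' (g v) = v := fun v => by
    rw [← Module.End.mul_apply, hg'g]; rfl
  have hgg'_apply : ∀ v, g (g' v) = v := fun v => by
    rw [← Module.End.mul_apply, hgg']; rfl
  have hXW : InW K P (g' '' Z) := Helper81.C3S.inW_image h Z hZ g' hPg'
  have himY : g' '' Y = Kline K a₁ := by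
    ext v
    constructor
    · rintro ⟨y, hy, rfl⟩
      rw [hYeq] at hy
      obtain ⟨k, rfl⟩ := hy
      exact ⟨k, hg'g_apply _⟩
    · rintro ⟨k, rfl⟩
      exact ⟨g (k • a₁), by rw [hYeq]; exact ⟨k, rfl⟩, hg'g_apply _⟩
  have hXne : g' '' Z ≠ Kline K a₁ := by
    intro heq
    apply hYZ
    rw [← himY] at heq
    exact (hinj'.image_injective heq).symm
  have hXcard : (g' '' Z ∩ Kline K a₁).ncard = nmax := by
    rw [← himY, ← Set.image_inter hinj', Set.ncard_image_of_injective _ hinj', Set.inter_comm, hcardYZ]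
  have hmaxX : ∀ Y' Z' : Set V, InW K P Y' → InW K P Z' → Y' ≠ Z' →
      (Y' ∩ Z').ncard ≤ (g' '' Z ∩ Kline K a₁).ncard := by
    intro Y' Z' hY' hZ' hne'
    rw [hXcard]
    exact hmaxn _ ⟨Y', Z', hY', hZ', hne', rfl⟩
  by_cases hgood : ∃ (a' : V) (X' : Set V), a' ≠ 0 ∧ InW K P X' ∧ X' ≠ Kline K a' ∧
      (X' ∩ Kline K a').ncard = nmax ∧ ¬ ∀ x ∈ X', φ x a' = 0
  · obtain ⟨a', X', ha', hX', hne', hcard', hnot⟩ := hgood
    have hmax' : ∀ Y' Z' : Set V, InW K P Y' → InW K P Z' → Y' ≠ Z' →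
        (Y' ∩ Z').ncard ≤ (X' ∩ Kline K a').ncard := by
      intro Y' Z' hY' hZ' hne''
      rw [hcard']
      exact hmaxn _ ⟨Y', Z', hY', hZ', hne'', rfl⟩
    obtain ⟨f0, fadd, fsm, fcard, fts⟩ := Helper81.C3S.inW_facts h X' hX'
    have hint' : ∃ x ∈ X', x ≠ 0 ∧ x ∈ Kline K a' := by
      obtain ⟨x, hx, hx0⟩ := c3s_exists_ne_zero_of_two_le_ncard (X' ∩ Kline K a') (by rw [hcard']; exact hn2)
      exact ⟨x, hx.1, hx0, hx.2⟩
    rcases Helper81.C3S.max_B hr φ h.alt a' ha' X' f0 fadd fsm fcard fts hne' hint'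
      (fun c w₀ hw₀ hw₀' hw₀c => Helper3.C3S.max_A h a' ha' X' hX' hmax' c w₀ hw₀ hw₀' hw₀c) with h1' | ⟨a₂, b, hab, hXeq⟩
    · exact absurd h1' hnot
    · exact ⟨a₂, b, hab, hXeq ▸ hX'⟩
  · exfalso
    push Not at hgood
    have hint : ∃ x ∈ g' '' Z, x ≠ 0 ∧ x ∈ Kline K a₁ := by
      obtain ⟨x, hx, hx0⟩ := c3s_exists_ne_zero_of_two_le_ncard (g' '' Z ∩ Kline K a₁) (by rw [hXcard]; exact hn2)
      exact ⟨x, hx.1, hx0, hx.2⟩
    exact Helper39.C3S.type2_false h a₁ ha₁ (g' '' Z) hXW hXne hint hmaxX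
      (fun a' X' ha' hX' hne' hc => hgood a' X' ha' hX' hne' (hc.trans hXcard))

/-- MAIN THEOREM (abstract form): a group of `Tr ∘ φ`-isometries containing `Sp(V, φ)` and an element
which is not `K`-semilinear contains every `F`-transvection. -/
theorem c3s_main [Fintype F] [Finite K] [Module.Finite K V] (hr : (finrank F K).Prime)
    {φ : LinearMap.BilinForm K V} {P : Module.End F V → Prop} (h : Hyp φ P)
    (hd2 : 2 ≤ finrank K V) (hd : 4 ≤ finrank K V ∨ 3 ≤ finrank F K)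
    (hex : ∃ g₀ h₀ : Module.End F V, P g₀ ∧ g₀ * h₀ = 1 ∧ h₀ * g₀ = 1 ∧ ¬ Helper98.c3_N K g₀)
    (u : V) (s : F) : P (tF φ u s) := by
  obtain ⟨a, b, hab, hW⟩ := c3s_good hr h hd2 hex
  rcases hd with h4 | h3
  · obtain ⟨u₀, hu₀, h0⟩ := Helper66.C3S.fin_A hr h h4 a b hab hW
    exact Helper28.C3S.all_tv h u₀ hu₀ h0 u s
  · obtain ⟨u₀, hu₀, h0⟩ := Helper39.C3S.fin_B3 hr h a b hab hW
      (fun k₁ k₂ => Helper83.C3S.fin_B2 h h3 a b hab (fun ζ c hζ hc => Helper83.C3S.fin_B1 h a b hab hW ζ c hζ hc) k₁ k₂)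
    exact Helper28.C3S.all_tv h u₀ hu₀ h0 u s

end Cfsg.Agent.Helper96.C3S
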