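import Mathlib
import Cfsg.Prelude.Def_GeometricClasses
import Cfsg.Prelude.Def_ClassicalGeometry
import Cfsg.Agent.Helper96.C3SDefs
import Cfsg.Agent.Helper81.C3SPHI
import Cfsg.Agent.Helper81.C3SWLIB
import Cfsg.Agent.Helper28.C3SWSTRICT
import Cfsg.Agent.Helper94.SpGen
import Cfsg.Agent.Helper97.GBasic

/-!
# CALL S5664, PIECE WRAP: the concrete wrapper

The statement of S5664 from the abstract main theorem (passed as the hypothesis `hmain`).
-/

set_option autoImplicit false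
set_option linter.unusedSectionVars false
set_option linter.unusedVariables false
set_option linter.style.haveILetI false

namespace Cfsg.Agent.Helper96.C3S

open Module Cfsg Cfsg.Geo Matrix

universe u

variable {F : Type u} [Field F] [Fintype F] {m : ℕ}

/-- the statement for an abstract field `K'` acting through matrices -/
theorem c3s_final (K' : Type u) [Field K'] [Algebra F K'] [Module K' (Fin m ⊕ Fin m → F)]
    [IsScalarTower F K' (Fin m ⊕ Fin m → F)] [Finite K']
    (K : Subalgebra F (Matrix (Fin m ⊕ Fin m) (Fin m ⊕ Fin m) F))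
    (j : K' → Matrix (Fin m ⊕ Fin m) (Fin m ⊕ Fin m) F)
    (hj : ∀ (k : K') (v : Fin m ⊕ Fin m → F), k • v = j k *ᵥ v)
    (hK : ∀ x, x ∈ K ↔ ∃ k, j k = x) (hm : 7 ≤ m) (r : ℕ) (hr : r.Prime)
    (hfr : finrank F K' = r)
    (hsa : ∀ (k : K') (u v : Fin m ⊕ Fin m → F), sympForm m F (k • u) v = sympForm m F u (k • v))
    (halt : ∀ (k : K') (v : Fin m ⊕ Fin m → F), sympForm m F (k • v) v = 0)
    (hmain : ∀ (φ : LinearMap.BilinForm K' (Fin m ⊕ Fin m → F))
      (P : Module.End F (Fin m ⊕ Fin m → F) → Prop),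
      (finrank F K').Prime → Hyp φ P → 2 ≤ finrank K' (Fin m ⊕ Fin m → F) →
      (4 ≤ finrank K' (Fin m ⊕ Fin m → F) ∨ 3 ≤ finrank F K') →
      (∃ g₀ h₀ : Module.End F (Fin m ⊕ Fin m → F), P g₀ ∧ g₀ * h₀ = 1 ∧ h₀ * g₀ = 1 ∧
        ¬ Helper98.c3_N K' g₀) →
      ∀ (u : Fin m ⊕ Fin m → F) (s : F), P (tF φ u s)) :
    IsMaximalIn (spGL m F) (subalgebraNormalizer K ⊓ spGL m F) := by
  classical
  -- the `K'`-form
  obtain ⟨φ, hφ, halt', hnd'⟩ := Helper81.C3S.exists_phi (F := F) (K := K') (Helper94.sympB m F)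
    (fun k u v => by rw [Helper94.sympB_apply, Helper94.sympB_apply]; exact hsa k u v)
    (fun k v => by rw [Helper94.sympB_apply]; exact halt k v)
    (fun u hu => Helper13.sympForm_sep u (fun v => by rw [← Helper94.sympB_apply]; exact hu v))
  have hfT : ∀ u v : Fin m ⊕ Fin m → F, fT (F := F) φ u v = sympForm m F u v := fun u v => by
    rw [fT_apply, hφ, Helper94.sympB_apply]
  -- arithmetic
  have hrank : r * finrank K' (Fin m ⊕ Fin m → F) = 2 * m := by
    rw [← hfr, Module.finrank_mul_finrank, Module.finrank_fintype_fun_eq_card]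
    simp
    ring
  have hr2 := hr.two_le
  have hd2 : 2 ≤ finrank K' (Fin m ⊕ Fin m → F) := by
    by_contra hlt
    push Not at hlt
    interval_cases hd : finrank K' (Fin m ⊕ Fin m → F)
    · omega
    · have h2 : r = 2 * m := by omega
      have hdvd : 2 ∣ r := ⟨m, h2⟩
      have := (Nat.prime_dvd_prime_iff_eq Nat.prime_two hr).mp hdvd
      omega
  have hd : 4 ≤ finrank K' (Fin m ⊕ Fin m → F) ∨ 3 ≤ finrank F K' := by
    rw [hfr]
    by_cases h3 : 3 ≤ r
    · exact Or.inr h3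
    · left
      have h2 : r = 2 := by omega
      rw [h2] at hrank
      omega
  have hr' : (finrank F K').Prime := hfr ▸ hr
  -- a hyperbolic pair
  obtain ⟨a, b, hab⟩ : ∃ a b : Fin m ⊕ Fin m → F, φ a b = 1 := by
    haveI : Nontrivial (Fin m ⊕ Fin m → F) :=
      Module.nontrivial_of_finrank_pos (R := K') (by omega)
    obtain ⟨a, ha⟩ := exists_ne (0 : Fin m ⊕ Fin m → F)
    obtain ⟨v, hv⟩ : ∃ v, φ a v ≠ 0 := by
      by_contra hcon
      push Not at hcon
      exact ha (hnd' a hcon)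
    exact ⟨a, (φ a v)⁻¹ • v, by rw [map_smul, smul_eq_mul, inv_mul_cancel₀ hv]⟩
  -- transvections
  have htv : ∀ (u : Fin m ⊕ Fin m → F) (s : F),
      (Matrix.toLin' ((Helper94.stGL u s : GL (Fin m ⊕ Fin m) F) :
        Matrix (Fin m ⊕ Fin m) (Fin m ⊕ Fin m) F) : Module.End F (Fin m ⊕ Fin m → F)) =
        tF φ u s := by
    intro u s
    apply LinearMap.ext
    intro v
    rw [Matrix.toLin'_apply, Helper94.stGL_mulVec, tF_apply, hfT]
  -- the hypotheses for an overgroup
  have hHyp : ∀ M : Subgroup (GL (Fin m ⊕ Fin m) F), subalgebraNormalizer K ⊓ spGL m F ≤ M →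
      M ≤ spGL m F → Hyp φ (fun f : Module.End F (Fin m ⊕ Fin m → F) =>
        ∃ g ∈ M, Matrix.toLin' (g : Matrix (Fin m ⊕ Fin m) (Fin m ⊕ Fin m) F) = f) := by
    intro M h1 h2
    refine ⟨halt', hnd', Helper81.C3S.c3P_of_subgroup M, ?_, ?_⟩
    · rintro g ⟨G, hG, rfl⟩ u v
      rw [hfT, hfT, Matrix.toLin'_apply, Matrix.toLin'_apply]
      exact (Helper94.mem_spGL_iff G).mp (h2 hG) u v
    · intro n hn
      have hinj : Function.Injective n := by
        rw [injective_iff_map_eq_zero]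
        intro x hx
        apply hnd'
        intro v
        rw [← hn x v, hx]
        simp
      haveI : Module.Finite K' (Fin m ⊕ Fin m → F) := Module.Finite.of_finite
      let e : (Fin m ⊕ Fin m → F) ≃ₗ[K'] (Fin m ⊕ Fin m → F) := LinearEquiv.ofInjectiveEndo n hinj
      have he : ∀ v, e v = n v := fun v => congrFun (LinearEquiv.coe_ofInjectiveEndo n hinj) v
      have e1 : (n.restrictScalars F : Module.End F (Fin m ⊕ Fin m → F)) *
          (e.symm : (Fin m ⊕ Fin m → F) →ₗ[K'] (Fin m ⊕ Fin m → F)).restrictScalars F = 1 := by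
        apply LinearMap.ext
        intro v
        simp only [Module.End.mul_apply, LinearMap.restrictScalars_apply, LinearEquiv.coe_coe,
          Module.End.one_apply]
        rw [← he, LinearEquiv.apply_symm_apply]
      have e2 : ((e.symm : (Fin m ⊕ Fin m → F) →ₗ[K'] (Fin m ⊕ Fin m → F)).restrictScalars F :
          Module.End F (Fin m ⊕ Fin m → F)) * n.restrictScalars F = 1 := by
        apply LinearMap.ext
        intro v
        simp only [Module.End.mul_apply, LinearMap.restrictScalars_apply, LinearEquiv.coe_coe,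
          Module.End.one_apply]
        rw [← he, LinearEquiv.symm_apply_apply]
      obtain ⟨G, hG⟩ := Helper81.C3S.gl_of_end _ _ e1 e2
      refine ⟨G, h1 ⟨?_, ?_⟩, hG⟩
      · show G ∈ subalgebraNormalizer K
        rw [Helper81.C3S.mem_normalizer_iff K' K j hj hK, hG]
        exact Helper98.c3_N_of_lin _ _ e1 e2 (fun k v => n.map_smul k v)
      · show G ∈ spGL m F
        rw [Helper94.mem_spGL_iff]
        intro u v
        rw [← Matrix.toLin'_apply, ← Matrix.toLin'_apply, hG, ← hfT, ← hfT, fT_apply, fT_apply]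
        simp only [LinearMap.restrictScalars_apply]
        rw [hn]
  refine ⟨lt_of_le_of_ne inf_le_right (fun heq => ?_), fun M h1 h2 => ?_⟩
  · -- strictness
    have hmem : Helper94.stGL a (1 : F) ∈ subalgebraNormalizer K ⊓ spGL m F := by
      rw [heq]; exact Helper94.stGL_mem a 1
    have hN : Helper94.stGL a (1 : F) ∈ subalgebraNormalizer K := hmem.1
    rw [Helper81.C3S.mem_normalizer_iff K' K j hj hK, htv] at hN
    exact Helper28.C3S.tF_not_N φ halt' a b hab (by rw [hfr]; exact hr2) hN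
  · by_cases hMN : M ≤ subalgebraNormalizer K
    · exact Or.inl (le_antisymm (le_inf hMN h2) h1)
    · right
      obtain ⟨g, hgM, hgN⟩ := SetLike.not_le_iff_exists.mp hMN
      have hex : ∃ g₀ h₀ : Module.End F (Fin m ⊕ Fin m → F),
          (∃ g ∈ M, Matrix.toLin' (g : Matrix (Fin m ⊕ Fin m) (Fin m ⊕ Fin m) F) = g₀) ∧
            g₀ * h₀ = 1 ∧ h₀ * g₀ = 1 ∧ ¬ Helper98.c3_N K' g₀ := by
        obtain ⟨e1, e2⟩ := Helper81.C3S.toLin_gl_inv g
        refine ⟨_, _, ⟨g, hgM, rfl⟩, e1, e2, ?_⟩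
        rw [← Helper81.C3S.mem_normalizer_iff K' K j hj hK]
        exact hgN
      refine le_antisymm h2 (Helper94.spGL_le_of_tv M (fun u s => ?_))
      obtain ⟨g1, hg1, e⟩ := hmain φ _ hr' (hHyp M h1 h2) hd2 hd hex u s
      have : g1 = Helper94.stGL u s := by
        apply Helper94.gl_ext
        intro x
        rw [← Matrix.toLin'_apply, ← Matrix.toLin'_apply, e, htv]
      rw [← this]
      exact hg1

/-- PIECE WRAP: the concrete wrapper -/
theorem c3s_concrete (m : ℕ) (hm : 7 ≤ m) (r : ℕ) (hr : r.Prime)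
    (K : Subalgebra F (Matrix (Fin m ⊕ Fin m) (Fin m ⊕ Fin m) F))
    (hK : Cfsg.Geo.IsFieldSubalgebra r K)
    (hsa : Cfsg.Geo.IsSelfAdjointFor (Cfsg.sympForm m F) K)
    (halt : ∀ k ∈ K, ∀ v : (Fin m ⊕ Fin m → F), Cfsg.sympForm m F (Matrix.mulVec k v) v = 0)
    (hmain : ∀ (K' : Type u) [Field K'] [Algebra F K'] [Module K' (Fin m ⊕ Fin m → F)]
      [IsScalarTower F K' (Fin m ⊕ Fin m → F)] [Finite K']
      (φ : LinearMap.BilinForm K' (Fin m ⊕ Fin m → F))
      (P : Module.End F (Fin m ⊕ Fin m → F) → Prop),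
      (finrank F K').Prime → Hyp φ P → 2 ≤ finrank K' (Fin m ⊕ Fin m → F) →
      (4 ≤ finrank K' (Fin m ⊕ Fin m → F) ∨ 3 ≤ finrank F K') →
      (∃ g₀ h₀ : Module.End F (Fin m ⊕ Fin m → F), P g₀ ∧ g₀ * h₀ = 1 ∧ h₀ * g₀ = 1 ∧
        ¬ Helper98.c3_N K' g₀) →
      ∀ (u : Fin m ⊕ Fin m → F) (s : F), P (tF φ u s)) :
    Cfsg.Geo.IsMaximalIn (Cfsg.spGL m F) (Cfsg.Geo.subalgebraNormalizer K ⊓ Cfsg.spGL m F) := by
  classical
  have hr2 := hr.two_le
  haveI hnt : Nontrivial K :=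
    Module.nontrivial_of_finrank_pos (R := F) (by rw [hK.finrank_eq]; exact hr.pos)
  have hfield : IsField K :=
    ⟨exists_pair_ne K, fun x y => Subtype.ext (hK.comm x.1 x.2 y.1 y.2), fun {a} ha => by
      obtain ⟨y, hy, hxy⟩ := hK.inv a.1 a.2 (fun h => ha (Subtype.ext h))
      exact ⟨⟨y, hy⟩, Subtype.ext hxy⟩⟩
  let iF : Field K := hfield.toField
  let iA : Algebra F K := Subalgebra.algebra K
  let iM : Module K (Fin m ⊕ Fin m → F) := Module.compHom (Fin m ⊕ Fin m → F)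
    ((Matrix.toLinAlgEquiv' : Matrix (Fin m ⊕ Fin m) (Fin m ⊕ Fin m) F ≃ₐ[F]
      Module.End F (Fin m ⊕ Fin m → F)).toAlgHom.toRingHom.comp K.val.toRingHom)
  have hsmul : ∀ (k : K) (v : Fin m ⊕ Fin m → F), @HSMul.hSMul K (Fin m ⊕ Fin m → F)
      (Fin m ⊕ Fin m → F) (@instHSMul K (Fin m ⊕ Fin m → F) iM.toSMul) k v = k.1 *ᵥ v :=
    fun k v => rfl
  have iT : @IsScalarTower F K (Fin m ⊕ Fin m → F) iA.toSMul iM.toSMul _ := by
    refine @IsScalarTower.mk F K (Fin m ⊕ Fin m → F) iA.toSMul iM.toSMul _ ?_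
    intro c k v
    rw [hsmul, hsmul]
    exact Matrix.smul_mulVec c k.1 v
  have iFin : Finite K := inferInstance
  exact @c3s_final F _ _ m K iF iA iM iT iFin K (fun k => k.1) hsmul
    (fun x => ⟨fun hx => ⟨⟨x, hx⟩, rfl⟩, fun ⟨k, hk⟩ => hk ▸ k.2⟩) hm r hr hK.finrank_eq
    (fun k u v => hsa k.1 k.2 u v) (fun k v => halt k.1 k.2 v)
    (@hmain K iF iA iM iT iFin)

end Cfsg.Agent.Helper96.C3S
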