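import Cfsg.Agent.Helper96.CWDefs

/-!
# CALL S5707, piece IS (helper96): the "Siegel" elements `1 + X₁ ⊗ ⋯ ⊗ X_t` (characteristic 2).
-/

set_option autoImplicit false
set_option linter.unusedSectionVars false
set_option linter.unusedSimpArgs false
set_option linter.unusedVariables false

namespace Cfsg.Agent.Helper96.CWIS

open Matrix Cfsg Cfsg.Geo Cfsg.Agent.Helper96 Cfsg.Agent.Helper96.CW

variable {F : Type*} [Field F] {k t : ℕ}

theorem ptM_zero_of (as : Fin t → Matrix (Fin k) (Fin k) F) (i : Fin t) (h : as i = 0) :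
    ptM as = 0 := by
  ext x y
  rw [ptM_apply, Matrix.zero_apply]
  exact Finset.prod_eq_zero (Finset.mem_univ i) (by rw [h]; rfl)

theorem ptM_transpose (as : Fin t → Matrix (Fin k) (Fin k) F) :
    (ptM as)ᵀ = ptM (fun i => (as i)ᵀ) := by
  ext x y
  rw [Matrix.transpose_apply, ptM_apply, ptM_apply]
  rfl

theorem bf_single {κ : Type*} [Fintype κ] [DecidableEq κ] (M : Matrix κ κ F) (a : κ) (y : κ → F) :
    T5.bf M (Pi.single a 1) y = (M *ᵥ y) a := by
  rw [T5.bf, single_one_dotProduct]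

theorem transpose_eq_of_alt (h2 : (2 : F) = 0) (G : Matrix (Fin k) (Fin k) F)
    (halt : ∀ u, T5.bf G u u = 0) : Gᵀ = G := by
  ext i j
  rw [Matrix.transpose_apply]
  have h1 := T5.bf_swap G halt (Pi.single j 1) (Pi.single i 1)
  rw [bf_single, bf_single, Matrix.mulVec_single_one, Matrix.mulVec_single_one] at h1
  simp only [Matrix.col_apply] at h1
  have h3 : G i j + G i j = 0 := by rw [← two_mul, h2, zero_mul]
  rw [h1]
  exact neg_eq_of_add_eq_zero_left h3

theorem single_pure (a : Fin t → Fin k) :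
    (Pi.single a (1 : F) : (Fin t → Fin k) → F)
      = fun x => ∏ i, (Pi.single (a i) (1 : F) : Fin k → F) (x i) := by
  classical
  funext x
  by_cases h : x = a
  · subst h
    simp
  · rw [Pi.single_eq_of_ne h]
    obtain ⟨i, hi⟩ : ∃ i, x i ≠ a i := by
      by_contra hcon
      push Not at hcon
      exact h (funext hcon)
    symm
    exact Finset.prod_eq_zero (Finset.mem_univ i) (Pi.single_eq_of_ne hi _)

/-- PIECE IS: the "Siegel" elements `1 + X₁ ⊗ ⋯ ⊗ X_t` (characteristic 2). -/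
theorem is_ (h2 : (2 : F) = 0) {G : Matrix (Fin k) (Fin k) F}
    {Q' : ((Fin t → Fin k) → F) → F} (hT : TPQ G Q')
    (Xs : Fin t → Matrix (Fin k) (Fin k) F)
    (hsq : ∃ i, Xs i * Xs i = 0) (hsym : ∀ i, (G * Xs i)ᵀ = G * Xs i)
    (hdiag : ∃ i, ∀ α, (G * Xs i) α α = 0) :
    (1 + ptM Xs) * (1 + ptM Xs) = 1 ∧ (1 + ptM Xs)ᵀ * GT t G * (1 + ptM Xs) = GT t G ∧
      ∀ a, Q' ((1 + ptM Xs) *ᵥ Pi.single a 1) = 0 := by
  classical
  have hNN : ptM Xs * ptM Xs = 0 := by
    obtain ⟨i, hi⟩ := hsq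
    rw [ptM_mul]
    exact ptM_zero_of _ i hi
  have hdbl : ∀ M : Matrix (Fin t → Fin k) (Fin t → Fin k) F, M + M = 0 := by
    intro M
    rw [← two_smul F M, h2, zero_smul]
  have hGN : GT t G * ptM Xs = ptM (fun i => G * Xs i) := by
    rw [GT, ptM_mul]
  have hGNs : (GT t G * ptM Xs)ᵀ = GT t G * ptM Xs := by
    rw [hGN, ptM_transpose]
    congr 1
    funext i
    exact hsym i
  have hGs : (GT t G)ᵀ = GT t G := by
    rw [GT, ptM_transpose]
    congr 1
    funext i
    exact transpose_eq_of_alt h2 G hT.alt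
  have hNG : (ptM Xs)ᵀ * GT t G = GT t G * ptM Xs := by
    rw [← hGNs, Matrix.transpose_mul, hGs]
  refine ⟨?_, ?_, ?_⟩
  · have h : (1 + ptM Xs) * (1 + ptM Xs) = 1 + (ptM Xs + ptM Xs) + ptM Xs * ptM Xs := by
      simp only [add_mul, mul_add, one_mul, mul_one]
      abel
    rw [h, hdbl, hNN, add_zero, add_zero]
  · have h : (1 + ptM Xs)ᵀ * GT t G * (1 + ptM Xs)
        = GT t G + ((ptM Xs)ᵀ * GT t G + GT t G * ptM Xs) + (ptM Xs)ᵀ * GT t G * ptM Xs := by
      rw [Matrix.transpose_add, Matrix.transpose_one]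
      simp only [add_mul, mul_add, one_mul, mul_one]
      abel
    rw [h, hNG, hdbl, mul_assoc, hNN, mul_zero, add_zero, add_zero]
  · intro a
    rw [Matrix.add_mulVec, Matrix.one_mulVec]
    have hpol := hT.polar (Pi.single a 1) (ptM Xs *ᵥ Pi.single a 1)
    rw [QuadraticMap.polar] at hpol
    have hq1 : Q' (Pi.single a 1) = 0 := by
      rw [single_pure]
      exact hT.pure _
    have hq2 : Q' (ptM Xs *ᵥ Pi.single a 1) = 0 := by
      have h : ptM Xs *ᵥ Pi.single a 1 = fun x => ∏ i, (fun α => Xs i α (a i)) (x i) := by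
        funext x
        rw [Matrix.mulVec_single_one]
        rfl
      rw [h]
      exact hT.pure (fun i α => Xs i α (a i))
    have hq3 : T5.bf (GT t G) (Pi.single a 1) (ptM Xs *ᵥ Pi.single a 1) = 0 := by
      rw [bf_single, Matrix.mulVec_mulVec, hGN, Matrix.mulVec_single_one]
      show ptM (fun i => G * Xs i) a a = 0
      rw [ptM_apply]
      obtain ⟨i, hi⟩ := hdiag
      exact Finset.prod_eq_zero (Finset.mem_univ i) (hi (a i))
    rw [hq1, hq2, hq3] at hpol
    simpa using hpol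

end Cfsg.Agent.Helper96.CWIS
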