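import Cfsg.Agent.Helper96.CWDefs

/-!
# CALL S5707, piece NF (helper96): normal form of the elements of the standard tensor-wreath
group.
-/

set_option autoImplicit false
set_option linter.unusedSectionVars false
set_option linter.unusedSimpArgs false
set_option linter.unusedVariables false

namespace Cfsg.Agent.Helper96.CWNF

open Matrix Cfsg Cfsg.Geo Cfsg.Agent.Helper96 Cfsg.Agent.Helper96.CW

variable {F : Type*} [Field F] {k t : ℕ}

theorem fpM_one' : fpM F k (1 : Equiv.Perm (Fin t)) = 1 := by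
  classical
  ext x y
  rw [fpM_apply, Matrix.one_apply]
  have h : (y = x ∘ ((1 : Equiv.Perm (Fin t)) : Fin t → Fin t)) ↔ x = y := by
    have h1 : x ∘ ((1 : Equiv.Perm (Fin t)) : Fin t → Fin t) = x := by
      funext i
      simp
    rw [h1]
    exact eq_comm
  simp only [h]

theorem fpM_mul_fpM (σ τ : Equiv.Perm (Fin t)) : fpM F k σ * fpM F k τ = fpM F k (σ * τ) := by
  classical
  ext x z
  rw [fpM_mul_apply, fpM_apply, fpM_apply]
  have h : (x ∘ σ) ∘ τ = x ∘ ((σ * τ : Equiv.Perm (Fin t)) : Fin t → Fin t) := by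
    funext i
    simp
  rw [h]

theorem ptM_mul_fpM (a : Fin t → Matrix (Fin k) (Fin k) F) (τ : Equiv.Perm (Fin t)) :
    ptM a * fpM F k τ = fpM F k τ * ptM (fun i => a (τ i)) := by
  rw [fpM_mul_ptM]
  congr 2
  funext i
  simp

/-- PIECE NF: normal form of the elements of the standard tensor-wreath group. -/
theorem nf (g : GL (Fin t → Fin k) F) (hg : g ∈ tensorWreathStandard k t F) :
    ∃ (σ : Equiv.Perm (Fin t)) (a ainv : Fin t → Matrix (Fin k) (Fin k) F),
      (∀ i, a i * ainv i = 1) ∧ (∀ i, ainv i * a i = 1) ∧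
      (g : Matrix (Fin t → Fin k) (Fin t → Fin k) F) = fpM F k σ * ptM a := by
  classical
  induction hg using Subgroup.closure_induction with
  | mem g hg =>
    rcases hg with ⟨gs, hgs⟩ | ⟨σ, hσ⟩
    · refine ⟨1, fun i => (gs i : Matrix (Fin k) (Fin k) F),
        fun i => ((gs i)⁻¹ : GL (Fin k) F), fun i => ?_, fun i => ?_, ?_⟩
      · rw [← Units.val_mul, mul_inv_cancel, Units.val_one]
      · rw [← Units.val_mul, inv_mul_cancel, Units.val_one]
      · rw [fpM_one', one_mul]
        ext x y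
        rw [hgs, ptM_apply]
    · refine ⟨σ, fun _ => 1, fun _ => 1, fun i => one_mul 1, fun i => one_mul 1, ?_⟩
      rw [ptM_one, mul_one]
      ext x y
      rw [hσ, fpM_apply]
  | one =>
    refine ⟨1, fun _ => 1, fun _ => 1, fun i => one_mul 1, fun i => one_mul 1, ?_⟩
    rw [ptM_one, mul_one, fpM_one', Units.val_one]
  | mul x y _ _ hx hy =>
    obtain ⟨σ, a, ainv, ha1, ha2, hxe⟩ := hx
    obtain ⟨τ, b, binv, hb1, hb2, hye⟩ := hy
    refine ⟨σ * τ, fun i => a (τ i) * b i, fun i => binv i * ainv (τ i), fun i => ?_, fun i => ?_, ?_⟩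
    · rw [mul_assoc, ← mul_assoc (b i), hb1, one_mul, ha1]
    · rw [mul_assoc, ← mul_assoc (ainv (τ i)), ha2, one_mul, hb2]
    · rw [Units.val_mul, hxe, hye, mul_assoc, ← mul_assoc (ptM a), ptM_mul_fpM, mul_assoc,
        ptM_mul, ← mul_assoc, fpM_mul_fpM]
  | inv x _ hx =>
    obtain ⟨σ, a, ainv, ha1, ha2, hxe⟩ := hx
    have hX : (x : Matrix (Fin t → Fin k) (Fin t → Fin k) F) * (ptM ainv * fpM F k σ.symm) = 1 := by
      rw [hxe, mul_assoc, ← mul_assoc (ptM a), ptM_mul]
      have h1 : (fun i => a i * ainv i) = fun _ : Fin t => (1 : Matrix (Fin k) (Fin k) F) :=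
        funext ha1
      rw [h1, ptM_one, one_mul, fpM_mul_symm]
    have hinv : ((x⁻¹ : GL (Fin t → Fin k) F) : Matrix (Fin t → Fin k) (Fin t → Fin k) F)
        = ptM ainv * fpM F k σ.symm := by
      have h2 : ((x⁻¹ : GL (Fin t → Fin k) F) : Matrix (Fin t → Fin k) (Fin t → Fin k) F)
          = ((x⁻¹ : GL (Fin t → Fin k) F) : Matrix (Fin t → Fin k) (Fin t → Fin k) F) *
            ((x : Matrix (Fin t → Fin k) (Fin t → Fin k) F) * (ptM ainv * fpM F k σ.symm)) := by
        rw [hX, mul_one]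
      rw [h2, ← mul_assoc, ← Units.val_mul, inv_mul_cancel, Units.val_one, one_mul]
    refine ⟨σ.symm, fun i => ainv (σ.symm i), fun i => a (σ.symm i), fun i => ha2 _,
      fun i => ha1 _, ?_⟩
    rw [hinv, ptM_mul_fpM]

end Cfsg.Agent.Helper96.CWNF
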