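import Cfsg.Agent.Helper96.CWDefs
import Cfsg.Agent.Helper41.T5REDG

/-!
# CALL S5707, piece RG (helper96): transport of the non-maximality statement along `P`, `e`.
-/

set_option autoImplicit false
set_option linter.unusedSectionVars false
set_option linter.unusedSimpArgs false
set_option linter.unusedVariables false

namespace Cfsg.Agent.Helper96.CWRG

open Matrix Cfsg Cfsg.Geo Cfsg.Agent.Helper96 Cfsg.Agent.Helper96.CW

/-- PIECE RG: transport of the non-maximality statement along `P`, `e`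
(model: `Helper41/T5REDG.lean`, `redg`). -/
theorem rg {F : Type*} [Field F] {n : ℕ} (Q : (Fin n → F) → F) (k t : ℕ)
    (e : Fin n ≃ (Fin t → Fin k)) (P : GL (Fin n) F) (c : F) (hc : c ≠ 0)
    (Q' : ((Fin t → Fin k) → F) → F)
    (hQQ : ∀ v : (Fin t → Fin k) → F, Q ((P : Matrix (Fin n) (Fin n) F) *ᵥ (v ∘ e)) = c * Q' v)
    (hmain : ∃ K' : Subgroup (GL (Fin t → Fin k) F),
      tensorWreathStandard k t F ⊓ omegaGL Q' < K' ∧ K' < omegaGL Q') :
    ∃ K : Subgroup (GL (Fin n) F),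
      tensorWreathSubgroup k t e P ⊓ omegaGL Q < K ∧ K < omegaGL Q := by
  classical
  obtain ⟨ψ, hψ⟩ : ∃ ψ : GL (Fin t → Fin k) F ≃* GL (Fin n) F,
      ψ = (glReindex e.symm).trans (MulAut.conj P) := ⟨_, rfl⟩
  have hT : tensorWreathSubgroup k t e P
      = (tensorWreathStandard k t F).map ψ.toMonoidHom := by
    unfold tensorWreathSubgroup
    rw [Subgroup.map_map, hψ]
    rfl
  have hre : ∀ (g : GL (Fin t → Fin k) F) (v : (Fin t → Fin k) → F),
      ((glReindex e.symm g : GL (Fin n) F) : Matrix (Fin n) (Fin n) F) *ᵥ (v ∘ e)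
        = ((g : Matrix (Fin t → Fin k) (Fin t → Fin k) F) *ᵥ v) ∘ e := by
    intro g v
    show ((g : Matrix (Fin t → Fin k) (Fin t → Fin k) F).submatrix e e) *ᵥ (v ∘ e) = _
    rw [Matrix.submatrix_mulVec_equiv]
    congr 2
    funext p
    simp
  have hact : ∀ (g : GL (Fin t → Fin k) F) (v : (Fin t → Fin k) → F),
      ((ψ g : GL (Fin n) F) : Matrix (Fin n) (Fin n) F) *ᵥ
          ((P : Matrix (Fin n) (Fin n) F) *ᵥ (v ∘ e))
        = (P : Matrix (Fin n) (Fin n) F) *ᵥ
          (((g : Matrix (Fin t → Fin k) (Fin t → Fin k) F) *ᵥ v) ∘ e) := by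
    intro g v
    have h : ψ g = P * glReindex e.symm g * P⁻¹ := by
      rw [hψ]
      rfl
    rw [h, Matrix.mulVec_mulVec, ← Units.val_mul, inv_mul_cancel_right, Units.val_mul,
      ← Matrix.mulVec_mulVec, hre]
  have hsurj : ∀ x : Fin n → F, ∃ v : (Fin t → Fin k) → F,
      x = (P : Matrix (Fin n) (Fin n) F) *ᵥ (v ∘ e) := by
    intro x
    refine ⟨(((P⁻¹ : GL (Fin n) F) : Matrix (Fin n) (Fin n) F) *ᵥ x) ∘ e.symm, ?_⟩
    have h3 : ((((P⁻¹ : GL (Fin n) F) : Matrix (Fin n) (Fin n) F) *ᵥ x) ∘ e.symm) ∘ e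
        = ((P⁻¹ : GL (Fin n) F) : Matrix (Fin n) (Fin n) F) *ᵥ x := by
      funext i
      simp
    rw [h3, Matrix.mulVec_mulVec, ← Units.val_mul, mul_inv_cancel, Units.val_one,
      Matrix.one_mulVec]
  have hiso : ∀ g : GL (Fin t → Fin k) F,
      ψ g ∈ isometryGroup F Q ↔ g ∈ isometryGroup F Q' := by
    intro g
    rw [Helper97.Gen.mem_isometryGroup_iff, Helper97.Gen.mem_isometryGroup_iff]
    constructor
    · intro h v
      have := h ((P : Matrix (Fin n) (Fin n) F) *ᵥ (v ∘ e))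
      rw [hact, hQQ, hQQ] at this
      exact mul_left_cancel₀ hc this
    · intro h x
      obtain ⟨v, rfl⟩ := hsurj x
      rw [hact, hQQ, hQQ, h]
  have hI : isometryGroup F Q = (isometryGroup F Q').map ψ.toMonoidHom := by
    ext k'
    obtain ⟨g, rfl⟩ := ψ.surjective k'
    rw [hiso]
    constructor
    · intro h
      exact ⟨g, h, rfl⟩
    · rintro ⟨g', hg', h⟩
      have h' : g' = g := ψ.injective h
      rwa [← h']
  have hΩ : omegaGL Q = (omegaGL Q').map ψ.toMonoidHom := by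
    rw [Cfsg.Agent.Helper41.T5REDG.redg_omegaGL_eq, Cfsg.Agent.Helper41.T5REDG.redg_omegaGL_eq, hI,
      ← Subgroup.map_commutator]
  obtain ⟨K', h1, h2⟩ := hmain
  have hinj : Function.Injective ψ.toMonoidHom := ψ.injective
  refine ⟨K'.map ψ.toMonoidHom, ?_, ?_⟩
  · rw [hT, hΩ, ← Subgroup.map_inf_eq _ _ _ hinj]
    exact (Subgroup.map_lt_map_iff_of_injective hinj).mpr h1
  · rw [hΩ]
    exact (Subgroup.map_lt_map_iff_of_injective hinj).mpr h2

end Cfsg.Agent.Helper96.CWRG
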