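import Cfsg.Agent.Helper96.CWDefs

/-!
# CALL S5707, piece SB4 (helper96): symplectic basis in dimension 4 (characteristic 2).
-/

set_option autoImplicit false
set_option linter.unusedSectionVars false
set_option linter.unusedSimpArgs false
set_option linter.unusedVariables false

namespace Cfsg.Agent.Helper96.CWSB4

open Matrix Cfsg Cfsg.Geo Cfsg.Agent.Helper96 Cfsg.Agent.Helper96.CW

variable {F : Type*} [Field F] {k t : ℕ}

theorem G4_mul_G4 : G4 F * G4 F = 1 := by
  ext i j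
  fin_cases i <;> fin_cases j <;> simp [G4, Matrix.mul_apply, Fin.sum_univ_four]

theorem gram_entry {n : ℕ} (G : Matrix (Fin n) (Fin n) F) (c : Fin n → (Fin n → F)) (i j : Fin n) :
    ((Matrix.of fun a b => c b a)ᵀ * G * (Matrix.of fun a b => c b a)) i j = T5.bf G (c i) (c j) := by
  rw [T5.bf, Matrix.mul_apply, dotProduct]
  simp only [Matrix.mul_apply, Matrix.transpose_apply, Matrix.of_apply, Matrix.mulVec, dotProduct,
    Finset.sum_mul, Finset.mul_sum]
  rw [Finset.sum_comm]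
  refine Finset.sum_congr rfl fun a _ => Finset.sum_congr rfl fun b _ => ?_
  ring

/-- PIECE SB4: symplectic basis in dimension 4 (characteristic 2). -/
theorem sb4 (h2 : (2 : F) = 0) (G : Matrix (Fin 4) (Fin 4) F) (halt : ∀ u, T5.bf G u u = 0)
    (hdet : G.det ≠ 0) :
    ∃ A Ainv : Matrix (Fin 4) (Fin 4) F, A * Ainv = 1 ∧ Ainv * A = 1 ∧ Aᵀ * G * A = G4 F := by
  classical
  have hneg : ∀ x : F, -x = x := by
    intro x
    have h : x + x = 0 := by rw [← two_mul, h2, zero_mul]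
    exact neg_eq_of_add_eq_zero_left h
  have hsym : ∀ x y, T5.bf G x y = T5.bf G y x := by
    intro x y
    rw [T5.bf_swap G halt x y, hneg]
  -- first hyperbolic pair
  have hc0 : (Pi.single 0 1 : Fin 4 → F) ≠ 0 := by
    intro h
    have := congrFun h 0
    simp at this
  obtain ⟨c₃, h03⟩ := T5.exists_bf_eq_one G hdet (Pi.single 0 1) hc0
  obtain ⟨c₀, hc₀⟩ : ∃ c₀ : Fin 4 → F, c₀ = Pi.single 0 1 := ⟨_, rfl⟩
  rw [← hc₀] at h03
  -- a non-zero vector orthogonal to both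
  let f : (Fin 4 → F) →ₗ[F] (Fin 2 → F) :=
    { toFun := fun x => ![T5.bf G x c₀, T5.bf G x c₃]
      map_add' := by
        intro x y
        ext i
        fin_cases i <;> simp [T5.bf_add_left]
      map_smul' := by
        intro c x
        ext i
        fin_cases i <;> simp [T5.bf_smul_left] }
  have hker : LinearMap.ker f ≠ ⊥ := by
    apply LinearMap.ker_ne_bot_of_finrank_lt
    simp
  obtain ⟨c₁, hc₁, hc₁0⟩ := Submodule.exists_mem_ne_zero_of_ne_bot hker
  have hf1 : f c₁ = 0 := LinearMap.mem_ker.mp hc₁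
  have h10 : T5.bf G c₁ c₀ = 0 := by
    have := congrFun hf1 0
    simpa [f] using this
  have h13 : T5.bf G c₁ c₃ = 0 := by
    have := congrFun hf1 1
    simpa [f] using this
  obtain ⟨c₂', h12'⟩ := T5.exists_bf_eq_one G hdet c₁ hc₁0
  obtain ⟨c₂, hc₂⟩ : ∃ c₂ : Fin 4 → F,
      c₂ = c₂' + T5.bf G c₂' c₃ • c₀ + T5.bf G c₂' c₀ • c₃ := ⟨_, rfl⟩
  have h30 : T5.bf G c₃ c₀ = 1 := by rw [hsym, h03]
  have h20 : T5.bf G c₂ c₀ = 0 := by
    rw [hc₂, T5.bf_add_left, T5.bf_add_left, T5.bf_smul_left, T5.bf_smul_left, halt c₀, h30,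
      mul_zero, mul_one, add_zero]
    rw [← two_mul, h2, zero_mul]
  have h23 : T5.bf G c₂ c₃ = 0 := by
    rw [hc₂, T5.bf_add_left, T5.bf_add_left, T5.bf_smul_left, T5.bf_smul_left, halt c₃, h03,
      mul_zero, mul_one, add_zero]
    rw [← two_mul, h2, zero_mul]
  have h12 : T5.bf G c₁ c₂ = 1 := by
    rw [hc₂, T5.bf_add_right, T5.bf_add_right, T5.bf_smul_right, T5.bf_smul_right, h10, h13, h12',
      mul_zero, mul_zero, add_zero, add_zero]
  have h01 : T5.bf G c₀ c₁ = 0 := by rw [hsym, h10]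
  have h31 : T5.bf G c₃ c₁ = 0 := by rw [hsym, h13]
  have h02 : T5.bf G c₀ c₂ = 0 := by rw [hsym, h20]
  have h32 : T5.bf G c₃ c₂ = 0 := by rw [hsym, h23]
  have h21 : T5.bf G c₂ c₁ = 1 := by rw [hsym, h12]
  obtain ⟨c, hc⟩ : ∃ c : Fin 4 → (Fin 4 → F), c = ![c₀, c₁, c₂, c₃] := ⟨_, rfl⟩
  have hgram : (Matrix.of fun a b => c b a)ᵀ * G * (Matrix.of fun a b => c b a) = G4 F := by
    ext i j
    rw [gram_entry, hc]
    fin_cases i <;> fin_cases j <;>
      simp [G4, halt, h01, h02, h03, h10, h12, h13, h20, h21, h23, h30, h31, h32]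
  have hdetA : (Matrix.of fun a b => c b a : Matrix (Fin 4) (Fin 4) F).det ≠ 0 := by
    intro h0
    have h4 : (G4 F).det * (G4 F).det = 1 := by
      rw [← Matrix.det_mul, G4_mul_G4, Matrix.det_one]
    rw [← hgram, Matrix.det_mul, Matrix.det_mul, h0, mul_zero, mul_zero] at h4
    exact zero_ne_one h4
  exact ⟨_, _, Matrix.mul_nonsing_inv _ (isUnit_iff_ne_zero.mpr hdetA),
    Matrix.nonsing_inv_mul _ (isUnit_iff_ne_zero.mpr hdetA), hgram⟩

end Cfsg.Agent.Helper96.CWSB4
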