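import Cfsg.Agent.Helper96.CWDefs

/-!
# CALL S5707, piece X4A (helper96): explicit identities for `k = 4`, first element.
-/

set_option autoImplicit false
set_option linter.unusedSectionVars false
set_option linter.unusedSimpArgs false
set_option linter.unusedVariables false

namespace Cfsg.Agent.Helper96.CWX4A

open Matrix Cfsg Cfsg.Geo Cfsg.Agent.Helper96 Cfsg.Agent.Helper96.CW

variable {F : Type*} [Field F] {k t : ℕ}

/-- PIECE X4A: explicit identities for `k = 4`, first element. -/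
theorem x4a (h2 : (2 : F) = 0) :
    Ca F * Ca F = 0 ∧ Cb F * Cb F = 0 ∧ (G4 F * Ca F)ᵀ = G4 F * Ca F ∧ (G4 F)ᵀ = G4 F ∧
    (∀ α, (G4 F * Ca F) α α = 0) ∧
    (1 + Aa F * Cb F) * (1 + Aa F * Cb F) = 1 ∧
    (1 + Aa F * Cb F)ᵀ * G4 F * (1 + Aa F * Cb F) = G4 F ∧
    Ca F + (1 + Aa F * Cb F) * Ca F * (1 + Aa F * Cb F) = Cb F ∧
    Ca F 2 0 ≠ 0 ∧ Cb F 1 0 ≠ 0 := by
  have h11 : (1 : F) + 1 = 0 := by rw [one_add_one_eq_two]; exact h2
  have hD : (1 + Aa F * Cb F : Matrix (Fin 4) (Fin 4) F)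
      = !![1, 0, 0, 0; 0, 1, 1, 0; 0, 0, 1, 0; 0, 0, 0, 1] := by
    ext i j
    fin_cases i <;> fin_cases j <;>
      simp [Aa, Cb, Matrix.mul_apply, Fin.sum_univ_four, Matrix.one_apply]
  refine ⟨?_, ?_, ?_, ?_, ?_, ?_, ?_, ?_, ?_, ?_⟩
  · ext i j
    fin_cases i <;> fin_cases j <;> simp [Ca, Matrix.mul_apply, Fin.sum_univ_four]
  · ext i j
    fin_cases i <;> fin_cases j <;> simp [Cb, Matrix.mul_apply, Fin.sum_univ_four]
  · ext i j
    fin_cases i <;> fin_cases j <;>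
      simp [G4, Ca, Matrix.mul_apply, Fin.sum_univ_four, Matrix.transpose_apply]
  · ext i j
    fin_cases i <;> fin_cases j <;> simp [G4, Matrix.transpose_apply]
  · intro α
    fin_cases α <;> simp [G4, Ca, Matrix.mul_apply, Fin.sum_univ_four]
  · rw [hD]
    ext i j
    fin_cases i <;> fin_cases j <;>
      simp [Matrix.mul_apply, Fin.sum_univ_four, Matrix.one_apply, h11]
  · rw [hD]
    ext i j
    fin_cases i <;> fin_cases j <;>
      simp [G4, Matrix.mul_apply, Fin.sum_univ_four, Matrix.transpose_apply, h11]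
  · rw [hD]
    ext i j
    fin_cases i <;> fin_cases j <;>
      simp [Ca, Cb, Matrix.mul_apply, Fin.sum_univ_four, Matrix.add_apply, h11]
  · simp [Ca]
  · simp [Cb]

end Cfsg.Agent.Helper96.CWX4A
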