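import Cfsg.Agent.Helper96.CWDefs
import Cfsg.Agent.Helper51.T5EVEN
import Cfsg.Agent.Helper42.CWRQ
import Cfsg.Agent.Helper96.CWRG
import Cfsg.Agent.Helper41.CWRA
import Cfsg.Agent.Helper48.CWST
import Cfsg.Agent.Helper99.CWSB2
import Cfsg.Agent.Helper96.CWSB4
import Cfsg.Agent.Helper96.CWNF
import Cfsg.Agent.Helper27.CWSM
import Cfsg.Agent.Helper10.CWCJ
import Cfsg.Agent.Helper99.CWI2
import Cfsg.Agent.Helper27.CWI4
import Cfsg.Agent.Helper10.CWISO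
import Cfsg.Agent.Helper96.CWIS
import Cfsg.Agent.Helper10.CWIP
import Cfsg.Agent.Helper42.CWCM
import Cfsg.Agent.Helper42.CWGN
import Cfsg.Agent.Helper86.CWSP
import Cfsg.Agent.Helper27.CWN0
import Cfsg.Agent.Helper73.CWM2
import Cfsg.Agent.Helper73.CWM4
import Cfsg.Agent.Helper99.CWC2
import Cfsg.Agent.Helper42.CWC4
import Cfsg.Agent.Helper73.CWS4M
import Cfsg.Agent.Helper73.CWX2
import Cfsg.Agent.Helper96.CWX4A
import Cfsg.Agent.Helper96.CWX4B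

/-!
# S5707: the `Sp_k ≀ S_t` tensor stabiliser is not maximal in `Ω⁺` for `q` even (assembly of the
CALL S5707 pieces; architect helper96).

`K := NU t S ⊓ Ω`, the normaliser in `Ω` of the span of the Clifford generators `facM i X`
(the spin overgroup `Sp_{2t}(q)`, resp. `Sp_{4t}(q)`), lies strictly between the tensor-wreath
stabiliser and `Ω`.
-/

set_option autoImplicit false
set_option linter.unusedSectionVars false
set_option linter.unusedSimpArgs false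
set_option linter.unusedVariables false

namespace Cfsg.Agent.Helper96.CWAsm


open Matrix Cfsg Cfsg.Geo Cfsg.Agent.Helper96 Cfsg.Agent.Helper96.CW

variable {F : Type*} [Field F] {k t : ℕ}

theorem inv_val_of_sq {ι : Type} [Fintype ι] [DecidableEq ι] (g : GL ι F)
    (h : (g : Matrix ι ι F) * (g : Matrix ι ι F) = 1) :
    ((g⁻¹ : GL ι F) : Matrix ι ι F) = (g : Matrix ι ι F) := by
  have h1 : g⁻¹ = g := by
    apply inv_eq_of_mul_eq_one_right
    apply Units.ext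
    rw [Units.val_mul, h]
    rfl
  rw [h1]

theorem nu_of (S : Set (Matrix (Fin k) (Fin k) F)) (g : GL (Fin t → Fin k) F)
    (M : Matrix (Fin t → Fin k) (Fin t → Fin k) F)
    (hg : (g : Matrix (Fin t → Fin k) (Fin t → Fin k) F) = M) (hsq : M * M = 1)
    (hn : ∀ Z ∈ US t S, M * Z * M ∈ US t S) : g ∈ NU t S := by
  rw [mem_NU]
  intro Z hZ
  have hinv : ((g⁻¹ : GL (Fin t → Fin k) F) : Matrix (Fin t → Fin k) (Fin t → Fin k) F) = M := by
    rw [inv_val_of_sq g (by rw [hg]; exact hsq), hg]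
  rw [hinv, hg]
  exact ⟨hn Z hZ, hn Z hZ⟩

/-- The generic element: a commutator of a Siegel element and a factor isometry. -/
theorem elt (h2 : (2 : F) = 0) {G : Matrix (Fin k) (Fin k) F}
    {Q' : ((Fin t → Fin k) → F) → F} (hT : TPQ G Q')
    (Xs : Fin t → Matrix (Fin k) (Fin k) F) (j : Fin t) (hj : Xs j = 1)
    (hsq : ∃ i, i ≠ j ∧ Xs i * Xs i = 0)
    (hsymX : ∀ i, (G * Xs i)ᵀ = G * Xs i)
    (Y D Dinv : Matrix (Fin k) (Fin k) F) (hsymY : (G * Y)ᵀ = G * Y)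
    (hdiag : (∀ α, (G * Y) α α = 0) ∨ ∃ i, i ≠ j ∧ ∀ α, (G * Xs i) α α = 0)
    (hD1 : D * Dinv = 1) (hD2 : Dinv * D = 1) (hDG : Dᵀ * G * D = G) :
    ∃ g : GL (Fin t → Fin k) F, g ∈ omegaGL Q' ∧
      (g : Matrix (Fin t → Fin k) (Fin t → Fin k) F)
        = 1 + ptM Xs * facM j (Y + D * Y * Dinv) ∧
      (g : Matrix (Fin t → Fin k) (Fin t → Fin k) F) *
        (g : Matrix (Fin t → Fin k) (Fin t → Fin k) F) = 1 := by
  classical
  obtain ⟨hA, hcomm⟩ := Cfsg.Agent.Helper42.CWCM.cm h2 Xs j hj hsq Y D Dinv hD1 hD2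
  have hsq' : ∃ i, Function.update Xs j Y i * Function.update Xs j Y i = 0 := by
    obtain ⟨i, hij, hi⟩ := hsq
    exact ⟨i, by rw [Function.update_of_ne hij]; exact hi⟩
  have hsym' : ∀ i, (G * Function.update Xs j Y i)ᵀ = G * Function.update Xs j Y i := by
    intro i
    by_cases h : i = j
    · subst h
      rw [Function.update_self]
      exact hsymY
    · rw [Function.update_of_ne h]
      exact hsymX i
  have hdiag' : ∃ i, ∀ α, (G * Function.update Xs j Y i) α α = 0 := by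
    rcases hdiag with h | ⟨i, hij, hi⟩
    · exact ⟨j, by rw [Function.update_self]; exact h⟩
    · exact ⟨i, by rw [Function.update_of_ne hij]; exact hi⟩
  obtain ⟨hu1, hu2, hu3⟩ := Cfsg.Agent.Helper96.CWIS.is_ h2 hT (Function.update Xs j Y) hsq' hsym' hdiag'
  have hu_iso := Cfsg.Agent.Helper10.CWISO.iso hT (1 + ptM (Function.update Xs j Y)) hu2 hu3
  have hD' : ∀ i, (Function.update (fun _ : Fin t => (1 : Matrix (Fin k) (Fin k) F)) j D i)ᵀ * G *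
      Function.update (fun _ : Fin t => (1 : Matrix (Fin k) (Fin k) F)) j D i = G := by
    intro i
    by_cases h : i = j
    · subst h
      rw [Function.update_self]
      exact hDG
    · rw [Function.update_of_ne h, Matrix.transpose_one, one_mul, mul_one]
  obtain ⟨hw2, hw3⟩ := Cfsg.Agent.Helper10.CWIP.ip hT (Function.update (fun _ : Fin t => (1 : Matrix (Fin k) (Fin k) F)) j D) hD'
  have hw_iso := Cfsg.Agent.Helper10.CWISO.iso hT _ hw2 hw3
  obtain ⟨u, hu⟩ : ∃ u : GL (Fin t → Fin k) F,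
      (u : Matrix (Fin t → Fin k) (Fin t → Fin k) F) = 1 + ptM (Function.update Xs j Y) :=
    ⟨⟨_, _, hu1, hu1⟩, rfl⟩
  obtain ⟨w, hw, hwi⟩ : ∃ w : GL (Fin t → Fin k) F,
      (w : Matrix (Fin t → Fin k) (Fin t → Fin k) F) = facM j D ∧
      ((w⁻¹ : GL (Fin t → Fin k) F) : Matrix (Fin t → Fin k) (Fin t → Fin k) F) = facM j Dinv :=
    ⟨⟨facM j D, facM j Dinv, by rw [facM_mul_facM, hD1, facM_one],
      by rw [facM_mul_facM, hD2, facM_one]⟩, rfl, rfl⟩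
  have huG : u ∈ isometryGroup F Q' := by
    rw [Cfsg.Agent.Helper97.Gen.mem_isometryGroup_iff]
    intro x
    rw [hu]
    exact hu_iso x
  have hwG : w ∈ isometryGroup F Q' := by
    rw [Cfsg.Agent.Helper97.Gen.mem_isometryGroup_iff]
    intro x
    rw [hw, facM_eq_ptM]
    exact hw_iso x
  have huinv : ((u⁻¹ : GL (Fin t → Fin k) F) : Matrix (Fin t → Fin k) (Fin t → Fin k) F)
      = (u : Matrix (Fin t → Fin k) (Fin t → Fin k) F) :=
    inv_val_of_sq u (by rw [hu]; exact hu1)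
  have hval : ((u * w * u⁻¹ * w⁻¹ : GL (Fin t → Fin k) F) :
      Matrix (Fin t → Fin k) (Fin t → Fin k) F) = 1 + ptM Xs * facM j (Y + D * Y * Dinv) := by
    rw [Units.val_mul, Units.val_mul, Units.val_mul, huinv, hu, hw, hwi, ← hA]
    exact hcomm
  refine ⟨u * w * u⁻¹ * w⁻¹, Cfsg.Agent.Helper97.Gen.comm_mem_omegaGL huG hwG, hval, ?_⟩
  rw [hval]
  -- involution: `cm` with `D = 1`
  have h3 := (Cfsg.Agent.Helper42.CWCM.cm h2 Xs j hj hsq (Y + D * Y * Dinv) 1 1 (one_mul 1) (one_mul 1)).2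
  rw [facM_one, mul_one, mul_one, mul_one, one_mul] at h3
  have h4 : (Y + D * Y * Dinv) + (Y + D * Y * Dinv) = 0 := by
    rw [← two_smul F (Y + D * Y * Dinv), h2, zero_smul]
  rw [h4] at h3
  have h5 : facM j (0 : Matrix (Fin k) (Fin k) F) = (0 : Matrix (Fin t → Fin k) (Fin t → Fin k) F) :=
    (facL k j).map_zero
  rw [h5, mul_zero, add_zero] at h3
  exact h3

/-- The model statement. -/
theorem model [Fintype F] {G : Matrix (Fin k) (Fin k) F} {Q' : ((Fin t → Fin k) → F) → F}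
    (hT : TPQ G Q') (hk : 0 < k) (S : Set (Matrix (Fin k) (Fin k) F))
    (hSinv : ∀ (a ainv : Matrix (Fin k) (Fin k) F) (μ : F), a * ainv = 1 → ainv * a = 1 → μ ≠ 0 →
      aᵀ * G * a = μ • G → ∀ W ∈ S, a * W * ainv ∈ Submodule.span F S)
    (g₀ g₁ : GL (Fin t → Fin k) F) (h0Ω : g₀ ∈ omegaGL Q') (h0N : g₀ ∈ NU t S)
    (h0T : g₀ ∉ tensorWreathStandard k t F) (h1Ω : g₁ ∈ omegaGL Q') (h1N : g₁ ∉ NU t S) :
    ∃ K' : Subgroup (GL (Fin t → Fin k) F),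
      tensorWreathStandard k t F ⊓ omegaGL Q' < K' ∧ K' < omegaGL Q' := by
  classical
  have hconj : ∀ g ∈ tensorWreathStandard k t F ⊓ omegaGL Q', ∀ Z ∈ US t S,
      (g : Matrix (Fin t → Fin k) (Fin t → Fin k) F) * Z *
        ((g⁻¹ : GL (Fin t → Fin k) F) : Matrix (Fin t → Fin k) (Fin t → Fin k) F) ∈ US t S := by
    intro g hg Z hZ
    obtain ⟨σ, a, ainv, ha1, ha2, hgm⟩ := Cfsg.Agent.Helper96.CWNF.nf g hg.1
    have hiso := Cfsg.Agent.Helper97.Gen.omegaGL_le Q' hg.2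
    have hB : ∀ x y : (Fin t → Fin k) → F,
        T5.bf (GT t G) ((fpM F k σ * ptM a) *ᵥ x) ((fpM F k σ * ptM a) *ᵥ y)
          = T5.bf (GT t G) x y := by
      intro x y
      rw [← hgm, ← hT.polar, ← hT.polar]
      exact Cfsg.Agent.Helper97.Gen.polar_isometry hiso x y
    have hμ := Cfsg.Agent.Helper27.CWSM.sm hk G hT.det σ a ainv ha1 ha2 hB
    refine Cfsg.Agent.Helper10.CWCJ.cj S g σ a ainv ha1 ha2 hgm (fun i W hW => ?_) Z hZ
    obtain ⟨μ, hμ0, hμe⟩ := hμ i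
    exact hSinv (a i) (ainv i) μ (ha1 i) (ha2 i) hμ0 hμe W hW
  have hle : tensorWreathStandard k t F ⊓ omegaGL Q' ≤ NU t S ⊓ omegaGL Q' := by
    intro g hg
    have hgN : g ∈ NU t S := by
      rw [mem_NU]
      intro Z hZ
      refine ⟨hconj g hg Z hZ, ?_⟩
      have h := hconj g⁻¹ (inv_mem hg) Z hZ
      rwa [inv_inv] at h
    exact Subgroup.mem_inf.mpr ⟨hgN, (Subgroup.mem_inf.mp hg).2⟩
  refine ⟨NU t S ⊓ omegaGL Q', lt_of_le_of_ne hle ?_, lt_of_le_of_ne inf_le_right ?_⟩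
  · intro h
    have h' : g₀ ∈ tensorWreathStandard k t F ⊓ omegaGL Q' := by
      rw [h]
      exact ⟨h0N, h0Ω⟩
    exact h0T h'.1
  · intro h
    have h' : g₁ ∈ NU t S ⊓ omegaGL Q' := by
      rw [h]
      exact h1Ω
    exact h1N h'.1

/-- `k = 2`, `t ≥ 4`, `q > 2`. -/
theorem main2 [Fintype F] (h2 : (2 : F) = 0) (ht : 4 ≤ t) (l : F) (hl0 : l ≠ 0) (hl1 : l ≠ 1)
    {Q' : ((Fin t → Fin 2) → F) → F} (hT : TPQ (G2 F) Q') :
    ∃ K' : Subgroup (GL (Fin t → Fin 2) F),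
      tensorWreathStandard 2 t F ⊓ omegaGL Q' < K' ∧ K' < omegaGL Q' := by
  classical
  obtain ⟨hE0, hGE, hGs, hGd, hD1, hD2, hDG, hED, hν, htrE, htrEt, hE10⟩ := Cfsg.Agent.Helper73.CWX2.x2 h2 l hl0 hl1
  obtain ⟨i₁, i₂, i₃, i₄, h12, h13, h14, h23, h24, h34⟩ :
      ∃ i₁ i₂ i₃ i₄ : Fin t, i₁ ≠ i₂ ∧ i₁ ≠ i₃ ∧ i₁ ≠ i₄ ∧ i₂ ≠ i₃ ∧ i₂ ≠ i₄ ∧ i₃ ≠ i₄ := by
    refine ⟨⟨0, by omega⟩, ⟨1, by omega⟩, ⟨2, by omega⟩, ⟨3, by omega⟩, ?_, ?_, ?_, ?_, ?_, ?_⟩ <;>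
      simp [Fin.ext_iff]
  have hone : ∀ i : Fin t, i ≠ i₁ →
      Function.update (fun _ : Fin t => (1 : Matrix (Fin 2) (Fin 2) F)) i₁ (E2 F) i = 1 :=
    fun i hi => Function.update_of_ne hi _ _
  have hsymX1 : ∀ i, (G2 F * Function.update (fun _ : Fin t => (1 : Matrix (Fin 2) (Fin 2) F))
      i₁ (E2 F) i)ᵀ = G2 F * Function.update (fun _ : Fin t => (1 : Matrix (Fin 2) (Fin 2) F))
      i₁ (E2 F) i := by
    intro i
    by_cases h : i = i₁
    · subst h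
      rw [Function.update_self]
      exact hGE
    · rw [hone i h, mul_one]
      exact hGs
  -- the element `g₀`
  obtain ⟨g₀, h0Ω, h0v, h0sq⟩ := elt h2 hT
    (Function.update (fun _ : Fin t => (1 : Matrix (Fin 2) (Fin 2) F)) i₁ (E2 F)) i₂
    (hone i₂ h12.symm) ⟨i₁, h12, by rw [Function.update_self]; exact hE0⟩ hsymX1
    (E2 F) _ _ hGE
    (Or.inr ⟨i₃, h23.symm, fun α => by rw [hone i₃ h13.symm, mul_one]; exact hGd α⟩) hD1 hD2 hDG
  rw [hED, ← facM_eq_ptM] at h0v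
  have hspanE : E2 F ∈ Submodule.span F (S2 F) := Submodule.subset_span htrE
  have hgn := Cfsg.Agent.Helper42.CWGN.gn (t := t) h2 (S2 F) i₁ i₂ h12 (E2 F) ((1 + l⁻¹ ^ 2) • E2 F) hE0
    (by rw [Matrix.smul_mul, Matrix.mul_smul, hE0, smul_zero, smul_zero]) hspanE
    (Submodule.smul_mem _ _ hspanE)
    (fun W hW => by
      have h := Cfsg.Agent.Helper99.CWC2.c2 h2 1 W hW
      rwa [one_smul] at h)
    (fun W hW => Cfsg.Agent.Helper99.CWC2.c2 h2 _ W hW)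
  have h0N : g₀ ∈ NU t (S2 F) := nu_of (S2 F) g₀ _ h0v hgn.1 hgn.2
  have h0T : g₀ ∉ tensorWreathStandard 2 t F := by
    intro hmem
    refine Cfsg.Agent.Helper27.CWN0.n0 i₁ i₂ h12 (E2 F) ((1 + l⁻¹ ^ 2) • E2 F) 0 1 (by decide) hE10 0 1 (by decide) ?_
      g₀ hmem h0v
    rw [Matrix.smul_apply, smul_eq_mul]
    exact mul_ne_zero hν hE10
  -- the element `g₁`
  have hA12 := (Cfsg.Agent.Helper42.CWCM.cm h2 (Function.update (fun _ : Fin t => (1 : Matrix (Fin 2) (Fin 2) F)) i₁ (E2 F))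
    i₂ (hone i₂ h12.symm) ⟨i₁, h12, by rw [Function.update_self]; exact hE0⟩ (E2 F) 1 1
    (one_mul 1) (one_mul 1)).1
  rw [← facM_eq_ptM] at hA12
  have hone2 : ∀ i : Fin t, i ≠ i₁ → i ≠ i₂ →
      Function.update (Function.update (fun _ : Fin t => (1 : Matrix (Fin 2) (Fin 2) F))
        i₁ (E2 F)) i₂ (E2 F) i = 1 :=
    fun i hi1 hi2 => by rw [Function.update_of_ne hi2, Function.update_of_ne hi1]
  have hsymX2 : ∀ i, (G2 F * Function.update (Function.update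
      (fun _ : Fin t => (1 : Matrix (Fin 2) (Fin 2) F)) i₁ (E2 F)) i₂ (E2 F) i)ᵀ
      = G2 F * Function.update (Function.update
      (fun _ : Fin t => (1 : Matrix (Fin 2) (Fin 2) F)) i₁ (E2 F)) i₂ (E2 F) i := by
    intro i
    by_cases h : i = i₂
    · subst h
      rw [Function.update_self]
      exact hGE
    · rw [Function.update_of_ne h]
      exact hsymX1 i
  obtain ⟨g₁, h1Ω, h1v, h1sq⟩ := elt h2 hT
    (Function.update (Function.update (fun _ : Fin t => (1 : Matrix (Fin 2) (Fin 2) F))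
      i₁ (E2 F)) i₂ (E2 F)) i₃
    (hone2 i₃ h13.symm h23.symm)
    ⟨i₁, h13, by rw [Function.update_of_ne h12, Function.update_self]; exact hE0⟩ hsymX2
    (E2 F) _ _ hGE
    (Or.inr ⟨i₄, h34.symm, fun α => by rw [hone2 i₄ h14.symm h24.symm, mul_one]; exact hGd α⟩)
    hD1 hD2 hDG
  rw [hED, ← hA12] at h1v
  have h1N : g₁ ∉ NU t (S2 F) := by
    intro hmem
    obtain ⟨a, b, hab, hne⟩ := Cfsg.Agent.Helper73.CWM2.m2 h2 i₁ i₂ i₃ h12 h13 h23 (1 + l⁻¹ ^ 2) hν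
    have hZ : facM i₁ (E2t F) ∈ US t (S2 F) :=
      Submodule.subset_span (Or.inr ⟨i₁, E2t F, htrEt, rfl⟩)
    have h := (mem_NU.mp hmem _ hZ).1
    rw [inv_val_of_sq g₁ h1sq, h1v] at h
    exact hne (Cfsg.Agent.Helper86.CWSP.sp (S2 F) _ h a b hab)
  exact model hT (by norm_num) (S2 F)
    (fun a ainv μ h1 h2' _ _ W hW => Cfsg.Agent.Helper99.CWI2.i2 a ainv h1 h2' W hW) g₀ g₁ h0Ω h0N h0T h1Ω h1N

/-- `k = 4`, `t ≥ 2`. -/
theorem main4 [Fintype F] (h2 : (2 : F) = 0) (ht : 2 ≤ t)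
    {Q' : ((Fin t → Fin 4) → F) → F} (hT : TPQ (G4 F) Q') :
    ∃ K' : Subgroup (GL (Fin t → Fin 4) F),
      tensorWreathStandard 4 t F ⊓ omegaGL Q' < K' ∧ K' < omegaGL Q' := by
  classical
  obtain ⟨hCa0, hCb0, hGCa, hGs, hGCad, hDD, hDG, hCD, hCa20, hCb10⟩ := Cfsg.Agent.Helper96.CWX4A.x4a (F := F) h2
  obtain ⟨hCC0, hGCC, hGCb, hGCbd, hD1D1, hD1G, hCD1⟩ := Cfsg.Agent.Helper96.CWX4B.x4b (F := F) h2
  obtain ⟨hCaS, hCbS, hAaS⟩ := Cfsg.Agent.Helper73.CWS4M.s4m (F := F) h2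
  obtain ⟨i, j, hij⟩ : ∃ i j : Fin t, i ≠ j :=
    ⟨⟨0, by omega⟩, ⟨1, by omega⟩, by simp [Fin.ext_iff]⟩
  have hone : ∀ (X : Matrix (Fin 4) (Fin 4) F) (l : Fin t), l ≠ i →
      Function.update (fun _ : Fin t => (1 : Matrix (Fin 4) (Fin 4) F)) i X l = 1 :=
    fun X l hl => Function.update_of_ne hl _ _
  have hsymX : ∀ X : Matrix (Fin 4) (Fin 4) F, (G4 F * X)ᵀ = G4 F * X →
      ∀ l, (G4 F * Function.update (fun _ : Fin t => (1 : Matrix (Fin 4) (Fin 4) F)) i X l)ᵀ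
        = G4 F * Function.update (fun _ : Fin t => (1 : Matrix (Fin 4) (Fin 4) F)) i X l := by
    intro X hX l
    by_cases h : l = i
    · subst h
      rw [Function.update_self]
      exact hX
    · rw [hone X l h, mul_one]
      exact hGs
  -- the element `g₀`
  obtain ⟨g₀, h0Ω, h0v, h0sq⟩ := elt h2 hT
    (Function.update (fun _ : Fin t => (1 : Matrix (Fin 4) (Fin 4) F)) i (Ca F)) j
    (hone _ j hij.symm) ⟨i, hij, by rw [Function.update_self]; exact hCa0⟩ (hsymX _ hGCa)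
    (Ca F) (1 + Aa F * Cb F) (1 + Aa F * Cb F) hGCa (Or.inl hGCad) hDD hDD hDG
  rw [hCD, ← facM_eq_ptM] at h0v
  have hgn := Cfsg.Agent.Helper42.CWGN.gn (t := t) h2 (SD (G4 F)) i j hij (Ca F) (Cb F) hCa0 hCb0
    (Submodule.subset_span hCaS) (Submodule.subset_span hCbS)
    (fun W hW => (Cfsg.Agent.Helper42.CWC4.c4 h2 W hW).1) (fun W hW => (Cfsg.Agent.Helper42.CWC4.c4 h2 W hW).2)
  have h0N : g₀ ∈ NU t (SD (G4 F)) := nu_of (SD (G4 F)) g₀ _ h0v hgn.1 hgn.2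
  have h0T : g₀ ∉ tensorWreathStandard 4 t F := by
    intro hmem
    exact Cfsg.Agent.Helper27.CWN0.n0 i j hij (Ca F) (Cb F) 0 2 (by decide) hCa20 0 1 (by decide) hCb10 g₀ hmem h0v
  -- the element `g₁`
  obtain ⟨g₁, h1Ω, h1v, h1sq⟩ := elt h2 hT
    (Function.update (fun _ : Fin t => (1 : Matrix (Fin 4) (Fin 4) F)) i (Ca F * Cb F)) j
    (hone _ j hij.symm) ⟨i, hij, by rw [Function.update_self]; exact hCC0⟩ (hsymX _ hGCC)
    (Cb F) (1 + Ab F * Ca F) (1 + Ab F * Ca F) hGCb (Or.inl hGCbd) hD1D1 hD1D1 hD1G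
  rw [hCD1, ← facM_eq_ptM] at h1v
  have h1N : g₁ ∉ NU t (SD (G4 F)) := by
    intro hmem
    obtain ⟨a, b, hab, hne⟩ := Cfsg.Agent.Helper73.CWM4.m4 (F := F) h2 i j hij
    have hZ : facM i (Aa F) ∈ US t (SD (G4 F)) :=
      Submodule.subset_span (Or.inr ⟨i, Aa F, hAaS, rfl⟩)
    have h := (mem_NU.mp hmem _ hZ).1
    rw [inv_val_of_sq g₁ h1sq, h1v] at h
    exact hne (Cfsg.Agent.Helper86.CWSP.sp (SD (G4 F)) _ h a b hab)
  exact model hT (by norm_num) (SD (G4 F))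
    (fun a ainv μ h1 h2' hμ ha W hW => Cfsg.Agent.Helper27.CWI4.i4 (G4 F) a ainv h1 h2' μ hμ ha W hW)
    g₀ g₁ h0Ω h0N h0T h1Ω h1N

/-- **S5707**: the tensor-wreath stabiliser `Sp_k ≀ S_t` is not maximal in `Ω⁺` for `q` even. -/
theorem not_maximal {F : Type*} [Field F] [Fintype F] {n : ℕ} (hn : 13 ≤ n)
    (Q : (Fin n → F) → F) (hQ : IsNondegenerateQuadraticForm Q)
    (hchar : ¬ Odd (Fintype.card F)) (k t : ℕ) (ht : 2 ≤ t) (hk : k ≤ 4)
    (hex1 : ¬ (Fintype.card F = 2 ∧ k = 2)) (e : Fin n ≃ (Fin t → Fin k)) (P : GL (Fin n) F)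
    (f₁ : (Fin k → F) → (Fin k → F) → F) (hf₁ : IsSymplecticForm f₁)
    (hT : IsTensorPowerFormStructure id (QuadraticMap.polar Q) f₁ e P)
    (hpure : ∀ xs : Fin t → (Fin k → F),
      Q (Matrix.mulVec (P : Matrix (Fin n) (Fin n) F)
        ((fun a : Fin t → Fin k => ∏ i, xs i (a i)) ∘ e)) = 0) :
    ∃ K : Subgroup (GL (Fin n) F),
      tensorWreathSubgroup k t e P ⊓ omegaGL Q < K ∧ K < omegaGL Q := by
  classical
  have h2 : (2 : F) = 0 := by
    have hev : Even (Fintype.card F) := Nat.not_odd_iff_even.mp hchar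
    obtain ⟨n', hp, hcard⟩ := FiniteField.card F (ringChar F)
    have hdvd : 2 ∣ Fintype.card F := hev.two_dvd
    rw [hcard] at hdvd
    have h' := (Nat.prime_dvd_prime_iff_eq Nat.prime_two hp).1 (Nat.prime_two.dvd_of_dvd_pow hdvd)
    have h3 := CharP.cast_eq_zero F (ringChar F)
    rw [← h'] at h3
    exact_mod_cast h3
  obtain ⟨c, Q', hc, hTQ, hQQ⟩ := Cfsg.Agent.Helper42.CWRQ.rq Q hQ k t e P f₁ hf₁ hT hpure
  have hcard : n = k ^ t := by
    have h := Fintype.card_congr e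
    simpa using h
  have hev : Even k := Cfsg.Agent.Helper51.T5EVEN.even_of_alt _ hTQ.alt hTQ.det
  have hk24 : k = 2 ∨ k = 4 := by
    obtain ⟨m, hm⟩ := hev
    have hm2 : m ≤ 2 := by omega
    interval_cases m
    · exfalso
      simp only [add_zero] at hm
      subst hm
      rw [zero_pow (by omega)] at hcard
      omega
    · left; omega
    · right; omega
  rcases hk24 with rfl | rfl
  · have ht4 : 4 ≤ t := by
      by_contra hcon
      have h3 : t ≤ 3 := by omega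
      have h4 : 2 ^ t ≤ 2 ^ 3 := Nat.pow_le_pow_right (by norm_num) h3
      omega
    obtain ⟨l, hl0, hl1⟩ : ∃ l : F, l ≠ 0 ∧ l ≠ 1 := by
      have hc2 : Fintype.card F ≠ 2 := fun h => hex1 ⟨h, rfl⟩
      have h1 : 1 < Fintype.card F := Fintype.one_lt_card
      by_contra hcon
      push Not at hcon
      have hsub : (Finset.univ : Finset F) ⊆ {0, 1} := by
        intro l _
        by_cases hl0 : l = 0
        · simp [hl0]
        · simp [hcon l hl0]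
      have h3 := Finset.card_le_card hsub
      have h4 : ({0, 1} : Finset F).card ≤ 2 := Finset.card_le_two
      rw [Finset.card_univ] at h3
      omega
    obtain ⟨A, Ainv, hA1, hA2, hAG⟩ := Cfsg.Agent.Helper99.CWSB2.sb2 h2 _ hTQ.alt hTQ.det
    have hTQ' := Cfsg.Agent.Helper48.CWST.st hTQ A Ainv hA1 hA2
    rw [hAG] at hTQ'
    obtain ⟨P₂, hP₂, hQQ₂⟩ := Cfsg.Agent.Helper41.CWRA.ra Q 2 t e P c Q' hQQ A Ainv hA1 hA2
    rw [← hP₂]
    exact Cfsg.Agent.Helper96.CWRG.rg Q 2 t e P₂ c hc (fun v => Q' (ptM (fun _ : Fin t => A) *ᵥ v)) hQQ₂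
      (main2 h2 ht4 l hl0 hl1 hTQ')
  · obtain ⟨A, Ainv, hA1, hA2, hAG⟩ := Cfsg.Agent.Helper96.CWSB4.sb4 h2 _ hTQ.alt hTQ.det
    have hTQ' := Cfsg.Agent.Helper48.CWST.st hTQ A Ainv hA1 hA2
    rw [hAG] at hTQ'
    obtain ⟨P₂, hP₂, hQQ₂⟩ := Cfsg.Agent.Helper41.CWRA.ra Q 4 t e P c Q' hQQ A Ainv hA1 hA2
    rw [← hP₂]
    exact Cfsg.Agent.Helper96.CWRG.rg Q 4 t e P₂ c hc (fun v => Q' (ptM (fun _ : Fin t => A) *ᵥ v)) hQQ₂
      (main4 h2 ht hTQ')

end Cfsg.Agent.Helper96.CWAsm
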