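import Cfsg.Agent.Helper96.CWDefs

/-!
# CALL S5707, piece X4B (helper96): explicit identities for `k = 4`, second element.
-/

set_option autoImplicit false
set_option linter.unusedSectionVars false
set_option linter.unusedSimpArgs false
set_option linter.unusedVariables false

namespace Cfsg.Agent.Helper96.CWX4B

open Matrix Cfsg Cfsg.Geo Cfsg.Agent.Helper96 Cfsg.Agent.Helper96.CW

variable {F : Type*} [Field F] {k t : ℕ}

/-- PIECE X4B: explicit identities for `k = 4`, second element. -/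
theorem x4b (h2 : (2 : F) = 0) :
    (Ca F * Cb F) * (Ca F * Cb F) = 0 ∧ (G4 F * (Ca F * Cb F))ᵀ = G4 F * (Ca F * Cb F) ∧
    (G4 F * Cb F)ᵀ = G4 F * Cb F ∧ (∀ α, (G4 F * Cb F) α α = 0) ∧
    (1 + Ab F * Ca F) * (1 + Ab F * Ca F) = 1 ∧
    (1 + Ab F * Ca F)ᵀ * G4 F * (1 + Ab F * Ca F) = G4 F ∧
    Cb F + (1 + Ab F * Ca F) * Cb F * (1 + Ab F * Ca F) = Ca F := by
  have h11 : (1 : F) + 1 = 0 := by rw [one_add_one_eq_two]; exact h2
  have hD : (1 + Ab F * Ca F : Matrix (Fin 4) (Fin 4) F)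
      = !![1, 0, 0, 0; 0, 1, 0, 0; 0, 1, 1, 0; 0, 0, 0, 1] := by
    ext i j
    fin_cases i <;> fin_cases j <;>
      simp [CW.Ab, Ca, Matrix.mul_apply, Fin.sum_univ_four, Matrix.one_apply]
  have hCC : (Ca F * Cb F : Matrix (Fin 4) (Fin 4) F)
      = !![0, 0, 0, 0; 0, 0, 0, 0; 0, 0, 0, 0; 1, 0, 0, 0] := by
    ext i j
    fin_cases i <;> fin_cases j <;>
      simp [Ca, Cb, Matrix.mul_apply, Fin.sum_univ_four]
  refine ⟨?_, ?_, ?_, ?_, ?_, ?_, ?_⟩
  · rw [hCC]
    ext i j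
    fin_cases i <;> fin_cases j <;> simp [Matrix.mul_apply, Fin.sum_univ_four]
  · rw [hCC]
    ext i j
    fin_cases i <;> fin_cases j <;>
      simp [G4, Matrix.mul_apply, Fin.sum_univ_four, Matrix.transpose_apply]
  · ext i j
    fin_cases i <;> fin_cases j <;>
      simp [G4, Cb, Matrix.mul_apply, Fin.sum_univ_four, Matrix.transpose_apply]
  · intro α
    fin_cases α <;> simp [G4, Cb, Matrix.mul_apply, Fin.sum_univ_four]
  · rw [hD]
    ext i j
    fin_cases i <;> fin_cases j <;>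
      simp [Matrix.mul_apply, Fin.sum_univ_four, Matrix.one_apply, h11]
  · rw [hD]
    ext i j
    fin_cases i <;> fin_cases j <;>
      simp [G4, Matrix.mul_apply, Fin.sum_univ_four, Matrix.transpose_apply, h11]
  · rw [hD]
    ext i j
    fin_cases i <;> fin_cases j <;>
      simp [Ca, Cb, Matrix.mul_apply, Fin.sum_univ_four, Matrix.add_apply, h11]

end Cfsg.Agent.Helper96.CWX4B
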