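-- helper96 library: Aschbacher's theorem for SL_n(q), n not a prime power and not a perfect power.
import Cfsg.Agent.Helper96.Composite

set_option autoImplicit false
open Cfsg Cfsg.Geo Matrix
open scoped Kronecker

namespace Cfsg.Agent.Helper96

variable {F : Type*} [Field F] {n : ℕ}

theorem card_of_equiv_prod {d k : ℕ} (e : Fin n ≃ Fin d × Fin k) : d * k = n := by
  have h := Fintype.card_congr e
  rw [Fintype.card_fin, Fintype.card_prod, Fintype.card_fin, Fintype.card_fin] at h
  exact h.symm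

/-- Aschbacher's theorem for `SL_n(q)` when `n` has two distinct prime divisors and is not a perfect
power: every maximal subgroup is geometric (with the small-field exceptions removed) or residual. -/
theorem composite_cases [Fintype F] (hn3 : 3 ≤ n)
    (hA : ∃ a b : ℕ, a.Prime ∧ b.Prime ∧ a ≠ b ∧ a ∣ n ∧ b ∣ n)
    (hB : ∃ ℓ : ℕ, ℓ.Prime ∧ ℓ ∣ n ∧ ¬ ℓ ^ 2 ∣ n)
    (H : Subgroup (GL (Fin n) F)) (hH : IsMaximalIn (specialLinear (Fin n) F) H) :
    (∃ W : Submodule F (Fin n → F), W ≠ ⊥ ∧ W ≠ ⊤ ∧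
      H = subspaceStabilizer W ⊓ specialLinear (Fin n) F) ∨
    (∃ (t m : ℕ) (D : Fin t → Submodule F (Fin n → F)), IsMDecomposition m D ∧
      (m = 1 → 5 ≤ Fintype.card F) ∧ (m = 2 → 3 ≤ Fintype.card F) ∧
      H = decompositionStabilizer D ⊓ specialLinear (Fin n) F) ∨
    (∃ (r : ℕ) (K : Subalgebra F (Matrix (Fin n) (Fin n) F)), r.Prime ∧ IsFieldSubalgebra r K ∧
      H = subalgebraNormalizer K ⊓ specialLinear (Fin n) F) ∨
    (∃ (d k : ℕ) (e : Fin n ≃ Fin d × Fin k) (P : GL (Fin n) F), 2 ≤ d ∧ d ≤ k ∧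
      (d = 2 → 3 ≤ Fintype.card F) ∧
      H = tensorProductSubgroup d k e P ⊓ specialLinear (Fin n) F) ∨
    (∃ (F₀ : Subfield F) (r : ℕ) (P : GL (Fin n) F), r.Prime ∧ Fintype.card F = Nat.card F₀ ^ r ∧
      H = subfieldSubgroup F₀ P ⊓ specialLinear (Fin n) F) ∨
    (Odd (Fintype.card F) ∧ ∃ Q : (Fin n → F) → F, IsNondegenerateQuadraticForm Q ∧
      H = quadSimilarityGroup Q ⊓ specialLinear (Fin n) F) ∨
    (∃ f : (Fin n → F) → (Fin n → F) → F, IsSymplecticForm f ∧
      H = similarityGroup f ⊓ specialLinear (Fin n) F) ∨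
    (∃ (σ : F ≃+* F) (f : (Fin n → F) → (Fin n → F) → F), IsUnitaryForm σ f ∧
      H = similarityGroup f ⊓ specialLinear (Fin n) F) ∨
    InLinearResidualClass H := by
  classical
  obtain ⟨p, hchar⟩ := CharP.exists F
  have hp : p.Prime := (CharP.char_is_prime_or_zero F p).resolve_right (CharP.char_ne_zero_of_finite F p)
  have hfact : Fact p.Prime := ⟨hp⟩
  have hn2 : 2 ≤ n := by omega
  have hq1 : 1 < Fintype.card F := Fintype.one_lt_card
  rcases composite_core hn3 H hH with h | ⟨t, m, D, hD, hHeq⟩ | h | ⟨d, k, e, P, hd2, hk2, hHeq⟩ |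
    h | h | h | h | h | ⟨N, hN⟩ | ⟨N, S, d, k, e, Pm, ρ, hCP⟩
  · exact Or.inl h
  · -- decompositions
    have hle : H ≤ decompositionStabilizer D := (le_of_eq hHeq).trans inf_le_left
    by_cases hm1 : m = 1
    · subst hm1
      have htn : t = n := by
        have := Helper97.isMDecomposition_card D hD
        omega
      subst htn
      by_cases hq : 5 ≤ Fintype.card F
      · right; left
        exact ⟨t, 1, D, hD, fun _ => hq, fun h => absurd h (by norm_num), hHeq⟩
      · have hq' : Fintype.card F = 2 ∨ Fintype.card F = 3 ∨ Fintype.card F = 4 := by omega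
        rcases hq' with h2 | h3 | h4
        · obtain ⟨W, hW0, hW1, hle'⟩ := small_two' hn2 h2 H D hD hle
          left
          exact ⟨W, hW0, hW1, Helper97.eq_inf_of_isMaximalIn hH hle' (Helper97.notSL_subspace hn2 W hW0 hW1)⟩
        · obtain ⟨Q, hQ, hle'⟩ := Helper97.small_three h3 H D hD hle
          right; right; right; right; right; left
          exact ⟨by rw [h3]; decide, Q, hQ,
            Helper97.eq_inf_of_isMaximalIn hH hle' (Helper97.notSL_quadSimilarity (p := p) hn3 Q hQ)⟩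
        · obtain ⟨σ, f, hf, hle'⟩ := Helper97.small_four h4 H D hD hle
          right; right; right; right; right; right; right; left
          exact ⟨σ, f, hf, Helper97.eq_inf_of_isMaximalIn hH hle' (Helper97.notSL_unitary (p := p) hn3 σ f hf)⟩
    by_cases hm2 : m = 2
    · subst hm2
      by_cases hq : 3 ≤ Fintype.card F
      · right; left
        exact ⟨t, 2, D, hD, fun h => absurd h (by norm_num), fun _ => hq, hHeq⟩
      · have hq2 : Fintype.card F = 2 := by omega
        obtain ⟨f, hf, hle'⟩ := planes_two hq2 D hD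
        right; right; right; right; right; right; left
        exact ⟨f, hf, Helper97.eq_inf_of_isMaximalIn hH (hle.trans hle')
          (Helper97.notSL_similarity (p := p) hn3 f hf.bilinear.add_left hf.bilinear.add_right
            (fun v hv => (hf.nondegenerate v hv).1))⟩
    · right; left
      exact ⟨t, m, D, hD, fun h => absurd h hm1, fun h => absurd h hm2, hHeq⟩
  · exact Or.inr (Or.inr (Or.inl h))
  · -- tensor products
    have hle : H ≤ tensorProductSubgroup d k e P := (le_of_eq hHeq).trans inf_le_left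
    have main : ∀ (d k : ℕ) (e : Fin n ≃ Fin d × Fin k) (P : GL (Fin n) F), 2 ≤ d → 2 ≤ k → d ≤ k →
        H ≤ tensorProductSubgroup d k e P →
        (∃ (r : ℕ) (K : Subalgebra F (Matrix (Fin n) (Fin n) F)), r.Prime ∧ IsFieldSubalgebra r K ∧
          H = subalgebraNormalizer K ⊓ specialLinear (Fin n) F) ∨
        (∃ (d k : ℕ) (e : Fin n ≃ Fin d × Fin k) (P : GL (Fin n) F), 2 ≤ d ∧ d ≤ k ∧
          (d = 2 → 3 ≤ Fintype.card F) ∧
          H = tensorProductSubgroup d k e P ⊓ specialLinear (Fin n) F) := by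
      intro d k e P hd2 hk2 hdk hle
      by_cases hq : d = 2 ∧ Fintype.card F = 2
      · obtain ⟨rfl, hq2⟩ := hq
        obtain ⟨K, hK, hKle⟩ := tensor_two_le_field hq2 (by omega) e P
        left
        exact ⟨2, K, Nat.prime_two, hK, Helper97.eq_inf_of_isMaximalIn hH (hle.trans hKle)
          (Helper97.notSL_fieldNormalizer hn3 K hK.inv
            (Helper97.not_all_scalar_of_finrank K (by rw [hK.finrank_eq])))⟩
      · right
        refine ⟨d, k, e, P, hd2, hdk, fun h => ?_,
          Helper97.eq_inf_of_isMaximalIn hH hle (notSL_tensor hd2 hk2 e P)⟩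
        by_contra hq3
        exact hq ⟨h, by omega⟩
    have h1 : (∃ (r : ℕ) (K : Subalgebra F (Matrix (Fin n) (Fin n) F)), r.Prime ∧ IsFieldSubalgebra r K ∧
          H = subalgebraNormalizer K ⊓ specialLinear (Fin n) F) ∨
        (∃ (d k : ℕ) (e : Fin n ≃ Fin d × Fin k) (P : GL (Fin n) F), 2 ≤ d ∧ d ≤ k ∧
          (d = 2 → 3 ≤ Fintype.card F) ∧
          H = tensorProductSubgroup d k e P ⊓ specialLinear (Fin n) F) := by
      by_cases hdk : d ≤ k
      · exact main d k e P hd2 hk2 hdk hle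
      · exact main k d _ P hk2 hd2 (by omega) (hle.trans (tensor_swap_le e P))
    rcases h1 with h1 | h1
    · exact Or.inr (Or.inr (Or.inl h1))
    · exact Or.inr (Or.inr (Or.inr (Or.inl h1)))
  · exact Or.inr (Or.inr (Or.inr (Or.inr (Or.inl h))))
  · exact Or.inr (Or.inr (Or.inr (Or.inr (Or.inr (Or.inl h)))))
  · exact Or.inr (Or.inr (Or.inr (Or.inr (Or.inr (Or.inr (Or.inl h))))))
  · exact Or.inr (Or.inr (Or.inr (Or.inr (Or.inr (Or.inr (Or.inr (Or.inl h)))))))
  · exact Or.inr (Or.inr (Or.inr (Or.inr (Or.inr (Or.inr (Or.inr (Or.inr h)))))))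
  · -- class two: impossible
    exfalso
    obtain ⟨r, j, hr, hj, -⟩ := hN.pow
    obtain ⟨a, b, ha, hb, hab, han, hbn⟩ := hA
    have h1 : a ∣ r ^ j := hj ▸ Dvd.dvd.mul_right han n
    have h2 : b ∣ r ^ j := hj ▸ Dvd.dvd.mul_right hbn n
    have h3 : a = r := (Nat.prime_dvd_prime_iff_eq ha hr).mp (ha.dvd_of_dvd_pow h1)
    have h4 : b = r := (Nat.prime_dvd_prime_iff_eq hb hr).mp (hb.dvd_of_dvd_pow h2)
    exact hab (h3.trans h4.symm)
  · -- central product: impossible
    exfalso
    obtain ⟨t, ht, hnt⟩ := hCP.pow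
    obtain ⟨ℓ, hℓ, hℓn, hℓ2⟩ := hB
    apply hℓ2
    have h1 : ℓ ∣ d := by
      rw [hnt] at hℓn
      exact hℓ.dvd_of_dvd_pow hℓn
    have h2 : ℓ ^ t ∣ n := by
      rw [hnt]
      exact pow_dvd_pow_of_dvd h1 t
    exact (pow_dvd_pow ℓ ht).trans h2

end Cfsg.Agent.Helper96
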