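-- helper96 library: every subgroup of `GL_n(q)`, `n ≥ 3`, lies in a member of one of the eight
-- geometric classes of the linear case, or is in the residual class.
import Cfsg.Agent.Helper96.GeneralCases

set_option autoImplicit false
open Cfsg Cfsg.Geo Matrix

namespace Cfsg.Agent.Helper96

variable {F : Type*} [Field F] {n : ℕ}

theorem class_quad [Fintype F] (hn3 : 3 ≤ n) (H : Subgroup (GL (Fin n) F))
    (h : Odd (Fintype.card F) ∧ ∃ Q : (Fin n → F) → F, IsNondegenerateQuadraticForm Q ∧
      H ≤ quadSimilarityGroup Q) :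
    ∃ M : Subgroup (GL (Fin n) F), InLinearClass n F M ∧ H ≤ M := by
  obtain ⟨hodd, Q, hQ, hle⟩ := h
  refine ⟨_, ?_, hle⟩
  right; right; right; right; right; right; right; right; right; right; right
  exact ⟨Q, hQ, hodd, hn3, rfl⟩

theorem class_symp [Fintype F] (hn3 : 3 ≤ n) (H : Subgroup (GL (Fin n) F))
    (h : ∃ f : (Fin n → F) → (Fin n → F) → F, IsSymplecticForm f ∧ H ≤ similarityGroup f) :
    ∃ M : Subgroup (GL (Fin n) F), InLinearClass n F M ∧ H ≤ M := by
  obtain ⟨f, hf, hle⟩ := h
  refine ⟨_, ?_, hle⟩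
  have heven : Even n := by
    by_contra hne
    exact Helper97.not_symplectic_of_odd (Nat.not_even_iff_odd.mp hne) f hf
  have hn4 : 4 ≤ n := by
    obtain ⟨k, hk⟩ := heven
    omega
  right; right; right; right; right; right; right; right; right; left
  exact ⟨f, hf, heven, hn4, rfl⟩

theorem class_unit [Fintype F] (hn3 : 3 ≤ n) (H : Subgroup (GL (Fin n) F))
    (h : ∃ (σ : F ≃+* F) (f : (Fin n → F) → (Fin n → F) → F), IsUnitaryForm σ f ∧
      H ≤ similarityGroup f) :
    ∃ M : Subgroup (GL (Fin n) F), InLinearClass n F M ∧ H ≤ M := by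
  obtain ⟨σ, f, hf, hle⟩ := h
  refine ⟨_, ?_, hle⟩
  right; right; right; right; right; right; right; right; right; right; left
  exact ⟨σ, f, hf, hn3, rfl⟩

theorem class_subfield [Fintype F] (H : Subgroup (GL (Fin n) F))
    (h : ∃ (F₀ : Subfield F) (s : ℕ) (P : GL (Fin n) F), s.Prime ∧ Fintype.card F = Nat.card F₀ ^ s ∧
      H ≤ subfieldSubgroup F₀ P) :
    ∃ M : Subgroup (GL (Fin n) F), InLinearClass n F M ∧ H ≤ M := by
  obtain ⟨F₀, s, P, hs, hcard, hle⟩ := h
  refine ⟨_, ?_, hle⟩
  right; right; right; right; right; right; left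
  exact ⟨F₀, s, P, hs, hcard, rfl⟩

theorem class_c6 [Fintype F] (H : Subgroup (GL (Fin n) F)) (r : ℕ)
    (h : ∃ R : Subgroup (GL (Fin n) F), IsLinearSymplecticTypeData r R ∧ H ≤ subgroupNormalizer R) :
    ∃ M : Subgroup (GL (Fin n) F), InLinearClass n F M ∧ H ≤ M := by
  obtain ⟨R, hR, hle⟩ := h
  refine ⟨_, ?_, hle⟩
  right; right; right; right; right; right; right; left
  exact ⟨r, R, hR, rfl⟩

theorem class_wreath [Fintype F] (H : Subgroup (GL (Fin n) F)) {m t : ℕ} (hm : 3 ≤ m) (ht : 2 ≤ t)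
    (e : Fin n ≃ (Fin t → Fin m)) (P : GL (Fin n) F) (hle : H ≤ tensorWreathSubgroup m t e P) :
    ∃ M : Subgroup (GL (Fin n) F), InLinearClass n F M ∧ H ≤ M := by
  refine ⟨_, ?_, hle⟩
  right; right; right; right; right; right; right; right; left
  exact ⟨m, t, e, P, hm, ht, rfl⟩

theorem class_tensor [Fintype F] (H : Subgroup (GL (Fin n) F)) {d k : ℕ} (hd : 2 ≤ d) (hdk : d < k)
    (e : Fin n ≃ Fin d × Fin k) (P : GL (Fin n) F) (hle : H ≤ tensorProductSubgroup d k e P) :
    ∃ M : Subgroup (GL (Fin n) F), InLinearClass n F M ∧ H ≤ M := by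
  refine ⟨_, ?_, hle⟩
  right; right; right; right; right; left
  exact ⟨d, k, e, P, hd, hdk, rfl⟩

/-- The subgroup structure theorem for `GL_n(q)`, `n ≥ 3`: every subgroup lies in a member of one
of the eight geometric classes, or belongs to the residual class. -/
theorem linear_structure [Fintype F] (hn3 : 3 ≤ n) (H : Subgroup (GL (Fin n) F)) :
    (∃ M : Subgroup (GL (Fin n) F), InLinearClass n F M ∧ H ≤ M) ∨ InLinearResidualClass H := by
  classical
  obtain ⟨p, hchar⟩ := CharP.exists F
  have hp : p.Prime := (CharP.char_is_prime_or_zero F p).resolve_right (CharP.char_ne_zero_of_finite F p)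
  have hfact : Fact p.Prime := ⟨hp⟩
  have hnz : NeZero n := ⟨by omega⟩
  rcases general_core hn3 H with ⟨W, hW0, hW1, hle⟩ | ⟨t, m, D, hD, hle⟩ | ⟨r, K, hr, hK, hle⟩ |
    ⟨d, k, e, P, hd2, hk2, hle⟩ | h | h | h | h | h | ⟨N, hN⟩ | ⟨N, S, d, k, e, Pm, ρ, hCP⟩
  · left
    exact ⟨_, Or.inl ⟨W, hW0, hW1, rfl⟩, hle⟩
  · left
    exact ⟨_, Or.inr (Or.inr (Or.inr (Or.inl ⟨t, m, D, hD, rfl⟩))), hle⟩
  · left
    exact ⟨_, Or.inr (Or.inr (Or.inr (Or.inr (Or.inl ⟨r, K, hr, hK, rfl⟩)))), hle⟩
  · -- tensor products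
    left
    rcases Nat.lt_trichotomy d k with hdk | hdk | hdk
    · exact class_tensor H hd2 hdk e P hle
    · subst hdk
      by_cases hd3 : 3 ≤ d
      · exact class_wreath H hd3 (le_refl 2) _ P (hle.trans (tensor_le_wreath e P))
      · have hd : d = 2 := by omega
        subst hd
        rcases tensor_two_two_le (p := p) H e P hle with h | h
        · exact class_quad hn3 H h
        · exact class_symp hn3 H h
    · exact class_tensor H hk2 hdk _ P (hle.trans (tensor_swap_le e P))
  · exact Or.inl (class_subfield H h)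
  · exact Or.inl (class_quad hn3 H h)
  · exact Or.inl (class_symp hn3 H h)
  · exact Or.inl (class_unit hn3 H h)
  · exact Or.inr h
  · -- class two
    left
    obtain ⟨r, j, hr, hj, hpow⟩ := hN.pow
    obtain ⟨m, -, hnr⟩ := (Nat.dvd_prime_pow hr).mp (Dvd.intro n hj)
    have hm : 1 ≤ m := by
      by_contra hm0
      have : m = 0 := by omega
      rw [this, pow_zero] at hnr
      omega
    rcases hr.eq_two_or_odd' with h2 | hodd
    · subst h2
      have hn4 : 4 ≤ n := by
        have h1 : 2 ≤ m := by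
          by_contra hm2
          have : m = 1 := by omega
          rw [this, pow_one] at hnr
          omega
        have h2 : (2 : ℕ) ^ 2 ≤ 2 ^ m := Nat.pow_le_pow_right (by norm_num) h1
        rw [hnr]
        exact h2
      rcases c2_two_le (p := p) hn4 hnr H N hN hpow with h | h | h | h | h
      · exact class_subfield H h
      · exact class_unit hn3 H h
      · exact class_c6 H 2 h
      · exact class_quad hn3 H h
      · exact class_symp hn3 H h
    · rcases c2_odd_trichotomy hr hodd hm hnr H N hN.normal hN.notScalar hN.minimal hN.comm hN.absIrred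
        hpow with ⟨F₁, s, B, hs, hcard, hnorm⟩ | ⟨σ, f, hf, hnorm⟩ | ⟨hdata, -, -⟩
      · exact class_subfield H ⟨F₁, s, B, hs, hcard, fun h hh => hnorm h (hN.normal h hh)⟩
      · exact class_unit hn3 H ⟨σ, f, hf, fun h hh => hnorm h (hN.normal h hh)⟩
      · exact class_c6 H r ⟨N, hdata, Helper97.le_subgroupNormalizer H N hN.normal⟩
  · -- central products
    left
    by_cases hd3 : 3 ≤ d
    · obtain ⟨t, e', P', ht, hle⟩ := cp_wreath_le H N S e Pm ρ hCP
      exact class_wreath H hd3 ht e' P' hle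
    · have hd : d = 2 := by have := hCP.two_le; omega
      subst hd
      rcases cp_two_le (p := p) hn3 H N S e Pm ρ hCP with h | h
      · exact class_quad hn3 H h
      · exact class_symp hn3 H h

end Cfsg.Agent.Helper96
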