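-- helper96 library: a decomposition of a 4-space into lines over the field with five elements does not
-- give a maximal subgroup of SL_4(5) (its stabiliser preserves a set of 60 lines that is also preserved
-- by a non-monomial element of determinant one).
import Cfsg.Agent.Helper97.Small
import Cfsg.Agent.Helper97.NotSL

set_option autoImplicit false
open Cfsg Cfsg.Geo Matrix

namespace Cfsg.Agent.Helper96

/-- The number of zero coordinates. -/
def zc5 {A : Type*} [Zero A] [DecidableEq A] (w : Fin 4 → A) : ℕ :=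
  (if w 0 = 0 then 1 else 0) + (if w 1 = 0 then 1 else 0) + (if w 2 = 0 then 1 else 0) +
    (if w 3 = 0 then 1 else 0)

/-- The special vectors: two or three zero coordinates, or none and the product of the coordinates is
a square root of one. -/
def lam5 {A : Type*} [CommRing A] [DecidableEq A] (w : Fin 4 → A) : Prop :=
  (zc5 w = 0 ∧ (w 0 * w 1 * w 2 * w 3) ^ 2 = 1) ∨ zc5 w = 2 ∨ zc5 w = 3

instance lam5Decidable {A : Type*} [CommRing A] [DecidableEq A] (w : Fin 4 → A) :
    Decidable (lam5 w) := by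
  unfold lam5; infer_instance

/-- The Hadamard-type transformation. -/
def hd5 {A : Type*} [CommRing A] (w : Fin 4 → A) : Fin 4 → A :=
  ![-w 0 + w 2, w 1 + w 3, -w 0 - w 2, w 1 - w 3]

set_option maxRecDepth 100000 in
theorem lam5_hd5_zmod : ∀ a b c d : ZMod 5, lam5 ![a, b, c, d] ↔ lam5 (hd5 ![a, b, c, d]) := by
  decide

theorem zc5_eq_sum {A : Type*} [Zero A] [DecidableEq A] (w : Fin 4 → A) :
    zc5 w = ∑ j : Fin 4, if w j = 0 then 1 else 0 := by
  rw [Fin.sum_univ_four]; rfl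

theorem zc5_map {A B : Type*} [CommRing A] [CommRing B] [DecidableEq A] [DecidableEq B]
    (φ : A →+* B) (hφ : Function.Injective φ) (w : Fin 4 → A) :
    zc5 (fun j => φ (w j)) = zc5 w := by
  have h : ∀ a : A, φ a = 0 ↔ a = 0 := fun a => map_eq_zero_iff φ hφ
  unfold zc5
  simp only [h]

theorem lam5_map {A B : Type*} [CommRing A] [CommRing B] [DecidableEq A] [DecidableEq B]
    (φ : A →+* B) (hφ : Function.Injective φ) (w : Fin 4 → A) :
    lam5 (fun j => φ (w j)) ↔ lam5 w := by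
  unfold lam5
  rw [zc5_map φ hφ]
  have h : (φ (w 0) * φ (w 1) * φ (w 2) * φ (w 3)) ^ 2 = 1 ↔ (w 0 * w 1 * w 2 * w 3) ^ 2 = 1 := by
    rw [← map_mul, ← map_mul, ← map_mul, ← map_pow, map_eq_one_iff φ hφ]
  rw [h]

theorem hd5_map {A B : Type*} [CommRing A] [CommRing B] (φ : A →+* B) (w : Fin 4 → A) :
    hd5 (fun j => φ (w j)) = fun j => φ (hd5 w j) := by
  ext j
  fin_cases j <;> simp [hd5]

variable {F : Type*} [Field F]

theorem lam5_hd5 [Fintype F] [DecidableEq F] (hq : Fintype.card F = 5) (w : Fin 4 → F) :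
    lam5 w ↔ lam5 (hd5 w) := by
  obtain ⟨φ, -⟩ : ∃ φ : ZMod 5 ≃+* F, True := ⟨ZMod.ringEquivOfPrime F (by norm_num) hq, trivial⟩
  obtain ⟨w₀, hw₀⟩ : ∃ w₀ : Fin 4 → ZMod 5, w₀ = fun j => φ.symm (w j) := ⟨_, rfl⟩
  have hw : w = fun j => (φ : ZMod 5 →+* F) (w₀ j) := by
    ext j
    rw [hw₀]
    simp
  have hw4 : w₀ = ![w₀ 0, w₀ 1, w₀ 2, w₀ 3] := by
    ext j
    fin_cases j <;> rfl
  rw [hw, hd5_map, lam5_map (φ : ZMod 5 →+* F) φ.injective, lam5_map (φ : ZMod 5 →+* F) φ.injective,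
    hw4]
  exact lam5_hd5_zmod _ _ _ _

/-- The matrix of the Hadamard-type transformation. -/
def hdM (A : Type*) [CommRing A] : Matrix (Fin 4) (Fin 4) A :=
  !![-1, 0, 1, 0; 0, 1, 0, 1; -1, 0, -1, 0; 0, 1, 0, -1]

theorem hdM_mulVec {A : Type*} [CommRing A] (w : Fin 4 → A) : hdM A *ᵥ w = hd5 w := by
  ext j
  fin_cases j <;> simp [hdM, hd5, Matrix.mulVec, dotProduct, Fin.sum_univ_four] <;> ring

theorem hdM_det_zmod : (hdM (ZMod 5)).det = 1 := by
  decide

theorem hdM_det [Fintype F] (hq : Fintype.card F = 5) : (hdM F).det = 1 := by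
  obtain ⟨φ, -⟩ : ∃ φ : ZMod 5 ≃+* F, True := ⟨ZMod.ringEquivOfPrime F (by norm_num) hq, trivial⟩
  have h : hdM F = (φ : ZMod 5 →+* F).mapMatrix (hdM (ZMod 5)) := by
    ext i j
    fin_cases i <;> fin_cases j <;> simp [hdM]
  rw [h, ← RingHom.map_det, hdM_det_zmod, map_one]

/-- The Hadamard-type transformation in the coordinates of a basis. -/
noncomputable def hdLin (b : Module.Basis (Fin 4) F (Fin 4 → F)) : (Fin 4 → F) →ₗ[F] (Fin 4 → F) :=
  (b.equivFun.symm : (Fin 4 → F) →ₗ[F] (Fin 4 → F)) ∘ₗ Matrix.toLin' (hdM F) ∘ₗ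
    (b.equivFun.symm.symm : (Fin 4 → F) →ₗ[F] (Fin 4 → F))

theorem hdLin_det [Fintype F] (hq : Fintype.card F = 5) (b : Module.Basis (Fin 4) F (Fin 4 → F)) :
    LinearMap.det (hdLin b) = 1 := by
  rw [hdLin, LinearMap.det_conj, LinearMap.det_toLin', hdM_det hq]

theorem hdLin_apply (b : Module.Basis (Fin 4) F (Fin 4 → F)) (v : Fin 4 → F) :
    b.equivFun (hdLin b v) = hd5 (b.equivFun v) := by
  rw [hdLin]
  simp only [LinearMap.coe_comp, LinearEquiv.coe_coe, Function.comp_apply, LinearEquiv.symm_symm,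
    LinearEquiv.apply_symm_apply, Matrix.toLin'_apply, hdM_mulVec]

/-- The Hadamard-type element of `SL_4(5)` attached to a basis. -/
noncomputable def hdGL [Fintype F] (hq : Fintype.card F = 5) (b : Module.Basis (Fin 4) F (Fin 4 → F)) :
    GL (Fin 4) F :=
  Helper97.glOfDetOne (LinearMap.toMatrix' (hdLin b)) (by rw [LinearMap.det_toMatrix', hdLin_det hq])

theorem hdGL_mem [Fintype F] (hq : Fintype.card F = 5) (b : Module.Basis (Fin 4) F (Fin 4 → F)) :
    hdGL hq b ∈ specialLinear (Fin 4) F := Helper97.glOfDetOne_mem _ _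

theorem hdGL_mulVec [Fintype F] (hq : Fintype.card F = 5) (b : Module.Basis (Fin 4) F (Fin 4 → F))
    (v : Fin 4 → F) :
    b.equivFun (((hdGL hq b : GL (Fin 4) F) : Matrix (Fin 4) (Fin 4) F) *ᵥ v) = hd5 (b.equivFun v) := by
  rw [hdGL, Helper97.glOfDetOne_val, ← Matrix.toLin'_apply, Matrix.toLin'_toMatrix', hdLin_apply]

/-- The stabiliser of the set of special vectors. -/
def lamStab [DecidableEq F] (b : Module.Basis (Fin 4) F (Fin 4 → F)) : Subgroup (GL (Fin 4) F) where
  carrier := {g | ∀ v, lam5 (b.equivFun v) ↔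
    lam5 (b.equivFun ((g : Matrix (Fin 4) (Fin 4) F) *ᵥ v))}
  mul_mem' := by
    intro g h hg hh v
    have h1 := hg ((h : Matrix (Fin 4) (Fin 4) F) *ᵥ v)
    rw [Matrix.mulVec_mulVec] at h1
    exact (hh v).trans h1
  one_mem' := by
    intro v
    rw [Units.val_one, Matrix.one_mulVec]
  inv_mem' := by
    intro g hg v
    have h1 := hg (((g⁻¹ : GL (Fin 4) F) : Matrix (Fin 4) (Fin 4) F) *ᵥ v)
    rw [Matrix.mulVec_mulVec, ← Units.val_mul, mul_inv_cancel, Units.val_one, Matrix.one_mulVec] at h1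
    exact h1.symm

theorem mem_lamStab [DecidableEq F] (b : Module.Basis (Fin 4) F (Fin 4 → F)) (g : GL (Fin 4) F) :
    g ∈ lamStab b ↔ ∀ v, lam5 (b.equivFun v) ↔
      lam5 (b.equivFun ((g : Matrix (Fin 4) (Fin 4) F) *ᵥ v)) := Iff.rfl

/-- The determinant of a monomial transformation. -/
theorem det_of_mono {n : ℕ} (b : Module.Basis (Fin n) F (Fin n → F)) (g : Matrix (Fin n) (Fin n) F)
    (σ : Equiv.Perm (Fin n)) (c : Fin n → F) (h : ∀ i, g *ᵥ b i = c i • b (σ i)) :
    g.det = ((Equiv.Perm.sign σ⁻¹ : ℤˣ) : ℤ) * ∏ i, c i := by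
  classical
  have h1 : LinearMap.toMatrix b b (Matrix.toLin' g) =
      (Matrix.diagonal c).submatrix (σ⁻¹ : Equiv.Perm (Fin n)) id := by
    ext k j
    rw [LinearMap.toMatrix_apply, Matrix.toLin'_apply, h, map_smul, Finsupp.smul_apply,
      Module.Basis.repr_self, Matrix.submatrix_apply, id, Matrix.diagonal_apply, smul_eq_mul,
      Finsupp.single_apply]
    by_cases hk : σ j = k
    · subst hk
      simp
    · have hk' : ¬ σ⁻¹ k = j := by
        intro h2
        apply hk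
        rw [← h2]
        simp
      rw [if_neg hk, if_neg hk', mul_zero]
  rw [← LinearMap.det_toLin', ← LinearMap.det_toMatrix b, h1, Matrix.det_permute, Matrix.det_diagonal]

theorem lam5_mono [DecidableEq F] (w w' : Fin 4 → F) (σ : Equiv.Perm (Fin 4)) (c : Fin 4 → F)
    (hc0 : ∀ j, c j ≠ 0) (hc : (∏ j, c j) ^ 2 = 1) (h : ∀ j, w' (σ j) = c j * w j) :
    lam5 w ↔ lam5 w' := by
  have hz : zc5 w' = zc5 w := by
    rw [zc5_eq_sum, zc5_eq_sum, ← Equiv.sum_comp σ]
    apply Finset.sum_congr rfl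
    intro j _
    rw [h j]
    by_cases hw : w j = 0
    · rw [if_pos hw, if_pos (by rw [hw, mul_zero])]
    · rw [if_neg hw, if_neg (mul_ne_zero (hc0 j) hw)]
  have hp : (w' 0 * w' 1 * w' 2 * w' 3) ^ 2 = (w 0 * w 1 * w 2 * w 3) ^ 2 := by
    have h1 : w' 0 * w' 1 * w' 2 * w' 3 = ∏ j, w' j := by rw [Fin.prod_univ_four]
    have h2 : w 0 * w 1 * w 2 * w 3 = ∏ j, w j := by rw [Fin.prod_univ_four]
    rw [h1, h2, ← Equiv.prod_comp σ]
    simp_rw [h]
    rw [Finset.prod_mul_distrib, mul_pow, hc, one_mul]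
  unfold lam5
  rw [hz, hp]

theorem stab_le_lamStab [DecidableEq F] (D : Fin 4 → Submodule F (Fin 4 → F))
    (b : Module.Basis (Fin 4) F (Fin 4 → F))
    (hb : ∀ g ∈ decompositionStabilizer D, ∃ (σ : Equiv.Perm (Fin 4)) (c : Fin 4 → F),
      (∀ i, c i ≠ 0) ∧ ∀ i, (g : Matrix (Fin 4) (Fin 4) F) *ᵥ b i = c i • b (σ i)) :
    decompositionStabilizer D ⊓ specialLinear (Fin 4) F ≤ lamStab b := by
  intro g hg
  obtain ⟨σ, c, hc0, hc⟩ := hb g hg.1
  have hdet : (g : Matrix (Fin 4) (Fin 4) F).det = 1 := (Helper97.mem_specialLinear_iff g).mp hg.2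
  have hprod : (∏ j, c j) ^ 2 = 1 := by
    have h1 := det_of_mono b _ σ c hc
    rw [hdet] at h1
    have h2 : ((((Equiv.Perm.sign σ⁻¹ : ℤˣ) : ℤ) : F)) ^ 2 = 1 := by
      rcases Int.units_eq_one_or (Equiv.Perm.sign σ⁻¹) with h | h <;> rw [h] <;> simp
    calc (∏ j, c j) ^ 2 = ((((Equiv.Perm.sign σ⁻¹ : ℤˣ) : ℤ) : F)) ^ 2 * (∏ j, c j) ^ 2 := by
          rw [h2, one_mul]
      _ = 1 := by rw [← mul_pow, ← h1, one_pow]
  rw [mem_lamStab]
  intro v
  apply lam5_mono _ _ σ c hc0 hprod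
  intro j
  rw [Module.Basis.equivFun_apply, Module.Basis.equivFun_apply]
  exact Helper97.repr_mono b _ σ c hc v j

theorem notSL_lamStab [DecidableEq F] (b : Module.Basis (Fin 4) F (Fin 4 → F)) :
    ¬ specialLinear (Fin 4) F ≤ lamStab b := by
  intro hle
  have hnot : b 1 + b 2 ∉ Submodule.span F {b 0} := by
    intro hmem
    obtain ⟨a, ha⟩ := Submodule.mem_span_singleton.mp hmem
    have h1 := congrArg (fun v => b.repr v 1) ha
    simp only [map_smul, map_add, Module.Basis.repr_self, Finsupp.smul_apply, Finsupp.add_apply,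
      Finsupp.single_eq_same] at h1
    rw [Finsupp.single_eq_of_ne (by decide), Finsupp.single_eq_of_ne (by decide)] at h1
    simp at h1
  obtain ⟨a, ha0, ha1⟩ := Helper97.exists_dotProduct_sep hnot
  have hmem := hle (Helper97.genTv_mem (b 0) a ha0)
  rw [mem_lamStab] at hmem
  have h1 := hmem (b 1 + b 2)
  rw [Helper97.genTv_mulVec, ha1, one_smul] at h1
  have e1 : b.equivFun (b 1 + b 2) = ![0, 1, 1, 0] := by
    ext j
    rw [map_add, Pi.add_apply, Module.Basis.equivFun_self, Module.Basis.equivFun_self]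
    fin_cases j <;> simp
  have e2 : b.equivFun (b 1 + b 2 + b 0) = ![1, 1, 1, 0] := by
    ext j
    rw [map_add, map_add, Pi.add_apply, Pi.add_apply, Module.Basis.equivFun_self,
      Module.Basis.equivFun_self, Module.Basis.equivFun_self]
    fin_cases j <;> simp
  rw [e1, e2] at h1
  have h2 : lam5 (![0, 1, 1, 0] : Fin 4 → F) := by
    right; left
    simp [zc5]
  have h3 : ¬ lam5 (![1, 1, 1, 0] : Fin 4 → F) := by
    simp [lam5, zc5]
  exact h3 (h1.mp h2)

/-- Over the field with five elements a maximal subgroup of `SL_4` does not stabilise a decomposition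
into four lines. -/
theorem lines_five [Fintype F] (hq : Fintype.card F = 5) (H : Subgroup (GL (Fin 4) F))
    (hH : IsMaximalIn (specialLinear (Fin 4) F) H)
    (D : Fin 4 → Submodule F (Fin 4 → F)) (hD : IsMDecomposition 1 D)
    (hle : H ≤ decompositionStabilizer D) : False := by
  classical
  obtain ⟨b, hb⟩ := Helper97.exists_adapted_basis D hD
  have hle' : H ≤ lamStab b := (le_inf hle hH.1.le).trans (stab_le_lamStab D b hb)
  have hHeq := Helper97.eq_inf_of_isMaximalIn hH hle' (notSL_lamStab b)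
  have hg : hdGL hq b ∈ H := by
    rw [hHeq]
    refine ⟨(mem_lamStab b _).mpr ?_, hdGL_mem hq b⟩
    intro v
    rw [hdGL_mulVec]
    exact lam5_hd5 hq _
  obtain ⟨σ, c, hc0, hc⟩ := hb _ (hle hg)
  have h1 := congrArg b.equivFun (hc 0)
  rw [hdGL_mulVec, map_smul] at h1
  have key : ∀ j, hd5 (b.equivFun (b 0)) j = c 0 * (if σ 0 = j then 1 else 0) := by
    intro j
    have h2 := congrFun h1 j
    rw [Pi.smul_apply, Module.Basis.equivFun_self, smul_eq_mul] at h2
    exact h2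
  have v0 : hd5 (b.equivFun (b 0)) 0 = -1 := by simp [hd5, Module.Basis.equivFun_self]
  have v2 : hd5 (b.equivFun (b 0)) 2 = -1 := by simp [hd5, Module.Basis.equivFun_self]
  have hs0 : σ 0 = 0 := by
    by_contra hne
    have h2 := key 0
    rw [v0, if_neg hne, mul_zero] at h2
    exact (neg_ne_zero.mpr one_ne_zero) h2
  have hs2 : σ 0 = 2 := by
    by_contra hne
    have h2 := key 2
    rw [v2, if_neg hne, mul_zero] at h2
    exact (neg_ne_zero.mpr one_ne_zero) h2
  exact absurd (hs0.symm.trans hs2) (by decide)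

end Cfsg.Agent.Helper96
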