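import Mathlib
import Cfsg.Agent.Helper13.TJDec
import Cfsg.Agent.Helper33.OType
import Cfsg.Agent.Helper96.OHDefs
import Cfsg.Agent.Helper31.OHOFIX
import Cfsg.Agent.Helper31.OHOGROW
import Cfsg.Agent.Helper96.OHATOM
import Cfsg.Agent.Helper96.OHCDVD
import Cfsg.Agent.Helper37.OHOTYPEODD
import Cfsg.Agent.Helper88.OHOTYPEEVEN
import Cfsg.Agent.Helper70.OHOSUB

set_option autoImplicit false
set_option linter.unusedSectionVars false
set_option linter.unusedVariables false

/-!
# S5992 piece OGOOD (helper96): the backward direction for odd `r`.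
-/

namespace Cfsg.Agent.Helper96.OH5992

open Module Polynomial Cfsg Cfsg.Geo
open Cfsg.Agent.Helper13.TIu Cfsg.Agent.Helper96.OH
open Cfsg.Agent.Helper31.OH5992 Cfsg.Agent.Helper37.OH5992 Cfsg.Agent.Helper88.OH5992
open Cfsg.Agent.Helper70.OH5992

variable {ι : Type} [Fintype ι] [DecidableEq ι] {F : Type*} [Field F] (Q : (ι → F) → F)

/-- OGOOD (odd `r`, `⟸`; uses OFIX, OCDVD, OATOM, OGROW, OTYPEODD, OTYPEEVEN, OSUB, `o_type_mul`,
`OType.nondeg_sup`, `OType.finrank_sup_of_orth`). -/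
theorem o_good [Fintype F] (hQ : IsNondegenerateQuadraticForm Q) (h2 : (2 : F) ≠ 0)
    (T : Module.End F (ι → F)) (hT : OPres Q T) (r : ℕ) [Fact r.Prime] (hr2 : 2 < r)
    (hrF : (r : F) ≠ 0) (hTr : T ^ r = 1) (i c : ℕ)
    (hi : i = orderOf ((Fintype.card F : ℕ) : ZMod r)) (hc : c = if Even i then i else 2 * i)
    (m : ℕ) (hme : Even m) (hcm : c ≤ m) (hmn : m < Fintype.card ι)
    (hk : m % c < Fintype.card ι % c) (hty : Odd i ∨ 0 < m % c ∨ Even (m / i)) :
    ∃ W : Submodule F (ι → F), (finrank F W = m ∧ ONd Q W ∧ OPl Q W) ∧ W.map T ≤ W := by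
  have hrpr : r.Prime := Fact.out
  have hi0 : 0 < i := by
    rw [hi]
    exact Cfsg.Agent.Helper13.TIsp.ti_ord_pos_of_ne r hrF
  have hc0 : 0 < c := by
    rw [hc]
    split_ifs <;> omega
  have hceven : Even c := by
    rw [hc]
    split_ifs with h
    · exact h
    · exact even_two_mul i
  obtain ⟨hFx, P, -, hPT, hP, hPk, hsup, horth, hdim⟩ :=
    o_fix Q hQ T hT r hrpr.pos hrF hTr ⊤ le_top (ond_top Q hQ)
  have hdvd := o_cdvd Q hQ h2 T hT r hr2 hrF hTr i c hi hc ⊤ le_top (ond_top Q hQ)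
  set Fx : Submodule F (ι → F) := ⊤ ⊓ LinearMap.ker (T - 1) with hFxdef
  have hn : finrank F P + finrank F Fx = Fintype.card ι := by
    rw [hdim, finrank_top, Module.finrank_fintype_fun_eq_card]
  have hdvdP : c ∣ finrank F P := by
    have h3 : finrank F (⊤ : Submodule F (ι → F)) - finrank F Fx = finrank F P := by omega
    rw [← h3]
    exact hdvd
  obtain ⟨ρ, hρ⟩ := hdvdP
  have hfix : ∀ x ∈ Fx, T x = x := by
    intro x hx
    have h1 : x ∈ LinearMap.ker (T - 1) := hx.2
    rw [LinearMap.mem_ker, LinearMap.sub_apply, Module.End.one_apply, sub_eq_zero] at h1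
    exact h1
  have hatom : ∀ N : Submodule F (ι → F), N ≤ P → N.map T ≤ N → ONd Q N → N ≠ ⊥ →
      ∃ E : Submodule F (ι → F), E ≤ N ∧ E.map T ≤ E ∧ ONd Q E ∧ finrank F E = c := by
    intro N hNP hNT hN hN0
    exact o_atom Q hQ h2 T hT r hr2 hrF hTr i c hi hc N hNT hN hN0 (by
      rw [eq_bot_iff]
      exact (inf_le_inf_right _ hNP).trans (le_of_eq hPk))
  obtain ⟨h₁, hh₁⟩ : ∃ h₁ : ℕ, h₁ = min (m / c) ρ := ⟨_, rfl⟩
  obtain ⟨N₁, hN₁P, hN₁T, hN₁, hN₁dim⟩ :=
    o_grow Q hQ T hT r hrpr.pos hTr c hc0 P hatom P le_rfl hPT hP h₁ (by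
      rw [hρ, hh₁]
      exact Nat.mul_le_mul_left c (min_le_right _ _))
  have hN₁k : N₁ ⊓ LinearMap.ker (T - 1) = ⊥ := by
    rw [eq_bot_iff]
    exact (inf_le_inf_right _ hN₁P).trans (le_of_eq hPk)
  have hle : c * h₁ ≤ m := by
    calc c * h₁ ≤ c * (m / c) := by
          rw [hh₁]
          exact Nat.mul_le_mul_left c (min_le_left _ _)
      _ ≤ m := Nat.mul_div_le m c
  have htype : (Odd i → OPl Q N₁) ∧ (Even i → (OPl Q N₁ ↔ Even h₁)) := by
    constructor
    · intro hodd
      exact o_type_odd Q hQ h2 T hT r hr2 hrF hTr (by rw [← hi]; exact hodd) N₁ hN₁T hN₁ hN₁k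
    · intro heven
      have h := o_type_even Q hQ h2 T hT r hr2 hrF hTr (by rw [← hi]; exact heven) N₁ hN₁T hN₁
        hN₁k
      have hci : c = i := by rw [hc, if_pos heven]
      rw [← hi, hN₁dim, hci, Nat.mul_div_cancel_left _ hi0] at h
      exact h
  have hN₁even : Even (finrank F N₁) := by
    rw [hN₁dim]
    exact hceven.mul_right h₁
  by_cases he₁ : m = c * h₁
  · refine ⟨N₁, ⟨by rw [hN₁dim, he₁], hN₁, ?_⟩, hN₁T⟩
    rcases Nat.even_or_odd i with heven | hodd
    · have hci : c = i := by rw [hc, if_pos heven]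
      rw [htype.2 heven]
      have hmc : m % c = 0 := by
        rw [he₁]
        exact Nat.mul_mod_right c h₁
      rcases hty with h | h | h
      · exact absurd heven (Nat.not_even_iff_odd.mpr h)
      · omega
      · rw [he₁, ← hci, Nat.mul_div_cancel_left _ hc0] at h
        exact h
    · exact htype.1 hodd
  · have he₁pos : 0 < m - c * h₁ := by omega
    have he₁even : Even (m - c * h₁) :=
      (Nat.even_sub hle).mpr ⟨fun _ => hceven.mul_right h₁, fun _ => hme⟩
    have he₁lt : m - c * h₁ < finrank F Fx := by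
      rcases le_or_gt (m / c) ρ with hle' | hgt
      · have hh : h₁ = m / c := by
          rw [hh₁]
          exact min_eq_left hle'
        have h1 : m - c * h₁ = m % c := by
          rw [hh]
          have := Nat.div_add_mod m c
          omega
        have h3 : Fintype.card ι % c ≤ finrank F Fx := by
          rw [← hn, hρ, Nat.mul_add_mod]
          exact Nat.mod_le _ _
        omega
      · have hh : h₁ = ρ := by
          rw [hh₁]
          exact min_eq_right hgt.le
        rw [hh] at he₁pos ⊢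
        omega
    obtain ⟨X, hXFx, hX, hXdim, hXty⟩ :=
      o_sub Q hQ h2 Fx hFx (m - c * h₁) he₁even he₁pos he₁lt (OPl Q N₁)
    have horthX : OOrth Q X N₁ := fun u hu v hv => horth u (hXFx hu) v (hN₁P hv)
    refine ⟨X ⊔ N₁, ⟨?_, ?_, ?_⟩, ?_⟩
    · rw [Cfsg.Agent.Helper33.OType.finrank_sup_of_orth Q X N₁ hX horthX, hXdim, hN₁dim]
      omega
    · exact Cfsg.Agent.Helper33.OType.nondeg_sup Q hQ X N₁ hX hN₁ horthX
    · exact (Cfsg.Agent.Helper33.o_type_mul Q hQ X N₁ hX hN₁ horthX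
        (by rw [hXdim]; exact he₁even) hN₁even).mpr hXty
    · rw [Submodule.map_sup]
      refine sup_le_sup ?_ hN₁T
      rintro _ ⟨x, hx, rfl⟩
      rw [hfix x (hXFx hx)]
      exact hx

end Cfsg.Agent.Helper96.OH5992
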