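import Mathlib
import Cfsg.Agent.Helper96.OHDefs
import Cfsg.Agent.Helper31.OHOFIX
import Cfsg.Agent.Helper37.OHOSPLIT

set_option autoImplicit false
set_option linter.unusedSectionVars false
set_option linter.unusedVariables false

/-!
# S5992 piece OGOOD2 (helper96): involutions fix a hyperbolic `m`-space.
-/

namespace Cfsg.Agent.Helper96.OH5992

open Module Polynomial Cfsg Cfsg.Geo
open Cfsg.Agent.Helper13.TIu Cfsg.Agent.Helper96.OH
open Cfsg.Agent.Helper31.OH5992 Cfsg.Agent.Helper37.OH5992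

variable {ι : Type} [Fintype ι] [DecidableEq ι] {F : Type*} [Field F] (Q : (ι → F) → F)

/-- OGOOD2 (`r = 2`; uses OFIX with `r = 2`, OSPLIT, `oorth_symm`). -/
theorem o_good_two [Fintype F] (hQ : IsNondegenerateQuadraticForm Q) (h2 : (2 : F) ≠ 0)
    (T : Module.End F (ι → F)) (hT : OPres Q T) (hT2 : T ^ 2 = 1) (m : ℕ) (hme : Even m)
    (hm2 : 2 ≤ m) (hmn : m < Fintype.card ι) (hodd : Odd (Fintype.card ι)) :
    ∃ W : Submodule F (ι → F), (finrank F W = m ∧ ONd Q W ∧ OPl Q W) ∧ W.map T ≤ W := by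
  have h2F : ((2 : ℕ) : F) ≠ 0 := by
    norm_num
    exact h2
  have hTT : ∀ v, T (T v) = v := by
    intro v
    have h := congrArg (fun f : Module.End F (ι → F) => f v) hT2
    simpa [pow_two] using h
  obtain ⟨hFx, P, -, hPT, hP, hPk, hsup, horth, hdim⟩ :=
    o_fix Q hQ T hT 2 (by norm_num) h2F hT2 ⊤ le_top (ond_top Q hQ)
  set Fx : Submodule F (ι → F) := ⊤ ⊓ LinearMap.ker (T - 1) with hFxdef
  have hfix : ∀ x ∈ Fx, T x = x := by
    intro x hx
    have h1 : x ∈ LinearMap.ker (T - 1) := hx.2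
    rw [LinearMap.mem_ker, LinearMap.sub_apply, Module.End.one_apply, sub_eq_zero] at h1
    exact h1
  have hneg : ∀ y ∈ P, T y = -y := by
    intro y hy
    have hTy : T y ∈ P := hPT ⟨y, hy, rfl⟩
    have h1 : T y + y ∈ P ⊓ LinearMap.ker (T - 1) := by
      refine ⟨P.add_mem hTy hy, ?_⟩
      show T y + y ∈ LinearMap.ker (T - 1)
      rw [LinearMap.mem_ker, LinearMap.sub_apply, Module.End.one_apply, map_add, hTT]
      abel
    rw [hPk, Submodule.mem_bot] at h1
    exact eq_neg_of_add_eq_zero_left h1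
  have hXT : ∀ X : Submodule F (ι → F), X ≤ Fx → X.map T ≤ X := by
    rintro X hX _ ⟨x, hx, rfl⟩
    rw [hfix x (hX hx)]
    exact hx
  have hYT : ∀ Y : Submodule F (ι → F), Y ≤ P → Y.map T ≤ Y := by
    rintro Y hY _ ⟨y, hy, rfl⟩
    rw [hneg y (hY hy)]
    exact Y.neg_mem hy
  have hcard : finrank F P + finrank F Fx = Fintype.card ι := by
    rw [hdim, finrank_top, Module.finrank_fintype_fun_eq_card]
  have hcases : Odd (finrank F Fx) ∨ Odd (finrank F P) := by
    by_contra hcon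
    push Not at hcon
    rw [Nat.not_odd_iff_even, Nat.not_odd_iff_even] at hcon
    have : Even (Fintype.card ι) := by
      rw [← hcard]
      exact hcon.2.add hcon.1
    exact (Nat.not_even_iff_odd.mpr hodd) this
  rcases hcases with hoddFx | hoddP
  · obtain ⟨X, Y, hX, hY, hd, hnd, hpl⟩ :=
      o_split Q hQ h2 Fx P hFx hP horth hsup hoddFx m hme hm2 hmn
    refine ⟨X ⊔ Y, ⟨hd, hnd, hpl⟩, ?_⟩
    rw [Submodule.map_sup]
    exact sup_le_sup (hXT X hX) (hYT Y hY)
  · obtain ⟨X, Y, hX, hY, hd, hnd, hpl⟩ :=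
      o_split Q hQ h2 P Fx hP hFx (oorth_symm Q horth) (by rw [sup_comm]; exact hsup) hoddP m hme
        hm2 hmn
    refine ⟨X ⊔ Y, ⟨hd, hnd, hpl⟩, ?_⟩
    rw [Submodule.map_sup]
    exact sup_le_sup (hYT X hX) (hXT Y hY)

end Cfsg.Agent.Helper96.OH5992
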