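-- helper96 library: decompositions of a 4-space into two planes over the field with three elements:
-- the elements of determinant one of the stabiliser are similarities of a symplectic form.
import Cfsg.Agent.Helper96.SmallQ

set_option autoImplicit false
open Cfsg Cfsg.Geo Matrix

namespace Cfsg.Agent.Helper96

variable {F : Type*} [Field F] {n : ℕ}

/-- The block determinants of an element of the stabiliser of a decomposition into planes: the
determinant is their product and each block form is scaled by the block determinant. -/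
theorem planes_blocks {t : ℕ} (D : Fin t → Submodule F (Fin n → F)) (hD : IsMDecomposition 2 D) :
    ∃ b : Module.Basis (Fin t × Fin 2) F (Fin n → F), ∀ g ∈ decompositionStabilizer D,
      ∃ (σ : Equiv.Perm (Fin t)) (d : Fin t → F),
        (g : Matrix (Fin n) (Fin n) F).det = ∏ i, d i ∧
        ∀ (u v : Fin n → F) (i : Fin t),
          b.repr ((g : Matrix (Fin n) (Fin n) F) *ᵥ u) (σ i, 0) *
              b.repr ((g : Matrix (Fin n) (Fin n) F) *ᵥ v) (σ i, 1) -
            b.repr ((g : Matrix (Fin n) (Fin n) F) *ᵥ u) (σ i, 1) *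
              b.repr ((g : Matrix (Fin n) (Fin n) F) *ᵥ v) (σ i, 0) =
          d i * (b.repr u (i, 0) * b.repr v (i, 1) - b.repr u (i, 1) * b.repr v (i, 0)) := by
  classical
  obtain ⟨b, hbD, hb⟩ := exists_plane_basis D hD
  refine ⟨b, fun g hg => ?_⟩
  obtain ⟨σ, hσ⟩ := (Helper97.mem_decompositionStabilizer_iff D g).mp hg
  have hmem : ∀ i a, (g : Matrix (Fin n) (Fin n) F) *ᵥ b (i, a) ∈ D (σ i) := by
    intro i a
    rw [← hσ i]
    exact ⟨b (i, a), hbD i a, by rw [Matrix.toLin'_apply]⟩
  choose α β hαβ using fun i => hb (σ i) _ (hmem i 0)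
  choose γ δ hγδ using fun i => hb (σ i) _ (hmem i 1)
  -- coordinates of `g x`
  have hrepr : ∀ (x : Fin n → F) (i : Fin t),
      b.repr ((g : Matrix (Fin n) (Fin n) F) *ᵥ x) (σ i, 0) =
        α i * b.repr x (i, 0) + γ i * b.repr x (i, 1) ∧
      b.repr ((g : Matrix (Fin n) (Fin n) F) *ᵥ x) (σ i, 1) =
        β i * b.repr x (i, 0) + δ i * b.repr x (i, 1) := by
    intro x i
    obtain ⟨c, hc⟩ : ∃ c : Fin t × Fin 2 → F, c = fun q =>
        if q.2 = 0 then α (σ.symm q.1) * b.repr x (σ.symm q.1, 0) + γ (σ.symm q.1) * b.repr x (σ.symm q.1, 1)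
        else β (σ.symm q.1) * b.repr x (σ.symm q.1, 0) + δ (σ.symm q.1) * b.repr x (σ.symm q.1, 1) :=
      ⟨_, rfl⟩
    have hgx : (g : Matrix (Fin n) (Fin n) F) *ᵥ x = ∑ q, c q • b q := by
      have hR : ∑ q, c q • b q = ∑ j, (c (σ j, 0) • b (σ j, 0) + c (σ j, 1) • b (σ j, 1)) := by
        rw [Fintype.sum_prod_type, ← Equiv.sum_comp σ]
        apply Finset.sum_congr rfl
        intro j _
        rw [Fin.sum_univ_two]
      have hL : (g : Matrix (Fin n) (Fin n) F) *ᵥ x =
          ∑ j, (b.repr x (j, 0) • (g : Matrix (Fin n) (Fin n) F) *ᵥ b (j, 0) +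
            b.repr x (j, 1) • (g : Matrix (Fin n) (Fin n) F) *ᵥ b (j, 1)) := by
        conv_lhs => rw [← b.sum_repr x]
        rw [Matrix.mulVec_sum, Fintype.sum_prod_type]
        apply Finset.sum_congr rfl
        intro j _
        rw [Fin.sum_univ_two, Matrix.mulVec_smul, Matrix.mulVec_smul]
      rw [hL, hR]
      apply Finset.sum_congr rfl
      intro j _
      rw [hαβ, hγδ, hc]
      simp only [Equiv.symm_apply_apply, ↓reduceIte, Fin.isValue, one_ne_zero]
      module
    have h1 := b.repr_sum_self c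
    rw [← hgx] at h1
    constructor
    · rw [h1, hc]
      simp
    · rw [h1, hc]
      simp
  obtain ⟨B, hB⟩ : ∃ B : Fin t → Matrix (Fin 2) (Fin 2) F, B = fun i => !![α i, γ i; β i, δ i] :=
    ⟨_, rfl⟩
  have hA : ∀ (i' : Fin t) (a : Fin 2) (i : Fin t) (a' : Fin 2),
      b.repr ((g : Matrix (Fin n) (Fin n) F) *ᵥ b (i, a')) (σ i', a) =
        if i' = i then B i a a' else 0 := by
    intro i' a i a'
    have h2 : ∀ a : Fin 2, a = 0 ∨ a = 1 := by
      intro a
      fin_cases a <;> simp
    by_cases hi : i' = i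
    · subst hi
      rw [if_pos rfl, hB]
      rcases h2 a with rfl | rfl <;> rcases h2 a' with rfl | rfl
      · rw [(hrepr _ i').1, Module.Basis.repr_self]
        simp
      · rw [(hrepr _ i').1, Module.Basis.repr_self]
        simp
      · rw [(hrepr _ i').2, Module.Basis.repr_self]
        simp
      · rw [(hrepr _ i').2, Module.Basis.repr_self]
        simp
    · rw [if_neg hi]
      have h0 : ∀ a'' : Fin 2, b.repr (b (i, a')) (i', a'') = 0 := by
        intro a''
        rw [Module.Basis.repr_self, Finsupp.single_eq_of_ne]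
        intro h
        exact hi (congrArg Prod.fst h)
      rcases h2 a with rfl | rfl
      · rw [(hrepr _ i').1, h0, h0, mul_zero, mul_zero, add_zero]
      · rw [(hrepr _ i').2, h0, h0, mul_zero, mul_zero, add_zero]
  have hdet : (g : Matrix (Fin n) (Fin n) F).det = ∏ i, (α i * δ i - γ i * β i) := by
    obtain ⟨b₂, hb₂⟩ : ∃ b₂ : Module.Basis (Fin 2 × Fin t) F (Fin n → F),
        b₂ = b.reindex (Equiv.prodComm (Fin t) (Fin 2)) := ⟨_, rfl⟩
    have h1 : LinearMap.toMatrix b₂ b₂ (Matrix.toLin' (g : Matrix (Fin n) (Fin n) F)) =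
        (Matrix.blockDiagonal B).submatrix
          (Equiv.prodCongrRight (fun _ : Fin 2 => (σ⁻¹ : Equiv.Perm (Fin t)))) id := by
      ext ⟨a, k⟩ ⟨a', i⟩
      obtain ⟨i', rfl⟩ : ∃ i', k = σ i' := ⟨σ⁻¹ k, by simp⟩
      rw [LinearMap.toMatrix_apply, Matrix.toLin'_apply, hb₂, Module.Basis.reindex_apply,
        Module.Basis.repr_reindex_apply, Matrix.submatrix_apply]
      simp only [Equiv.prodComm_symm, Equiv.prodComm_apply, Prod.swap_prod_mk, id,
        Equiv.prodCongrRight_apply, Matrix.blockDiagonal_apply]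
      have hinv : (σ⁻¹ : Equiv.Perm (Fin t)) (σ i') = i' := by simp
      rw [hinv, hA i' a i a']
      by_cases hi : i' = i
      · subst hi
        rfl
      · rw [if_neg hi, if_neg hi]
    rw [← LinearMap.det_toLin', ← LinearMap.det_toMatrix b₂, h1, Matrix.det_permute,
      Equiv.Perm.sign_prodCongrRight, Fin.prod_univ_two, Int.units_mul_self, Units.val_one,
      Int.cast_one, one_mul, Matrix.det_blockDiagonal]
    apply Finset.prod_congr rfl
    intro i _
    rw [hB, Matrix.det_fin_two_of]
  refine ⟨σ, fun i => α i * δ i - γ i * β i, hdet, fun u v i => ?_⟩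
  rw [(hrepr u i).1, (hrepr u i).2, (hrepr v i).1, (hrepr v i).2]
  ring

/-- Over the field with three elements, the elements of determinant one stabilising a decomposition
into two planes are similarities of a symplectic form. -/
theorem planes_three [Fintype F] (hq : Fintype.card F = 3)
    (D : Fin 2 → Submodule F (Fin n → F)) (hD : IsMDecomposition 2 D) :
    ∃ f : (Fin n → F) → (Fin n → F) → F, IsSymplecticForm f ∧
      decompositionStabilizer D ⊓ specialLinear (Fin n) F ≤ similarityGroup f := by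
  classical
  obtain ⟨b, hb⟩ := planes_blocks D hD
  refine ⟨blockForm b, blockForm_symplectic b, ?_⟩
  intro g hg
  obtain ⟨σ, d, hdet, hblk⟩ := hb g hg.1
  have hdet1 : (g : Matrix (Fin n) (Fin n) F).det = 1 := (Helper97.mem_specialLinear_iff g).mp hg.2
  rw [hdet1, Fin.prod_univ_two] at hdet
  have hd1 : d 1 ≠ 0 := by
    intro h
    rw [h, mul_zero] at hdet
    exact one_ne_zero hdet
  have hd0 : d 0 ≠ 0 := by
    intro h
    rw [h, zero_mul] at hdet
    exact one_ne_zero hdet
  have hsq : d 1 * d 1 = 1 := by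
    have := FiniteField.pow_card_sub_one_eq_one (d 1) hd1
    rw [hq] at this
    rw [← this]
    ring
  have heq : d 1 = d 0 := by
    calc d 1 = (d 0 * d 1) * d 1 := by rw [← hdet, one_mul]
      _ = d 0 * (d 1 * d 1) := by ring
      _ = d 0 := by rw [hsq, mul_one]
  have hall : ∀ i : Fin 2, d i = d 0 := by
    intro i
    fin_cases i
    · rfl
    · exact heq
  rw [Helper97.mem_similarityGroup_iff]
  refine ⟨Units.mk0 (d 0) hd0, fun u v => ?_⟩
  rw [Units.val_mk0, blockForm_apply, blockForm_apply,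
    ← Equiv.sum_comp σ (fun i => b.repr ((g : Matrix (Fin n) (Fin n) F) *ᵥ u) (i, 0) *
      b.repr ((g : Matrix (Fin n) (Fin n) F) *ᵥ v) (i, 1) -
      b.repr ((g : Matrix (Fin n) (Fin n) F) *ᵥ u) (i, 1) *
      b.repr ((g : Matrix (Fin n) (Fin n) F) *ᵥ v) (i, 0)), Finset.mul_sum]
  apply Finset.sum_congr rfl
  intro i _
  rw [hblk u v i, hall i]

end Cfsg.Agent.Helper96
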