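-- helper96 library: the class-two case for groups of isometries of a symplectic form: the normal
-- subgroup is a 2-group of symplectic type and minus type over a prime field, or the group lies in
-- a subfield group.
import Cfsg.Agent.Helper96.SpX4
import Cfsg.Agent.Helper96.SpSubfield
import Cfsg.Agent.Helper90.MinusType

set_option autoImplicit false
set_option linter.unusedSectionVars false
set_option linter.unusedVariables false
open Cfsg Cfsg.Geo Matrix

namespace Cfsg.Agent.Helper96.Sy

variable {κ : Type} [Fintype κ] [DecidableEq κ] {F : Type*} [Field F]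
variable {f : (κ → F) → (κ → F) → F}

theorem c2_trace_zero [Nonempty κ] (hf : IsSymplecticForm f) {N : Subgroup (GL κ F)}
    (hN : N ≤ isoSub f) (habs : ActsAbsolutelyIrreducibly (matrixSet N))
    (hab : ∀ a ∈ N, ∀ b ∈ N, a * b * a⁻¹ * b⁻¹ ∈ scalars κ F) (h2 : (2 : F) ≠ 0) {a : GL κ F}
    (ha : a ∈ N) (hns : a ∉ scalars κ F) : Matrix.trace (a : Matrix κ κ F) = 0 := by
  obtain ⟨b, hb, -, hanti⟩ := c2_exists_anti hf hN habs hab ha hns
  have h1 : Matrix.trace ((b : Matrix κ κ F) * (a : Matrix κ κ F) *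
      ((b⁻¹ : GL κ F) : Matrix κ κ F)) = Matrix.trace (a : Matrix κ κ F) :=
    Matrix.trace_units_conj b _
  rw [hanti, Matrix.trace_neg] at h1
  have h3 : (2 : F) * Matrix.trace (a : Matrix κ κ F) = 0 := by linear_combination -h1
  exact (mul_eq_zero.mp h3).resolve_left h2

theorem mul_single_mul_apply (x y : Matrix κ κ F) (a b : κ) :
    (x * Matrix.single a b (1 : F) * y) a b = x a a * y b b := by
  rw [Matrix.mul_apply, Finset.sum_eq_single b]
  · rw [Matrix.mul_apply, Finset.sum_eq_single a]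
    · rw [Matrix.single_apply_same, mul_one]
    · intro c _ hc
      rw [Matrix.single_apply_of_ne, mul_zero]
      exact fun h => hc h.1.symm
    · intro h
      exact absurd (Finset.mem_univ a) h
  · intro c _ hc
    have : (x * Matrix.single a b (1 : F)) a c = 0 := by
      rw [Matrix.mul_apply]
      apply Finset.sum_eq_zero
      intro d _
      rw [Matrix.single_apply_of_ne, mul_zero]
      exact fun h => hc h.2.symm
    rw [this, zero_mul]
  · intro h
    exact absurd (Finset.mem_univ b) h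

/-- A class-two core is equivalent to its twist by any field endomorphism. -/
theorem c2_exists_intertwiner [Fintype F] [Nonempty κ] (hf : IsSymplecticForm f)
    {H N : Subgroup (GL κ F)} (hN : N ≤ isoSub f) (hc : IsC2Core H N) (σ : F →+* F) :
    ∃ C : Matrix κ κ F, C ≠ 0 ∧
      ∀ g ∈ N, (g : Matrix κ κ F) * C = C * (g : Matrix κ κ F).map σ := by
  classical
  obtain ⟨i₀⟩ := ‹Nonempty κ›
  haveI : Nonempty κ := ⟨i₀⟩
  haveI : Fintype N := Fintype.ofFinite N
  obtain ⟨⟨z, hz, hzval⟩, h2, -⟩ := c2_neg_one hf hN hc.absIrred hc.class2 hc.notScalar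
  obtain ⟨k, hk, -⟩ := c2_card_pow hf hN hc
  obtain ⟨T, hT⟩ : ∃ T : Matrix κ κ F → Matrix κ κ F, ∀ E, T E = ∑ x : N,
      ((x : GL κ F) : Matrix κ κ F) * E * (((x : GL κ F)⁻¹ : GL κ F) : Matrix κ κ F).map σ :=
    ⟨_, fun _ => rfl⟩
  have hTg : ∀ E, ∀ g ∈ N, (g : Matrix κ κ F) * T E = T E * (g : Matrix κ κ F).map σ := by
    intro E g hg
    rw [hT, Finset.mul_sum, Finset.sum_mul]
    refine Fintype.sum_equiv (Equiv.mulLeft (⟨g, hg⟩ : N)) _ _ (fun x => ?_)
    have hx : ((Equiv.mulLeft (⟨g, hg⟩ : N) x : N) : GL κ F) = g * (x : GL κ F) := rfl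
    rw [hx, _root_.mul_inv_rev, Units.val_mul, Units.val_mul, Matrix.map_mul]
    have h1 : ((g⁻¹ : GL κ F) : Matrix κ κ F).map σ * (g : Matrix κ κ F).map σ = 1 := by
      rw [← Matrix.map_mul, ← Units.val_mul, inv_mul_cancel, Units.val_one, map_one_hom]
    calc (g : Matrix κ κ F) * (((x : GL κ F) : Matrix κ κ F) * E *
          (((x : GL κ F)⁻¹ : GL κ F) : Matrix κ κ F).map σ)
        = (g : Matrix κ κ F) * ((x : GL κ F) : Matrix κ κ F) * E *
          ((((x : GL κ F)⁻¹ : GL κ F) : Matrix κ κ F).map σ * 1) := by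
          rw [mul_one]
          simp only [mul_assoc]
      _ = _ := by
          rw [← h1]
          simp only [mul_assoc]
  by_contra hcon
  push Not at hcon
  have hT0 : ∀ E, T E = 0 := by
    intro E
    by_contra hne
    obtain ⟨g, hg, hne'⟩ := hcon (T E) hne
    exact hne' (hTg E g hg)
  obtain ⟨G, hG⟩ : ∃ G : N → F, ∀ x : N, G x = Matrix.trace ((x : GL κ F) : Matrix κ κ F) *
      Matrix.trace ((((x : GL κ F)⁻¹ : GL κ F) : Matrix κ κ F).map σ) := ⟨_, fun _ => rfl⟩
  have hsum : ∑ x : N, G x = 0 := by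
    calc ∑ x : N, G x
        = ∑ x : N, ∑ a : κ, ∑ b : κ, ((x : GL κ F) : Matrix κ κ F) a a *
            ((((x : GL κ F)⁻¹ : GL κ F) : Matrix κ κ F).map σ) b b := by
          apply Finset.sum_congr rfl
          intro x _
          rw [hG, Matrix.trace, Matrix.trace, Finset.sum_mul_sum]
          rfl
      _ = ∑ a : κ, ∑ x : N, ∑ b : κ, ((x : GL κ F) : Matrix κ κ F) a a *
            ((((x : GL κ F)⁻¹ : GL κ F) : Matrix κ κ F).map σ) b b := Finset.sum_comm
      _ = ∑ a : κ, ∑ b : κ, ∑ x : N, ((x : GL κ F) : Matrix κ κ F) a a *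
            ((((x : GL κ F)⁻¹ : GL κ F) : Matrix κ κ F).map σ) b b :=
          Finset.sum_congr rfl (fun a _ => Finset.sum_comm)
      _ = ∑ a : κ, ∑ b : κ, (T (Matrix.single a b 1)) a b := by
          apply Finset.sum_congr rfl
          intro a _
          apply Finset.sum_congr rfl
          intro b _
          rw [hT, Matrix.sum_apply]
          apply Finset.sum_congr rfl
          intro x _
          rw [mul_single_mul_apply]
      _ = 0 := by
          apply Finset.sum_eq_zero
          intro a _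
          apply Finset.sum_eq_zero
          intro b _
          rw [hT0]
          rfl
  have hn0 : ((Fintype.card κ : ℕ) : F) ≠ 0 := by
    rw [hk, Nat.cast_pow, Nat.cast_ofNat]
    exact pow_ne_zero _ h2
  have hne1 : (1 : N) ≠ ⟨z, hz⟩ := by
    intro h
    have h3 : (1 : GL κ F) = z := congrArg Subtype.val h
    have h4 : (1 : Matrix κ κ F) = -1 := by rw [← hzval, ← h3, Units.val_one]
    have h5 := congrFun (congrFun h4 i₀) i₀
    rw [Matrix.neg_apply, Matrix.one_apply_eq] at h5
    apply h2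
    linear_combination h5
  have hzinv : ((z⁻¹ : GL κ F) : Matrix κ κ F) = -1 := by
    calc ((z⁻¹ : GL κ F) : Matrix κ κ F)
        = ((z⁻¹ : GL κ F) : Matrix κ κ F) * ((z : Matrix κ κ F) * (-1)) := by
          rw [hzval, neg_mul_neg, mul_one, mul_one]
      _ = -1 := by rw [← mul_assoc, ← Units.val_mul, inv_mul_cancel, Units.val_one, one_mul]
  have hnegmap : (-(1 : Matrix κ κ F)).map σ = -1 := by
    ext i j
    by_cases hij : i = j
    · subst hij
      simp
    · simp [hij]
  have hG1 : G 1 = (Fintype.card κ : F) * (Fintype.card κ : F) := by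
    rw [hG]
    have h3 : (((1 : N) : GL κ F)) = 1 := rfl
    rw [h3, inv_one, Units.val_one, map_one_hom, Matrix.trace_one]
  have hGz : G ⟨z, hz⟩ = (Fintype.card κ : F) * (Fintype.card κ : F) := by
    rw [hG]
    have h3 : (((⟨z, hz⟩ : N) : GL κ F)) = z := rfl
    rw [h3, hzinv, hzval, hnegmap, Matrix.trace_neg, Matrix.trace_one]
    ring
  have hG0 : ∀ x : N, x ≠ 1 ∧ x ≠ ⟨z, hz⟩ → G x = 0 := by
    rintro ⟨x, hx⟩ ⟨hx1, hxz⟩
    have hns : x ∉ scalars κ F := by
      intro hsc
      rcases scalar_iso_pm hf hsc (hN hx) with h | h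
      · apply hx1
        apply Subtype.ext
        apply Units.ext
        rw [h]
        rfl
      · apply hxz
        apply Subtype.ext
        apply Units.ext
        rw [h, ← hzval]
    rw [hG]
    have h3 : (((⟨x, hx⟩ : N) : GL κ F)) = x := rfl
    rw [h3, c2_trace_zero hf hN hc.absIrred hc.class2 h2 hx hns, zero_mul]
  have hsum2 : ∑ x : N, G x = G 1 + G ⟨z, hz⟩ :=
    Finset.sum_eq_add (1 : N) ⟨z, hz⟩ hne1 (fun x _ hx => hG0 x hx)
      (fun h => absurd (Finset.mem_univ _) h) (fun h => absurd (Finset.mem_univ _) h)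
  rw [hsum, hG1, hGz] at hsum2
  have h6 : (2 : F) * ((Fintype.card κ : F) * (Fintype.card κ : F)) = 0 := by
    linear_combination -hsum2
  rcases mul_eq_zero.mp h6 with h | h
  · exact h2 h
  · rcases mul_eq_zero.mp h with h | h <;> exact hn0 h

/-- The field is a prime field of odd order, or the core is realisable over a proper subfield. -/
theorem c2_prime_or_subfield [Fintype F] [Nonempty κ] (hf : IsSymplecticForm f)
    {H N : Subgroup (GL κ F)} (hN : N ≤ isoSub f) (hc : IsC2Core H N) :
    (∃ p : ℕ, p.Prime ∧ Odd p ∧ Fintype.card F = p) ∨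
      ∃ F₀ : Subfield F, F₀ ≠ ⊤ ∧ RealisableOver F₀ (matrixSet N) := by
  classical
  obtain ⟨-, h2, -⟩ := c2_neg_one hf hN hc.absIrred hc.class2 hc.notScalar
  obtain ⟨p, hchar⟩ := CharP.exists F
  obtain ⟨e, hp, hcard⟩ := FiniteField.card F p
  have hodd : Odd p := by
    rcases hp.eq_two_or_odd' with h | h
    · exfalso
      subst h
      apply h2
      exact_mod_cast CharP.cast_eq_zero F 2
    · exact h
  by_cases he : (e : ℕ) = 1
  · left
    exact ⟨p, hp, hodd, by rw [hcard, he, pow_one]⟩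
  right
  have hexp : ExpChar F p := ExpChar.prime hp
  obtain ⟨σ, hσ⟩ : ∃ σ : F →+* F, ∀ a, σ a = a ^ p := ⟨frobenius F p, fun a => frobenius_def p a⟩
  obtain ⟨C, hC, hCg⟩ := c2_exists_intertwiner hf hN hc σ
  obtain ⟨B, hB⟩ := frob_descent p e hp hcard σ hσ N hc.absIrred C hC hCg
  refine ⟨RingHom.eqLocusField σ (RingHom.id F), ?_, B, ?_⟩
  · intro htop
    have hall : ∀ a : F, a ^ p = a := by
      intro a
      have h1 : a ∈ RingHom.eqLocusField σ (RingHom.id F) := by
        rw [htop]
        exact Subfield.mem_top a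
      rw [RingHom.mem_eqLocusField, RingHom.id_apply] at h1
      rw [← hσ]
      exact h1
    have he2 : 2 ≤ (e : ℕ) := by
      have := e.pos
      omega
    obtain ⟨e', he'⟩ : ∃ e', (e : ℕ) = e' + 2 := ⟨e - 2, by omega⟩
    have h3 := frob_indep p e hp.two_le hcard
      (fun i => if i = 0 then (1 : F) else if i = 1 then -1 else 0) ?_ 0 (by omega)
    · simp at h3
    · intro a
      rw [he', Finset.sum_range_succ', Finset.sum_range_succ']
      simp [hall a]
  · rintro _ ⟨g, hg, rfl⟩ i j
    rw [RingHom.mem_eqLocusField, RingHom.id_apply]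
    exact hB g hg i j

/-- The structure of a group of isometries with a class-two core: the normaliser of a 2-group of
symplectic type and minus type over a prime field, or a subfield group. -/
theorem c6_structure [Fintype F] [Nonempty κ] (hf : IsSymplecticForm f) {H N : Subgroup (GL κ F)}
    (hH : H ≤ isoSub f) (hc : IsC2Core H N) :
    (∃ (R : Subgroup (GL κ F)) (p k : ℕ), IsSymplecticTypeGroup 2 R ∧
      ActsAbsolutelyIrreducibly (matrixSet R) ∧ R ≤ similarityGroup f ∧ p.Prime ∧ Odd p ∧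
      Fintype.card F = p ∧ Nat.card R = 2 ^ (1 + 2 * k) ∧ Nat.card (Subgroup.center R) = 2 ∧
      IsOfMinusType k R ∧ H ≤ subgroupNormalizer R) ∨
    (∃ (F₀ : Subfield F) (r : ℕ) (P : GL κ F) (ζ : F), r.Prime ∧
      Fintype.card F = Nat.card F₀ ^ r ∧ ζ ≠ 0 ∧ IsFormRationalStructure f F₀ ζ P ∧
      H ≤ subfieldSubgroup F₀ P) := by
  have hN : N ≤ isoSub f := hc.le.trans hH
  obtain ⟨-, h2, -⟩ := c2_neg_one hf hN hc.absIrred hc.class2 hc.notScalar
  rcases c2_prime_or_subfield hf hN hc with ⟨p, hp, hodd, hcard⟩ | ⟨F₀, hF₀, B, hB⟩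
  · left
    obtain ⟨k, hk, hcardN⟩ := c2_card_pow hf hN hc
    exact ⟨N, p, k, c2_symplecticType hf hN hc, hc.absIrred, iso_le_similarity hN, hp, hodd, hcard,
      hcardN, c2_card_center hf hN hc,
      Cfsg.Agent.Helper90.minus_type_of_symplectic hf N (fun x hx u v => iso_apply (hN hx) u v)
        hc.absIrred hc.class2 h2 k hk,
      c2_le_normalizer hc⟩
  · right
    obtain ⟨F₁, r, hle, hr, hcard⟩ := Helper97.Gen.exists_prime_index_subfield F₀ hF₀
    obtain ⟨P', ζ, hζ, hnorm, hrat⟩ := sp_subfield_structure hf F₁ N hN hc.absIrred B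
      (fun s hs i j => hle (hB s hs i j))
    exact ⟨F₁, r, P', ζ, hr, hcard, hζ, hrat, fun h hh => hnorm h (hc.normal h hh)⟩

end Cfsg.Agent.Helper96.Sy
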