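-- helper96 library: the complete list for a maximal subgroup of the standard symplectic group in
-- odd characteristic (class-two cores and tensor powers included).
import Cfsg.Agent.Helper96.SpW1
import Cfsg.Agent.Helper96.SpRow
import Cfsg.Agent.Helper96.SpX5

set_option autoImplicit false
set_option linter.unusedSectionVars false
set_option linter.unusedVariables false
open Cfsg Cfsg.Geo Matrix

namespace Cfsg.Agent.Helper96.Sy

variable {m : ℕ} {F : Type*} [Field F]

/-- The complete list for a maximal subgroup of the symplectic group, odd characteristic. -/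
def SpMaxOdd (m : ℕ) (F : Type*) [Field F] [Fintype F] (H : Subgroup (GL (Fin m ⊕ Fin m) F)) : Prop :=
  (∃ W : Submodule F (Fin m ⊕ Fin m → F), W ≠ ⊥ ∧ IsTotallySingularFor (sympForm m F) W ∧
    H = subspaceStabilizer W ⊓ spGL m F) ∨
  (∃ W : Submodule F (Fin m ⊕ Fin m → F), W ≠ ⊥ ∧ IsNondegenerateOn (sympForm m F) W ∧
    Module.finrank F W < m ∧ H = subspaceStabilizer W ⊓ spGL m F) ∨
  (∃ (t k : ℕ) (D : Fin t → Submodule F (Fin m ⊕ Fin m → F)), t * k = m + m ∧ Even k ∧
    IsNondegenerateMDecomposition (sympForm m F) k D ∧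
    H = decompositionStabilizer D ⊓ spGL m F) ∨
  (∃ D : Fin 2 → Submodule F (Fin m ⊕ Fin m → F), IsMDecomposition m D ∧
    (∀ i, IsTotallySingularFor (sympForm m F) (D i)) ∧ H = decompositionStabilizer D ⊓ spGL m F) ∨
  (∃ (r : ℕ) (K : Subalgebra F (Matrix (Fin m ⊕ Fin m) (Fin m ⊕ Fin m) F)), r.Prime ∧ r ∣ m ∧
    IsFieldSubalgebra r K ∧ IsSelfAdjointFor (sympForm m F) K ∧
    (∀ k ∈ K, ∀ v : Fin m ⊕ Fin m → F, sympForm m F (k *ᵥ v) v = 0) ∧
    H = subalgebraNormalizer K ⊓ spGL m F) ∨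
  (∃ K : Subalgebra F (Matrix (Fin m ⊕ Fin m) (Fin m ⊕ Fin m) F),
    IsFieldSubalgebra 2 K ∧ IsAdjointClosedFor (sympForm m F) K ∧
    ¬ IsSelfAdjointFor (sympForm m F) K ∧ H = subalgebraNormalizer K ⊓ spGL m F) ∨
  (∃ (n₁ n₂ : ℕ) (e : (Fin m ⊕ Fin m) ≃ Fin n₁ × Fin n₂)
    (P : GL (Fin m ⊕ Fin m) F)
    (f₁ : (Fin n₁ → F) → (Fin n₁ → F) → F) (f₂ : (Fin n₂ → F) → (Fin n₂ → F) → F),
    2 ≤ n₂ ∧ Even n₁ ∧ n₁ * n₂ = m + m ∧ IsSymplecticForm f₁ ∧ IsSymmetricForm f₂ ∧
    IsTensorFormStructure id (sympForm m F) f₁ f₂ e P ∧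
    H = tensorProductSubgroup n₁ n₂ e P ⊓ spGL m F) ∨
  (∃ (F₀ : Subfield F) (r : ℕ) (P : GL (Fin m ⊕ Fin m) F) (ζ : F), r.Prime ∧
    Fintype.card F = Nat.card F₀ ^ r ∧ ζ ≠ 0 ∧ IsFormRationalStructure (sympForm m F) F₀ ζ P ∧
    H = subfieldSubgroup F₀ P ⊓ spGL m F) ∨
  InSymplecticResidualClass H ∨
  (∃ (R : Subgroup (GL (Fin m ⊕ Fin m) F)) (p k : ℕ), IsSymplecticTypeGroup 2 R ∧
    ActsAbsolutelyIrreducibly (matrixSet R) ∧ R ≤ similarityGroup (sympForm m F) ∧ p.Prime ∧
    Odd p ∧ Fintype.card F = p ∧ Nat.card R = 2 ^ (1 + 2 * k) ∧ 2 ^ k = m + m ∧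
    Nat.card (Subgroup.center R) = 2 ∧ IsOfMinusType k R ∧
    H = subgroupNormalizer R ⊓ spGL m F) ∨
  (∃ (k t : ℕ) (e : (Fin m ⊕ Fin m) ≃ (Fin t → Fin k)) (P : GL (Fin m ⊕ Fin m) F)
    (f₁ : (Fin k → F) → (Fin k → F) → F), Odd t ∧ 3 ≤ t ∧ ¬ (Fintype.card F = 3 ∧ k = 2) ∧
    k ^ t = m + m ∧ IsSymplecticForm f₁ ∧ IsTensorPowerFormStructure id (sympForm m F) f₁ e P ∧
    H = tensorWreathSubgroup k t e P ⊓ spGL m F)

theorem sp_max_cases_odd [Fintype F] (hm : 2 ≤ m) (h2F : (2 : F) ≠ 0)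
    (H : Subgroup (GL (Fin m ⊕ Fin m) F)) (hH : IsMaximalIn (spGL m F) H) : SpMaxOdd m F H := by
  classical
  have hout := sp_outcome_std2 (by omega) H hH.1.le
  unfold SpOutcome2 at hout
  unfold SpMaxOdd
  have hnd : ∀ {t k : ℕ} (D : Fin t → Submodule F (Fin m ⊕ Fin m → F)),
      IsNondegenerateMDecomposition (sympForm m F) k D → H ≤ decompositionStabilizer D →
      ∃ (t k : ℕ) (D : Fin t → Submodule F (Fin m ⊕ Fin m → F)), t * k = m + m ∧ Even k ∧
        IsNondegenerateMDecomposition (sympForm m F) k D ∧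
        H = decompositionStabilizer D ⊓ spGL m F := by
    intro t k D hD hle
    have htk : t * k = m + m := by
      have := Helper94.card_eq_of_decomposition D hD.decomp
      rw [card_sum_fin] at this
      exact this.symm
    have hk : Even k := by
      have ht := hD.decomp.two_le
      obtain ⟨n, e, f', -, -, -, -, -, -, hfr⟩ := Helper94.exists_hyp_basis (D ⟨0, by omega⟩)
        (hD.nondegenerate ⟨0, by omega⟩)
      rw [hD.decomp.finrank_eq] at hfr
      exact ⟨n, by omega⟩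
    exact ⟨t, k, D, htk, hk, hD, eq_inf_of_max hH hle (notSp_ndecomp D hD)⟩
  rcases hout with ⟨W, hW0, hts, hle⟩ | ⟨W, W', h1, h2, h3, h4, h5, h6, h7, h8, h9⟩ |
    ⟨t, k, D, hD, hle⟩ | ⟨h2, k, D, hD, hts, hle⟩ | ⟨r, K, hr, hK, hsa, halt, hle⟩ |
    ⟨h2, K, hK, hac, hnsa, hle⟩ | ⟨h2, n₁, n₂, e₁, P, f₁, f₂, hn₂, hf₁, hf₂, hT, hle⟩ |
    ⟨h2, n₁, n₂, e₁, P, f₁, f₂, hf₁, hf₂, hT, hle⟩ | ⟨F₀, r, P, ζ, hr, hcard, hζ, hR, hle⟩ |
    ⟨h2, Q, hQ, hpol, hle⟩ | hres | ⟨N, hc⟩ |
    ⟨h2, k, t, e₁, P, f₁, hodd, ht3, hex, hf₁, hT, hle⟩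
  · -- totally singular subspace
    have hWtop : W ≠ ⊤ := by
      intro htop
      have hne : (Pi.single (Sum.inl ⟨0, by omega⟩ : Fin m ⊕ Fin m) (1 : F) : Fin m ⊕ Fin m → F) ≠ 0 := by
        intro h
        have := congrFun h (Sum.inl ⟨0, by omega⟩)
        simp at this
      obtain ⟨y, hy⟩ := Helper94.sf_exists_ne _ hne
      exact hy (hts _ (by rw [htop]; trivial) _ (by rw [htop]; trivial))
    exact Or.inl ⟨W, hW0, hts, eq_inf_of_max hH hle (notSp_stab W hW0 hWtop)⟩
  · -- orthogonal pair of non-degenerate subspaces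
    have hsum : Module.finrank F W + Module.finrank F W' = m + m := by
      have := Submodule.finrank_sup_add_finrank_inf_eq W W'
      rw [h7, h6, finrank_top, finrank_bot, Module.finrank_fintype_fun_eq_card, card_sum_fin] at this
      omega
    have hWtop : W ≠ ⊤ := by
      intro htop
      apply h2
      rw [← h6, htop, top_inf_eq]
    have hW'top : W' ≠ ⊤ := by
      intro htop
      apply h1
      rw [← h6, htop, inf_top_eq]
    by_cases hlt : Module.finrank F W < m
    · exact Or.inr (Or.inl ⟨W, h1, h3, hlt, eq_inf_of_max hH h8 (notSp_stab W h1 hWtop)⟩)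
    by_cases hlt' : Module.finrank F W' < m
    · exact Or.inr (Or.inl ⟨W', h2, h4, hlt', eq_inf_of_max hH h9 (notSp_stab W' h2 hW'top)⟩)
    have hA : Module.finrank F W = m := by omega
    have hB : Module.finrank F W' = m := by omega
    have hdec := pair_decomp W W' h6 h7 m hA hB (by omega)
    have hnd' : IsNondegenerateMDecomposition (sympForm m F) m (pairD W W') := by
      refine ⟨hdec, ?_, ?_⟩
      · intro i
        rcases fin2_cases i with rfl | rfl
        · exact h3
        · exact h4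
      · intro i j hij
        rcases fin2_cases i with rfl | rfl <;> rcases fin2_cases j with rfl | rfl
        · exact absurd rfl hij
        · exact h5
        · intro u hu v hv
          rw [Helper94.sf_swap]
          have := h5 v hv u hu
          rw [this, neg_zero]
        · exact absurd rfl hij
    have hle : H ≤ decompositionStabilizer (pairD W W') := by
      intro g hg
      exact pair_stab_fix W W' m hA hB g (fun x hx => stab_maps (h8 hg) hx)
        (fun x hx => stab_maps (h9 hg) hx)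
    exact Or.inr (Or.inr (Or.inl (hnd _ hnd' hle)))
  · exact Or.inr (Or.inr (Or.inl (hnd D hD hle)))
  · -- pair of totally singular subspaces
    have hk : k = m := by
      have := Helper94.card_eq_of_decomposition D hD
      rw [card_sum_fin] at this
      omega
    subst hk
    exact Or.inr (Or.inr (Or.inr (Or.inl ⟨D, hD, hts,
      eq_inf_of_max hH hle (notSp_tsdecomp D hD hts)⟩)))
  · -- self-adjoint field
    have hdvd : r ∣ m := by
      have h1 := two_mul_dvd_of_selfadj (symp_std m) K hK hsa halt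
      rw [card_sum_fin, ← two_mul] at h1
      exact (Nat.mul_dvd_mul_iff_left (by norm_num : 0 < 2)).mp h1
    exact Or.inr (Or.inr (Or.inr (Or.inr (Or.inl ⟨r, K, hr, hdvd, hK, hsa, halt,
      eq_inf_of_max hH hle (notSp_norm hm hr.two_le K hK)⟩))))
  · exact Or.inr (Or.inr (Or.inr (Or.inr (Or.inr (Or.inl ⟨K, hK, hac, hnsa,
      eq_inf_of_max hH hle (notSp_norm hm (le_refl 2) K hK)⟩)))))
  · -- tensor, odd characteristic
    have hn₁ : Even n₁ := by
      apply Nat.not_odd_iff_even.mp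
      intro hodd
      exact Helper97.Gen.not_symplectic_of_odd (by rw [Fintype.card_fin]; exact hodd) f₁ hf₁
    have hprod : n₁ * n₂ = m + m := by
      have := Fintype.card_congr e₁
      rw [card_sum_fin, Fintype.card_prod, Fintype.card_fin, Fintype.card_fin] at this
      exact this.symm
    have hn₁2 : 2 ≤ n₁ := by
      obtain ⟨c, hc⟩ := hn₁
      rcases Nat.eq_zero_or_pos c with h0 | h0
      · subst h0
        rw [hc] at hprod
        simp at hprod
        omega
      · omega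
    exact Or.inr (Or.inr (Or.inr (Or.inr (Or.inr (Or.inr (Or.inl ⟨n₁, n₂, e₁,
      P, f₁, f₂, hn₂, hn₁, hprod, hf₁, hf₂, hT,
      eq_inf_of_max hH hle (notSp_tensor (by omega) hn₁2 hn₂ e₁ P)⟩))))))
  · exact absurd h2 h2F
  · -- subfield
    have hF₀ : F₀ ≠ ⊤ := by
      intro htop
      have h1 : Nat.card F₀ = Fintype.card F := by
        rw [htop, ← Nat.card_eq_fintype_card]
        exact Nat.card_congr Subfield.topEquiv.toEquiv
      rw [h1] at hcard
      have h2 : 1 < Fintype.card F := Fintype.one_lt_card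
      have h3 : Fintype.card F ^ 1 = Fintype.card F ^ r := by rw [pow_one]; exact hcard
      have h4 := Nat.pow_right_injective h2 h3
      exact hr.one_lt.ne h4
    exact Or.inr (Or.inr (Or.inr (Or.inr (Or.inr (Or.inr (Or.inr (Or.inl ⟨F₀, r, P, ζ, hr,
      hcard, hζ, hR, eq_inf_of_max hH hle (notSp_subfield (by omega) F₀ hF₀ P)⟩)))))))
  · exact absurd h2 h2F
  · exact Or.inr (Or.inr (Or.inr (Or.inr (Or.inr (Or.inr (Or.inr (Or.inr (Or.inl hres))))))))
  · -- class-two core
    have hne : Nonempty (Fin m ⊕ Fin m) := ⟨Sum.inl ⟨0, by omega⟩⟩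
    have hf := symp_std (F := F) m
    have hHle : H ≤ isoSub (sympForm m F) := hH.1.le
    have hN : N ≤ isoSub (sympForm m F) := hc.le.trans hHle
    rcases c2_prime_or_subfield hf hN hc with ⟨p, hp, hodd, hcard⟩ | ⟨F₀, hF₀, B, hB⟩
    · obtain ⟨k, hk, hcardN⟩ := c2_card_pow hf hN hc
      have hnot : ¬ spGL m F ≤ subgroupNormalizer N :=
        notSp_c6 hm h2F N hN (fun x hx => c2_sq hf hN hc hx) hc.absIrred.2
      obtain ⟨-, h2, -⟩ := c2_neg_one hf hN hc.absIrred hc.class2 hc.notScalar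
      exact Or.inr (Or.inr (Or.inr (Or.inr (Or.inr (Or.inr (Or.inr (Or.inr (Or.inr (Or.inl
        ⟨N, p, k, c2_symplecticType hf hN hc, hc.absIrred, iso_le_similarity hN, hp, hodd, hcard,
          hcardN, by rw [← hk, card_sum_fin], c2_card_center hf hN hc,
          Cfsg.Agent.Helper90.minus_type_of_symplectic hf N (fun x hx u v => iso_apply (hN hx) u v)
            hc.absIrred hc.class2 h2 k hk,
          eq_inf_of_max hH (c2_le_normalizer hc) hnot⟩)))))))))
    · obtain ⟨F₁, r, hle, hr, hcard⟩ := Helper97.Gen.exists_prime_index_subfield F₀ hF₀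
      obtain ⟨P', ζ, hζ, hnorm, hrat⟩ := sp_subfield_structure hf F₁ N hN hc.absIrred B
        (fun s hs i j => hle (hB s hs i j))
      have hle' : H ≤ subfieldSubgroup F₁ P' := fun h hh => hnorm h (hc.normal h hh)
      have hF₁ : F₁ ≠ ⊤ := by
        intro htop
        have h1 : Nat.card F₁ = Fintype.card F := by
          rw [htop, ← Nat.card_eq_fintype_card]
          exact Nat.card_congr Subfield.topEquiv.toEquiv
        rw [h1] at hcard
        have h2 : 1 < Fintype.card F := Fintype.one_lt_card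
        have h3 : Fintype.card F ^ 1 = Fintype.card F ^ r := by rw [pow_one]; exact hcard
        have h4 := Nat.pow_right_injective h2 h3
        exact hr.one_lt.ne h4
      exact Or.inr (Or.inr (Or.inr (Or.inr (Or.inr (Or.inr (Or.inr (Or.inl ⟨F₁, r, P', ζ, hr,
        hcard, hζ, hrat, eq_inf_of_max hH hle' (notSp_subfield (by omega) F₁ hF₁ P')⟩)))))))
  · -- tensor power
    have hkt : k ^ t = m + m := by
      have := Fintype.card_congr e₁
      rw [card_sum_fin, Fintype.card_fun, Fintype.card_fin, Fintype.card_fin] at this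
      exact this.symm
    exact Or.inr (Or.inr (Or.inr (Or.inr (Or.inr (Or.inr (Or.inr (Or.inr (Or.inr (Or.inr
      ⟨k, t, e₁, P, f₁, hodd, ht3, hex, hkt, hf₁, hT,
        eq_inf_of_max hH hle (notSp_wreath (by omega) (by omega) e₁ P f₁ hf₁ hT)⟩)))))))))

end Cfsg.Agent.Helper96.Sy
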