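-- helper96 library: the maximal subgroups of `Sp_4(q)`, `q` odd, modulo the two exceptions at `q = 3`
-- (which are passed in as hypotheses and proved elsewhere).
import Cfsg.Agent.Helper96.SpW2
import Cfsg.Agent.Helper96.SpT2d

set_option autoImplicit false
set_option linter.unusedSectionVars false
set_option linter.unusedVariables false
open Cfsg Cfsg.Geo Matrix

namespace Cfsg.Agent.Helper96.Sy

variable {F : Type*} [Field F]

/-- The conclusion of the `Sp_4(q)`, `q` odd, statement. -/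
def Sp4Concl (F : Type*) [Field F] [Fintype F] (H : Subgroup (GL (Fin 2 ⊕ Fin 2) F)) : Prop :=
  (∃ W : Submodule F (Fin 2 ⊕ Fin 2 → F), W ≠ ⊥ ∧ IsTotallySingularFor (sympForm 2 F) W ∧
    H = subspaceStabilizer W ⊓ spGL 2 F) ∨
  (∃ D : Fin 2 → Submodule F (Fin 2 ⊕ Fin 2 → F),
    IsNondegenerateMDecomposition (sympForm 2 F) 2 D ∧ H = decompositionStabilizer D ⊓ spGL 2 F) ∨
  (5 ≤ Fintype.card F ∧ ∃ D : Fin 2 → Submodule F (Fin 2 ⊕ Fin 2 → F), IsMDecomposition 2 D ∧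
    (∀ i, IsTotallySingularFor (sympForm 2 F) (D i)) ∧ H = decompositionStabilizer D ⊓ spGL 2 F) ∨
  (∃ K : Subalgebra F (Matrix (Fin 2 ⊕ Fin 2) (Fin 2 ⊕ Fin 2) F), IsFieldSubalgebra 2 K ∧
    IsSelfAdjointFor (sympForm 2 F) K ∧
    (∀ k ∈ K, ∀ v : (Fin 2 ⊕ Fin 2 → F), (sympForm 2 F) (Matrix.mulVec k v) v = 0) ∧
    H = subalgebraNormalizer K ⊓ spGL 2 F) ∨
  (5 ≤ Fintype.card F ∧ ∃ K : Subalgebra F (Matrix (Fin 2 ⊕ Fin 2) (Fin 2 ⊕ Fin 2) F),
    IsFieldSubalgebra 2 K ∧ IsAdjointClosedFor (sympForm 2 F) K ∧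
    ¬ IsSelfAdjointFor (sympForm 2 F) K ∧ H = subalgebraNormalizer K ⊓ spGL 2 F) ∨
  (∃ (F₀ : Subfield F) (r : ℕ) (P : GL (Fin 2 ⊕ Fin 2) F) (ζ : F), r.Prime ∧
    Fintype.card F = Nat.card F₀ ^ r ∧ ζ ≠ 0 ∧ IsFormRationalStructure (sympForm 2 F) F₀ ζ P ∧
    H = subfieldSubgroup F₀ P ⊓ spGL 2 F) ∨
  (∃ (p : ℕ) (R : Subgroup (GL (Fin 2 ⊕ Fin 2) F)), p.Prime ∧ Fintype.card F = p ∧
    IsSymplecticTypeGroup 2 R ∧ ActsAbsolutelyIrreducibly (matrixSet R) ∧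
    R ≤ similarityGroup (sympForm 2 F) ∧ Nat.card R = 32 ∧ Nat.card (Subgroup.center R) = 2 ∧
    IsOfMinusType 2 R ∧ H = subgroupNormalizer R ⊓ spGL 2 F) ∨
  InSymplecticResidualClass H

/-- The first exception at `q = 3`, as a hypothesis. -/
def Sp4ExcTs (F : Type*) [Field F] [Fintype F] : Prop :=
  ∀ D : Fin 2 → Submodule F (Fin 2 ⊕ Fin 2 → F), IsMDecomposition 2 D →
    (∀ i, IsTotallySingularFor (sympForm 2 F) (D i)) →
    ∃ D' : Fin 2 → Submodule F (Fin 2 ⊕ Fin 2 → F),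
      IsNondegenerateMDecomposition (sympForm 2 F) 2 D' ∧
      decompositionStabilizer D ⊓ spGL 2 F ≤ decompositionStabilizer D'

/-- The second exception at `q = 3`, as a hypothesis. -/
def Sp4ExcField (F : Type*) [Field F] [Fintype F] : Prop :=
  ∀ K : Subalgebra F (Matrix (Fin 2 ⊕ Fin 2) (Fin 2 ⊕ Fin 2) F), IsFieldSubalgebra 2 K →
    IsAdjointClosedFor (sympForm 2 F) K → ¬ IsSelfAdjointFor (sympForm 2 F) K →
    ∃ R : Subgroup (GL (Fin 2 ⊕ Fin 2) F), IsSymplecticTypeGroup 2 R ∧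
      ActsAbsolutelyIrreducibly (matrixSet R) ∧ R ≤ similarityGroup (sympForm 2 F) ∧
      Nat.card R = 32 ∧ Nat.card (Subgroup.center R) = 2 ∧ IsOfMinusType 2 R ∧ R ≤ spGL 2 F ∧
      (∀ x ∈ R, (x : Matrix (Fin 2 ⊕ Fin 2) (Fin 2 ⊕ Fin 2) F) * (x : Matrix _ _ F) = 1 ∨
        (x : Matrix (Fin 2 ⊕ Fin 2) (Fin 2 ⊕ Fin 2) F) * (x : Matrix _ _ F) = -1) ∧
      subalgebraNormalizer K ⊓ spGL 2 F ≤ subgroupNormalizer R

theorem sp4_ts_case [Fintype F] (hodd : Odd (Fintype.card F))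
    (hts3 : Fintype.card F = 3 → Sp4ExcTs F)
    (H : Subgroup (GL (Fin 2 ⊕ Fin 2) F)) (hH : IsMaximalIn (spGL 2 F) H)
    (D : Fin 2 → Submodule F (Fin 2 ⊕ Fin 2 → F)) (hD : IsMDecomposition 2 D)
    (hts : ∀ i, IsTotallySingularFor (sympForm 2 F) (D i)) (hle : H ≤ decompositionStabilizer D) :
    Sp4Concl F H := by
  by_cases h3 : Fintype.card F = 3
  · obtain ⟨D', hD', hle'⟩ := hts3 h3 D hD hts
    exact Or.inr (Or.inl ⟨D', hD', eq_inf_of_max hH ((le_inf hle hH.1.le).trans hle')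
      (notSp_ndecomp D' hD')⟩)
  · have h5 : 5 ≤ Fintype.card F := by
      obtain ⟨k, hk⟩ := hodd
      have := Fintype.one_lt_card (α := F)
      omega
    exact Or.inr (Or.inr (Or.inl ⟨h5, D, hD, hts, eq_inf_of_max hH hle (notSp_tsdecomp D hD hts)⟩))

theorem sp4_field_case [Fintype F] (hodd : Odd (Fintype.card F))
    (hf3 : Fintype.card F = 3 → Sp4ExcField F)
    (H : Subgroup (GL (Fin 2 ⊕ Fin 2) F)) (hH : IsMaximalIn (spGL 2 F) H)
    (K : Subalgebra F (Matrix (Fin 2 ⊕ Fin 2) (Fin 2 ⊕ Fin 2) F)) (hK : IsFieldSubalgebra 2 K)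
    (hac : IsAdjointClosedFor (sympForm 2 F) K) (hnsa : ¬ IsSelfAdjointFor (sympForm 2 F) K)
    (hle : H ≤ subalgebraNormalizer K) : Sp4Concl F H := by
  have h2F : (2 : F) ≠ 0 := Helper94.two_ne_zero_of_odd_card hodd
  by_cases h3 : Fintype.card F = 3
  · obtain ⟨R, h1, h2, h3', h4, h5, h6, h7, h8, h9⟩ := hf3 h3 K hK hac hnsa
    refine Or.inr (Or.inr (Or.inr (Or.inr (Or.inr (Or.inr (Or.inl ⟨3, R, Nat.prime_three, h3, h1, h2,
      h3', h4, h5, h6, ?_⟩))))))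
    exact eq_inf_of_max hH ((le_inf hle hH.1.le).trans h9)
      (notSp_c6 (le_refl 2) h2F R h7 h8 h2.2)
  · have h5 : 5 ≤ Fintype.card F := by
      obtain ⟨k, hk⟩ := hodd
      have := Fintype.one_lt_card (α := F)
      omega
    exact Or.inr (Or.inr (Or.inr (Or.inr (Or.inl ⟨h5, K, hK, hac, hnsa,
      eq_inf_of_max hH hle (notSp_norm (le_refl 2) (le_refl 2) K hK)⟩))))

/-- The maximal subgroups of `Sp_4(q)`, `q` odd, given the two exceptions at `q = 3`. -/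
theorem sp4_odd_cases [Fintype F] (hodd : Odd (Fintype.card F))
    (hts3 : Fintype.card F = 3 → Sp4ExcTs F) (hf3 : Fintype.card F = 3 → Sp4ExcField F)
    (H : Subgroup (GL (Fin 2 ⊕ Fin 2) F)) (hH : IsMaximalIn (spGL 2 F) H) : Sp4Concl F H := by
  classical
  have h2F : (2 : F) ≠ 0 := Helper94.two_ne_zero_of_odd_card hodd
  have hmax := sp_max_cases_odd (le_refl 2) h2F H hH
  unfold SpMaxOdd at hmax
  rcases hmax with ⟨W, hW0, hts, hHe⟩ | ⟨W, hW0, hnd, hlt, hHe⟩ | ⟨t, k, D, htk, hk, hD, hHe⟩ |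
    ⟨D, hD, hts, hHe⟩ | ⟨r, K, hr, hr2, hK, hsa, halt, hHe⟩ | ⟨K, hK, hac, hnsa, hHe⟩ |
    ⟨n₁, n₂, e, P, f₁, f₂, hn₂, hn₁, hn, hf₁, hf₂, hT, hHe⟩ | ⟨F₀, r, P, ζ, hr, hcard, hζ, hR, hHe⟩ |
    hres | ⟨R, p, k, h1, h2, h3, hp, hpo, hcard, hcardR, hk, hcen, hmin, hHe⟩ |
    ⟨k, t, e, P, f₁, hodd', ht3, hex, hkt, hf₁, hT, hHe⟩
  · exact Or.inl ⟨W, hW0, hts, hHe⟩
  · exfalso
    obtain ⟨n, e, f', -, -, -, -, -, -, hfr⟩ := Helper94.exists_hyp_basis W hnd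
    have hpos : 0 < Module.finrank F W := by
      rw [Module.finrank_pos_iff_exists_ne_zero]
      obtain ⟨w, hw, hw0⟩ := Submodule.exists_mem_ne_zero_of_ne_bot hW0
      exact ⟨⟨w, hw⟩, fun h => hw0 (congrArg Subtype.val h)⟩
    omega
  · have ht := hD.decomp.two_le
    have hkpos := hD.decomp.pos
    obtain ⟨j, hj⟩ := hk
    have hk2 : k = 2 := by
      have h1 : 2 * k ≤ t * k := Nat.mul_le_mul_right k ht
      omega
    have ht2 : t = 2 := by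
      rw [hk2] at htk
      omega
    subst hk2
    subst ht2
    exact Or.inr (Or.inl ⟨D, hD, hHe⟩)
  · exact sp4_ts_case hodd hts3 H hH D hD hts (by rw [hHe]; exact inf_le_left)
  · have hr2' : r = 2 := (Nat.prime_dvd_prime_iff_eq hr Nat.prime_two).mp hr2
    subst hr2'
    exact Or.inr (Or.inr (Or.inr (Or.inl ⟨K, hK, hsa, halt, hHe⟩)))
  · exact sp4_field_case hodd hf3 H hH K hK hac hnsa (by rw [hHe]; exact inf_le_left)
  · -- tensor products: `n₁ = n₂ = 2`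
    obtain ⟨j, hj⟩ := hn₁
    have hn₂' : n₂ = 2 := by
      rcases Nat.eq_zero_or_pos j with h0 | hpos
      · subst h0
        simp at hj
        subst hj
        simp at hn
      · have h1 : 2 * n₂ ≤ n₁ * n₂ := Nat.mul_le_mul_right n₂ (by omega)
        omega
    subst hn₂'
    have hn₁' : n₁ = 2 := by omega
    subst hn₁'
    have hle : H ≤ tensorProductSubgroup 2 2 e P ⊓ spGL 2 F := by rw [hHe]
    by_cases hiso : ∃ v₁ : Fin 2 → F, v₁ ≠ 0 ∧ f₂ v₁ v₁ = 0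
    · obtain ⟨v₁, hv₁, hv₁0⟩ := hiso
      obtain ⟨D, hD, hts, hle'⟩ := tensor_two_iso h2F (by norm_num) e P f₁ f₂ hf₁ hf₂ hT v₁ hv₁ hv₁0
      exact sp4_ts_case hodd hts3 H hH D hD hts (hle.trans hle')
    · push Not at hiso
      obtain ⟨K, hK, hac, hnsa, hle'⟩ := tensor_two_aniso h2F (by norm_num) e P f₁ f₂ hf₁ hf₂ hT hiso
      exact sp4_field_case hodd hf3 H hH K hK hac hnsa (hle.trans hle')
  · exact Or.inr (Or.inr (Or.inr (Or.inr (Or.inr (Or.inl ⟨F₀, r, P, ζ, hr, hcard, hζ, hR, hHe⟩)))))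
  · exact Or.inr (Or.inr (Or.inr (Or.inr (Or.inr (Or.inr (Or.inr hres))))))
  · have hk2 : k = 2 := by
      have h4 : (2 : ℕ) ^ k = 2 ^ 2 := hk.trans (by norm_num)
      exact Nat.pow_right_injective (le_refl 2) h4
    subst hk2
    exact Or.inr (Or.inr (Or.inr (Or.inr (Or.inr (Or.inr (Or.inl ⟨p, R, hp, hcard, h1, h2, h3,
      by rw [hcardR]; norm_num, hcen, hmin, hHe⟩))))))
  · exfalso
    rcases Nat.lt_or_ge k 2 with hk | hk
    · interval_cases k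
      · rw [zero_pow (by omega)] at hkt
        omega
      · rw [one_pow] at hkt
        omega
    · have h1 : 2 ^ 3 ≤ k ^ t := (Nat.pow_le_pow_left hk 3).trans (Nat.pow_le_pow_right (by omega) ht3)
      omega

end Cfsg.Agent.Helper96.Sy
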