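-- helper96 library: a degree-2 field of `4 × 4` matrices over `F_3`, closed under adjoints for the
-- symplectic form but not self-adjoint, contains an isometry `i` with `i² = -1`, and its normaliser
-- maps `i` to `±i`.
import Cfsg.Agent.Helper96.Sp4Q3

set_option autoImplicit false
set_option linter.unusedSectionVars false
set_option linter.unusedVariables false
open Cfsg Cfsg.Geo Matrix

namespace Cfsg.Agent.Helper96.Q3

variable {F : Type*} [Field F]

/-- The adjoint relation for the standard symplectic form, in matrix form. -/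
theorem adj_iff_mat (M N : Matrix (Fin 2 ⊕ Fin 2) (Fin 2 ⊕ Fin 2) F) :
    (∀ u v, sympForm 2 F (M *ᵥ u) v = sympForm 2 F u (N *ᵥ v)) ↔
      Mᵀ * Matrix.J (Fin 2) F = Matrix.J (Fin 2) F * N := by
  constructor
  · intro h
    ext i j
    have h1 := h (Pi.single i 1) (Pi.single j 1)
    unfold sympForm at h1
    rw [Matrix.mulVec_mulVec, ← Matrix.vecMul_transpose, ← Matrix.dotProduct_mulVec,
      Matrix.mulVec_mulVec] at h1
    simpa using h1
  · intro h u v
    unfold sympForm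
    rw [Matrix.mulVec_mulVec, ← h, ← Matrix.vecMul_transpose, ← Matrix.dotProduct_mulVec,
      Matrix.mulVec_mulVec]

/-- The elements of a field with three elements. -/
theorem tri3 [Fintype F] (hF : Fintype.card F = 3) (x : F) : x = 0 ∨ x = 1 ∨ x = -1 := by
  have e : ZMod 3 ≃+* F := ZMod.ringEquivOfPrime F Nat.prime_three hF
  have ht : ∀ t : ZMod 3, t = 0 ∨ t = 1 ∨ t = -1 := by decide
  have hx : x = e (e.symm x) := (e.apply_symm_apply x).symm
  rcases ht (e.symm x) with h | h | h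
  · left; rw [hx, h, map_zero]
  · right; left; rw [hx, h, map_one]
  · right; right; rw [hx, h, map_neg, map_one]

theorem two_ne_zero3 [Fintype F] (hF : Fintype.card F = 3) : (2 : F) ≠ 0 := by
  have h3 : (3 : F) = 0 := by
    have h := Nat.cast_card_eq_zero F
    rw [hF] at h
    exact_mod_cast h
  intro h
  have : (1 : F) = 0 := by linear_combination h3 - h
  exact one_ne_zero this

theorem J_mul_cancel {M N : Matrix (Fin 2 ⊕ Fin 2) (Fin 2 ⊕ Fin 2) F}
    (h : Matrix.J (Fin 2) F * M = Matrix.J (Fin 2) F * N) : M = N := by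
  have h1 := congrArg (fun X => -(Matrix.J (Fin 2) F * X)) h
  simp only [← Matrix.mul_assoc, Matrix.J_squared, Matrix.neg_mul, Matrix.one_mul, neg_neg] at h1
  exact h1

/-- PIECE A1. -/
theorem sp4q3_i [Fintype F] (hF : Fintype.card F = 3)
    (K : Subalgebra F (Matrix (Fin 2 ⊕ Fin 2) (Fin 2 ⊕ Fin 2) F)) (hK : IsFieldSubalgebra 2 K)
    (hac : IsAdjointClosedFor (sympForm 2 F) K) (hnsa : ¬ IsSelfAdjointFor (sympForm 2 F) K) :
    ∃ i : Matrix (Fin 2 ⊕ Fin 2) (Fin 2 ⊕ Fin 2) F, i ∈ K ∧ i * i = -1 ∧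
      (∀ u v, sympForm 2 F (i *ᵥ u) (i *ᵥ v) = sympForm 2 F u v) ∧
      ∀ g : GL (Fin 2 ⊕ Fin 2) F, g ∈ subalgebraNormalizer K →
        (g : Matrix (Fin 2 ⊕ Fin 2) (Fin 2 ⊕ Fin 2) F) * i = i * g ∨
        (g : Matrix (Fin 2 ⊕ Fin 2) (Fin 2 ⊕ Fin 2) F) * i = -(i * g) := by
  classical
  have h2 : (2 : F) ≠ 0 := two_ne_zero3 hF
  obtain ⟨J, hJdef⟩ : ∃ J : Matrix (Fin 2 ⊕ Fin 2) (Fin 2 ⊕ Fin 2) F, J = Matrix.J (Fin 2) F :=
    ⟨_, rfl⟩
  have hJT : Jᵀ = -J := by rw [hJdef]; exact Matrix.J_transpose (Fin 2) F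
  have hJ0 : J ≠ 0 := by
    intro h
    have h1 : J * J = -1 := by rw [hJdef]; exact Matrix.J_squared (Fin 2) F
    rw [h, Matrix.mul_zero] at h1
    have h3 := congrFun (congrFun h1 (Sum.inl 0)) (Sum.inl 0)
    simp at h3
  have hcancel : ∀ {M N : Matrix (Fin 2 ⊕ Fin 2) (Fin 2 ⊕ Fin 2) F}, J * M = J * N → M = N := by
    intro M N h
    rw [hJdef] at h
    exact J_mul_cancel h
  -- a non-self-adjoint element and its adjoint
  unfold IsSelfAdjointFor at hnsa
  push Not at hnsa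
  obtain ⟨k, hk, u₀, v₀, hne⟩ := hnsa
  obtain ⟨k', hk', hadj⟩ := hac k hk
  have hadjM : kᵀ * J = J * k' := by rw [hJdef]; exact (adj_iff_mat k k').mp hadj
  have hadjM' : k'ᵀ * J = J * k := by
    have h1 := congrArg Matrix.transpose hadjM
    rw [Matrix.transpose_mul, Matrix.transpose_mul, Matrix.transpose_transpose, hJT] at h1
    have h3 : J * k = k'ᵀ * J := by
      have h4 : -(J * k) = -(k'ᵀ * J) := by rw [← Matrix.neg_mul, h1, Matrix.mul_neg]
      exact neg_injective h4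
    exact h3.symm
  have hkk' : k' ≠ k := by
    intro h
    rw [h] at hadj
    exact hne (hadj u₀ v₀)
  obtain ⟨d, hd⟩ : ∃ d, d = k - k' := ⟨_, rfl⟩
  have hdK : d ∈ K := hd ▸ K.sub_mem hk hk'
  have hd0 : d ≠ 0 := by
    rw [hd]
    exact sub_ne_zero.mpr hkk'.symm
  have hdadj : dᵀ * J = -(J * d) := by
    rw [hd, Matrix.transpose_sub, Matrix.sub_mul, hadjM, hadjM', Matrix.mul_sub]
    abel
  have hscal : ∀ c : F, d ≠ c • (1 : Matrix (Fin 2 ⊕ Fin 2) (Fin 2 ⊕ Fin 2) F) := by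
    intro c hc
    rw [hc, Matrix.transpose_smul, Matrix.transpose_one, Matrix.smul_mul, Matrix.one_mul,
      Matrix.mul_smul, Matrix.mul_one] at hdadj
    have h1 : ((2 : F) * c) • J = 0 := by
      rw [mul_smul, two_smul]
      nth_rewrite 1 [hdadj]
      abel
    rcases smul_eq_zero.mp h1 with h | h
    · have hc0 : c = 0 := (mul_eq_zero.mp h).resolve_left h2
      rw [hc0, zero_smul] at hc
      exact hd0 hc
    · exact hJ0 h
  have hone : (1 : Matrix (Fin 2 ⊕ Fin 2) (Fin 2 ⊕ Fin 2) F) ≠ 0 := by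
    intro h
    have h3 := congrFun (congrFun h (Sum.inl 0)) (Sum.inl 0)
    simp at h3
  have hind : ∀ a b : F, a • (1 : Matrix (Fin 2 ⊕ Fin 2) (Fin 2 ⊕ Fin 2) F) + b • d = 0 →
      a = 0 ∧ b = 0 := by
    intro a b hab
    have hb : b = 0 := by
      by_contra hb
      apply hscal (-(b⁻¹ * a))
      have h1 : b • d = -(a • (1 : Matrix (Fin 2 ⊕ Fin 2) (Fin 2 ⊕ Fin 2) F)) :=
        eq_neg_of_add_eq_zero_right hab
      have h3 : d = b⁻¹ • (b • d) := by rw [smul_smul, inv_mul_cancel₀ hb, one_smul]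
      rw [h3, h1, smul_neg, smul_smul, neg_smul]
    refine ⟨?_, hb⟩
    rw [hb, zero_smul, add_zero] at hab
    exact (smul_eq_zero.mp hab).resolve_right hone
  -- `K` is spanned by `1` and `d`
  haveI : Module.Finite F K := Module.finite_of_finrank_pos (by rw [hK.finrank_eq]; norm_num)
  have hli : LinearIndependent F ![(⟨1, K.one_mem⟩ : K), ⟨d, hdK⟩] := by
    rw [LinearIndependent.pair_iff]
    intro s t hst
    have h1 : s • (1 : Matrix (Fin 2 ⊕ Fin 2) (Fin 2 ⊕ Fin 2) F) + t • d = 0 := by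
      have := congrArg Subtype.val hst
      simpa using this
    exact hind s t h1
  have hspan := hli.span_eq_top_of_card_eq_finrank' (by rw [Fintype.card_fin, hK.finrank_eq])
  have hrep : ∀ x ∈ K, ∃ a b : F, x = a • (1 : Matrix (Fin 2 ⊕ Fin 2) (Fin 2 ⊕ Fin 2) F) + b • d := by
    intro x hx
    have hx' : (⟨x, hx⟩ : K) ∈ Submodule.span F (Set.range ![(⟨1, K.one_mem⟩ : K), ⟨d, hdK⟩]) := by
      rw [hspan]; trivial
    rw [Matrix.range_cons_cons_empty, Submodule.mem_span_pair] at hx'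
    obtain ⟨a, b, hab⟩ := hx'
    refine ⟨a, b, ?_⟩
    have := congrArg Subtype.val hab
    simpa using this.symm
  -- `d * d` is a scalar
  obtain ⟨a, b, hab⟩ := hrep (d * d) (K.mul_mem hdK hdK)
  have hb : b = 0 := by
    have h1 : (d * d)ᵀ * J = J * (d * d) := by
      rw [Matrix.transpose_mul, Matrix.mul_assoc, hdadj, Matrix.mul_neg, ← Matrix.mul_assoc, hdadj,
        Matrix.neg_mul, neg_neg, Matrix.mul_assoc]
    rw [hab, Matrix.transpose_add, Matrix.transpose_smul, Matrix.transpose_smul,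
      Matrix.transpose_one, Matrix.add_mul, Matrix.mul_add, Matrix.smul_mul, Matrix.smul_mul,
      Matrix.one_mul, Matrix.mul_smul, Matrix.mul_smul, Matrix.mul_one, hdadj] at h1
    have h3 : ((2 : F) * b) • (J * d) = 0 := by
      rw [mul_smul, two_smul]
      have h4 : b • (J * d) = -(b • (J * d)) := by
        have h5 := add_left_cancel h1
        rw [smul_neg] at h5
        exact h5.symm
      nth_rewrite 1 [h4]
      abel
    rcases smul_eq_zero.mp h3 with h | h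
    · exact (mul_eq_zero.mp h).resolve_left h2
    · exfalso
      apply hd0
      apply hcancel
      rw [h, Matrix.mul_zero]
  rw [hb, zero_smul, add_zero] at hab
  obtain ⟨y, hyK, hy⟩ := hK.inv d hdK hd0
  have ha0 : a ≠ 0 := by
    rintro rfl
    rw [zero_smul] at hab
    apply hd0
    calc d = d * (d * y) := by rw [hy, Matrix.mul_one]
      _ = (d * d) * y := by rw [Matrix.mul_assoc]
      _ = 0 := by rw [hab, Matrix.zero_mul]
  have ha : a = -1 := by
    rcases tri3 hF a with h | h | h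
    · exact absurd h ha0
    · exfalso
      rw [h, one_smul] at hab
      have hd1 : d - 1 ≠ 0 := by
        intro h1
        apply hscal 1
        rw [one_smul]
        exact sub_eq_zero.mp h1
      obtain ⟨z, hzK, hz⟩ := hK.inv (d - 1) (K.sub_mem hdK K.one_mem) hd1
      have h4 : (d - 1) * (d + 1) = 0 := by
        rw [Matrix.sub_mul, Matrix.mul_add, Matrix.mul_add, hab, Matrix.mul_one, Matrix.one_mul,
          Matrix.one_mul]
        abel
      have h5 : z * (d - 1) = 1 := by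
        rw [hK.comm z hzK (d - 1) (K.sub_mem hdK K.one_mem), hz]
      have h6 : d + 1 = 0 := by
        calc d + 1 = (z * (d - 1)) * (d + 1) := by rw [h5, Matrix.one_mul]
          _ = z * ((d - 1) * (d + 1)) := by rw [Matrix.mul_assoc]
          _ = 0 := by rw [h4, Matrix.mul_zero]
      apply hscal (-1)
      rw [neg_smul, one_smul]
      exact eq_neg_of_add_eq_zero_left h6
    · exact h
  rw [ha, neg_smul, one_smul] at hab
  have hiso : dᵀ * J * d = J := by
    rw [hdadj, Matrix.neg_mul, Matrix.mul_assoc, hab, Matrix.mul_neg, Matrix.mul_one, neg_neg]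
  refine ⟨d, hdK, hab, ?_, ?_⟩
  · intro u v
    unfold sympForm
    rw [Matrix.mulVec_mulVec, ← Matrix.vecMul_transpose, ← Matrix.dotProduct_mulVec,
      Matrix.mulVec_mulVec, ← hJdef, ← Matrix.mul_assoc, hiso]
  · intro g hg
    have hx : (g : Matrix (Fin 2 ⊕ Fin 2) (Fin 2 ⊕ Fin 2) F) * d *
        ((g⁻¹ : GL (Fin 2 ⊕ Fin 2) F) : Matrix (Fin 2 ⊕ Fin 2) (Fin 2 ⊕ Fin 2) F) ∈ K := (hg d).mp hdK
    obtain ⟨s, t, hst⟩ := hrep _ hx
    have hgi : ((g⁻¹ : GL (Fin 2 ⊕ Fin 2) F) : Matrix (Fin 2 ⊕ Fin 2) (Fin 2 ⊕ Fin 2) F) *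
        (g : Matrix (Fin 2 ⊕ Fin 2) (Fin 2 ⊕ Fin 2) F) = 1 := by
      rw [← Units.val_mul, inv_mul_cancel, Units.val_one]
    have hgi' : (g : Matrix (Fin 2 ⊕ Fin 2) (Fin 2 ⊕ Fin 2) F) *
        ((g⁻¹ : GL (Fin 2 ⊕ Fin 2) F) : Matrix (Fin 2 ⊕ Fin 2) (Fin 2 ⊕ Fin 2) F) = 1 := by
      rw [← Units.val_mul, mul_inv_cancel, Units.val_one]
    have hsq : (s • (1 : Matrix (Fin 2 ⊕ Fin 2) (Fin 2 ⊕ Fin 2) F) + t • d) *
        (s • (1 : Matrix (Fin 2 ⊕ Fin 2) (Fin 2 ⊕ Fin 2) F) + t • d) = -1 := by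
      rw [← hst]
      calc (g : Matrix (Fin 2 ⊕ Fin 2) (Fin 2 ⊕ Fin 2) F) * d *
            ((g⁻¹ : GL (Fin 2 ⊕ Fin 2) F) : Matrix (Fin 2 ⊕ Fin 2) (Fin 2 ⊕ Fin 2) F) *
            ((g : Matrix (Fin 2 ⊕ Fin 2) (Fin 2 ⊕ Fin 2) F) * d *
            ((g⁻¹ : GL (Fin 2 ⊕ Fin 2) F) : Matrix (Fin 2 ⊕ Fin 2) (Fin 2 ⊕ Fin 2) F))
          = (g : Matrix (Fin 2 ⊕ Fin 2) (Fin 2 ⊕ Fin 2) F) * (d *
            (((g⁻¹ : GL (Fin 2 ⊕ Fin 2) F) : Matrix (Fin 2 ⊕ Fin 2) (Fin 2 ⊕ Fin 2) F) *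
            (g : Matrix (Fin 2 ⊕ Fin 2) (Fin 2 ⊕ Fin 2) F)) * d) *
            ((g⁻¹ : GL (Fin 2 ⊕ Fin 2) F) : Matrix (Fin 2 ⊕ Fin 2) (Fin 2 ⊕ Fin 2) F) := by
            simp only [Matrix.mul_assoc]
        _ = -1 := by
            rw [hgi, Matrix.mul_one, hab, Matrix.mul_neg, Matrix.mul_one, Matrix.neg_mul, hgi']
    have hexp : (s • (1 : Matrix (Fin 2 ⊕ Fin 2) (Fin 2 ⊕ Fin 2) F) + t • d) *
        (s • (1 : Matrix (Fin 2 ⊕ Fin 2) (Fin 2 ⊕ Fin 2) F) + t • d) =
        (s * s - t * t) • (1 : Matrix (Fin 2 ⊕ Fin 2) (Fin 2 ⊕ Fin 2) F) + (2 * s * t) • d := by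
      simp only [Matrix.add_mul, Matrix.mul_add, Matrix.smul_mul, Matrix.mul_smul, Matrix.one_mul,
        Matrix.mul_one, hab, smul_smul]
      module
    rw [hexp] at hsq
    have h5 : (s * s - t * t + 1) • (1 : Matrix (Fin 2 ⊕ Fin 2) (Fin 2 ⊕ Fin 2) F) +
        (2 * s * t) • d = 0 := by
      rw [add_smul, one_smul]
      rw [add_right_comm, hsq]
      abel
    obtain ⟨h6, h7⟩ := hind _ _ h5
    have hst0 : s * t = 0 := by
      have : 2 * (s * t) = 0 := by rw [← mul_assoc]; exact h7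
      exact (mul_eq_zero.mp this).resolve_left h2
    have hgd : (g : Matrix (Fin 2 ⊕ Fin 2) (Fin 2 ⊕ Fin 2) F) * d =
        (s • (1 : Matrix (Fin 2 ⊕ Fin 2) (Fin 2 ⊕ Fin 2) F) + t • d) *
          (g : Matrix (Fin 2 ⊕ Fin 2) (Fin 2 ⊕ Fin 2) F) := by
      rw [← hst, Matrix.mul_assoc, hgi, Matrix.mul_one]
    rcases mul_eq_zero.mp hst0 with hs | ht
    · -- `s = 0`, `t² = 1`
      rw [hs] at h6
      rw [hs, zero_smul, zero_add] at hgd
      rcases tri3 hF t with h | h | h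
      · exfalso
        rw [h] at h6
        simp at h6
      · left
        rw [hgd, h, one_smul]
      · right
        rw [hgd, h, neg_smul, one_smul, Matrix.neg_mul]
    · -- `t = 0`, `s² = -1`: impossible
      exfalso
      rw [ht] at h6
      rcases tri3 hF s with h | h | h
      · rw [h] at h6
        simp at h6
      · rw [h] at h6
        apply h2
        linear_combination h6
      · rw [h] at h6
        apply h2
        linear_combination h6

end Cfsg.Agent.Helper96.Q3
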