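-- helper96 library: the structure of the group `R0 = Q_8 ⊗ D_8` inside `Sp_4(3)`: membership,
-- isometries, squares, commutators, and the normalising Kronecker products.
import Cfsg.Agent.Helper96.Sp4Q3
import Cfsg.Agent.Helper96.SpX5

set_option autoImplicit false
set_option linter.unusedSectionVars false
set_option linter.unusedVariables false
open Cfsg Cfsg.Geo Matrix

namespace Cfsg.Agent.Helper96.Q3

variable {F : Type*} [Field F]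

/-- The facts on the quaternion set supplied by the finite computation. -/
def Q8Facts (F : Type*) [Field F] : Prop :=
  (∀ a ∈ Q8set (F := F), a = 1 ∨ a = -1 ∨ a = mJ ∨ a = -mJ ∨ a = mT ∨ a = -mT ∨
    a = mJ * mT ∨ a = -(mJ * mT)) ∧
  (mJ ∈ Q8set (F := F) ∧ mT ∈ Q8set (F := F)) ∧
  (∀ a ∈ Q8set (F := F), ∀ a' ∈ Q8set (F := F), a * a' ∈ Q8set (F := F)) ∧
  (∀ a ∈ Q8set (F := F), a * a = 1 ∨ a * a = -1) ∧
  (∀ a ∈ Q8set (F := F), ∀ a' ∈ Q8set (F := F), a * a' = a' * a ∨ a * a' = -(a' * a)) ∧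
  (∀ a ∈ Q8set (F := F), a ≠ 1 → a ≠ -1 → ∃ a' ∈ Q8set (F := F), a * a' = -(a' * a))

/-- The facts on the orthogonal set supplied by the finite computation. -/
def D8Facts (F : Type*) [Field F] : Prop :=
  (∀ b ∈ D8set (F := F), b = 1 ∨ b = -1 ∨ b = mJ ∨ b = -mJ ∨ b = mPhi ∨ b = -mPhi ∨
    b = mJ * mPhi ∨ b = -(mJ * mPhi)) ∧
  (∀ b ∈ D8set (F := F), b * b = 1 ∨ b * b = -1) ∧
  (∀ b ∈ D8set (F := F), ∀ b' ∈ D8set (F := F), b * b' = b' * b ∨ b * b' = -(b' * b))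

theorem one_mem_Q8 : (1 : Matrix (Fin 2) (Fin 2) F) ∈ Q8set (F := F) :=
  ⟨Matrix.det_one, Or.inr (Or.inl rfl)⟩

theorem neg_mem_Q8 {a : Matrix (Fin 2) (Fin 2) F} (ha : a ∈ Q8set (F := F)) : -a ∈ Q8set (F := F) := by
  obtain ⟨hd, h⟩ := ha
  refine ⟨?_, ?_⟩
  · rw [Matrix.det_neg, Fintype.card_fin, hd]
    norm_num
  · rcases h with h | h | h
    · left
      rw [Matrix.trace_neg, h, neg_zero]
    · right; right
      rw [h]
    · right; left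
      rw [h, neg_neg]

theorem one_mem_D8 : (1 : Matrix (Fin 2) (Fin 2) F) ∈ D8set (F := F) := by
  show (1 : Matrix (Fin 2) (Fin 2) F)ᵀ * 1 = 1
  rw [Matrix.transpose_one, Matrix.mul_one]

theorem mul_mem_D8 {b b' : Matrix (Fin 2) (Fin 2) F} (hb : b ∈ D8set (F := F))
    (hb' : b' ∈ D8set (F := F)) : b * b' ∈ D8set (F := F) := by
  have h1 : bᵀ * b = 1 := hb
  have h2 : b'ᵀ * b' = 1 := hb'
  show (b * b')ᵀ * (b * b') = 1
  rw [Matrix.transpose_mul, Matrix.mul_assoc, ← Matrix.mul_assoc bᵀ, h1, Matrix.one_mul, h2]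

theorem transpose_mem_D8 {b : Matrix (Fin 2) (Fin 2) F} (hb : b ∈ D8set (F := F)) :
    bᵀ ∈ D8set (F := F) := by
  have h1 : bᵀ * b = 1 := hb
  show bᵀᵀ * bᵀ = 1
  rw [Matrix.transpose_transpose]
  exact mul_eq_one_comm.mp h1

theorem mJ_mem_D8 : (mJ : Matrix (Fin 2) (Fin 2) F) ∈ D8set (F := F) := by
  show (mJ : Matrix (Fin 2) (Fin 2) F)ᵀ * mJ = 1
  ext i j
  fin_cases i <;> fin_cases j <;> simp [mJ, Matrix.mul_apply, Fin.sum_univ_two]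

theorem mPhi_mem_D8 : (mPhi : Matrix (Fin 2) (Fin 2) F) ∈ D8set (F := F) := by
  show (mPhi : Matrix (Fin 2) (Fin 2) F)ᵀ * mPhi = 1
  ext i j
  fin_cases i <;> fin_cases j <;> simp [mPhi, Matrix.mul_apply, Fin.sum_univ_two]

/-- A unit with a prescribed Kronecker matrix. -/
def krGL (a b a' b' : Matrix (Fin 2) (Fin 2) F) (ha : a * a' = 1) (hb : b * b' = 1) :
    GL (Fin 2 ⊕ Fin 2) F :=
  ⟨kr a b, kr a' b', by rw [kr_mul, ha, hb, kr_one],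
    by rw [kr_mul, mul_eq_one_comm.mp ha, mul_eq_one_comm.mp hb, kr_one]⟩

theorem krGL_val (a b a' b' : Matrix (Fin 2) (Fin 2) F) (ha : a * a' = 1) (hb : b * b' = 1) :
    ((krGL a b a' b' ha hb : GL (Fin 2 ⊕ Fin 2) F) : Matrix (Fin 2 ⊕ Fin 2) (Fin 2 ⊕ Fin 2) F) =
      kr a b := rfl

theorem krGL_inv_val (a b a' b' : Matrix (Fin 2) (Fin 2) F) (ha : a * a' = 1) (hb : b * b' = 1) :
    (((krGL a b a' b' ha hb)⁻¹ : GL (Fin 2 ⊕ Fin 2) F) : Matrix (Fin 2 ⊕ Fin 2) (Fin 2 ⊕ Fin 2) F) =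
      kr a' b' := rfl

/-- The inverse of a unit with a Kronecker matrix. -/
theorem inv_val_of_kr {g : GL (Fin 2 ⊕ Fin 2) F} {a b a' b' : Matrix (Fin 2) (Fin 2) F}
    (hg : (g : Matrix (Fin 2 ⊕ Fin 2) (Fin 2 ⊕ Fin 2) F) = kr a b) (ha : a * a' = 1)
    (hb : b * b' = 1) :
    ((g⁻¹ : GL (Fin 2 ⊕ Fin 2) F) : Matrix (Fin 2 ⊕ Fin 2) (Fin 2 ⊕ Fin 2) F) = kr a' b' := by
  have h1 : g = krGL a b a' b' ha hb := Units.ext hg
  rw [h1]
  rfl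

/-- Inverses inside the quaternion set. -/
theorem exists_inv_Q8 (hQ : Q8Facts F) {a : Matrix (Fin 2) (Fin 2) F} (ha : a ∈ Q8set (F := F)) :
    ∃ a' ∈ Q8set (F := F), a * a' = 1 := by
  rcases hQ.2.2.2.1 a ha with h | h
  · exact ⟨a, ha, h⟩
  · exact ⟨-a, neg_mem_Q8 ha, by rw [Matrix.mul_neg, h, neg_neg]⟩

theorem exists_unit_kr (hQ : Q8Facts F) {a b : Matrix (Fin 2) (Fin 2) F} (ha : a ∈ Q8set (F := F))
    (hb : b ∈ D8set (F := F)) :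
    ∃ g : GL (Fin 2 ⊕ Fin 2) F, g ∈ R0 (F := F) ∧
      (g : Matrix (Fin 2 ⊕ Fin 2) (Fin 2 ⊕ Fin 2) F) = kr a b := by
  obtain ⟨a', -, ha'⟩ := exists_inv_Q8 hQ ha
  have hb' : b * bᵀ = 1 := mul_eq_one_comm.mp hb
  exact ⟨krGL a b a' bᵀ ha' hb', Subgroup.subset_closure ⟨a, ha, b, hb, rfl⟩, rfl⟩

/-- Membership in `R0`. -/
theorem mem_R0_iff (hQ : Q8Facts F) (g : GL (Fin 2 ⊕ Fin 2) F) :
    g ∈ R0 (F := F) ↔ ∃ a ∈ Q8set (F := F), ∃ b ∈ D8set (F := F),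
      (g : Matrix (Fin 2 ⊕ Fin 2) (Fin 2 ⊕ Fin 2) F) = kr a b := by
  constructor
  · intro hg
    induction hg using Subgroup.closure_induction with
    | mem x hx => exact hx
    | one => exact ⟨1, one_mem_Q8, 1, one_mem_D8, by rw [Units.val_one, kr_one]⟩
    | mul x y _ _ hx hy =>
      obtain ⟨a, ha, b, hb, hx⟩ := hx
      obtain ⟨a', ha', b', hb', hy⟩ := hy
      exact ⟨a * a', hQ.2.2.1 a ha a' ha', b * b', mul_mem_D8 hb hb',
        by rw [Units.val_mul, hx, hy, kr_mul]⟩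
    | inv x _ hx =>
      obtain ⟨a, ha, b, hb, hx⟩ := hx
      obtain ⟨a', ha', haa'⟩ := exists_inv_Q8 hQ ha
      exact ⟨a', ha', bᵀ, transpose_mem_D8 hb, inv_val_of_kr hx haa' (mul_eq_one_comm.mp hb)⟩
  · intro hg
    exact Subgroup.subset_closure hg

theorem mJ_conj (a : Matrix (Fin 2) (Fin 2) F) : aᵀ * mJ * a = a.det • mJ := by
  ext i j
  fin_cases i <;> fin_cases j <;>
    simp [mJ, Matrix.mul_apply, Fin.sum_univ_two, Matrix.det_fin_two] <;> ring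

/-- `R0` consists of isometries. -/
theorem R0_le_sp : R0 (F := F) ≤ spGL 2 F := by
  unfold R0
  rw [Subgroup.closure_le]
  rintro g ⟨a, ha, b, hb, hg⟩
  show g ∈ spGL 2 F
  rw [mem_spGL_iff_mat, hg, J_eq_kr, kr_transpose, kr_mul, kr_mul, mJ_conj, ha.1, one_smul,
    Matrix.mul_one]
  have hb' : bᵀ * b = 1 := hb
  rw [hb']

/-- Squares in `R0`. -/
theorem R0_sq (hQ : Q8Facts F) (hD : D8Facts F) (x : GL (Fin 2 ⊕ Fin 2) F) (hx : x ∈ R0 (F := F)) :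
    (x : Matrix (Fin 2 ⊕ Fin 2) (Fin 2 ⊕ Fin 2) F) * (x : Matrix _ _ F) = 1 ∨
      (x : Matrix (Fin 2 ⊕ Fin 2) (Fin 2 ⊕ Fin 2) F) * (x : Matrix _ _ F) = -1 := by
  obtain ⟨a, ha, b, hb, hx⟩ := (mem_R0_iff hQ x).mp hx
  rw [hx, kr_mul]
  rcases hQ.2.2.2.1 a ha with h1 | h1 <;> rcases hD.2.1 b hb with h2 | h2 <;> rw [h1, h2]
  · left; exact kr_one
  · right; rw [kr_neg_right, kr_one]
  · right; rw [kr_neg_left, kr_one]
  · left; rw [kr_neg_left, kr_neg_right, kr_one, neg_neg]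

/-- Two elements of `R0` commute or anticommute. -/
theorem R0_comm (hQ : Q8Facts F) (hD : D8Facts F) (x y : GL (Fin 2 ⊕ Fin 2) F)
    (hx : x ∈ R0 (F := F)) (hy : y ∈ R0 (F := F)) :
    (x : Matrix (Fin 2 ⊕ Fin 2) (Fin 2 ⊕ Fin 2) F) * (y : Matrix _ _ F) =
        (y : Matrix (Fin 2 ⊕ Fin 2) (Fin 2 ⊕ Fin 2) F) * (x : Matrix _ _ F) ∨
      (x : Matrix (Fin 2 ⊕ Fin 2) (Fin 2 ⊕ Fin 2) F) * (y : Matrix _ _ F) =
        -((y : Matrix (Fin 2 ⊕ Fin 2) (Fin 2 ⊕ Fin 2) F) * (x : Matrix _ _ F)) := by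
  obtain ⟨a, ha, b, hb, hx⟩ := (mem_R0_iff hQ x).mp hx
  obtain ⟨a', ha', b', hb', hy⟩ := (mem_R0_iff hQ y).mp hy
  rw [hx, hy, kr_mul, kr_mul]
  rcases hQ.2.2.2.2.1 a ha a' ha' with h1 | h1 <;> rcases hD.2.2 b hb b' hb' with h2 | h2 <;>
    rw [h1, h2]
  · left; rfl
  · right; rw [kr_neg_right]
  · right; rw [kr_neg_left]
  · left; rw [kr_neg_left, kr_neg_right, neg_neg]

/-- Commutators in `R0` are scalar. -/
theorem R0_class2 (hQ : Q8Facts F) (hD : D8Facts F) (x : GL (Fin 2 ⊕ Fin 2) F)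
    (hx : x ∈ R0 (F := F)) (y : GL (Fin 2 ⊕ Fin 2) F) (hy : y ∈ R0 (F := F)) :
    x * y * x⁻¹ * y⁻¹ ∈ scalars (Fin 2 ⊕ Fin 2) F := by
  rw [Helper97.Gen.scalar_mem_scalars_iff]
  rcases R0_comm hQ hD x y hx hy with h | h
  · refine ⟨1, ?_⟩
    have h1 : x * y = y * x := Units.ext h
    have h2 : x * y * x⁻¹ * y⁻¹ = 1 := by rw [h1]; group
    rw [h2, Units.val_one, one_smul]
  · refine ⟨-1, ?_⟩
    have h2 : ((x * y * x⁻¹ * y⁻¹ : GL (Fin 2 ⊕ Fin 2) F) : Matrix (Fin 2 ⊕ Fin 2) (Fin 2 ⊕ Fin 2) F) =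
        -(((y * x * x⁻¹ * y⁻¹ : GL (Fin 2 ⊕ Fin 2) F) : Matrix (Fin 2 ⊕ Fin 2) (Fin 2 ⊕ Fin 2) F)) := by
      simp only [Units.val_mul]
      rw [h]
      simp only [Matrix.neg_mul]
    have h3 : y * x * x⁻¹ * y⁻¹ = 1 := by group
    rw [h2, h3, Units.val_one, neg_one_smul]

/-- Kronecker products of an invertible matrix and a similarity of `x² + y²` normalise `R0`. -/
theorem R0_normalized (hQ : Q8Facts F) (g : GL (Fin 2 ⊕ Fin 2) F) (A B : Matrix (Fin 2) (Fin 2) F)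
    (c : F) (hg : (g : Matrix (Fin 2 ⊕ Fin 2) (Fin 2 ⊕ Fin 2) F) = kr A B) (hA : A.det ≠ 0)
    (hc : c ≠ 0) (hB : Bᵀ * B = c • 1) (x : GL (Fin 2 ⊕ Fin 2) F) (hx : x ∈ R0 (F := F)) :
    g * x * g⁻¹ ∈ R0 (F := F) := by
  obtain ⟨a, ha, b, hb, hx⟩ := (mem_R0_iff hQ x).mp hx
  have hAA : A * A⁻¹ = 1 := Matrix.mul_nonsing_inv A (isUnit_iff_ne_zero.mpr hA)
  have hA'A : A⁻¹ * A = 1 := Matrix.nonsing_inv_mul A (isUnit_iff_ne_zero.mpr hA)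
  have hB1 : (c⁻¹ • Bᵀ) * B = 1 := by
    rw [Matrix.smul_mul, hB, smul_smul, inv_mul_cancel₀ hc, one_smul]
  have hB2 : B * (c⁻¹ • Bᵀ) = 1 := mul_eq_one_comm.mp hB1
  have hBBt : B * Bᵀ = c • 1 := by
    have := congrArg (fun M => c • M) hB2
    simp only [Matrix.mul_smul, smul_smul, mul_inv_cancel₀ hc, one_smul] at this
    exact this
  have hginv := inv_val_of_kr hg hAA hB2
  rw [mem_R0_iff hQ]
  refine ⟨A * a * A⁻¹, ?_, B * b * (c⁻¹ • Bᵀ), ?_, ?_⟩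
  · refine ⟨?_, ?_⟩
    · rw [Matrix.det_mul, Matrix.det_mul, ha.1, mul_one, ← Matrix.det_mul, hAA, Matrix.det_one]
    · rcases ha.2 with h | h | h
      · left
        rw [Matrix.trace_mul_cycle, hA'A, Matrix.one_mul, h]
      · right; left
        rw [h, Matrix.mul_one, hAA]
      · right; right
        rw [h, Matrix.mul_neg, Matrix.mul_one, Matrix.neg_mul, hAA]
  · show (B * b * (c⁻¹ • Bᵀ))ᵀ * (B * b * (c⁻¹ • Bᵀ)) = 1
    have hb' : bᵀ * b = 1 := hb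
    rw [Matrix.transpose_mul, Matrix.transpose_mul, Matrix.transpose_smul, Matrix.transpose_transpose]
    calc c⁻¹ • B * (bᵀ * Bᵀ) * (B * b * (c⁻¹ • Bᵀ))
        = c⁻¹ • (c⁻¹ • (B * (bᵀ * (Bᵀ * B) * b) * Bᵀ)) := by
          simp only [Matrix.smul_mul, Matrix.mul_smul, Matrix.mul_assoc]
      _ = c⁻¹ • (c⁻¹ • (c • (B * Bᵀ))) := by
          rw [hB]
          simp only [Matrix.mul_smul, Matrix.smul_mul, Matrix.mul_one, Matrix.mul_assoc]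
          rw [← Matrix.mul_assoc bᵀ b, hb', Matrix.one_mul]
      _ = 1 := by
          rw [hBBt, smul_smul, smul_smul, smul_smul]
          have : c⁻¹ * c⁻¹ * c * c = 1 := by field_simp
          rw [this, one_smul]
  · rw [Units.val_mul, Units.val_mul, hg, hx, hginv, kr_mul, kr_mul]

end Cfsg.Agent.Helper96.Q3
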