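-- helper96 library: the class-6 data of an absolutely irreducible group of isometries of the
-- symplectic form on `F^4` with squares `±1`, scalar commutators, order 32 and cyclic
-- characteristic abelian subgroups; and the generators and normalisers of `R0`.
import Cfsg.Agent.Helper96.Sp4Q3N
import Cfsg.Agent.Helper96.SpTr3

set_option autoImplicit false
set_option linter.unusedSectionVars false
set_option linter.unusedVariables false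
open Cfsg Cfsg.Geo Matrix

namespace Cfsg.Agent.Helper96.Q3

variable {F : Type*} [Field F]

/-- The four generators are matrices of elements of `R0`. -/
theorem gens_mem (hQ : Q8Facts F) :
    kr mJ 1 ∈ matrixSet (R0 (F := F)) ∧ kr mT 1 ∈ matrixSet (R0 (F := F)) ∧
    kr 1 mJ ∈ matrixSet (R0 (F := F)) ∧ kr 1 mPhi ∈ matrixSet (R0 (F := F)) := by
  refine ⟨?_, ?_, ?_, ?_⟩
  · obtain ⟨g, hg, hgv⟩ := exists_unit_kr hQ hQ.2.1.1 (one_mem_D8 (F := F))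
    exact ⟨g, hg, hgv⟩
  · obtain ⟨g, hg, hgv⟩ := exists_unit_kr hQ hQ.2.1.2 (one_mem_D8 (F := F))
    exact ⟨g, hg, hgv⟩
  · obtain ⟨g, hg, hgv⟩ := exists_unit_kr hQ (one_mem_Q8 (F := F)) (mJ_mem_D8 (F := F))
    exact ⟨g, hg, hgv⟩
  · obtain ⟨g, hg, hgv⟩ := exists_unit_kr hQ (one_mem_Q8 (F := F)) (mPhi_mem_D8 (F := F))
    exact ⟨g, hg, hgv⟩

theorem mPhi_mJ : (mPhi : Matrix (Fin 2) (Fin 2) F) * mJ = -(mJ * mPhi) := by
  ext i j
  fin_cases i <;> fin_cases j <;> simp [mJ, mPhi, Matrix.mul_apply, Fin.sum_univ_two]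

/-- Isometries commuting or anticommuting with `kr 1 mJ` normalise `R0`. -/
theorem R0_normalized_of_comm (hQ : Q8Facts F)
    (hB : ∀ g : GL (Fin 2 ⊕ Fin 2) F, g ∈ spGL 2 F →
      (g : Matrix (Fin 2 ⊕ Fin 2) (Fin 2 ⊕ Fin 2) F) * kr 1 mJ =
        kr 1 mJ * (g : Matrix (Fin 2 ⊕ Fin 2) (Fin 2 ⊕ Fin 2) F) →
      ∃ (A B : Matrix (Fin 2) (Fin 2) F) (c : F),
        (g : Matrix (Fin 2 ⊕ Fin 2) (Fin 2 ⊕ Fin 2) F) = kr A B ∧ A.det ≠ 0 ∧ c ≠ 0 ∧ Bᵀ * B = c • 1)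
    (g : GL (Fin 2 ⊕ Fin 2) F) (hg : g ∈ spGL 2 F)
    (hc : (g : Matrix (Fin 2 ⊕ Fin 2) (Fin 2 ⊕ Fin 2) F) * kr 1 mJ =
        kr 1 mJ * (g : Matrix (Fin 2 ⊕ Fin 2) (Fin 2 ⊕ Fin 2) F) ∨
      (g : Matrix (Fin 2 ⊕ Fin 2) (Fin 2 ⊕ Fin 2) F) * kr 1 mJ =
        -(kr 1 mJ * (g : Matrix (Fin 2 ⊕ Fin 2) (Fin 2 ⊕ Fin 2) F)))
    (x : GL (Fin 2 ⊕ Fin 2) F) (hx : x ∈ R0 (F := F)) : g * x * g⁻¹ ∈ R0 (F := F) := by
  rcases hc with hc | hc
  · obtain ⟨A, B, c, h1, h2, h3, h4⟩ := hB g hg hc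
    exact R0_normalized hQ g A B c h1 h2 h3 h4 x hx
  · obtain ⟨φ, hφ, hφv⟩ := exists_unit_kr hQ (one_mem_Q8 (F := F)) (mPhi_mem_D8 (F := F))
    have hg' : g * φ ∈ spGL 2 F := (spGL 2 F).mul_mem hg (R0_le_sp hφ)
    have hc' : ((g * φ : GL (Fin 2 ⊕ Fin 2) F) : Matrix (Fin 2 ⊕ Fin 2) (Fin 2 ⊕ Fin 2) F) * kr 1 mJ =
        kr 1 mJ * ((g * φ : GL (Fin 2 ⊕ Fin 2) F) : Matrix (Fin 2 ⊕ Fin 2) (Fin 2 ⊕ Fin 2) F) := by
      rw [Units.val_mul, hφv]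
      calc (g : Matrix (Fin 2 ⊕ Fin 2) (Fin 2 ⊕ Fin 2) F) * kr 1 mPhi * kr 1 mJ
          = (g : Matrix (Fin 2 ⊕ Fin 2) (Fin 2 ⊕ Fin 2) F) * kr 1 (mPhi * mJ) := by
            rw [Matrix.mul_assoc, kr_mul, Matrix.one_mul]
        _ = -((g : Matrix (Fin 2 ⊕ Fin 2) (Fin 2 ⊕ Fin 2) F) * kr 1 mJ * kr 1 mPhi) := by
            rw [mPhi_mJ, kr_neg_right, Matrix.mul_neg, Matrix.mul_assoc, kr_mul, Matrix.one_mul]
        _ = kr 1 mJ * ((g : Matrix (Fin 2 ⊕ Fin 2) (Fin 2 ⊕ Fin 2) F) * kr 1 mPhi) := by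
            rw [hc, Matrix.neg_mul, neg_neg, Matrix.mul_assoc]
    obtain ⟨A, B, c, h1, h2, h3, h4⟩ := hB (g * φ) hg' hc'
    have hx' : φ⁻¹ * x * φ⁻¹⁻¹ ∈ R0 (F := F) :=
      (R0 (F := F)).mul_mem ((R0 (F := F)).mul_mem ((R0 (F := F)).inv_mem hφ) hx)
        ((R0 (F := F)).inv_mem ((R0 (F := F)).inv_mem hφ))
    have h5 := R0_normalized hQ (g * φ) A B c h1 h2 h3 h4 _ hx'
    have h6 : g * φ * (φ⁻¹ * x * φ⁻¹⁻¹) * (g * φ)⁻¹ = g * x * g⁻¹ := by group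
    rwa [h6] at h5

/-- The class-6 data. -/
theorem c6_of_pkg [Fintype F] (h2 : (2 : F) ≠ 0) (R : Subgroup (GL (Fin 2 ⊕ Fin 2) F))
    (hsp : R ≤ spGL 2 F)
    (hsq : ∀ x ∈ R, (x : Matrix (Fin 2 ⊕ Fin 2) (Fin 2 ⊕ Fin 2) F) * (x : Matrix _ _ F) = 1 ∨
      (x : Matrix (Fin 2 ⊕ Fin 2) (Fin 2 ⊕ Fin 2) F) * (x : Matrix _ _ F) = -1)
    (hcl : ∀ a ∈ R, ∀ b ∈ R, a * b * a⁻¹ * b⁻¹ ∈ scalars (Fin 2 ⊕ Fin 2) F)
    (habs : ActsAbsolutelyIrreducibly (matrixSet R))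
    (hchar : ∀ A : Subgroup R, A.Characteristic → IsMulCommutative A → IsCyclic A) :
    IsSymplecticTypeGroup 2 R ∧ R ≤ similarityGroup (sympForm 2 F) ∧
      Nat.card (Subgroup.center R) = 2 ∧ IsOfMinusType 2 R := by
  classical
  have hf : IsSymplecticForm (sympForm 2 F) := Sy.symp_std 2
  have hN : R ≤ Sy.isoSub (sympForm 2 F) := hsp
  have hNZ : ¬ R ≤ scalars (Fin 2 ⊕ Fin 2) F := by
    intro hle
    obtain ⟨c, hc⟩ := habs.2 (Matrix.single (Sum.inl 0) (Sum.inr 0) (1 : F)) (by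
      rintro _ ⟨g, hg, rfl⟩
      obtain ⟨d, hd⟩ := (Helper97.Gen.scalar_mem_scalars_iff g).mp (hle hg)
      show _ * (g : Matrix (Fin 2 ⊕ Fin 2) (Fin 2 ⊕ Fin 2) F) =
        (g : Matrix (Fin 2 ⊕ Fin 2) (Fin 2 ⊕ Fin 2) F) * _
      rw [hd, Matrix.mul_smul, Matrix.smul_mul, Matrix.mul_one, Matrix.one_mul])
    have h1 := congrFun (congrFun hc (Sum.inl 0)) (Sum.inr 0)
    simp [Matrix.single] at h1
  obtain ⟨⟨z, hzN, hz⟩, -, x, hx, y, hy, hne, -⟩ := Sy.c2_neg_one hf hN habs hcl hNZ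
  have hpow4 : ∀ a ∈ R, a ^ 4 = 1 := by
    intro a ha
    apply Units.ext
    rw [Units.val_pow_eq_pow_val, Units.val_one]
    have h1 : (a : Matrix (Fin 2 ⊕ Fin 2) (Fin 2 ⊕ Fin 2) F) ^ 4 =
        ((a : Matrix (Fin 2 ⊕ Fin 2) (Fin 2 ⊕ Fin 2) F) * (a : Matrix _ _ F)) *
        ((a : Matrix (Fin 2 ⊕ Fin 2) (Fin 2 ⊕ Fin 2) F) * (a : Matrix _ _ F)) := by
      rw [show (4 : ℕ) = 2 + 2 from rfl, pow_add, pow_two]
    rw [h1]
    rcases hsq a ha with h | h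
    · rw [h, one_mul]
    · rw [h, neg_mul_neg, one_mul]
  have hexp : Monoid.exponent R = 4 := by
    have h4 : Monoid.exponent R ∣ 4 := by
      apply Monoid.exponent_dvd_of_forall_pow_eq_one
      intro g
      apply Subtype.ext
      rw [Subgroup.coe_pow]
      exact hpow4 g g.2
    have hn2 : ¬ Monoid.exponent R ∣ 2 := by
      intro h2'
      have hsq' : ∀ g : R, g * g = 1 := by
        intro g
        have := Monoid.exponent_dvd_iff_forall_pow_eq_one.mp h2' g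
        rwa [pow_two] at this
      apply hne
      have h1 : (⟨y, hy⟩ : R) * ⟨x, hx⟩ = ⟨x, hx⟩ * ⟨y, hy⟩ := by
        calc (⟨y, hy⟩ : R) * ⟨x, hx⟩
            = (⟨x, hx⟩ * ⟨x, hx⟩) * (⟨y, hy⟩ * ⟨x, hx⟩) * (⟨y, hy⟩ * ⟨y, hy⟩) := by
              rw [hsq', hsq', one_mul, mul_one]
          _ = ⟨x, hx⟩ * ((⟨x, hx⟩ * ⟨y, hy⟩) * (⟨x, hx⟩ * ⟨y, hy⟩)) * ⟨y, hy⟩ := by group
          _ = ⟨x, hx⟩ * ⟨y, hy⟩ := by rw [hsq', mul_one]
      exact congrArg Subtype.val h1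
    obtain ⟨k, hk, hk'⟩ := (Nat.dvd_prime_pow Nat.prime_two (m := 2)).mp h4
    interval_cases k
    · exfalso; apply hn2; rw [hk']; norm_num
    · exfalso; apply hn2; rw [hk']; norm_num
    · rw [hk']; norm_num
  have hcen : Nat.card (Subgroup.center R) = 2 := by
    rw [Sy.c2_center habs]
    have hzs : z ∈ scalars (Fin 2 ⊕ Fin 2) F := by
      rw [Helper97.Gen.scalar_mem_scalars_iff]
      exact ⟨-1, by rw [hz, neg_one_smul]⟩
    rw [Nat.card_eq_two_iff]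
    refine ⟨1, ⟨⟨z, hzN⟩, hzs⟩, ?_, ?_⟩
    · intro h
      have h1 : (1 : GL (Fin 2 ⊕ Fin 2) F) = z :=
        congrArg (fun x : (scalars (Fin 2 ⊕ Fin 2) F).subgroupOf R => ((x : R) : GL (Fin 2 ⊕ Fin 2) F)) h
      have h3 : (1 : Matrix (Fin 2 ⊕ Fin 2) (Fin 2 ⊕ Fin 2) F) = -1 := by
        rw [← hz, ← h1, Units.val_one]
      have h4 := congrFun (congrFun h3 (Sum.inl 0)) (Sum.inl 0)
      rw [Matrix.neg_apply, Matrix.one_apply_eq] at h4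
      apply h2
      linear_combination h4
    · ext w
      simp only [Set.mem_insert_iff, Set.mem_singleton_iff, Set.mem_univ, iff_true]
      have hw : ((w : R) : GL (Fin 2 ⊕ Fin 2) F) ∈ scalars (Fin 2 ⊕ Fin 2) F := w.2
      rcases Sy.scalar_iso_pm hf hw (hN (w : R).2) with h | h
      · left
        apply Subtype.ext
        apply Subtype.ext
        apply Units.ext
        rw [h]
        rfl
      · right
        apply Subtype.ext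
        apply Subtype.ext
        apply Units.ext
        rw [h, ← hz]
  refine ⟨⟨Nat.prime_two, ?_, hchar, by rw [hexp]; norm_num⟩, Sy.iso_le_similarity hN, hcen, ?_⟩
  · intro g
    refine ⟨2, ?_⟩
    apply Subtype.ext
    rw [Subgroup.coe_pow]
    exact hpow4 g g.2
  · exact Cfsg.Agent.Helper90.minus_type_of_symplectic hf R
      (fun x hx u v => Sy.iso_apply (hN hx) u v) habs hcl h2 2 (by simp)

end Cfsg.Agent.Helper96.Q3
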