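-- helper96 library: the exception at `q = 3` for a degree-2 field closed under adjoints but not
-- self-adjoint: its normaliser in `Sp_4(3)` normalises a group `2_-^{1+4}`. The finite
-- computations are passed in as hypotheses.
import Cfsg.Agent.Helper96.Sp4Q3H
import Cfsg.Agent.Helper96.Sp4Max

set_option autoImplicit false
set_option linter.unusedSectionVars false
set_option linter.unusedVariables false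
open Cfsg Cfsg.Geo Matrix

namespace Cfsg.Agent.Helper96.Q3

variable {F : Type*} [Field F]

theorem sp4_field_q3 [Fintype F] (hF : Fintype.card F = 3) (hQ : Q8Facts F) (hD : D8Facts F)
    (hcnt : Nat.card (R0 (F := F)) = 32)
    (habs0 : ActsAbsolutelyIrreducibly (matrixSet (R0 (F := F))))
    (hchar0 : ∀ A : Subgroup (R0 (F := F)), A.Characteristic → IsMulCommutative A → IsCyclic A)
    (hB : ∀ g : GL (Fin 2 ⊕ Fin 2) F, g ∈ spGL 2 F →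
      (g : Matrix (Fin 2 ⊕ Fin 2) (Fin 2 ⊕ Fin 2) F) * kr 1 mJ =
        kr 1 mJ * (g : Matrix (Fin 2 ⊕ Fin 2) (Fin 2 ⊕ Fin 2) F) →
      ∃ (A B : Matrix (Fin 2) (Fin 2) F) (c : F),
        (g : Matrix (Fin 2 ⊕ Fin 2) (Fin 2 ⊕ Fin 2) F) = kr A B ∧ A.det ≠ 0 ∧ c ≠ 0 ∧ Bᵀ * B = c • 1)
    (hA1 : ∀ K : Subalgebra F (Matrix (Fin 2 ⊕ Fin 2) (Fin 2 ⊕ Fin 2) F), IsFieldSubalgebra 2 K →
      IsAdjointClosedFor (sympForm 2 F) K → ¬ IsSelfAdjointFor (sympForm 2 F) K →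
      ∃ i : Matrix (Fin 2 ⊕ Fin 2) (Fin 2 ⊕ Fin 2) F, i ∈ K ∧ i * i = -1 ∧
        (∀ u v, sympForm 2 F (i *ᵥ u) (i *ᵥ v) = sympForm 2 F u v) ∧
        ∀ g : GL (Fin 2 ⊕ Fin 2) F, g ∈ subalgebraNormalizer K →
          (g : Matrix (Fin 2 ⊕ Fin 2) (Fin 2 ⊕ Fin 2) F) * i = i * g ∨
          (g : Matrix (Fin 2 ⊕ Fin 2) (Fin 2 ⊕ Fin 2) F) * i = -(i * g))
    (hA2 : ∀ i : Matrix (Fin 2 ⊕ Fin 2) (Fin 2 ⊕ Fin 2) F, i * i = -1 →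
      (∀ u v, sympForm 2 F (i *ᵥ u) (i *ᵥ v) = sympForm 2 F u v) →
      ∃ P : GL (Fin 2 ⊕ Fin 2) F, P ∈ spGL 2 F ∧
        i * (P : Matrix (Fin 2 ⊕ Fin 2) (Fin 2 ⊕ Fin 2) F) =
          (P : Matrix (Fin 2 ⊕ Fin 2) (Fin 2 ⊕ Fin 2) F) * kr 1 mJ)
    (hT : ∀ P : GL (Fin 2 ⊕ Fin 2) F, P ∈ spGL 2 F →
      R0.map (MulAut.conj P).toMonoidHom ≤ spGL 2 F ∧
      (∀ x ∈ (R0 (F := F)).map (MulAut.conj P).toMonoidHom,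
        (x : Matrix (Fin 2 ⊕ Fin 2) (Fin 2 ⊕ Fin 2) F) * (x : Matrix _ _ F) = 1 ∨
        (x : Matrix (Fin 2 ⊕ Fin 2) (Fin 2 ⊕ Fin 2) F) * (x : Matrix _ _ F) = -1) ∧
      (∀ a ∈ (R0 (F := F)).map (MulAut.conj P).toMonoidHom,
        ∀ b ∈ (R0 (F := F)).map (MulAut.conj P).toMonoidHom,
        a * b * a⁻¹ * b⁻¹ ∈ scalars (Fin 2 ⊕ Fin 2) F) ∧
      ActsAbsolutelyIrreducibly (matrixSet ((R0 (F := F)).map (MulAut.conj P).toMonoidHom)) ∧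
      Nat.card ((R0 (F := F)).map (MulAut.conj P).toMonoidHom) = 32 ∧
      (∀ A : Subgroup ((R0 (F := F)).map (MulAut.conj P).toMonoidHom), A.Characteristic →
        IsMulCommutative A → IsCyclic A)) :
    Sy.Sp4ExcField F := by
  intro K hK hac hnsa
  obtain ⟨i, hiK, hi2, hiso, hnorm⟩ := hA1 K hK hac hnsa
  obtain ⟨P, hP, hiP⟩ := hA2 i hi2 hiso
  obtain ⟨h1, h2, h3, h4, h5, h6⟩ := hT P hP
  have h2F : (2 : F) ≠ 0 := Helper94.two_ne_zero_of_odd_card (by rw [hF]; exact ⟨1, by norm_num⟩)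
  obtain ⟨c1, c2, c3, c4⟩ := c6_of_pkg h2F _ h1 h2 h3 h4 h6
  refine ⟨_, c1, h4, c2, h5, c3, c4, h1, h2, ?_⟩
  have hPi : ((P⁻¹ : GL (Fin 2 ⊕ Fin 2) F) : Matrix (Fin 2 ⊕ Fin 2) (Fin 2 ⊕ Fin 2) F) *
      (P : Matrix (Fin 2 ⊕ Fin 2) (Fin 2 ⊕ Fin 2) F) = 1 := by
    rw [← Units.val_mul, inv_mul_cancel, Units.val_one]
  have hPi' : (P : Matrix (Fin 2 ⊕ Fin 2) (Fin 2 ⊕ Fin 2) F) *
      ((P⁻¹ : GL (Fin 2 ⊕ Fin 2) F) : Matrix (Fin 2 ⊕ Fin 2) (Fin 2 ⊕ Fin 2) F) = 1 := by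
    rw [← Units.val_mul, mul_inv_cancel, Units.val_one]
  have hJ : kr 1 mJ = ((P⁻¹ : GL (Fin 2 ⊕ Fin 2) F) : Matrix (Fin 2 ⊕ Fin 2) (Fin 2 ⊕ Fin 2) F) * i *
      (P : Matrix (Fin 2 ⊕ Fin 2) (Fin 2 ⊕ Fin 2) F) := by
    rw [Matrix.mul_assoc, hiP, ← Matrix.mul_assoc, hPi, Matrix.one_mul]
  have key : ∀ g : GL (Fin 2 ⊕ Fin 2) F, g ∈ subalgebraNormalizer K ⊓ spGL 2 F →
      ∀ x ∈ (R0 (F := F)).map (MulAut.conj P).toMonoidHom,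
        g * x * g⁻¹ ∈ (R0 (F := F)).map (MulAut.conj P).toMonoidHom := by
    rintro g ⟨hgK, hgS⟩ _ ⟨y, hy, rfl⟩
    have hg' : P⁻¹ * g * P ∈ spGL 2 F :=
      (spGL 2 F).mul_mem ((spGL 2 F).mul_mem ((spGL 2 F).inv_mem hP) hgS) hP
    have hc' : ((P⁻¹ * g * P : GL (Fin 2 ⊕ Fin 2) F) : Matrix (Fin 2 ⊕ Fin 2) (Fin 2 ⊕ Fin 2) F) *
          kr 1 mJ = kr 1 mJ *
          ((P⁻¹ * g * P : GL (Fin 2 ⊕ Fin 2) F) : Matrix (Fin 2 ⊕ Fin 2) (Fin 2 ⊕ Fin 2) F) ∨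
        ((P⁻¹ * g * P : GL (Fin 2 ⊕ Fin 2) F) : Matrix (Fin 2 ⊕ Fin 2) (Fin 2 ⊕ Fin 2) F) *
          kr 1 mJ = -(kr 1 mJ *
          ((P⁻¹ * g * P : GL (Fin 2 ⊕ Fin 2) F) : Matrix (Fin 2 ⊕ Fin 2) (Fin 2 ⊕ Fin 2) F)) := by
      have e1 : ((P⁻¹ * g * P : GL (Fin 2 ⊕ Fin 2) F) : Matrix (Fin 2 ⊕ Fin 2) (Fin 2 ⊕ Fin 2) F) *
          kr 1 mJ = ((P⁻¹ : GL (Fin 2 ⊕ Fin 2) F) : Matrix (Fin 2 ⊕ Fin 2) (Fin 2 ⊕ Fin 2) F) *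
            ((g : Matrix (Fin 2 ⊕ Fin 2) (Fin 2 ⊕ Fin 2) F) * i) *
            (P : Matrix (Fin 2 ⊕ Fin 2) (Fin 2 ⊕ Fin 2) F) := by
        rw [hJ, Units.val_mul, Units.val_mul]
        simp only [Matrix.mul_assoc]
        rw [← Matrix.mul_assoc (P : Matrix (Fin 2 ⊕ Fin 2) (Fin 2 ⊕ Fin 2) F), hPi', Matrix.one_mul]
      have e2 : kr 1 mJ *
          ((P⁻¹ * g * P : GL (Fin 2 ⊕ Fin 2) F) : Matrix (Fin 2 ⊕ Fin 2) (Fin 2 ⊕ Fin 2) F) =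
          ((P⁻¹ : GL (Fin 2 ⊕ Fin 2) F) : Matrix (Fin 2 ⊕ Fin 2) (Fin 2 ⊕ Fin 2) F) *
            (i * (g : Matrix (Fin 2 ⊕ Fin 2) (Fin 2 ⊕ Fin 2) F)) *
            (P : Matrix (Fin 2 ⊕ Fin 2) (Fin 2 ⊕ Fin 2) F) := by
        rw [hJ, Units.val_mul, Units.val_mul]
        simp only [Matrix.mul_assoc]
        rw [← Matrix.mul_assoc (P : Matrix (Fin 2 ⊕ Fin 2) (Fin 2 ⊕ Fin 2) F), hPi', Matrix.one_mul]
      rw [e1, e2]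
      rcases hnorm g hgK with h | h
      · left; rw [h]
      · right; rw [h, Matrix.mul_neg, Matrix.neg_mul]
    have hn := R0_normalized_of_comm hQ hB (P⁻¹ * g * P) hg' hc' y hy
    refine ⟨(P⁻¹ * g * P) * y * (P⁻¹ * g * P)⁻¹, hn, ?_⟩
    show P * ((P⁻¹ * g * P) * y * (P⁻¹ * g * P)⁻¹) * P⁻¹ = g * (P * y * P⁻¹) * g⁻¹
    group
  intro g hg
  show g ∈ Subgroup.normalizer (((R0 (F := F)).map (MulAut.conj P).toMonoidHom :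
    Subgroup (GL (Fin 2 ⊕ Fin 2) F)) : Set (GL (Fin 2 ⊕ Fin 2) F))
  rw [Subgroup.mem_normalizer_iff]
  intro x
  constructor
  · exact key g hg x
  · intro hx
    have := key g⁻¹ (Subgroup.inv_mem _ hg) _ hx
    have h7 : g⁻¹ * (g * x * g⁻¹) * g⁻¹⁻¹ = x := by group
    rwa [h7] at this

end Cfsg.Agent.Helper96.Q3
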