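-- helper96 library: the structure theorem for groups of isometries of a symplectic form in
-- characteristic two (no tensor or tensor-power leftovers).
import Cfsg.Agent.Helper96.SpTQ2

set_option autoImplicit false
set_option linter.unusedSectionVars false
set_option linter.unusedVariables false
open Cfsg Cfsg.Geo Matrix
open scoped Kronecker

namespace Cfsg.Agent.Helper96.Sy

/-- The structures that a group `H` of isometries of a symplectic form can stabilise in
characteristic two. -/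
def SpOutcomeE {ι : Type} [Fintype ι] [DecidableEq ι] {F : Type*} [Field F] [Fintype F]
    (f : (ι → F) → (ι → F) → F) (H : Subgroup (GL ι F)) : Prop :=
  (∃ W : Submodule F (ι → F), W ≠ ⊥ ∧ IsTotallySingularFor f W ∧ H ≤ subspaceStabilizer W) ∨
  (∃ W W' : Submodule F (ι → F), W ≠ ⊥ ∧ W' ≠ ⊥ ∧ IsNondegenerateOn f W ∧
    IsNondegenerateOn f W' ∧ AreOrthogonalFor f W W' ∧ W ⊓ W' = ⊥ ∧ W ⊔ W' = ⊤ ∧
    H ≤ subspaceStabilizer W ∧ H ≤ subspaceStabilizer W') ∨
  (∃ (t k : ℕ) (D : Fin t → Submodule F (ι → F)),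
    IsNondegenerateMDecomposition f k D ∧ H ≤ decompositionStabilizer D) ∨
  (∃ (r : ℕ) (K : Subalgebra F (Matrix ι ι F)), r.Prime ∧ IsFieldSubalgebra r K ∧
    IsSelfAdjointFor f K ∧ (∀ k ∈ K, ∀ v : ι → F, f (k *ᵥ v) v = 0) ∧
    H ≤ subalgebraNormalizer K) ∨
  (∃ (F₀ : Subfield F) (r : ℕ) (P : GL ι F) (ζ : F), r.Prime ∧
    Fintype.card F = Nat.card F₀ ^ r ∧ ζ ≠ 0 ∧ IsFormRationalStructure f F₀ ζ P ∧
    H ≤ subfieldSubgroup F₀ P) ∨
  (∃ Q : (ι → F) → F, IsNondegenerateQuadraticForm Q ∧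
    (∀ u v, QuadraticMap.polar Q u v = f u v) ∧ H ≤ quadSimilarityGroup Q) ∨
  InSymplecticResidualClass H

variable {F : Type*} [Field F] {n : ℕ} {f : (Fin n → F) → (Fin n → F) → F}

theorem le_quad_of_fix {ι : Type} [Fintype ι] [DecidableEq ι] {H : Subgroup (GL ι F)}
    {Q : (ι → F) → F} (h : ∀ g ∈ H, ∀ v, Q ((g : Matrix ι ι F) *ᵥ v) = Q v) :
    H ≤ quadSimilarityGroup Q := by
  intro g hg
  exact ⟨1, fun v => by rw [Units.val_one, one_mul]; exact h g hg v⟩

/-- Characteristic two: every group of isometries of a symplectic form stabilises one of the listed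
structures. -/
theorem sp_core_even [Fintype F] (hn : 2 ≤ n) (h2 : (2 : F) = 0) (hf : IsSymplecticForm f)
    (H : Subgroup (GL (Fin n) F)) (hH : H ≤ isoSub f) : SpOutcomeE f H := by
  classical
  have hnz : NeZero n := ⟨by omega⟩
  have hZc : ∀ z ∈ scalars (Fin n) F, ∀ g : GL (Fin n) F, z * g = g * z :=
    fun z hz g => Helper97.scalars_comm hz g
  by_cases hirr : ActsIrreducibly (matrixSet H)
  swap
  · rcases reducible_cases hf H hH hirr with h | h
    · exact Or.inl h
    · exact Or.inr (Or.inl h)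
  have hHZ : ¬ H ≤ scalars (Fin n) F := Helper97.not_le_scalars_of_irreducible hn H hirr
  obtain ⟨N, hNH, hNn, hNZ, hNmin⟩ := Helper97.exists_minimal_normal (scalars (Fin n) F) H hHZ
  have hNiso : N ≤ isoSub f := hNH.trans hH
  rcases z_analysis (by omega) hf H N hH hirr hNH hNn with h | h | h | h | h | hsc
  · exact Or.inr (Or.inr (Or.inl h))
  · exact absurd h2 h.1
  · exact Or.inr (Or.inr (Or.inr (Or.inl h)))
  · exact absurd h2 h.1
  · exact Or.inr (Or.inr (Or.inr (Or.inr (Or.inr (Or.inl h.2)))))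
  obtain ⟨d, k, e, P, ρ, hTD⟩ := tensorData_of_zcent_scalar (by omega) H N hirr hNn hsc
  by_cases hd1 : d = 1
  · exact absurd (hTD.le_scalars_of_one hd1) hNZ
  have hd2 : 2 ≤ d := by have := hTD.hd; omega
  by_cases hk1 : k = 1
  swap
  · have hk2 : 2 ≤ k := by have := hTD.hk; omega
    rcases tensor_cases hf H N hH hirr hNH hNn hTD hd2 hk2 with h | h
    · exact absurd h2 h.1
    · obtain ⟨-, n₁, n₂, e', P', f₁, f₂, hf₁, hf₂, hT, hle⟩ := h
      obtain ⟨Q, hQ, hpol, hfix⟩ := tensor_quad hf e' P' f₁ f₂ hf₁ hf₂ hT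
      exact Or.inr (Or.inr (Or.inr (Or.inr (Or.inr (Or.inl ⟨Q, hQ, hpol,
        le_quad_of_fix (fun g hg v => hfix g ⟨hle hg, hH hg⟩ v)⟩)))))
  -- `N` is absolutely irreducible
  have habs : ActsAbsolutelyIrreducibly (matrixSet N) := hTD.absIrred_of_one hk1
  have hCN : ⁅N, N⁆ ≤ N := by
    rw [Subgroup.commutator_le]
    intro a ha b hb
    rw [commutatorElement_def]
    exact N.mul_mem (N.mul_mem (N.mul_mem ha hb) (N.inv_mem ha)) (N.inv_mem hb)
  rcases hNmin ⁅N, N⁆ hCN (Helper97.commutator_normalized H N hNn) with hC | hC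
  · -- class two modulo scalars
    have hab : ∀ a ∈ N, ∀ b ∈ N, a * b * a⁻¹ * b⁻¹ ∈ scalars (Fin n) F := by
      intro a ha b hb
      have := Subgroup.commutator_mem_commutator ha hb
      rw [commutatorElement_def] at this
      exact hC this
    obtain ⟨r, hr, hpow⟩ := Helper97.exists_prime_pow_mem (scalars (Fin n) F) H N hZc hNn hNZ hNmin hab
    obtain ⟨j, hj⟩ := sq_eq_prime_pow_of_class_two N habs hab r hr hpow
    have hr0 := c2_char_ne (by omega) N hNZ habs hab r hr hpow
    exfalso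
    have hev : Even n := by
      apply Nat.not_odd_iff_even.mp
      intro hodd
      exact Helper97.Gen.not_symplectic_of_odd (by rw [Fintype.card_fin]; exact hodd) f hf
    have h2n : 2 ∣ r ^ j := by
      rw [← hj]
      exact Dvd.dvd.mul_right hev.two_dvd n
    have hr2 : 2 = r :=
      (Nat.prime_dvd_prime_iff_eq Nat.prime_two hr).mp (Nat.Prime.dvd_of_dvd_pow Nat.prime_two h2n)
    apply hr0
    rw [← hr2]
    exact_mod_cast h2
  -- perfect
  have hperf : ⁅N, N⁆ = N := hC
  have hirrN : ActsIrreducibly (matrixSet N) := habs.1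
  have hcentN : ∀ c : GL (Fin n) F, (∀ s ∈ N, c * s = s * c) → c ∈ scalars (Fin n) F := by
    intro c hc
    obtain ⟨a, ha⟩ := habs.2 (c : Matrix (Fin n) (Fin n) F) (by
      rintro _ ⟨s, hs, rfl⟩
      rw [← Units.val_mul, ← Units.val_mul, hc s hs])
    exact (Helper97.scalar_mem_scalars_iff c).mpr ⟨a, ha⟩
  rcases perfect_structure (scalars (Fin n) F) H N hZc hNn hNZ hNmin hperf with
    hsimple | ⟨S, hSN, hSn, hSZ, hSperf, hne, hcomm, hgen⟩
  swap
  · -- central product of conjugates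
    have hsc' : ∀ M, ZCent (matrixSet S) M → ∃ c : F, M = c • (1 : Matrix (Fin n) (Fin n) F) := by
      intro M hM
      apply habs.2
      have hyc : ∀ h ∈ H, ∀ y ∈ Helper97.cj h S,
          M * (y : Matrix (Fin n) (Fin n) F) = (y : Matrix (Fin n) (Fin n) F) * M := by
        intro h hh y hy'
        rcases hcomm h hh with h1 | h1
        · rw [h1] at hy'
          exact hM.1 _ (Helper97.coe_mem_matrixSet hy')
        · apply hM.2
          rintro _ ⟨s', hs', rfl⟩
          rw [← Units.val_mul, ← Units.val_mul, h1 s' hs' y hy']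
      have key : ∀ x ∈ Subgroup.closure {x | ∃ h ∈ H, x ∈ Helper97.cj h S},
          M * (x : Matrix (Fin n) (Fin n) F) = (x : Matrix (Fin n) (Fin n) F) * M ∧
          M * ((x⁻¹ : GL (Fin n) F) : Matrix (Fin n) (Fin n) F) =
            ((x⁻¹ : GL (Fin n) F) : Matrix (Fin n) (Fin n) F) * M := by
        intro x hx
        induction hx using Subgroup.closure_induction with
        | mem y hy =>
          obtain ⟨h, hh, hy'⟩ := hy
          exact ⟨hyc h hh y hy', hyc h hh y⁻¹ (Subgroup.inv_mem _ hy')⟩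
        | one =>
          rw [inv_one, Units.val_one, mul_one, one_mul]
          exact ⟨rfl, rfl⟩
        | mul y z _ _ hy hz =>
          rw [_root_.mul_inv_rev, Units.val_mul, Units.val_mul]
          constructor
          · rw [← mul_assoc, hy.1, mul_assoc, hz.1, ← mul_assoc]
          · rw [← mul_assoc, hz.2, mul_assoc, hy.2, ← mul_assoc]
        | inv y _ hy =>
          rw [inv_inv]
          exact ⟨hy.2, hy.1⟩
      rintro _ ⟨x, hx, rfl⟩
      exact (key x (by rw [hgen]; exact hx)).1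
    obtain ⟨d', k', e', P', ρ', hTD'⟩ := tensorData_of_zcent_scalar (by omega) N S hirrN hSn hsc'
    have hd'2 : 2 ≤ d' := by
      have h1 := hTD'.hd
      have h2 : d' ≠ 1 := fun h => hSZ (hTD'.le_scalars_of_one h)
      omega
    obtain ⟨t, ht, hnt⟩ := eq_pow_of_central_product H N S hTD' habs hne hcomm hgen
    have hk'2 : 2 ≤ k' := by
      have h1 := hTD'.card_eq
      have h3 := hTD'.hk
      by_contra hlt
      have hk1 : k' = 1 := by omega
      rw [hk1, mul_one] at h1
      have h4 : d' ^ 1 = d' ^ t := by rw [pow_one, ← hnt, h1]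
      have h5 := Nat.pow_right_injective hd'2 h4
      omega
    rcases tensor_cases hf N S hNiso hirrN hSN hSn hTD' hd'2 hk'2 with h | h
    · exact absurd h2 h.1
    · obtain ⟨-, n₁, n₂, e'', P'', f₁, f₂, hf₁, hf₂, hT, hle⟩ := h
      obtain ⟨Q, hQ, hpol, hfix⟩ := tensor_quad hf e'' P'' f₁ f₂ hf₁ hf₂ hT
      have hfixN : FixesQuadForm (matrixSet N) Q := by
        rintro _ ⟨g, hg, rfl⟩ v
        exact hfix g ⟨hle hg, hNiso hg⟩ v
      exact Or.inr (Or.inr (Or.inr (Or.inr (Or.inr (Or.inl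
        (quad_fixed hn hf H N hH hNH hNn habs Q hQ hfixN).2)))))
  -- simple modulo scalars
  have hne0 : Nonempty (Fin n) := ⟨⟨0, by omega⟩⟩
  by_cases hsub : ∃ F₀ : Subfield F, F₀ ≠ ⊤ ∧ RealisableOver F₀ (matrixSet N)
  · obtain ⟨F₀, hF₀, B, hB⟩ := hsub
    obtain ⟨F₁, r, hle, hr, hcard⟩ := Helper97.Gen.exists_prime_index_subfield F₀ hF₀
    obtain ⟨P', ζ, hζ, hnorm, hrat⟩ := sp_subfield_structure hf F₁ N hNiso habs B
      (fun s hs i j => hle (hB s hs i j))
    exact Or.inr (Or.inr (Or.inr (Or.inr (Or.inl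
      ⟨F₁, r, P', ζ, hr, hcard, hζ, hrat, fun h hh => hnorm h (hNn h hh)⟩))))
  have hcore : IsResidualCore H N :=
    { le := hNH
      normal := hNn
      perfect := hperf
      simple := Helper97.isSimpleGroup_quot (scalars (Fin n) F) N hNZ hsimple
      nonabelian := Helper97.not_commutative_quot (scalars (Fin n) F) N hNZ hperf
      centralizer_scalar := fun h _ hh =>
        Helper97.mem_of_centralizes_mod (scalars (Fin n) F) N hZc hperf hcentN h hh
      absIrred := habs
      no_subfield := fun F₀ hF₀ hreal => hsub ⟨F₀, hF₀, hreal⟩ }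
  by_cases hquad : ∃ Q : (Fin n → F) → F,
      IsNondegenerateQuadraticForm Q ∧ FixesQuadForm (matrixSet N) Q
  · obtain ⟨Q, hQ, hfix⟩ := hquad
    exact Or.inr (Or.inr (Or.inr (Or.inr (Or.inr (Or.inl
      (quad_fixed hn hf H N hH hNH hNn habs Q hQ hfix).2)))))
  by_cases hunit : ∃ (σ : F ≃+* F) (f' : (Fin n → F) → (Fin n → F) → F),
      IsUnitaryForm σ f' ∧ FixesForm (matrixSet N) f'
  · exfalso
    obtain ⟨σ, f', hf', hfix⟩ := hunit
    obtain ⟨F₀, hF₀, hreal⟩ := realisable_of_fixes_unitary_gram (Helper97.Gen.gram f)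
      (det_gram_ne_zero hf) N (fun g hg => gram_iso hf (hNiso hg)) habs σ f' hf' hfix
    exact hsub ⟨F₀, hF₀, hreal⟩
  exact Or.inr (Or.inr (Or.inr (Or.inr (Or.inr (Or.inr ⟨N, hcore, hquad, hunit⟩)))))

end Cfsg.Agent.Helper96.Sy
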