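-- helper96 library: maximal subgroups of the standard symplectic group in characteristic two.
import Cfsg.Agent.Helper96.SpEven

set_option autoImplicit false
set_option linter.unusedSectionVars false
set_option linter.unusedVariables false
open Cfsg Cfsg.Geo Matrix

namespace Cfsg.Agent.Helper96.Sy

section transport

variable {κ ι : Type} [Fintype κ] [DecidableEq κ] [Fintype ι] [DecidableEq ι] {F : Type*} [Field F]

theorem sp_transport_even [Fintype F] (e : κ ≃ ι) {f : (ι → F) → (ι → F) → F} {H : Subgroup (GL ι F)}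
    (h : SpOutcomeE f H) : SpOutcomeE (pf e f) (H.map (pg e).toMonoidHom) := by
  unfold SpOutcomeE at h ⊢
  rcases h with ⟨W, hW0, hts, hle⟩ | ⟨W, W', h1, h2, h3, h4, h5, h6, h7, h8, h9⟩ |
    ⟨t, k, D, hD, hle⟩ | ⟨r, K, hr, hK, hsa, halt, hle⟩ | ⟨F₀, r, P, ζ, hr, hcard, hζ, hR, hle⟩ |
    ⟨Q, hQ, hpol, hle⟩ | hres
  · exact Or.inl ⟨ps e W, ps_ne_bot e hW0, ps_ts e hts, map_le_of e (fun g hg => pg_stab e W hg) hle⟩
  · refine Or.inr (Or.inl ⟨ps e W, ps e W', ps_ne_bot e h1, ps_ne_bot e h2, ps_nondeg e h3,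
      ps_nondeg e h4, ps_orth e h5, ?_, ?_, map_le_of e (fun g hg => pg_stab e W hg) h8,
      map_le_of e (fun g hg => pg_stab e W' hg) h9⟩)
    · rw [← ps_inf, h6, ps_bot]
    · rw [← ps_sup, h7, ps_top]
  · exact Or.inr (Or.inr (Or.inl ⟨t, k, fun i => ps e (D i), ps_ndecomp e hD,
      map_le_of e (fun g hg => pg_dstab e D hg) hle⟩))
  · exact Or.inr (Or.inr (Or.inr (Or.inl ⟨r, pk e K, hr, pk_field e hK, pk_selfadj e hsa,
      pk_alt e halt, map_le_of e (fun g hg => pg_norm e K hg) hle⟩)))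
  · exact Or.inr (Or.inr (Or.inr (Or.inr (Or.inl ⟨F₀, r, pg e P, ζ,
      hr, hcard, hζ, pf_rational e hR,
      map_le_of e (fun g hg => pg_subfield e F₀ P hg) hle⟩))))
  · exact Or.inr (Or.inr (Or.inr (Or.inr (Or.inr (Or.inl ⟨pq e Q, pq_nondeg e hQ,
      fun u v => hpol _ _, map_le_of e (fun g hg => pg_quad e Q hg) hle⟩)))))
  · exact Or.inr (Or.inr (Or.inr (Or.inr (Or.inr (Or.inr (pr_residual e hres))))))

end transport

variable {m : ℕ} {F : Type*} [Field F]

theorem sp_outcome_std_even [Fintype F] (hm : 1 ≤ m) (h2 : (2 : F) = 0)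
    (H : Subgroup (GL (Fin m ⊕ Fin m) F)) (hH : H ≤ spGL m F) : SpOutcomeE (sympForm m F) H := by
  have hf : IsSymplecticForm (pf (finSumFinEquiv (m := m) (n := m)).symm (sympForm m F)) :=
    pf_symplectic _ (symp_std m)
  have hH' : H.map (pg (finSumFinEquiv (m := m) (n := m)).symm).toMonoidHom ≤
      isoSub (pf (finSumFinEquiv (m := m) (n := m)).symm (sympForm m F)) :=
    map_le_of _ (fun g hg => pg_iso _ hg) hH
  have h1 := sp_core_even (by omega) h2 hf _ hH'
  have h3 := sp_transport_even (finSumFinEquiv (m := m) (n := m)).symm.symm h1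
  rw [pf_symm_pf, map_pg_map_pg] at h3
  exact h3

/-- The refined list for a maximal subgroup of the symplectic group in characteristic two. -/
def SpMaxE (m : ℕ) (F : Type*) [Field F] [Fintype F] (H : Subgroup (GL (Fin m ⊕ Fin m) F)) : Prop :=
  (∃ W : Submodule F (Fin m ⊕ Fin m → F), W ≠ ⊥ ∧ IsTotallySingularFor (sympForm m F) W ∧
    H = subspaceStabilizer W ⊓ spGL m F) ∨
  (∃ W : Submodule F (Fin m ⊕ Fin m → F), W ≠ ⊥ ∧ IsNondegenerateOn (sympForm m F) W ∧
    Module.finrank F W < m ∧ H = subspaceStabilizer W ⊓ spGL m F) ∨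
  (∃ (t k : ℕ) (D : Fin t → Submodule F (Fin m ⊕ Fin m → F)), t * k = m + m ∧ Even k ∧
    (k = 2 → 3 ≤ Fintype.card F) ∧ IsNondegenerateMDecomposition (sympForm m F) k D ∧
    H = decompositionStabilizer D ⊓ spGL m F) ∨
  (∃ (r : ℕ) (K : Subalgebra F (Matrix (Fin m ⊕ Fin m) (Fin m ⊕ Fin m) F)), r.Prime ∧ r ∣ m ∧
    IsFieldSubalgebra r K ∧ IsSelfAdjointFor (sympForm m F) K ∧
    (∀ k ∈ K, ∀ v : Fin m ⊕ Fin m → F, sympForm m F (k *ᵥ v) v = 0) ∧
    H = subalgebraNormalizer K ⊓ spGL m F) ∨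
  (∃ (F₀ : Subfield F) (r : ℕ) (P : GL (Fin m ⊕ Fin m) F) (ζ : F), r.Prime ∧
    Fintype.card F = Nat.card F₀ ^ r ∧ ζ ≠ 0 ∧ IsFormRationalStructure (sympForm m F) F₀ ζ P ∧
    H = subfieldSubgroup F₀ P ⊓ spGL m F) ∨
  (∃ Q : (Fin m ⊕ Fin m → F) → F, IsNondegenerateQuadraticForm Q ∧
    (∀ u v, QuadraticMap.polar Q u v = sympForm m F u v) ∧ H = quadSimilarityGroup Q ⊓ spGL m F) ∨
  InSymplecticResidualClass H

theorem ndecomp_case_even [Fintype F] (hm : 2 ≤ m) {H : Subgroup (GL (Fin m ⊕ Fin m) F)}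
    (hH : IsMaximalIn (spGL m F) H) {t k : ℕ} (D : Fin t → Submodule F (Fin m ⊕ Fin m → F))
    (hD : IsNondegenerateMDecomposition (sympForm m F) k D) (hle : H ≤ decompositionStabilizer D) :
    SpMaxE m F H := by
  have htk : t * k = m + m := by
    have := Helper94.card_eq_of_decomposition D hD.decomp
    rw [card_sum_fin] at this
    exact this.symm
  have hk : Even k := by
    have ht := hD.decomp.two_le
    obtain ⟨n, e, f', -, -, -, -, -, -, hfr⟩ := Helper94.exists_hyp_basis (D ⟨0, by omega⟩)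
      (hD.nondegenerate ⟨0, by omega⟩)
    rw [hD.decomp.finrank_eq] at hfr
    exact ⟨n, by omega⟩
  by_cases hc : k = 2 → 3 ≤ Fintype.card F
  · exact Or.inr (Or.inr (Or.inl ⟨t, k, D, htk, hk, hc, hD,
      eq_inf_of_max hH hle (notSp_ndecomp D hD)⟩))
  · push Not at hc
    obtain ⟨hk2, hq3⟩ := hc
    subst hk2
    have hq : Fintype.card F = 2 := by
      have := Fintype.one_lt_card (α := F)
      omega
    obtain ⟨Q, hQ, hpol, hQle⟩ := quad_of_blocks hq D hD
    have heven : ¬ Odd (Fintype.card F) := by rw [hq]; decide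
    have hle' : H ≤ quadSimilarityGroup Q := fun g hg => hQle ⟨hle hg, hH.1.le hg⟩
    exact Or.inr (Or.inr (Or.inr (Or.inr (Or.inr (Or.inl ⟨Q,
      hQ, hpol, eq_inf_of_max hH hle' (notSp_quad hm heven Q hQ hpol)⟩)))))

theorem sp_max_cases_even [Fintype F] (hm : 2 ≤ m) (heven : ¬ Odd (Fintype.card F))
    (H : Subgroup (GL (Fin m ⊕ Fin m) F)) (hH : IsMaximalIn (spGL m F) H) : SpMaxE m F H := by
  classical
  have h2F : (2 : F) = 0 := by
    by_contra h
    exact heven (odd_card_of_two_ne h)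
  have hout := sp_outcome_std_even (by omega) h2F H hH.1.le
  unfold SpOutcomeE at hout
  rcases hout with ⟨W, hW0, hts, hle⟩ | ⟨W, W', h1, h2, h3, h4, h5, h6, h7, h8, h9⟩ |
    ⟨t, k, D, hD, hle⟩ | ⟨r, K, hr, hK, hsa, halt, hle⟩ | ⟨F₀, r, P, ζ, hr, hcard, hζ, hR, hle⟩ |
    ⟨Q, hQ, hpol, hle⟩ | hres
  · have hWtop : W ≠ ⊤ := by
      intro htop
      have hne : (Pi.single (Sum.inl ⟨0, by omega⟩ : Fin m ⊕ Fin m) (1 : F) : Fin m ⊕ Fin m → F) ≠ 0 := by
        intro h
        have := congrFun h (Sum.inl ⟨0, by omega⟩)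
        simp at this
      obtain ⟨y, hy⟩ := Helper94.sf_exists_ne _ hne
      exact hy (hts _ (by rw [htop]; trivial) _ (by rw [htop]; trivial))
    exact Or.inl ⟨W, hW0, hts, eq_inf_of_max hH hle (notSp_stab W hW0 hWtop)⟩
  · have hsum : Module.finrank F W + Module.finrank F W' = m + m := by
      have := Submodule.finrank_sup_add_finrank_inf_eq W W'
      rw [h7, h6, finrank_top, finrank_bot, Module.finrank_fintype_fun_eq_card, card_sum_fin] at this
      omega
    have hWtop : W ≠ ⊤ := by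
      intro htop
      apply h2
      rw [← h6, htop, top_inf_eq]
    have hW'top : W' ≠ ⊤ := by
      intro htop
      apply h1
      rw [← h6, htop, inf_top_eq]
    by_cases hlt : Module.finrank F W < m
    · exact Or.inr (Or.inl ⟨W, h1, h3, hlt, eq_inf_of_max hH h8 (notSp_stab W h1 hWtop)⟩)
    by_cases hlt' : Module.finrank F W' < m
    · exact Or.inr (Or.inl ⟨W', h2, h4, hlt', eq_inf_of_max hH h9 (notSp_stab W' h2 hW'top)⟩)
    have hA : Module.finrank F W = m := by omega
    have hB : Module.finrank F W' = m := by omega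
    have hdec := pair_decomp W W' h6 h7 m hA hB (by omega)
    have hnd : IsNondegenerateMDecomposition (sympForm m F) m (pairD W W') := by
      refine ⟨hdec, ?_, ?_⟩
      · intro i
        rcases fin2_cases i with rfl | rfl
        · exact h3
        · exact h4
      · intro i j hij
        rcases fin2_cases i with rfl | rfl <;> rcases fin2_cases j with rfl | rfl
        · exact absurd rfl hij
        · exact h5
        · intro u hu v hv
          rw [Helper94.sf_swap]
          have := h5 v hv u hu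
          rw [this, neg_zero]
        · exact absurd rfl hij
    have hle : H ≤ decompositionStabilizer (pairD W W') := by
      intro g hg
      exact pair_stab_fix W W' m hA hB g (fun x hx => stab_maps (h8 hg) hx)
        (fun x hx => stab_maps (h9 hg) hx)
    exact ndecomp_case_even hm hH _ hnd hle
  · exact ndecomp_case_even hm hH D hD hle
  · have hdvd : r ∣ m := by
      have h1 := two_mul_dvd_of_selfadj (symp_std m) K hK hsa halt
      rw [card_sum_fin, ← two_mul] at h1
      exact (Nat.mul_dvd_mul_iff_left (by norm_num : 0 < 2)).mp h1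
    exact Or.inr (Or.inr (Or.inr (Or.inl ⟨r, K, hr, hdvd, hK, hsa, halt,
      eq_inf_of_max hH hle (notSp_norm hm hr.two_le K hK)⟩)))
  · have hF₀ : F₀ ≠ ⊤ := by
      intro htop
      have h1 : Nat.card F₀ = Fintype.card F := by
        rw [htop, ← Nat.card_eq_fintype_card]
        exact Nat.card_congr Subfield.topEquiv.toEquiv
      rw [h1] at hcard
      have h2 : 1 < Fintype.card F := Fintype.one_lt_card
      have h3 : Fintype.card F ^ 1 = Fintype.card F ^ r := by rw [pow_one]; exact hcard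
      have h4 := Nat.pow_right_injective h2 h3
      exact hr.one_lt.ne h4
    exact Or.inr (Or.inr (Or.inr (Or.inr (Or.inl ⟨F₀, r, P, ζ, hr,
      hcard, hζ, hR, eq_inf_of_max hH hle (notSp_subfield (by omega) F₀ hF₀ P)⟩))))
  · exact Or.inr (Or.inr (Or.inr (Or.inr (Or.inr (Or.inl ⟨Q,
      hQ, hpol, eq_inf_of_max hH hle (notSp_quad hm heven Q hQ hpol)⟩)))))
  · exact Or.inr (Or.inr (Or.inr (Or.inr (Or.inr (Or.inr hres)))))

end Cfsg.Agent.Helper96.Sy
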