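-- helper96 library: tensor decompositions `n₁ ⊗ 3` of the symplectic form over the field with three
-- elements stabilise a decomposition into three non-degenerate subspaces.
import Cfsg.Agent.Helper96.SpF3b

set_option autoImplicit false
set_option linter.unusedSectionVars false
set_option linter.unusedVariables false
open Cfsg Cfsg.Geo Matrix
open scoped Kronecker

namespace Cfsg.Agent.Helper96.Sy

variable {F : Type*} [Field F]

theorem tensor_three_q3 [Fintype F] {m : ℕ} (hq : Fintype.card F = 3) {n₁ : ℕ} (hn₁ : 0 < n₁)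
    (e : (Fin m ⊕ Fin m) ≃ Fin n₁ × Fin 3) (P : GL (Fin m ⊕ Fin m) F)
    (f₁ : (Fin n₁ → F) → (Fin n₁ → F) → F) (f₂ : (Fin 3 → F) → (Fin 3 → F) → F)
    (hf₁ : IsSymplecticForm f₁) (hf₂ : IsSymmetricForm f₂)
    (hT : IsTensorFormStructure id (sympForm m F) f₁ f₂ e P) :
    ∃ D : Fin 3 → Submodule F (Fin m ⊕ Fin m → F),
      IsNondegenerateMDecomposition (sympForm m F) n₁ D ∧
      tensorProductSubgroup n₁ 3 e P ⊓ spGL m F ≤ decompositionStabilizer D := by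
  classical
  obtain ⟨c, hc, hT⟩ := hT
  obtain ⟨w, ε, hε, hw⟩ := f3_frame hq hf₂
  have hs := symp_std (F := F) m
  have hkey : ∀ (u u' : Fin n₁ → F) (v v' : Fin 3 → F),
      sympForm m F (phiL e P (ptL v u)) (phiL e P (ptL v' u')) = c * (f₁ u u' * f₂ v v') := by
    intro u u' v v'
    rw [phiL_apply, phiL_apply, hT, formOfGram_pt hf₁.bilinear hf₂.bilinear]
  obtain ⟨D, hDdef⟩ : ∃ D : Fin 3 → Submodule F (Fin m ⊕ Fin m → F),
      ∀ j, D j = LinearMap.range ((phiL e P).comp (ptL (n₁ := n₁) (w j))) := ⟨_, fun _ => rfl⟩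
  have hmem : ∀ j x, x ∈ D j ↔ ∃ u : Fin n₁ → F, phiL e P (ptL (w j) u) = x := by
    intro j x
    rw [hDdef, LinearMap.mem_range]
    rfl
  have hfr : ∀ j, Module.finrank F (D j) = n₁ := by
    intro j
    rw [hDdef]
    have hinj : Function.Injective ((phiL e P).comp (ptL (n₁ := n₁) (w j))) :=
      (phiL_injective e P).comp (ptL_injective (w.ne_zero j))
    rw [LinearMap.finrank_range_of_inj hinj, Module.finrank_fin_fun]
  have hnd : ∀ j, IsNondegenerateOn (sympForm m F) (D j) := by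
    intro j x hx hx0
    obtain ⟨u, rfl⟩ := (hmem j x).mp hx
    have hu0 : u ≠ 0 := by
      rintro rfl
      apply hx0
      rw [map_zero, map_zero]
    obtain ⟨⟨u', hu'⟩, -⟩ := hf₁.nondegenerate u hu0
    refine ⟨⟨phiL e P (ptL (w j) u'), (hmem j _).mpr ⟨u', rfl⟩, ?_⟩,
      ⟨phiL e P (ptL (w j) u'), (hmem j _).mpr ⟨u', rfl⟩, ?_⟩⟩
    · rw [hkey, hw, if_pos rfl]
      exact mul_ne_zero hc (mul_ne_zero hu' hε)
    · rw [hkey, hw, if_pos rfl, hf₁.skew]
      exact mul_ne_zero hc (mul_ne_zero (neg_ne_zero.mpr hu') hε)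
  have horth : ∀ i j, i ≠ j → AreOrthogonalFor (sympForm m F) (D i) (D j) := by
    intro i j hij x hx y hy
    obtain ⟨u, rfl⟩ := (hmem i x).mp hx
    obtain ⟨u', rfl⟩ := (hmem j y).mp hy
    rw [hkey, hw, if_neg hij, mul_zero, mul_zero]
  have hind : iSupIndep D := by
    intro i
    refine (disjoint_perp hs (D i) (hnd i)).mono_right ?_
    refine iSup₂_le (fun j hj => ?_)
    intro x hx
    rw [mem_perp]
    intro y hy
    exact horth i j (Ne.symm hj) y hy x hx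
  have hcard : Fintype.card (Fin m ⊕ Fin m) = n₁ * 3 := by
    have := Fintype.card_congr e
    rw [Fintype.card_prod, Fintype.card_fin, Fintype.card_fin] at this
    exact this
  have htop : iSup D = ⊤ := by
    apply iSup_eq_top_of_indep D hind
    rw [hcard]
    simp only [hfr, Finset.sum_const, Finset.card_univ, Fintype.card_fin, smul_eq_mul]
    ring
  refine ⟨D, ⟨⟨by norm_num, hn₁, hfr, hind, htop⟩, hnd, horth⟩, ?_⟩
  intro g hg
  obtain ⟨hgT, hgS⟩ := Subgroup.mem_inf.mp hg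
  obtain ⟨A, B, hab⟩ := Helper98.mem_tensorProductSubgroup hgT
  have hact : ∀ (u : Fin n₁ → F) (v : Fin 3 → F),
      (g : Matrix (Fin m ⊕ Fin m) (Fin m ⊕ Fin m) F) *ᵥ phiL e P (ptL v u) =
        phiL e P (ptL ((B : Matrix (Fin 3) (Fin 3) F) *ᵥ v) ((A : Matrix (Fin n₁) (Fin n₁) F) *ᵥ u)) := by
    intro u v
    rw [tensor_act e P hab, kron_mulVec_pt]
  have hprod : ∀ (u u' : Fin n₁ → F) (v v' : Fin 3 → F),
      f₁ ((A : Matrix (Fin n₁) (Fin n₁) F) *ᵥ u) ((A : Matrix (Fin n₁) (Fin n₁) F) *ᵥ u') *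
        f₂ ((B : Matrix (Fin 3) (Fin 3) F) *ᵥ v) ((B : Matrix (Fin 3) (Fin 3) F) *ᵥ v') =
        f₁ u u' * f₂ v v' := by
    intro u u' v v'
    have h1 := Helper94.sp_apply hgS (phiL e P (ptL v u)) (phiL e P (ptL v' u'))
    rw [hact, hact, hkey, hkey] at h1
    exact mul_left_cancel₀ hc h1
  obtain ⟨u₁, u₂, hu⟩ : ∃ u₁ u₂ : Fin n₁ → F, f₁ u₁ u₂ ≠ 0 := by
    have hne : (Pi.single (⟨0, hn₁⟩ : Fin n₁) (1 : F) : Fin n₁ → F) ≠ 0 := by
      intro h
      have := congrFun h ⟨0, hn₁⟩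
      simp at this
    obtain ⟨⟨x, hx⟩, -⟩ := hf₁.nondegenerate _ hne
    exact ⟨x, _, hx⟩
  have hα : f₁ ((A : Matrix (Fin n₁) (Fin n₁) F) *ᵥ u₁) ((A : Matrix (Fin n₁) (Fin n₁) F) *ᵥ u₂) ≠ 0 := by
    intro h0
    have h1 := hprod u₁ u₂ (w 0) (w 0)
    rw [h0, zero_mul, hw, if_pos rfl] at h1
    exact mul_ne_zero hu hε h1.symm
  obtain ⟨μ, hμdef⟩ : ∃ μ : F, μ = f₁ u₁ u₂ /
      f₁ ((A : Matrix (Fin n₁) (Fin n₁) F) *ᵥ u₁) ((A : Matrix (Fin n₁) (Fin n₁) F) *ᵥ u₂) := ⟨_, rfl⟩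
  have hsim : ∀ v v', f₂ ((B : Matrix (Fin 3) (Fin 3) F) *ᵥ v) ((B : Matrix (Fin 3) (Fin 3) F) *ᵥ v') =
      μ * f₂ v v' := by
    intro v v'
    have h1 := hprod u₁ u₂ v v'
    rw [hμdef, div_mul_eq_mul_div, eq_div_iff hα, ← h1]
    ring
  have hμ : μ = 1 := by
    have hG := (Helper97.Gen.isSesq_of_bilinear hf₂.bilinear).gram_of_similar
      (B : Matrix (Fin 3) (Fin 3) F) μ hsim
    rw [map_refl'] at hG
    have hdet := congrArg Matrix.det hG
    rw [Matrix.det_mul, Matrix.det_mul, Matrix.det_transpose, Matrix.det_smul, Fintype.card_fin] at hdet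
    have hG0 : (Helper97.Gen.gram f₂).det ≠ 0 :=
      (Helper97.Gen.isSesq_of_bilinear hf₂.bilinear).det_gram_ne_zero
        (fun v hv => (hf₂.nondegenerate v hv).1)
    have h2 : (B : Matrix (Fin 3) (Fin 3) F).det ^ 2 = μ ^ 3 := by
      apply mul_right_cancel₀ hG0
      linear_combination hdet
    have hB0 : (B : Matrix (Fin 3) (Fin 3) F).det ≠ 0 := by
      intro h0
      have h3 := congrArg Matrix.det (Units.mul_inv B)
      rw [Matrix.det_mul, h0, zero_mul, Matrix.det_one] at h3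
      exact zero_ne_one h3
    have h3 : μ ^ 3 = μ := by
      have := FiniteField.pow_card μ
      rwa [hq] at this
    rw [f3_sq hq hB0, h3] at h2
    exact h2.symm
  have hiso : ∀ v v', f₂ ((B : Matrix (Fin 3) (Fin 3) F) *ᵥ v) ((B : Matrix (Fin 3) (Fin 3) F) *ᵥ v') =
      f₂ v v' := by
    intro v v'
    rw [hsim, hμ, one_mul]
  obtain ⟨σ, hσ⟩ := f3_frame_perm hq hf₂ w ε hε hw (B : Matrix (Fin 3) (Fin 3) F) hiso
  refine stab_decomp_of_maps D hfr g σ ?_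
  intro l x hx
  obtain ⟨u, rfl⟩ := (hmem l x).mp hx
  obtain ⟨c', hc'⟩ := hσ l
  rw [hact, hc']
  refine (hmem (σ l) _).mpr ⟨c' • ((A : Matrix (Fin n₁) (Fin n₁) F) *ᵥ u), ?_⟩
  congr 1
  funext p
  rw [ptL_apply, ptL_apply]
  simp only [Pi.smul_apply, smul_eq_mul]
  ring

end Cfsg.Agent.Helper96.Sy
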