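-- helper96 library: every subgroup of the standard symplectic group lies in a member of one of the
-- eight geometric classes or is in the residual class.
import Cfsg.Agent.Helper96.SpTr4
import Cfsg.Agent.Helper96.SpX5
import Cfsg.Agent.Helper96.SpRow
import Cfsg.Agent.Helper96.SpT2d
import Cfsg.Agent.Helper96.SpTQ2

set_option autoImplicit false
set_option linter.unusedSectionVars false
set_option linter.unusedVariables false
open Cfsg Cfsg.Geo Matrix

namespace Cfsg.Agent.Helper96.Sy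

variable {m : ℕ} {F : Type*} [Field F]

/-- Aschbacher's theorem for the symplectic groups, containment form. -/
theorem sp_le_class [Fintype F] (hm : 2 ≤ m) (H : Subgroup (GL (Fin m ⊕ Fin m) F))
    (hH : H ≤ spGL m F) :
    (∃ M : Subgroup (GL (Fin m ⊕ Fin m) F), InSymplecticClass m F M ∧ H ≤ M) ∨
      InSymplecticResidualClass H := by
  classical
  have hout := sp_outcome_std2 (by omega) H hH
  unfold SpOutcome2 at hout
  have hne : Nonempty (Fin m ⊕ Fin m) := ⟨Sum.inl ⟨0, by omega⟩⟩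
  have hHiso : H ≤ isoSub (sympForm m F) := hH
  rcases hout with ⟨W, hW0, hts, hle⟩ | ⟨W, W', h1, h2, h3, h4, h5, h6, h7, h8, h9⟩ |
    ⟨t, k, D, hD, hle⟩ | ⟨h2, k, D, hD, hts, hle⟩ | ⟨r, K, hr, hK, hsa, halt, hle⟩ |
    ⟨h2, K, hK, hac, hnsa, hle⟩ | ⟨h2, n₁, n₂, e₁, P, f₁, f₂, hn₂, hf₁, hf₂, hT, hle⟩ |
    ⟨h2, n₁, n₂, e₁, P, f₁, f₂, hf₁, hf₂, hT, hle⟩ | ⟨F₀, r, P, ζ, hr, hcard, hζ, hR, hle⟩ |
    ⟨h2, Q, hQ, hpol, hle⟩ | hres | ⟨N, hc⟩ |
    ⟨h2, k, t, e₁, P, f₁, hodd, ht3, hex, hf₁, hT, hle⟩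
  · -- totally singular subspace
    exact Or.inl ⟨_, Or.inl (Or.inl ⟨W, hW0, hts, rfl⟩), le_inf hle hH⟩
  · -- orthogonal pair of non-degenerate subspaces
    have hsum : Module.finrank F W + Module.finrank F W' = m + m := by
      have := Submodule.finrank_sup_add_finrank_inf_eq W W'
      rw [h7, h6, finrank_top, finrank_bot, Module.finrank_fintype_fun_eq_card, card_sum_fin] at this
      omega
    by_cases hlt : Module.finrank F W < m
    · exact Or.inl ⟨_, Or.inl (Or.inr (Or.inl ⟨W, h1, h3, hlt, rfl⟩)), le_inf h8 hH⟩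
    by_cases hlt' : Module.finrank F W' < m
    · exact Or.inl ⟨_, Or.inl (Or.inr (Or.inl ⟨W', h2, h4, hlt', rfl⟩)), le_inf h9 hH⟩
    have hA : Module.finrank F W = m := by omega
    have hB : Module.finrank F W' = m := by omega
    have hdec := pair_decomp W W' h6 h7 m hA hB (by omega)
    have hnd : IsNondegenerateMDecomposition (sympForm m F) m (pairD W W') := by
      refine ⟨hdec, ?_, ?_⟩
      · intro i
        rcases fin2_cases i with rfl | rfl
        · exact h3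
        · exact h4
      · intro i j hij
        rcases fin2_cases i with rfl | rfl <;> rcases fin2_cases j with rfl | rfl
        · exact absurd rfl hij
        · exact h5
        · intro u hu v hv
          rw [Helper94.sf_swap]
          have := h5 v hv u hu
          rw [this, neg_zero]
        · exact absurd rfl hij
    have hle : H ≤ decompositionStabilizer (pairD W W') := by
      intro g hg
      exact pair_stab_fix W W' m hA hB g (fun x hx => stab_maps (h8 hg) hx)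
        (fun x hx => stab_maps (h9 hg) hx)
    exact Or.inl ⟨_, Or.inl (Or.inr (Or.inr (Or.inl ⟨2, m, pairD W W', hnd, rfl⟩))), le_inf hle hH⟩
  · exact Or.inl ⟨_, Or.inl (Or.inr (Or.inr (Or.inl ⟨t, k, D, hD, rfl⟩))), le_inf hle hH⟩
  · -- pair of totally singular subspaces
    have hk : k = m := by
      have := Helper94.card_eq_of_decomposition D hD
      rw [card_sum_fin] at this
      omega
    subst hk
    exact Or.inl ⟨_, Or.inl (Or.inr (Or.inr (Or.inr (Or.inl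
      ⟨D, odd_card_of_two_ne h2, hD, hts, rfl⟩)))), le_inf hle hH⟩
  · exact Or.inl ⟨_, Or.inr (Or.inl ⟨r, K, hr, hK, hsa, halt, rfl⟩), le_inf hle hH⟩
  · exact Or.inl ⟨_, Or.inr (Or.inr (Or.inl ⟨K, odd_card_of_two_ne h2, hK, hac, hnsa, rfl⟩)),
      le_inf hle hH⟩
  · -- tensor, odd characteristic
    have hprod : n₁ * n₂ = m + m := by
      have := Fintype.card_congr e₁
      rw [card_sum_fin, Fintype.card_prod, Fintype.card_fin, Fintype.card_fin] at this
      exact this.symm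
    have hn₁ : 0 < n₁ := by
      rcases Nat.eq_zero_or_pos n₁ with h0 | h0
      · subst h0
        rw [zero_mul] at hprod
        omega
      · exact h0
    by_cases hn3 : 3 ≤ n₂
    · exact Or.inl ⟨_, Or.inr (Or.inr (Or.inr (Or.inl ⟨n₁, n₂, e₁, P, f₁, f₂, odd_card_of_two_ne h2,
        hn3, hf₁, hf₂, hT, rfl⟩))), le_inf hle hH⟩
    have hn22 : n₂ = 2 := by omega
    subst hn22
    have hn₁m : n₁ = m := by omega
    subst hn₁m
    by_cases hiso : ∃ v : Fin 2 → F, v ≠ 0 ∧ f₂ v v = 0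
    · obtain ⟨v₁, hv₁, hv₁0⟩ := hiso
      obtain ⟨D, hD, hts, hDle⟩ := tensor_two_iso h2 hn₁ e₁ P f₁ f₂ hf₁ hf₂ hT v₁ hv₁ hv₁0
      exact Or.inl ⟨_, Or.inl (Or.inr (Or.inr (Or.inr (Or.inl
        ⟨D, odd_card_of_two_ne h2, hD, hts, rfl⟩)))), le_inf ((le_inf hle hH).trans hDle) hH⟩
    · have hani : ∀ v : Fin 2 → F, v ≠ 0 → f₂ v v ≠ 0 := fun v hv h0 => hiso ⟨v, hv, h0⟩
      obtain ⟨K, hK, hac, hnsa, hKle⟩ := tensor_two_aniso h2 hn₁ e₁ P f₁ f₂ hf₁ hf₂ hT hani
      exact Or.inl ⟨_, Or.inr (Or.inr (Or.inl ⟨K, odd_card_of_two_ne h2, hK, hac, hnsa, rfl⟩)),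
        le_inf ((le_inf hle hH).trans hKle) hH⟩
  · -- tensor, characteristic two
    obtain ⟨Q, hQ, hpol, hQfix⟩ := tensor_quad (symp_std m) e₁ P f₁ f₂ hf₁ hf₂ hT
    have hle' : H ≤ quadSimilarityGroup Q := by
      intro g hg
      refine ⟨1, fun v => ?_⟩
      rw [Units.val_one, one_mul]
      exact hQfix g ⟨hle hg, hHiso hg⟩ v
    exact Or.inl ⟨_, Or.inl (Or.inr (Or.inr (Or.inr (Or.inr (Or.inr (Or.inr
      ⟨Q, not_odd_card_of_two_eq h2, hQ, hpol, rfl⟩)))))), le_inf hle' hH⟩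
  · exact Or.inl ⟨_, Or.inl (Or.inr (Or.inr (Or.inr (Or.inr (Or.inl
      ⟨F₀, r, P, ζ, hr, hcard, hζ, hR, rfl⟩))))), le_inf hle hH⟩
  · exact Or.inl ⟨_, Or.inl (Or.inr (Or.inr (Or.inr (Or.inr (Or.inr (Or.inr
      ⟨Q, not_odd_card_of_two_eq h2, hQ, hpol, rfl⟩)))))), le_inf hle hH⟩
  · exact Or.inr hres
  · -- class-two core
    rcases c6_structure (symp_std m) hHiso hc with
      ⟨R, p, k, hst, habs, hsim, hp, hodd, hcard, hcardR, hcen, hminus, hle⟩ |
      ⟨F₀, r, P, ζ, hr, hcard, hζ, hR, hle⟩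
    · exact Or.inl ⟨_, Or.inl (Or.inr (Or.inr (Or.inr (Or.inr (Or.inr (Or.inl
        ⟨R, p, k, hst, habs, hsim, hp, hodd, hcard, hcardR, hcen, hminus, rfl⟩)))))),
        le_inf hle hH⟩
    · exact Or.inl ⟨_, Or.inl (Or.inr (Or.inr (Or.inr (Or.inr (Or.inl
        ⟨F₀, r, P, ζ, hr, hcard, hζ, hR, rfl⟩))))), le_inf hle hH⟩
  · -- tensor power
    exact Or.inl ⟨_, Or.inr (Or.inr (Or.inr (Or.inr ⟨k, t, e₁, P, f₁, odd_card_of_two_ne h2, hodd,
      ht3, hex, hf₁, hT, rfl⟩))), le_inf hle hH⟩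

end Cfsg.Agent.Helper96.Sy
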