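-- helper96 library: linear maps of the 2 x 2 matrix algebra preserving the determinant
-- (similarities of the four-dimensional quadratic form of plus type).
import Mathlib

set_option autoImplicit false
set_option linter.unusedSectionVars false
set_option linter.unusedVariables false
open Matrix

namespace Cfsg.Agent.Helper96.Sy

variable {F : Type*} [Field F]

theorem m2_ch (Z : Matrix (Fin 2) (Fin 2) F) :
    Z * Z = Z.trace • Z - Z.det • (1 : Matrix (Fin 2) (Fin 2) F) := by
  ext i j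
  fin_cases i <;> fin_cases j <;>
    simp [Matrix.mul_apply, Fin.sum_univ_two, Matrix.trace, Matrix.det_fin_two] <;> ring

theorem m2_det_add_one (Z : Matrix (Fin 2) (Fin 2) F) :
    (Z + 1).det = Z.det + Z.trace + 1 := by
  simp [Matrix.det_fin_two, Matrix.trace, Fin.sum_univ_two]
  ring

theorem m2_sandwich (e X : Matrix (Fin 2) (Fin 2) F) (he : e * e = e) (ht : e.trace = 1) :
    e * X * e = (e * X).trace • e := by
  have h00 := congrFun (congrFun he 0) 0
  have h01 := congrFun (congrFun he 0) 1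
  have h10 := congrFun (congrFun he 1) 0
  have h11 := congrFun (congrFun he 1) 1
  simp only [Matrix.mul_apply, Fin.sum_univ_two] at h00 h01 h10 h11
  simp only [Matrix.trace, Fin.sum_univ_two, Matrix.diag_apply] at ht
  have hd : e 0 0 * e 1 1 - e 0 1 * e 1 0 = 0 := by
    have : e 1 1 = 1 - e 0 0 := by linear_combination ht
    rw [this]
    linear_combination -h00
  ext i j
  fin_cases i <;> fin_cases j <;>
    simp only [Matrix.mul_apply, Fin.sum_univ_two, Matrix.trace, Matrix.diag_apply,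
      Matrix.smul_apply, smul_eq_mul, Fin.zero_eta, Fin.mk_one]
  · linear_combination (-X 1 1) * hd
  · linear_combination (X 0 1) * hd
  · linear_combination (X 1 0) * hd
  · linear_combination (-X 0 0) * hd

theorem m2_exists_trace_ne (p : Matrix (Fin 2) (Fin 2) F) (hp : p ≠ 0) :
    ∃ M : Matrix (Fin 2) (Fin 2) F, (p * M).trace ≠ 0 := by
  obtain ⟨i, j, hij⟩ : ∃ i j, p i j ≠ 0 := by
    by_contra hcon
    push Not at hcon
    apply hp
    ext i j
    exact hcon i j
  refine ⟨Matrix.single j i 1, ?_⟩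
  rw [Matrix.trace_mul_comm, Matrix.trace_single_mul]
  simpa using hij

theorem m2_dich (e n : Matrix (Fin 2) (Fin 2) F) (he : e * e = e) (ht : e.trace = 1)
    (h1 : e * n + n * e = n) (h2 : n * n = 0) : e * n = 0 ∨ n * e = 0 := by
  have h3 : e * n * e = 0 := by
    have : e * (e * n + n * e) = e * n := by rw [h1]
    rw [mul_add, ← mul_assoc, he, ← mul_assoc] at this
    exact add_eq_left.mp this
  have h4 : n * e * n = 0 := by
    have h5 : (e * n + n * e) * (e * n + n * e) = 0 := by rw [h1, h2]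
    have h6 : (e * n + n * e) * (e * n + n * e) =
        (e * n * e) * n + e * (n * n) * e + n * (e * e) * n + n * (e * n * e) := by
      noncomm_ring
    rw [h6, h3, h2, he] at h5
    simpa using h5
  by_cases hp : e * n = 0
  · exact Or.inl hp
  right
  obtain ⟨M, hM⟩ := m2_exists_trace_ne _ hp
  have h5 : e * n * M * e = (e * n * M).trace • e := by
    have := m2_sandwich e (n * M) he ht
    rw [← mul_assoc] at this
    exact this
  have h6 : (n * e) * (e * n * M * e) = 0 := by
    have : (n * e) * (e * n * M * e) = n * (e * e) * n * M * e := by noncomm_ring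
    rw [this, he, h4, zero_mul, zero_mul]
  have h7 : n * e * e = n * e := by rw [mul_assoc, he]
  rw [h5, Matrix.mul_smul, h7] at h6
  exact (smul_eq_zero.mp h6).resolve_left hM

theorem m2_mulVec_ext {A B : Matrix (Fin 2) (Fin 2) F} (h : ∀ z, A *ᵥ z = B *ᵥ z) : A = B :=
  Matrix.toLin'.injective (LinearMap.ext fun z => by simpa [Matrix.toLin'_apply] using h z)

theorem m2_single_mulVec (i j : Fin 2) (z : Fin 2 → F) :
    (Matrix.single i j (1 : F)) *ᵥ z = Pi.single i (z j) := by
  funext k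
  simp [Matrix.mulVec, dotProduct, Matrix.single_apply, Pi.single_apply, Fin.sum_univ_two]
  fin_cases i <;> fin_cases j <;> fin_cases k <;> simp

theorem m2_frame (e a b : Matrix (Fin 2) (Fin 2) F) (he : e * e = e) (hne : e ≠ 0)
    (h1 : e * a = a) (h2 : a * e = 0) (h3 : e * b = 0) (h4 : b * e = b) (h5 : a * b = e)
    (h6 : b * a = 1 - e) :
    ∃ S : GL (Fin 2) F,
      e * (S : Matrix (Fin 2) (Fin 2) F) = (S : Matrix (Fin 2) (Fin 2) F) * Matrix.single 0 0 1 ∧
      a * (S : Matrix (Fin 2) (Fin 2) F) = (S : Matrix (Fin 2) (Fin 2) F) * Matrix.single 0 1 1 ∧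
      b * (S : Matrix (Fin 2) (Fin 2) F) = (S : Matrix (Fin 2) (Fin 2) F) * Matrix.single 1 0 1 ∧
      (1 - e) * (S : Matrix (Fin 2) (Fin 2) F) =
        (S : Matrix (Fin 2) (Fin 2) F) * Matrix.single 1 1 1 := by
  classical
  obtain ⟨u, hu0, heu⟩ : ∃ u : Fin 2 → F, u ≠ 0 ∧ e *ᵥ u = u := by
    obtain ⟨i, j, hij⟩ : ∃ i j, e i j ≠ 0 := by
      by_contra hcon
      push Not at hcon
      apply hne
      ext i j
      exact hcon i j
    refine ⟨e *ᵥ Pi.single j 1, fun h => hij ?_, ?_⟩
    · have := congrFun h i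
      simpa [Matrix.mulVec_single_one] using this
    · rw [Matrix.mulVec_mulVec, he]
  obtain ⟨u', hu'⟩ : ∃ u' : Fin 2 → F, u' = b *ᵥ u := ⟨_, rfl⟩
  have hau' : a *ᵥ u' = u := by rw [hu', Matrix.mulVec_mulVec, h5, heu]
  have heu' : e *ᵥ u' = 0 := by rw [hu', Matrix.mulVec_mulVec, h3, Matrix.zero_mulVec]
  have hau : a *ᵥ u = 0 := by
    rw [← heu, Matrix.mulVec_mulVec, h2, Matrix.zero_mulVec]
  have hbu' : b *ᵥ u' = 0 := by
    have hbb : b * b = 0 := by
      calc b * b = (b * e) * b := by rw [h4]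
        _ = b * (e * b) := by rw [mul_assoc]
        _ = 0 := by rw [h3, mul_zero]
    rw [hu', Matrix.mulVec_mulVec, hbb, Matrix.zero_mulVec]
  have hu'0 : u' ≠ 0 := by
    intro h
    rw [h, Matrix.mulVec_zero] at hau'
    exact hu0 hau'.symm
  obtain ⟨S, hS⟩ : ∃ S : Matrix (Fin 2) (Fin 2) F, S = Matrix.of (fun i j => if j = 0 then u i else u' i) :=
    ⟨_, rfl⟩
  have hSv : ∀ z : Fin 2 → F, S *ᵥ z = z 0 • u + z 1 • u' := by
    intro z
    funext i
    rw [hS]
    simp [Matrix.mulVec, dotProduct, Fin.sum_univ_two]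
    ring
  have hinj : Function.Injective S.mulVec := by
    intro z z' hzz
    have h7 : S *ᵥ (z - z') = 0 := by rw [Matrix.mulVec_sub]; exact sub_eq_zero.mpr hzz
    rw [hSv] at h7
    have h8 := congrArg (fun v => e *ᵥ v) h7
    simp only [Matrix.mulVec_add, Matrix.mulVec_smul, heu, heu', smul_zero, add_zero,
      Matrix.mulVec_zero] at h8
    have h9 : (z - z') 0 = 0 := (smul_eq_zero.mp h8).resolve_right hu0
    rw [h9, zero_smul, zero_add] at h7
    have h10 : (z - z') 1 = 0 := (smul_eq_zero.mp h7).resolve_right hu'0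
    funext i
    fin_cases i
    · exact sub_eq_zero.mp h9
    · exact sub_eq_zero.mp h10
  obtain ⟨S', hS'⟩ := Matrix.mulVec_injective_iff_isUnit.mp hinj
  refine ⟨S', ?_, ?_, ?_, ?_⟩
  · rw [hS']
    apply m2_mulVec_ext
    intro z
    rw [← Matrix.mulVec_mulVec, ← Matrix.mulVec_mulVec, hSv, m2_single_mulVec, hSv]
    simp [Matrix.mulVec_add, Matrix.mulVec_smul, heu, heu']
  · rw [hS']
    apply m2_mulVec_ext
    intro z
    rw [← Matrix.mulVec_mulVec, ← Matrix.mulVec_mulVec, hSv, m2_single_mulVec, hSv]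
    simp [Matrix.mulVec_add, Matrix.mulVec_smul, hau, hau']
  · rw [hS']
    apply m2_mulVec_ext
    intro z
    rw [← Matrix.mulVec_mulVec, ← Matrix.mulVec_mulVec, hSv, m2_single_mulVec, hSv]
    simp [Matrix.mulVec_add, Matrix.mulVec_smul, hbu', ← hu']
  · rw [hS']
    apply m2_mulVec_ext
    intro z
    rw [← Matrix.mulVec_mulVec, ← Matrix.mulVec_mulVec, hSv, m2_single_mulVec, hSv]
    simp [Matrix.mulVec_add, Matrix.mulVec_smul, Matrix.sub_mulVec, heu, heu']

theorem m2_decomp (Z : Matrix (Fin 2) (Fin 2) F) :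
    Z = Z 0 0 • Matrix.single 0 0 (1 : F) + Z 0 1 • Matrix.single 0 1 (1 : F) +
      Z 1 0 • Matrix.single 1 0 (1 : F) + Z 1 1 • Matrix.single 1 1 (1 : F) := by
  ext i j
  fin_cases i <;> fin_cases j <;> simp [Matrix.single_apply]

theorem m2_decomp_t (Z : Matrix (Fin 2) (Fin 2) F) :
    Zᵀ = Z 0 0 • Matrix.single 0 0 (1 : F) + Z 0 1 • Matrix.single 1 0 (1 : F) +
      Z 1 0 • Matrix.single 0 1 (1 : F) + Z 1 1 • Matrix.single 1 1 (1 : F) := by
  ext i j
  fin_cases i <;> fin_cases j <;> simp [Matrix.single_apply]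

/-- A linear map of the 2 x 2 matrix algebra that preserves the determinant and fixes the
identity is a conjugation, or a conjugation composed with the transpose. -/
theorem m2_det_preserver (T : Matrix (Fin 2) (Fin 2) F →ₗ[F] Matrix (Fin 2) (Fin 2) F)
    (hdet : ∀ Z, (T Z).det = Z.det) (h1 : T 1 = 1) :
    ∃ S : GL (Fin 2) F,
      (∀ Z, T Z = (S : Matrix (Fin 2) (Fin 2) F) * Z * ((S⁻¹ : GL (Fin 2) F) : Matrix (Fin 2) (Fin 2) F)) ∨
      (∀ Z, T Z = (S : Matrix (Fin 2) (Fin 2) F) * Zᵀ * ((S⁻¹ : GL (Fin 2) F) : Matrix (Fin 2) (Fin 2) F)) := by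
  classical
  have htr : ∀ Z, (T Z).trace = Z.trace := by
    intro Z
    have h2 := hdet (Z + 1)
    rw [map_add, h1, m2_det_add_one, m2_det_add_one, hdet] at h2
    linear_combination h2
  have hJ : ∀ Z, T (Z * Z) = T Z * T Z := by
    intro Z
    rw [m2_ch Z, m2_ch (T Z), map_sub, map_smul, map_smul, h1, htr, hdet]
  have hJ2 : ∀ X Y, T (X * Y + Y * X) = T X * T Y + T Y * T X := by
    intro X Y
    have h2 := hJ (X + Y)
    have h3 : (X + Y) * (X + Y) = X * X + (X * Y + Y * X) + Y * Y := by noncomm_ring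
    have h4 : (T X + T Y) * (T X + T Y) = T X * T X + (T X * T Y + T Y * T X) + T Y * T Y := by
      noncomm_ring
    rw [map_add T X Y, h4, h3, map_add, map_add, hJ X, hJ Y] at h2
    have h5 := add_right_cancel h2
    exact add_left_cancel h5
  obtain ⟨e, he⟩ : ∃ e, e = T (Matrix.single 0 0 1) := ⟨_, rfl⟩
  obtain ⟨n₁, hn₁⟩ : ∃ n₁, n₁ = T (Matrix.single 0 1 1) := ⟨_, rfl⟩
  obtain ⟨n₂, hn₂⟩ : ∃ n₂, n₂ = T (Matrix.single 1 0 1) := ⟨_, rfl⟩
  have he22 : T (Matrix.single 1 1 1) = 1 - e := by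
    have : (Matrix.single 1 1 1 : Matrix (Fin 2) (Fin 2) F) = 1 - Matrix.single 0 0 1 := by
      ext i j
      fin_cases i <;> fin_cases j <;> simp [Matrix.single_apply]
    rw [this, map_sub, h1, he]
  have hee : e * e = e := by
    rw [he, ← hJ, Matrix.single_mul_single_same, mul_one]
  have het : e.trace = 1 := by
    rw [he, htr]
    simp [Matrix.trace, Fin.sum_univ_two, Matrix.single_apply]
  have hene : e ≠ 0 := by
    intro h
    rw [h, Matrix.trace_zero] at het
    exact zero_ne_one het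
  have r2a : e * n₁ + n₁ * e = n₁ := by
    rw [he, hn₁, ← hJ2, Matrix.single_mul_single_same,
      Matrix.single_mul_single_of_ne (h := by decide), add_zero, mul_one]
  have r2b : e * n₂ + n₂ * e = n₂ := by
    rw [he, hn₂, ← hJ2, Matrix.single_mul_single_same,
      Matrix.single_mul_single_of_ne (h := by decide), zero_add, mul_one]
  have r3a : n₁ * n₁ = 0 := by
    rw [hn₁, ← hJ, Matrix.single_mul_single_of_ne (h := by decide), map_zero]
  have r3b : n₂ * n₂ = 0 := by
    rw [hn₂, ← hJ, Matrix.single_mul_single_of_ne (h := by decide), map_zero]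
  have r4 : n₁ * n₂ + n₂ * n₁ = 1 := by
    rw [hn₁, hn₂, ← hJ2, Matrix.single_mul_single_same, Matrix.single_mul_single_same, mul_one,
      map_add, he22, ← he]
    abel
  have hTZ : ∀ Z, T Z = Z 0 0 • e + Z 0 1 • n₁ + Z 1 0 • n₂ + Z 1 1 • (1 - e) := by
    intro Z
    conv_lhs => rw [m2_decomp Z]
    rw [map_add, map_add, map_add, map_smul, map_smul, map_smul, map_smul, ← he, ← hn₁, ← hn₂,
      he22]
  rcases m2_dich e n₁ hee het r2a r3a with ha | ha
  · -- `e n₁ = 0`, `n₁ e = n₁`: the transposed case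
    have ha' : n₁ * e = n₁ := by rw [ha, zero_add] at r2a; exact r2a
    have hb : n₂ * e = 0 := by
      rcases m2_dich e n₂ hee het r2b r3b with hb | hb
      · exfalso
        have hb' : n₂ * e = n₂ := by rw [hb, zero_add] at r2b; exact r2b
        have h2 : n₁ * n₂ = 0 := by
          calc n₁ * n₂ = (n₁ * e) * n₂ := by rw [ha']
            _ = n₁ * (e * n₂) := by rw [mul_assoc]
            _ = 0 := by rw [hb, mul_zero]
        have h3 : n₂ * n₁ = 0 := by
          calc n₂ * n₁ = (n₂ * e) * n₁ := by rw [hb']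
            _ = n₂ * (e * n₁) := by rw [mul_assoc]
            _ = 0 := by rw [ha, mul_zero]
        rw [h2, h3, add_zero] at r4
        exact zero_ne_one r4
      · exact hb
    have hb' : e * n₂ = n₂ := by rw [hb, add_zero] at r2b; exact r2b
    have h5 : n₂ * n₁ = e := by
      have h6 : e * (n₁ * n₂ + n₂ * n₁) = e := by rw [r4, mul_one]
      rw [mul_add, ← mul_assoc, ha, zero_mul, zero_add, ← mul_assoc, hb'] at h6
      exact h6
    have h6 : n₁ * n₂ = 1 - e := by rw [← h5, ← r4]; abel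
    obtain ⟨S, s1, s2, s3, s4⟩ := m2_frame e n₂ n₁ hee hene hb' hb ha ha' h5 h6
    refine ⟨S, Or.inr (fun Z => ?_)⟩
    have h7 : T Z * (S : Matrix (Fin 2) (Fin 2) F) = (S : Matrix (Fin 2) (Fin 2) F) * Zᵀ := by
      rw [hTZ, m2_decomp_t Z]
      simp only [add_mul, mul_add, Matrix.smul_mul, Matrix.mul_smul, s1, s2, s3, s4]
    rw [← h7, mul_assoc, ← Units.val_mul, mul_inv_cancel, Units.val_one, mul_one]
  · -- `n₁ e = 0`, `e n₁ = n₁`
    have ha' : e * n₁ = n₁ := by rw [ha, add_zero] at r2a; exact r2a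
    have hb : e * n₂ = 0 := by
      rcases m2_dich e n₂ hee het r2b r3b with hb | hb
      · exact hb
      · exfalso
        have hb' : e * n₂ = n₂ := by rw [hb, add_zero] at r2b; exact r2b
        have h2 : n₁ * n₂ = 0 := by
          calc n₁ * n₂ = n₁ * (e * n₂) := by rw [hb']
            _ = (n₁ * e) * n₂ := by rw [mul_assoc]
            _ = 0 := by rw [ha, zero_mul]
        have h3 : n₂ * n₁ = 0 := by
          calc n₂ * n₁ = n₂ * (e * n₁) := by rw [ha']
            _ = (n₂ * e) * n₁ := by rw [mul_assoc]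
            _ = 0 := by rw [hb, zero_mul]
        rw [h2, h3, add_zero] at r4
        exact zero_ne_one r4
    have hb' : n₂ * e = n₂ := by rw [hb, zero_add] at r2b; exact r2b
    have h5 : n₁ * n₂ = e := by
      have h6 : e * (n₁ * n₂ + n₂ * n₁) = e := by rw [r4, mul_one]
      rw [mul_add, ← mul_assoc, ha', ← mul_assoc, hb, zero_mul, add_zero] at h6
      exact h6
    have h6 : n₂ * n₁ = 1 - e := by rw [← h5, ← r4]; abel
    obtain ⟨S, s1, s2, s3, s4⟩ := m2_frame e n₁ n₂ hee hene ha' ha hb hb' h5 h6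
    refine ⟨S, Or.inl (fun Z => ?_)⟩
    have h7 : T Z * (S : Matrix (Fin 2) (Fin 2) F) = (S : Matrix (Fin 2) (Fin 2) F) * Z := by
      rw [hTZ]
      conv_rhs => rw [m2_decomp Z]
      simp only [add_mul, mul_add, Matrix.smul_mul, Matrix.mul_smul, s1, s2, s3, s4]
    rw [← h7, mul_assoc, ← Units.val_mul, mul_inv_cancel, Units.val_one, mul_one]

end Cfsg.Agent.Helper96.Sy
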