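-- helper96 library: hyperbolic bases of four-dimensional symmetric forms of plus type and the
-- structure of their similarities.
import Cfsg.Agent.Helper96.SpW2
import Cfsg.Agent.Helper96.SpW3
import Cfsg.Agent.Helper96.SpT2b

set_option autoImplicit false
set_option linter.unusedSectionVars false
set_option linter.unusedVariables false
open Cfsg Cfsg.Geo Matrix

namespace Cfsg.Agent.Helper96.Sy

variable {F : Type*} [Field F]

theorem bl_neg_left {n : ℕ} {f : (Fin n → F) → (Fin n → F) → F} (hf : IsBilinearForm f)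
    (x v : Fin n → F) : f (-x) v = - f x v := by
  have : -x = (-1 : F) • x := by rw [neg_smul, one_smul]
  rw [this, hf.smul_left, neg_one_mul]

theorem bl_neg_right {n : ℕ} {f : (Fin n → F) → (Fin n → F) → F} (hf : IsBilinearForm f)
    (v x : Fin n → F) : f v (-x) = - f v x := by
  have : -x = (-1 : F) • x := by rw [neg_smul, one_smul]
  rw [this, hf.smul_right, neg_one_mul]

theorem bl_sub_left {n : ℕ} {f : (Fin n → F) → (Fin n → F) → F} (hf : IsBilinearForm f)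
    (x y v : Fin n → F) : f (x - y) v = f x v - f y v := by
  rw [sub_eq_add_neg, hf.add_left, bl_neg_left hf, sub_eq_add_neg]

theorem bl_sub_right {n : ℕ} {f : (Fin n → F) → (Fin n → F) → F} (hf : IsBilinearForm f)
    (v x y : Fin n → F) : f v (x - y) = f v x - f v y := by
  rw [sub_eq_add_neg, hf.add_right, bl_neg_right hf, sub_eq_add_neg]

/-- Completing an isotropic vector to a hyperbolic pair. -/
theorem iso_adjust {n : ℕ} (h2 : (2 : F) ≠ 0) {f : (Fin n → F) → (Fin n → F) → F}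
    (hf : IsSymmetricForm f) {u y : Fin n → F} (hu : f u u = 0) (huy : f u y ≠ 0) :
    ∃ v, f v v = 0 ∧ f u v = 1 ∧ ∀ z, f u z = 0 → f y z = 0 → f v z = 0 := by
  have hb := hf.bilinear
  obtain ⟨y₁, hy₁⟩ : ∃ y₁, y₁ = (f u y)⁻¹ • y := ⟨_, rfl⟩
  have h1 : f u y₁ = 1 := by rw [hy₁, hb.smul_right, inv_mul_cancel₀ huy]
  refine ⟨y₁ - (f y₁ y₁ / 2) • u, ?_, ?_, ?_⟩
  · rw [bl_sub_left hb, bl_sub_right hb, bl_sub_right hb, hb.smul_left, hb.smul_left,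
      hb.smul_right, hb.smul_right, hu, hf.symm y₁ u, h1]
    field_simp
    ring
  · rw [bl_sub_right hb, hb.smul_right, hu, h1, mul_zero, sub_zero]
  · intro z hz hyz
    rw [bl_sub_left hb, hb.smul_left, hz, hy₁, hb.smul_left, hyz, mul_zero, mul_zero, sub_zero]

/-- A hyperbolic basis of a symmetric form of plus type in dimension four. -/
theorem hyp_basis4 (h2 : (2 : F) ≠ 0) {f₂ : (Fin 4 → F) → (Fin 4 → F) → F}
    (hf₂ : IsSymmetricForm f₂) (hplus : IsPlusTypeOn (fun v => f₂ v v) ⊤) :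
    ∃ u₁ v₁ u₂ v₂ : Fin 4 → F, f₂ u₁ u₁ = 0 ∧ f₂ v₁ v₁ = 0 ∧ f₂ u₂ u₂ = 0 ∧ f₂ v₂ v₂ = 0 ∧
      f₂ u₁ v₁ = 1 ∧ f₂ u₂ v₂ = 1 ∧ f₂ u₁ u₂ = 0 ∧ f₂ u₁ v₂ = 0 ∧ f₂ v₁ u₂ = 0 ∧
      f₂ v₁ v₂ = 0 := by
  classical
  have hb := hf₂.bilinear
  obtain ⟨U, -, hU', hdim⟩ := hplus
  have hU : ∀ w ∈ U, f₂ w w = 0 := hU'
  have hdim2 : Module.finrank F U = 2 := by
    rw [finrank_top, Module.finrank_fintype_fun_eq_card, Fintype.card_fin] at hdim
    omega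
  have hUU : ∀ x ∈ U, ∀ y ∈ U, f₂ x y = 0 := by
    intro x hx y hy
    have h1 : f₂ (x + y) (x + y) = 0 := hU _ (U.add_mem hx hy)
    rw [hb.add_left, hb.add_right, hb.add_right, hU x hx, hU y hy, hf₂.symm y x] at h1
    have h3 : (2 : F) * f₂ x y = 0 := by linear_combination h1
    exact (mul_eq_zero.mp h3).resolve_left h2
  have hUbot : U ≠ ⊥ := by
    intro h
    rw [h, finrank_bot] at hdim2
    omega
  obtain ⟨u₁, hu₁U, hu₁0⟩ := (Submodule.ne_bot_iff U).mp hUbot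
  obtain ⟨-, ⟨y, hy⟩⟩ := hf₂.nondegenerate u₁ hu₁0
  obtain ⟨v₁, hv₁v₁, hu₁v₁, hv₁z⟩ := iso_adjust h2 hf₂ (hU u₁ hu₁U) hy
  obtain ⟨u', hu'U, hu'⟩ : ∃ u' ∈ U, u' ∉ Submodule.span F {u₁} := by
    by_contra hcon
    push Not at hcon
    have hle : U ≤ Submodule.span F {u₁} := fun x hx => hcon x hx
    have h1 := Submodule.finrank_mono hle
    rw [hdim2, finrank_span_singleton hu₁0] at h1
    omega
  obtain ⟨u₂, hu₂⟩ : ∃ u₂, u₂ = u' - (f₂ u' v₁) • u₁ := ⟨_, rfl⟩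
  have hu₂U : u₂ ∈ U := by
    rw [hu₂]
    exact U.sub_mem hu'U (U.smul_mem _ hu₁U)
  have hu₂0 : u₂ ≠ 0 := by
    intro h
    apply hu'
    rw [hu₂, sub_eq_zero] at h
    rw [h]
    exact Submodule.smul_mem _ _ (Submodule.mem_span_singleton_self u₁)
  have hu₂v₁ : f₂ u₂ v₁ = 0 := by
    rw [hu₂, bl_sub_left hb, hb.smul_left, hu₁v₁, mul_one, sub_self]
  obtain ⟨-, ⟨y', hy'⟩⟩ := hf₂.nondegenerate u₂ hu₂0
  obtain ⟨y'', hy''⟩ : ∃ y'', y'' = y' - (f₂ y' v₁) • u₁ - (f₂ y' u₁) • v₁ := ⟨_, rfl⟩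
  have hu₂u₁ : f₂ u₂ u₁ = 0 := hUU u₂ hu₂U u₁ hu₁U
  have h1 : f₂ u₂ y'' = f₂ u₂ y' := by
    rw [hy'', bl_sub_right hb, bl_sub_right hb, hb.smul_right, hb.smul_right, hu₂u₁, hu₂v₁,
      mul_zero, mul_zero, sub_zero, sub_zero]
  have h3 : f₂ y'' u₁ = 0 := by
    rw [hy'', bl_sub_left hb, bl_sub_left hb, hb.smul_left, hb.smul_left, hU u₁ hu₁U,
      hf₂.symm v₁ u₁, hu₁v₁]
    ring
  have h4 : f₂ y'' v₁ = 0 := by
    rw [hy'', bl_sub_left hb, bl_sub_left hb, hb.smul_left, hb.smul_left, hu₁v₁, hv₁v₁]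
    ring
  obtain ⟨v₂, hv₂v₂, hu₂v₂, hv₂z⟩ := iso_adjust h2 hf₂ (hU u₂ hu₂U) (by rw [h1]; exact hy')
  refine ⟨u₁, v₁, u₂, v₂, hU u₁ hu₁U, hv₁v₁, hU u₂ hu₂U, hv₂v₂, hu₁v₁, hu₂v₂,
    hUU u₁ hu₁U u₂ hu₂U, ?_, ?_, ?_⟩
  · rw [hf₂.symm]
    exact hv₂z u₁ hu₂u₁ h3
  · rw [hf₂.symm]
    exact hu₂v₁
  · rw [hf₂.symm]
    exact hv₂z v₁ hu₂v₁ h4

/-- The frame of a hyperbolic basis, indexed by pairs. -/
def hypW (u₁ v₁ u₂ v₂ : Fin 4 → F) : Fin 2 → Fin 2 → (Fin 4 → F) := ![![u₁, u₂], ![-v₂, v₁]]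

theorem hypW_form {f₂ : (Fin 4 → F) → (Fin 4 → F) → F} (hf₂ : IsSymmetricForm f₂)
    {u₁ v₁ u₂ v₂ : Fin 4 → F} (h1 : f₂ u₁ u₁ = 0) (h2 : f₂ v₁ v₁ = 0) (h3 : f₂ u₂ u₂ = 0)
    (h4 : f₂ v₂ v₂ = 0) (h5 : f₂ u₁ v₁ = 1) (h6 : f₂ u₂ v₂ = 1) (h7 : f₂ u₁ u₂ = 0)
    (h8 : f₂ u₁ v₂ = 0) (h9 : f₂ v₁ u₂ = 0) (h10 : f₂ v₁ v₂ = 0) (b c b' c' : Fin 2) :
    f₂ (hypW u₁ v₁ u₂ v₂ b c) (hypW u₁ v₁ u₂ v₂ b' c') =
      Helper96.J2 F b b' * Helper96.J2 F c c' := by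
  have hb := hf₂.bilinear
  have h5' : f₂ v₁ u₁ = 1 := by rw [hf₂.symm]; exact h5
  have h6' : f₂ v₂ u₂ = 1 := by rw [hf₂.symm]; exact h6
  have h7' : f₂ u₂ u₁ = 0 := by rw [hf₂.symm]; exact h7
  have h8' : f₂ v₂ u₁ = 0 := by rw [hf₂.symm]; exact h8
  have h9' : f₂ u₂ v₁ = 0 := by rw [hf₂.symm]; exact h9
  have h10' : f₂ v₂ v₁ = 0 := by rw [hf₂.symm]; exact h10
  fin_cases b <;> fin_cases c <;> fin_cases b' <;> fin_cases c' <;>
    simp [hypW, Helper96.J2, bl_neg_left hb, bl_neg_right hb, h1, h2, h3, h4, h5, h6, h7, h8, h9,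
      h10, h5', h6', h7', h8', h9', h10']

/-- The coordinate map of a frame indexed by pairs. -/
def omegaL (w : Fin 2 → Fin 2 → (Fin 4 → F)) : Matrix (Fin 2) (Fin 2) F →ₗ[F] (Fin 4 → F) where
  toFun Z := ∑ b, ∑ c, Z b c • w b c
  map_add' Z Z' := by simp [add_smul, Finset.sum_add_distrib]
  map_smul' a Z := by simp [Finset.smul_sum, smul_smul]

theorem omegaL_apply (w : Fin 2 → Fin 2 → (Fin 4 → F)) (Z : Matrix (Fin 2) (Fin 2) F) :
    omegaL w Z = ∑ b, ∑ c, Z b c • w b c := rfl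

theorem omegaL_single (w : Fin 2 → Fin 2 → (Fin 4 → F)) (β γ : Fin 2) :
    omegaL w (Matrix.single β γ 1) = w β γ := by
  rw [omegaL_apply]
  fin_cases β <;> fin_cases γ <;> simp [Fin.sum_univ_two, Matrix.single_apply]

theorem omegaL_form {f₂ : (Fin 4 → F) → (Fin 4 → F) → F} (hf₂ : IsBilinearForm f₂)
    (w : Fin 2 → Fin 2 → (Fin 4 → F))
    (hw : ∀ b c b' c', f₂ (w b c) (w b' c') = Helper96.J2 F b b' * Helper96.J2 F c c')
    (Z Z' : Matrix (Fin 2) (Fin 2) F) :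
    f₂ (omegaL w Z) (omegaL w Z') =
      Z 0 0 * Z' 1 1 + Z 1 1 * Z' 0 0 - Z 0 1 * Z' 1 0 - Z 1 0 * Z' 0 1 := by
  have j00 : Helper96.J2 F 0 0 = 0 := by simp [Helper96.J2]
  have j01 : Helper96.J2 F 0 1 = 1 := by simp [Helper96.J2]
  have j10 : Helper96.J2 F 1 0 = -1 := by simp [Helper96.J2]
  have j11 : Helper96.J2 F 1 1 = 0 := by simp [Helper96.J2]
  rw [omegaL_apply, omegaL_apply]
  simp only [Fin.sum_univ_two, hf₂.add_left, hf₂.add_right, hf₂.smul_left, hf₂.smul_right, hw,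
    j00, j01, j10, j11]
  ring

/-- Similarities of a four-dimensional symmetric form of plus type are tensor products of two
2 x 2 matrices, possibly composed with the exchange of the two factors. -/
theorem go4_structure (h2 : (2 : F) ≠ 0) {f₂ : (Fin 4 → F) → (Fin 4 → F) → F}
    (hf₂ : IsBilinearForm f₂) (w : Fin 2 → Fin 2 → (Fin 4 → F))
    (hw : ∀ b c b' c', f₂ (w b c) (w b' c') = Helper96.J2 F b b' * Helper96.J2 F c c')
    (B : Matrix (Fin 4) (Fin 4) F) (μ : F) (hμ : μ ≠ 0)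
    (hB : ∀ v v', f₂ (B *ᵥ v) (B *ᵥ v') = μ * f₂ v v') :
    ∃ X Y : GL (Fin 2) F,
      (∀ β γ, B *ᵥ w β γ = ∑ b, ∑ c, ((X : Matrix (Fin 2) (Fin 2) F) b β *
        (Y : Matrix (Fin 2) (Fin 2) F) c γ) • w b c) ∨
      (∀ β γ, B *ᵥ w β γ = ∑ b, ∑ c, ((X : Matrix (Fin 2) (Fin 2) F) b γ *
        (Y : Matrix (Fin 2) (Fin 2) F) c β) • w b c) := by
  classical
  have hform := omegaL_form hf₂ w hw
  have hdetf : ∀ Z, f₂ (omegaL w Z) (omegaL w Z) = 2 * Z.det := by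
    intro Z
    rw [hform, Matrix.det_fin_two]
    ring
  have hinj : Function.Injective (omegaL w) := by
    rw [← LinearMap.ker_eq_bot, LinearMap.ker_eq_bot']
    intro Z hZ
    have hs := Helper97.Gen.isSesq_of_bilinear hf₂
    have e00 := hform Z (Matrix.single 1 1 1)
    have e11 := hform Z (Matrix.single 0 0 1)
    have e01 := hform Z (Matrix.single 1 0 1)
    have e10 := hform Z (Matrix.single 0 1 1)
    rw [hZ, hs.zero_left] at e00 e11 e01 e10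
    simp [Matrix.single_apply] at e00 e11 e01 e10
    ext i j
    fin_cases i <;> fin_cases j
    · exact e00.symm
    · exact e01
    · exact e10
    · exact e11.symm
  have hfr : Module.finrank F (Matrix (Fin 2) (Fin 2) F) = Module.finrank F (Fin 4 → F) := by
    rw [Module.finrank_matrix, Module.finrank_fintype_fun_eq_card]
    simp
  obtain ⟨Ω, hΩ⟩ : ∃ Ω : Matrix (Fin 2) (Fin 2) F ≃ₗ[F] (Fin 4 → F), ∀ Z, Ω Z = omegaL w Z :=
    ⟨LinearMap.linearEquivOfInjective (omegaL w) hinj hfr,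
      fun Z => LinearMap.linearEquivOfInjective_apply _ _ _⟩
  obtain ⟨T₀, hT₀⟩ : ∃ T₀ : Matrix (Fin 2) (Fin 2) F →ₗ[F] Matrix (Fin 2) (Fin 2) F,
      ∀ Z, omegaL w (T₀ Z) = B *ᵥ omegaL w Z := by
    refine ⟨Ω.symm.toLinearMap ∘ₗ Matrix.toLin' B ∘ₗ omegaL w, fun Z => ?_⟩
    rw [← hΩ]
    simp [Matrix.toLin'_apply]
  have hdet₀ : ∀ Z, (T₀ Z).det = μ * Z.det := by
    intro Z
    have h3 := hdetf (T₀ Z)
    rw [hT₀, hB, hdetf] at h3
    have h4 : (2 : F) * (T₀ Z).det = 2 * (μ * Z.det) := by linear_combination -h3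
    exact mul_left_cancel₀ h2 h4
  obtain ⟨M₀, hM₀⟩ : ∃ M₀, M₀ = T₀ 1 := ⟨_, rfl⟩
  have hM₀det : M₀.det = μ := by rw [hM₀, hdet₀, Matrix.det_one, mul_one]
  have hM₀u : IsUnit M₀.det := by rw [hM₀det]; exact isUnit_iff_ne_zero.mpr hμ
  obtain ⟨T', hT'⟩ : ∃ T' : Matrix (Fin 2) (Fin 2) F →ₗ[F] Matrix (Fin 2) (Fin 2) F,
      ∀ Z, T' Z = M₀⁻¹ * T₀ Z :=
    ⟨LinearMap.mulLeft F M₀⁻¹ ∘ₗ T₀, fun Z => rfl⟩
  have hT'det : ∀ Z, (T' Z).det = Z.det := by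
    intro Z
    have h3 : M₀.det * (T' Z).det = μ * Z.det := by
      rw [← Matrix.det_mul, hT', ← mul_assoc, Matrix.mul_nonsing_inv M₀ hM₀u, one_mul, hdet₀]
    rw [hM₀det] at h3
    exact mul_left_cancel₀ hμ h3
  have hT'1 : T' 1 = 1 := by rw [hT', ← hM₀, Matrix.nonsing_inv_mul M₀ hM₀u]
  have hback : ∀ Z, T₀ Z = M₀ * T' Z := by
    intro Z
    rw [hT', ← mul_assoc, Matrix.mul_nonsing_inv M₀ hM₀u, one_mul]
  obtain ⟨S, hS⟩ := m2_det_preserver T' hT'det hT'1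
  have hXdet : (M₀ * (S : Matrix (Fin 2) (Fin 2) F)).det ≠ 0 := by
    rw [Matrix.det_mul, hM₀det]
    exact mul_ne_zero hμ (Matrix.isUnits_det_units S).ne_zero
  have hYdet : (((S⁻¹ : GL (Fin 2) F) : Matrix (Fin 2) (Fin 2) F)ᵀ).det ≠ 0 := by
    rw [Matrix.det_transpose]
    exact (Matrix.isUnits_det_units S⁻¹).ne_zero
  refine ⟨Matrix.GeneralLinearGroup.mkOfDetNeZero _ hXdet,
    Matrix.GeneralLinearGroup.mkOfDetNeZero _ hYdet, ?_⟩
  have hentry : ∀ (X Y : Matrix (Fin 2) (Fin 2) F) (β γ b c : Fin 2),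
      (X * Matrix.single β γ (1 : F) * Yᵀ) b c = X b β * Y c γ := by
    intro X Y β γ b c
    fin_cases β <;> fin_cases γ <;> fin_cases b <;> fin_cases c <;>
      simp [Matrix.mul_apply, Fin.sum_univ_two, Matrix.single_apply]
  rcases hS with hS | hS
  · left
    intro β γ
    rw [← omegaL_single w β γ, ← hT₀, hback, hS, omegaL_apply]
    refine Finset.sum_congr rfl (fun b _ => Finset.sum_congr rfl (fun c _ => ?_))
    congr 1
    rw [← mul_assoc, ← mul_assoc]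
    exact hentry _ _ β γ b c
  · right
    intro β γ
    rw [← omegaL_single w β γ, ← hT₀, hback, hS, omegaL_apply]
    refine Finset.sum_congr rfl (fun b _ => Finset.sum_congr rfl (fun c _ => ?_))
    congr 1
    rw [Matrix.transpose_single, ← mul_assoc, ← mul_assoc]
    exact hentry _ _ γ β b c

end Cfsg.Agent.Helper96.Sy
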