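-- helper96 library: a tensor decomposition of a symplectic form into a form on a plane and a
-- symmetric form of plus type in dimension four refines to a tensor cube.
import Cfsg.Agent.Helper96.SpW4
import Cfsg.Agent.Helper96.SpT2a
import Cfsg.Agent.Helper96.TensorPower

set_option autoImplicit false
set_option linter.unusedSectionVars false
set_option linter.unusedVariables false
open Cfsg Cfsg.Geo Matrix
open scoped Kronecker

namespace Cfsg.Agent.Helper96.Sy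

variable {F : Type*} [Field F] {m : ℕ}

/-- Triples as functions on `Fin 3`. -/
def eps3 : Fin 2 × Fin 2 × Fin 2 ≃ (Fin 3 → Fin 2) where
  toFun p := ![p.1, p.2.1, p.2.2]
  invFun y := (y 0, y 1, y 2)
  left_inv p := by simp
  right_inv y := by
    funext i
    fin_cases i <;> simp

/-- A fixed bijection of index sets. -/
def delta3 : Fin 2 × Fin 4 ≃ (Fin 3 → Fin 2) :=
  (Equiv.prodCongr (Equiv.refl (Fin 2)) finProdFinEquiv.symm).trans eps3

/-- The coordinate matrix of the tensor cube refining a tensor product. -/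
def cubeC (w : Fin 2 → Fin 2 → (Fin 4 → F)) : Matrix (Fin 2 × Fin 4) (Fin 3 → Fin 2) F :=
  Matrix.of fun p y => (Pi.single (y 0) (1 : F) : Fin 2 → F) p.1 * w (y 1) (y 2) p.2

theorem cubeC_apply (w : Fin 2 → Fin 2 → (Fin 4 → F)) (p : Fin 2 × Fin 4) (y : Fin 3 → Fin 2) :
    cubeC w p y = (Pi.single (y 0) (1 : F) : Fin 2 → F) p.1 * w (y 1) (y 2) p.2 := rfl

theorem cubeC_mulVec (w : Fin 2 → Fin 2 → (Fin 4 → F)) (x : (Fin 3 → Fin 2) → F) :
    cubeC w *ᵥ x = ∑ y, x y • ptL (w (y 1) (y 2)) (Pi.single (y 0) (1 : F)) := by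
  funext p
  simp only [Matrix.mulVec, dotProduct, cubeC_apply, Finset.sum_apply, Pi.smul_apply, ptL_apply,
    smul_eq_mul]
  exact Finset.sum_congr rfl (fun y _ => by ring)

theorem gram_two {f₁ : (Fin 2 → F) → (Fin 2 → F) → F} (hf₁ : IsSymplecticForm f₁) (i j : Fin 2) :
    gramMatrix f₁ i j = gramMatrix f₁ 0 1 * Helper96.J2 F i j := by
  fin_cases i <;> fin_cases j
  · simp [gramMatrix, Helper96.J2, hf₁.alternating]
  · simp [gramMatrix, Helper96.J2]
  · have := hf₁.skew (Pi.single 1 1) (Pi.single 0 1)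
    simp [gramMatrix, Helper96.J2, this]
  · simp [gramMatrix, Helper96.J2, hf₁.alternating]

theorem gram_two_ne {f₁ : (Fin 2 → F) → (Fin 2 → F) → F} (hf₁ : IsSymplecticForm f₁) :
    gramMatrix f₁ 0 1 ≠ 0 := by
  intro h
  obtain ⟨u, u', huu⟩ := exists_ne_form (by norm_num) hf₁.nondegenerate
  apply huu
  rw [bil_eq_sum hf₁.bilinear]
  refine Finset.sum_eq_zero (fun i _ => Finset.sum_eq_zero (fun j _ => ?_))
  rw [gram_two hf₁, h, zero_mul, mul_zero, zero_mul]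

theorem cube_form {e : (Fin m ⊕ Fin m) ≃ Fin 2 × Fin 4} {P : GL (Fin m ⊕ Fin m) F}
    {f₁ : (Fin 2 → F) → (Fin 2 → F) → F} {f₂ : (Fin 4 → F) → (Fin 4 → F) → F}
    (hf₁ : IsSymplecticForm f₁) (hf₂ : IsBilinearForm f₂) {c : F}
    (hT : ∀ x y : Fin 2 × Fin 4 → F,
      sympForm m F ((P : Matrix (Fin m ⊕ Fin m) (Fin m ⊕ Fin m) F) *ᵥ (x ∘ e))
        ((P : Matrix (Fin m ⊕ Fin m) (Fin m ⊕ Fin m) F) *ᵥ (y ∘ e)) =
        c * formOfGram id (gramMatrix f₁ ⊗ₖ gramMatrix f₂) x y)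
    (w : Fin 2 → Fin 2 → (Fin 4 → F))
    (hw : ∀ b c b' c', f₂ (w b c) (w b' c') = Helper96.J2 F b b' * Helper96.J2 F c c')
    (x y : (Fin 3 → Fin 2) → F) :
    sympForm m F (phiL e P (cubeC w *ᵥ x)) (phiL e P (cubeC w *ᵥ y)) =
      (c / (gramMatrix f₁ 0 1 * gramMatrix f₁ 0 1)) *
        ∑ a, ∑ b, x a * (∏ i, gramMatrix f₁ (a i) (b i)) * id (y b) := by
  have hg := gram_two_ne hf₁
  have hkey := tensor_key e P hf₁.bilinear hf₂ hT
  rw [cubeC_mulVec, cubeC_mulVec, map_sum, map_sum, Helper94.sf_sum_left, Finset.mul_sum]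
  refine Finset.sum_congr rfl (fun a _ => ?_)
  rw [Helper94.sf_sum_right, Finset.mul_sum]
  refine Finset.sum_congr rfl (fun b _ => ?_)
  rw [map_smul, map_smul, Helper94.sf_smul_left, Helper94.sf_smul_right, hkey, hw,
    Fin.prod_univ_three, gram_two hf₁ (a 1) (b 1), gram_two hf₁ (a 2) (b 2)]
  have : f₁ (Pi.single (a 0) 1) (Pi.single (b 0) 1) = gramMatrix f₁ (a 0) (b 0) := rfl
  rw [this, id]
  field_simp

theorem gram_two_off {f₁ : (Fin 2 → F) → (Fin 2 → F) → F} (hf₁ : IsSymplecticForm f₁) {k l : Fin 2}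
    (h : k ≠ l) : gramMatrix f₁ k l ≠ 0 := by
  rw [gram_two hf₁]
  refine mul_ne_zero (gram_two_ne hf₁) ?_
  fin_cases k <;> fin_cases l <;> simp [Helper96.J2] at h ⊢

theorem fin2_third : ∀ p q r : Fin 2, p ≠ r → q ≠ r → p = q := by decide

theorem cube_inj {e : (Fin m ⊕ Fin m) ≃ Fin 2 × Fin 4} {P : GL (Fin m ⊕ Fin m) F}
    {f₁ : (Fin 2 → F) → (Fin 2 → F) → F} {f₂ : (Fin 4 → F) → (Fin 4 → F) → F}
    (hf₁ : IsSymplecticForm f₁) (hf₂ : IsBilinearForm f₂) {c : F} (hc : c ≠ 0)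
    (hT : ∀ x y : Fin 2 × Fin 4 → F,
      sympForm m F ((P : Matrix (Fin m ⊕ Fin m) (Fin m ⊕ Fin m) F) *ᵥ (x ∘ e))
        ((P : Matrix (Fin m ⊕ Fin m) (Fin m ⊕ Fin m) F) *ᵥ (y ∘ e)) =
        c * formOfGram id (gramMatrix f₁ ⊗ₖ gramMatrix f₂) x y)
    (w : Fin 2 → Fin 2 → (Fin 4 → F))
    (hw : ∀ b c b' c', f₂ (w b c) (w b' c') = Helper96.J2 F b b' * Helper96.J2 F c c')
    (x : (Fin 3 → Fin 2) → F) (hx : cubeC w *ᵥ x = 0) : x = 0 := by
  classical
  have hg := gram_two_ne hf₁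
  funext a₀
  obtain ⟨b₀, hb₀⟩ : ∃ b₀ : Fin 3 → Fin 2, ∀ i, b₀ i ≠ a₀ i := by
    refine ⟨fun i => if a₀ i = 0 then 1 else 0, fun i => ?_⟩
    by_cases h : a₀ i = 0
    · simp [h]
    · simp only [if_neg h]
      exact fun h' => h h'.symm
  have h1 := cube_form hf₁ hf₂ hT w hw x (Pi.single b₀ 1)
  rw [hx, map_zero, Helper94.sf_zero_left] at h1
  have h2 : ∑ a, ∑ b, x a * (∏ i, gramMatrix f₁ (a i) (b i)) * id ((Pi.single b₀ (1 : F) :
      (Fin 3 → Fin 2) → F) b) = x a₀ * ∏ i, gramMatrix f₁ (a₀ i) (b₀ i) := by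
    rw [Finset.sum_eq_single a₀]
    · rw [Finset.sum_eq_single b₀]
      · rw [Pi.single_eq_same, id, mul_one]
      · intro b _ hb
        rw [Pi.single_eq_of_ne hb, id, mul_zero]
      · intro h; exact absurd (Finset.mem_univ _) h
    · intro a _ ha
      refine Finset.sum_eq_zero (fun b _ => ?_)
      by_cases hb : b = b₀
      · obtain ⟨i, hi⟩ : ∃ i, a i ≠ a₀ i := by
          by_contra hcon
          push Not at hcon
          exact ha (funext hcon)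
        have h3 : a i = b i := by rw [hb]; exact fin2_third _ _ _ hi (hb₀ i)
        have h4 : ∏ i, gramMatrix f₁ (a i) (b i) = 0 := by
          refine Finset.prod_eq_zero (Finset.mem_univ i) ?_
          rw [h3]
          exact hf₁.alternating _
        rw [h4, mul_zero, zero_mul]
      · rw [Pi.single_eq_of_ne hb, id, mul_zero]
    · intro h; exact absurd (Finset.mem_univ _) h
  rw [h2] at h1
  have h3 : ∏ i, gramMatrix f₁ (a₀ i) (b₀ i) ≠ 0 := by
    rw [Finset.prod_ne_zero_iff]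
    intro i _
    exact gram_two_off hf₁ (fun h => hb₀ i h.symm)
  have h4 : c / (gramMatrix f₁ 0 1 * gramMatrix f₁ 0 1) ≠ 0 := div_ne_zero hc (mul_ne_zero hg hg)
  rcases mul_eq_zero.mp h1.symm with h5 | h5
  · exact absurd h5 h4
  · exact (mul_eq_zero.mp h5).resolve_right h3

/-- The change of basis of the tensor cube. -/
theorem cube_basis {e : (Fin m ⊕ Fin m) ≃ Fin 2 × Fin 4} {P : GL (Fin m ⊕ Fin m) F}
    {f₁ : (Fin 2 → F) → (Fin 2 → F) → F} {f₂ : (Fin 4 → F) → (Fin 4 → F) → F}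
    (hf₁ : IsSymplecticForm f₁) (hf₂ : IsBilinearForm f₂) {c : F} (hc : c ≠ 0)
    (hT : ∀ x y : Fin 2 × Fin 4 → F,
      sympForm m F ((P : Matrix (Fin m ⊕ Fin m) (Fin m ⊕ Fin m) F) *ᵥ (x ∘ e))
        ((P : Matrix (Fin m ⊕ Fin m) (Fin m ⊕ Fin m) F) *ᵥ (y ∘ e)) =
        c * formOfGram id (gramMatrix f₁ ⊗ₖ gramMatrix f₂) x y)
    (w : Fin 2 → Fin 2 → (Fin 4 → F))
    (hw : ∀ b c b' c', f₂ (w b c) (w b' c') = Helper96.J2 F b b' * Helper96.J2 F c c') :
    ∃ P' : GL (Fin m ⊕ Fin m) F, ∀ x : (Fin 3 → Fin 2) → F,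
      (P' : Matrix (Fin m ⊕ Fin m) (Fin m ⊕ Fin m) F) *ᵥ (x ∘ (e.trans delta3)) =
        phiL e P (cubeC w *ᵥ x) := by
  classical
  have hinj : Function.Injective ((cubeC w).submatrix id delta3).mulVec := by
    intro z z' h
    have h1 : (cubeC w).submatrix id delta3 *ᵥ (z - z') = 0 := by
      rw [Matrix.mulVec_sub]
      exact sub_eq_zero.mpr h
    rw [Matrix.submatrix_mulVec_equiv] at h1
    have h2 := cube_inj hf₁ hf₂ hc hT w hw ((z - z') ∘ delta3.symm) h1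
    funext p
    have h3 := congrFun h2 (delta3 p)
    simp only [Function.comp_apply, Equiv.symm_apply_apply, Pi.sub_apply, Pi.zero_apply] at h3
    exact sub_eq_zero.mp h3
  obtain ⟨Cu, hCu⟩ := Matrix.mulVec_injective_iff_isUnit.mp hinj
  refine ⟨P * pg e Cu, fun x => ?_⟩
  have h1 : x ∘ (e.trans delta3) = (x ∘ delta3) ∘ e := rfl
  have h2 : (x ∘ delta3) ∘ delta3.symm = x := by
    funext z
    simp
  rw [h1, Units.val_mul, ← Matrix.mulVec_mulVec, pg_mulVec, hCu, Matrix.submatrix_mulVec_equiv,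
    phiL_apply, h2]
  rfl

theorem cube_col (w : Fin 2 → Fin 2 → (Fin 4 → F)) (y₀ : Fin 3 → Fin 2) :
    cubeC w *ᵥ Pi.single y₀ (1 : F) = ptL (w (y₀ 1) (y₀ 2)) (Pi.single (y₀ 0) (1 : F)) := by
  classical
  funext p
  rw [Matrix.mulVec_single_one, ptL_apply]
  rfl

theorem sum_eps3 {M : Type*} [AddCommMonoid M] (g : (Fin 3 → Fin 2) → M) :
    ∑ y, g y = ∑ a, ∑ b, ∑ c, g ![a, b, c] := by
  rw [← eps3.sum_comp, Fintype.sum_prod_type]
  refine Finset.sum_congr rfl (fun a _ => ?_)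
  rw [Fintype.sum_prod_type]
  rfl

end Cfsg.Agent.Helper96.Sy
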