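-- helper96 library: the stabiliser of a tensor decomposition (plane) x (plus-type 4-space) lies in
-- the stabiliser of a tensor cube, and is a proper subgroup of it.
import Cfsg.Agent.Helper96.SpW5

set_option autoImplicit false
set_option linter.unusedSectionVars false
set_option linter.unusedVariables false
open Cfsg Cfsg.Geo Matrix
open scoped Kronecker

namespace Cfsg.Agent.Helper96.Sy

variable {F : Type*} [Field F] {m : ℕ}

theorem cube_ptM_col (a X Y : Matrix (Fin 2) (Fin 2) F) (w : Fin 2 → Fin 2 → (Fin 4 → F))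
    (z₀ : Fin 3 → Fin 2) (α : Fin 2) (j : Fin 4) :
    (cubeC w *ᵥ (ptM ![a, X, Y] *ᵥ Pi.single z₀ (1 : F))) (α, j) =
      ∑ b', ∑ c', a α (z₀ 0) * (X b' (z₀ 1) * Y c' (z₀ 2) * w b' c' j) := by
  classical
  rw [cubeC_mulVec, Finset.sum_apply, sum_eps3]
  have hterm : ∀ a' b' c' : Fin 2,
      ((ptM ![a, X, Y] *ᵥ Pi.single z₀ (1 : F)) ![a', b', c'] •
        ptL (w (![a', b', c'] 1) (![a', b', c'] 2)) (Pi.single (![a', b', c'] 0) (1 : F)))
          (α, j) =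
        a a' (z₀ 0) * X b' (z₀ 1) * Y c' (z₀ 2) * ((Pi.single a' (1 : F) : Fin 2 → F) α * w b' c' j) := by
    intro a' b' c'
    rw [Pi.smul_apply, ptL_apply, Matrix.mulVec_single_one, smul_eq_mul]
    show ptM ![a, X, Y] ![a', b', c'] z₀ * _ = _
    rw [ptM_apply, Fin.prod_univ_three]
    rfl
  simp only [hterm]
  rw [Finset.sum_eq_single α]
  · refine Finset.sum_congr rfl (fun b' _ => Finset.sum_congr rfl (fun c' _ => ?_))
    rw [Pi.single_eq_same]
    ring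
  · intro a' _ ha'
    refine Finset.sum_eq_zero (fun b' _ => Finset.sum_eq_zero (fun c' _ => ?_))
    rw [Pi.single_eq_of_ne (Ne.symm ha'), zero_mul, mul_zero]
  · intro h; exact absurd (Finset.mem_univ _) h

theorem cube_kron_col (a : Matrix (Fin 2) (Fin 2) F) (b : Matrix (Fin 4) (Fin 4) F)
    (w : Fin 2 → Fin 2 → (Fin 4 → F)) (y₀ : Fin 3 → Fin 2) (α : Fin 2) (j : Fin 4) :
    ((a ⊗ₖ b) *ᵥ (cubeC w *ᵥ Pi.single y₀ (1 : F))) (α, j) =
      a α (y₀ 0) * (b *ᵥ w (y₀ 1) (y₀ 2)) j := by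
  classical
  rw [cube_col, kron_mulVec_pt, ptL_apply, Matrix.mulVec_single_one]
  rfl

theorem cube_kron (a : Matrix (Fin 2) (Fin 2) F) (b : Matrix (Fin 4) (Fin 4) F)
    (X Y : Matrix (Fin 2) (Fin 2) F) (w : Fin 2 → Fin 2 → (Fin 4 → F))
    (hB : ∀ β γ, b *ᵥ w β γ = ∑ b', ∑ c', (X b' β * Y c' γ) • w b' c') :
    (a ⊗ₖ b) * cubeC w = cubeC w * ptM ![a, X, Y] := by
  classical
  apply Matrix.ext_of_mulVec_single
  intro y₀
  rw [← Matrix.mulVec_mulVec, ← Matrix.mulVec_mulVec]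
  funext p
  obtain ⟨α, j⟩ := p
  rw [cube_kron_col, cube_ptM_col, hB]
  simp only [Finset.sum_apply, Pi.smul_apply, smul_eq_mul, Finset.mul_sum]

theorem fpM_mulVec {t d : ℕ} (σ : Equiv.Perm (Fin t)) (x : (Fin t → Fin d) → F)
    (y : Fin t → Fin d) : (fpM F d σ *ᵥ x) y = x (y ∘ σ) := by
  classical
  rw [Matrix.mulVec, dotProduct, Finset.sum_eq_single (y ∘ σ)]
  · rw [fpM_apply, if_pos rfl, one_mul]
  · intro z _ hz
    rw [fpM_apply, if_neg hz, zero_mul]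
  · intro h; exact absurd (Finset.mem_univ _) h

theorem fpM_mulVec_single {t d : ℕ} (σ : Equiv.Perm (Fin t)) (y₀ : Fin t → Fin d) :
    fpM F d σ *ᵥ Pi.single y₀ (1 : F) = Pi.single (y₀ ∘ σ.symm) (1 : F) := by
  classical
  funext y
  rw [fpM_mulVec]
  by_cases h : y = y₀ ∘ σ.symm
  · rw [h, Pi.single_eq_same]
    have : (y₀ ∘ σ.symm) ∘ σ = y₀ := by
      funext i
      simp
    rw [this, Pi.single_eq_same]
  · rw [Pi.single_eq_of_ne h, Pi.single_eq_of_ne]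
    intro h'
    apply h
    rw [← h']
    funext i
    simp

theorem cube_kron_swap (a : Matrix (Fin 2) (Fin 2) F) (b : Matrix (Fin 4) (Fin 4) F)
    (X Y : Matrix (Fin 2) (Fin 2) F) (w : Fin 2 → Fin 2 → (Fin 4 → F))
    (hB : ∀ β γ, b *ᵥ w β γ = ∑ b', ∑ c', (X b' γ * Y c' β) • w b' c') :
    (a ⊗ₖ b) * cubeC w = cubeC w * (ptM ![a, X, Y] * fpM F 2 (Equiv.swap 1 2)) := by
  classical
  apply Matrix.ext_of_mulVec_single
  intro y₀
  rw [← Matrix.mulVec_mulVec, ← Matrix.mulVec_mulVec, ← Matrix.mulVec_mulVec, fpM_mulVec_single]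
  funext p
  obtain ⟨α, j⟩ := p
  rw [cube_kron_col, cube_ptM_col, hB]
  have h0 : (y₀ ∘ (Equiv.swap (1 : Fin 3) 2).symm) 0 = y₀ 0 := by
    simp [Equiv.swap_apply_of_ne_of_ne]
  have h1 : (y₀ ∘ (Equiv.swap (1 : Fin 3) 2).symm) 1 = y₀ 2 := by simp
  have h2 : (y₀ ∘ (Equiv.swap (1 : Fin 3) 2).symm) 2 = y₀ 1 := by simp
  rw [h0, h1, h2]
  simp only [Finset.sum_apply, Pi.smul_apply, smul_eq_mul, Finset.mul_sum]

/-- The pure tensor of three invertible matrices. -/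
def ptGL3 (gs : Fin 3 → GL (Fin 2) F) : GL (Fin 3 → Fin 2) F where
  val := ptM (fun i => (gs i : Matrix (Fin 2) (Fin 2) F))
  inv := ptM (fun i => (((gs i)⁻¹ : GL (Fin 2) F) : Matrix (Fin 2) (Fin 2) F))
  val_inv := by
    rw [ptM_mul]
    simp only [← Units.val_mul, mul_inv_cancel, Units.val_one]
    exact ptM_one
  inv_val := by
    rw [ptM_mul]
    simp only [← Units.val_mul, inv_mul_cancel, Units.val_one]
    exact ptM_one

theorem ptGL3_mem (gs : Fin 3 → GL (Fin 2) F) : ptGL3 gs ∈ tensorWreathStandard 2 3 F :=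
  Subgroup.subset_closure (Or.inl ⟨gs, fun x y => rfl⟩)

/-- The permutation of the three tensor factors. -/
def fpGL3 (F : Type*) [Field F] (σ : Equiv.Perm (Fin 3)) : GL (Fin 3 → Fin 2) F where
  val := fpM F 2 σ
  inv := fpM F 2 σ.symm
  val_inv := fpM_mul_symm σ
  inv_val := fpM_symm_mul σ

theorem fpGL3_mem (σ : Equiv.Perm (Fin 3)) : fpGL3 F σ ∈ tensorWreathStandard 2 3 F :=
  Subgroup.subset_closure (Or.inr ⟨σ, fun x y => rfl⟩)

/-- An element acting on the cube coordinates as the matrix `S`. -/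
theorem cube_conj {e : (Fin m ⊕ Fin m) ≃ Fin 2 × Fin 4} {P P' : GL (Fin m ⊕ Fin m) F}
    (w : Fin 2 → Fin 2 → (Fin 4 → F))
    (hP' : ∀ x : (Fin 3 → Fin 2) → F,
      (P' : Matrix (Fin m ⊕ Fin m) (Fin m ⊕ Fin m) F) *ᵥ (x ∘ (e.trans delta3)) =
        phiL e P (cubeC w *ᵥ x))
    {h : GL (Fin m ⊕ Fin m) F} {k : Matrix (Fin 2 × Fin 4) (Fin 2 × Fin 4) F}
    (hh : (h : Matrix (Fin m ⊕ Fin m) (Fin m ⊕ Fin m) F) = Helper98.conjReindex e P k)
    (S : GL (Fin 3 → Fin 2) F)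
    (hks : k * cubeC w = cubeC w * (S : Matrix (Fin 3 → Fin 2) (Fin 3 → Fin 2) F)) :
    h = P' * pg (e.trans delta3) S * P'⁻¹ := by
  have h1 : h * P' = P' * pg (e.trans delta3) S := by
    apply Helper97.Gen.gl_ext
    intro v
    obtain ⟨x, rfl⟩ : ∃ x : (Fin 3 → Fin 2) → F, v = x ∘ (e.trans delta3) :=
      ⟨v ∘ (e.trans delta3).symm, by funext i; simp⟩
    rw [Units.val_mul, ← Matrix.mulVec_mulVec, hP', hh, conj_act, Matrix.mulVec_mulVec, hks,
      ← Matrix.mulVec_mulVec, ← hP', Units.val_mul, ← Matrix.mulVec_mulVec, pg_mulVec]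
  rw [← h1]
  group

theorem mem_wreath3 {e' : (Fin m ⊕ Fin m) ≃ (Fin 3 → Fin 2)} {P' : GL (Fin m ⊕ Fin m) F}
    {S : GL (Fin 3 → Fin 2) F} (hS : S ∈ tensorWreathStandard 2 3 F) :
    P' * pg e' S * P'⁻¹ ∈ tensorWreathSubgroup 2 3 e' P' :=
  ⟨glReindex e'.symm S, ⟨S, hS, rfl⟩, rfl⟩

/-- A tensor decomposition of the symplectic form into a plane and a four-dimensional symmetric
form of plus type refines to a tensor cube; the stabiliser of the decomposition lies in the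
stabiliser of the cube, which contains an isometry outside it. -/
theorem tensor_plus_cube (h2 : (2 : F) ≠ 0) (e : (Fin m ⊕ Fin m) ≃ Fin 2 × Fin 4)
    (P : GL (Fin m ⊕ Fin m) F) (f₁ : (Fin 2 → F) → (Fin 2 → F) → F)
    (f₂ : (Fin 4 → F) → (Fin 4 → F) → F) (hf₁ : IsSymplecticForm f₁) (hf₂ : IsSymmetricForm f₂)
    (hT : IsTensorFormStructure id (sympForm m F) f₁ f₂ e P)
    (hplus : IsPlusTypeOn (fun v => f₂ v v) ⊤) :
    ∃ (e' : (Fin m ⊕ Fin m) ≃ (Fin 3 → Fin 2)) (P' : GL (Fin m ⊕ Fin m) F),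
      IsTensorPowerFormStructure id (sympForm m F) f₁ e' P' ∧
      tensorProductSubgroup 2 4 e P ⊓ spGL m F ≤ tensorWreathSubgroup 2 3 e' P' ∧
      ∃ g, g ∈ tensorWreathSubgroup 2 3 e' P' ∧ g ∈ spGL m F ∧
        g ∉ tensorProductSubgroup 2 4 e P := by
  classical
  obtain ⟨c, hc, hT⟩ := hT
  obtain ⟨u₁, v₁, u₂, v₂, k1, k2, k3, k4, k5, k6, k7, k8, k9, k10⟩ := hyp_basis4 h2 hf₂ hplus
  obtain ⟨w, hwdef⟩ : ∃ w, w = hypW u₁ v₁ u₂ v₂ := ⟨_, rfl⟩
  have hw : ∀ b c b' c', f₂ (w b c) (w b' c') = Helper96.J2 F b b' * Helper96.J2 F c c' := by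
    rw [hwdef]
    exact hypW_form hf₂ k1 k2 k3 k4 k5 k6 k7 k8 k9 k10
  obtain ⟨P', hP'⟩ := cube_basis hf₁ hf₂.bilinear hc hT w hw
  have hg := gram_two_ne hf₁
  have hstruct : IsTensorPowerFormStructure id (sympForm m F) f₁ (e.trans delta3) P' :=
    ⟨c / (gramMatrix f₁ 0 1 * gramMatrix f₁ 0 1), div_ne_zero hc (mul_ne_zero hg hg),
      fun x y => by rw [hP', hP', cube_form hf₁ hf₂.bilinear hT w hw]⟩
  refine ⟨e.trans delta3, P', hstruct, ?_, ?_⟩
  · -- containment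
    rintro h ⟨hh1, hh2⟩
    obtain ⟨a, b, hab⟩ := Helper98.mem_tensorProductSubgroup hh1
    have hkey := tensor_key e P hf₁.bilinear hf₂.bilinear hT
    obtain ⟨μ, hμ, hsim⟩ := tensor_simil e P hc hkey
      (exists_ne_form (by norm_num) hf₁.nondegenerate)
      (exists_ne_form (by norm_num) hf₂.nondegenerate) hh2 hab
    obtain ⟨X, Y, hXY | hXY⟩ := go4_structure h2 hf₂.bilinear w hw
      (b : Matrix (Fin 4) (Fin 4) F) μ hμ hsim
    · have hks := cube_kron (a : Matrix (Fin 2) (Fin 2) F) (b : Matrix (Fin 4) (Fin 4) F)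
        (X : Matrix (Fin 2) (Fin 2) F) (Y : Matrix (Fin 2) (Fin 2) F) w hXY
      have hval : ((ptGL3 ![a, X, Y] : GL (Fin 3 → Fin 2) F) :
          Matrix (Fin 3 → Fin 2) (Fin 3 → Fin 2) F) =
          ptM ![(a : Matrix (Fin 2) (Fin 2) F), (X : Matrix (Fin 2) (Fin 2) F),
            (Y : Matrix (Fin 2) (Fin 2) F)] := by
        show ptM _ = ptM _
        congr 1
        funext i
        fin_cases i <;> rfl
      have heq := cube_conj w hP' hab (ptGL3 ![a, X, Y]) (by rw [hval]; exact hks)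
      rw [heq]
      exact mem_wreath3 (ptGL3_mem _)
    · have hks := cube_kron_swap (a : Matrix (Fin 2) (Fin 2) F) (b : Matrix (Fin 4) (Fin 4) F)
        (X : Matrix (Fin 2) (Fin 2) F) (Y : Matrix (Fin 2) (Fin 2) F) w hXY
      have hval : ((ptGL3 ![a, X, Y] * fpGL3 F (Equiv.swap 1 2) : GL (Fin 3 → Fin 2) F) :
          Matrix (Fin 3 → Fin 2) (Fin 3 → Fin 2) F) =
          ptM ![(a : Matrix (Fin 2) (Fin 2) F), (X : Matrix (Fin 2) (Fin 2) F),
            (Y : Matrix (Fin 2) (Fin 2) F)] * fpM F 2 (Equiv.swap 1 2) := by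
        rw [Units.val_mul]
        show ptM _ * fpM F 2 _ = ptM _ * _
        congr 2
        funext i
        fin_cases i <;> rfl
      have heq := cube_conj w hP' hab (ptGL3 ![a, X, Y] * fpGL3 F (Equiv.swap 1 2))
        (by rw [hval]; exact hks)
      rw [heq]
      exact mem_wreath3 (Subgroup.mul_mem _ (ptGL3_mem _) (fpGL3_mem _))
  · -- the cyclic permutation of the three factors
    obtain ⟨g, hgdef⟩ : ∃ g, g = P' * pg (e.trans delta3) (fpGL3 F (finRotate 3)) * P'⁻¹ :=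
      ⟨_, rfl⟩
    have hgv : ∀ x : (Fin 3 → Fin 2) → F,
        (g : Matrix (Fin m ⊕ Fin m) (Fin m ⊕ Fin m) F) *ᵥ
          ((P' : Matrix (Fin m ⊕ Fin m) (Fin m ⊕ Fin m) F) *ᵥ (x ∘ (e.trans delta3))) =
        (P' : Matrix (Fin m ⊕ Fin m) (Fin m ⊕ Fin m) F) *ᵥ
          ((fpM F 2 (finRotate 3) *ᵥ x) ∘ (e.trans delta3)) := by
      intro x
      rw [hgdef, Units.val_mul, Units.val_mul, ← Matrix.mulVec_mulVec, ← Matrix.mulVec_mulVec,
        Helper97.Gen.mulVec_inv_cancel, pg_mulVec]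
      rfl
    have hsurj : ∀ v : Fin m ⊕ Fin m → F, ∃ x : (Fin 3 → Fin 2) → F,
        v = (P' : Matrix (Fin m ⊕ Fin m) (Fin m ⊕ Fin m) F) *ᵥ (x ∘ (e.trans delta3)) := by
      intro v
      refine ⟨(((P'⁻¹ : GL (Fin m ⊕ Fin m) F) : Matrix (Fin m ⊕ Fin m) (Fin m ⊕ Fin m) F) *ᵥ v) ∘
        (e.trans delta3).symm, ?_⟩
      have : ((((P'⁻¹ : GL (Fin m ⊕ Fin m) F) : Matrix (Fin m ⊕ Fin m) (Fin m ⊕ Fin m) F) *ᵥ v) ∘
          (e.trans delta3).symm) ∘ (e.trans delta3) =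
          ((P'⁻¹ : GL (Fin m ⊕ Fin m) F) : Matrix (Fin m ⊕ Fin m) (Fin m ⊕ Fin m) F) *ᵥ v := by
        funext i
        simp
      rw [this, Helper97.Gen.mulVec_cancel_inv]
    refine ⟨g, ?_, ?_, ?_⟩
    · rw [hgdef]
      exact mem_wreath3 (fpGL3_mem _)
    · rw [Helper94.mem_spGL_iff]
      intro u v
      obtain ⟨x, rfl⟩ := hsurj u
      obtain ⟨y, rfl⟩ := hsurj v
      obtain ⟨c', hc', hform⟩ := hstruct
      rw [hgv, hgv, hform, hform]
      congr 1
      simp only [fpM_mulVec]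
      obtain ⟨ρ, hρ⟩ : ∃ ρ : (Fin 3 → Fin 2) ≃ (Fin 3 → Fin 2), ∀ a, ρ a = a ∘ finRotate 3 :=
        ⟨Equiv.arrowCongr (finRotate 3).symm (Equiv.refl _), fun a => rfl⟩
      rw [← Equiv.sum_comp ρ (fun a => ∑ b, x a * (∏ i, gramMatrix f₁ (a i) (b i)) * id (y b))]
      refine Finset.sum_congr rfl (fun a _ => ?_)
      rw [← Equiv.sum_comp ρ (fun b => x (ρ a) * (∏ i, gramMatrix f₁ (ρ a i) (b i)) * id (y b))]
      refine Finset.sum_congr rfl (fun b _ => ?_)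
      rw [hρ, hρ]
      congr 2
      exact (Equiv.prod_comp (finRotate 3) (fun i => gramMatrix f₁ (a i) (b i))).symm
    · intro hmem
      obtain ⟨a, b, hab⟩ := Helper98.mem_tensorProductSubgroup hmem
      have hcol : ∀ x : (Fin 3 → Fin 2) → F,
          ((a : Matrix (Fin 2) (Fin 2) F) ⊗ₖ (b : Matrix (Fin 4) (Fin 4) F)) *ᵥ (cubeC w *ᵥ x) =
            cubeC w *ᵥ (fpM F 2 (finRotate 3) *ᵥ x) := by
        intro x
        apply phiL_injective e P
        rw [← conj_act, ← hab, ← hP', hgv, hP']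
      have hw00 : w 0 0 ≠ 0 := by
        intro h0
        have h1 := hw 0 0 1 1
        rw [h0, (Helper97.Gen.isSesq_of_bilinear hf₂.bilinear).zero_left] at h1
        simp [Helper96.J2] at h1
      have hr0 : (finRotate 3).symm 0 = 2 := by decide
      have hr1 : (finRotate 3).symm 1 = 0 := by decide
      have hr2 : (finRotate 3).symm 2 = 1 := by decide
      have hent : ∀ (y₀ : Fin 3 → Fin 2) (α : Fin 2) (j : Fin 4),
          (a : Matrix (Fin 2) (Fin 2) F) α (y₀ 0) *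
            ((b : Matrix (Fin 4) (Fin 4) F) *ᵥ w (y₀ 1) (y₀ 2)) j =
          (Pi.single (y₀ 2) (1 : F) : Fin 2 → F) α * w (y₀ 0) (y₀ 1) j := by
        intro y₀ α j
        have h1 := congrFun (hcol (Pi.single y₀ 1)) (α, j)
        rw [cube_kron_col, fpM_mulVec_single, cube_col, ptL_apply] at h1
        simp only [Function.comp_apply, hr0, hr1, hr2] at h1
        exact h1
      have ha10 : (a : Matrix (Fin 2) (Fin 2) F) 1 0 = 0 := by
        by_contra hne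
        apply hw00
        have h1 : (b : Matrix (Fin 4) (Fin 4) F) *ᵥ w 0 0 = 0 := by
          funext j
          have h3 := hent (fun _ => 0) 1 j
          simp only [Pi.single_apply] at h3
          rw [if_neg (by decide), zero_mul] at h3
          exact (mul_eq_zero.mp h3).resolve_left hne
        have h4 := congrArg (fun v => ((b⁻¹ : GL (Fin 4) F) : Matrix (Fin 4) (Fin 4) F) *ᵥ v) h1
        simpa [Helper97.Gen.mulVec_inv_cancel] using h4
      apply hw00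
      funext j
      obtain ⟨y₁, hy1a, hy1b, hy1c⟩ : ∃ y₁ : Fin 3 → Fin 2, y₁ 0 = 0 ∧ y₁ 1 = 0 ∧ y₁ 2 = 1 :=
        ⟨![0, 0, 1], rfl, rfl, rfl⟩
      have h3 := hent y₁ 1 j
      rw [hy1a, hy1b, hy1c, Pi.single_eq_same, one_mul, ha10, zero_mul] at h3
      exact h3.symm

end Cfsg.Agent.Helper96.Sy
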