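import Mathlib
import Cfsg.Prelude.Def_GeometricClasses
import Cfsg.Agent.Helper71.T4Defs
import Cfsg.Agent.Helper97.OForm
import Cfsg.Agent.Helper96.T5Defs
import Cfsg.Agent.Helper33.T5CNT
import Cfsg.Agent.Helper84.T5SURJ
import Cfsg.Agent.Helper84.T5RY2A
import Cfsg.Agent.Helper33.T5RY2B
import Cfsg.Agent.Helper12.T5CC
import Cfsg.Agent.Helper84.T5RY1

/-!
# PIECE RIGS of CALL S5704 (helper96): the propagation step of the rigidity argument.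
-/

set_option autoImplicit false
set_option linter.unusedVariables false

namespace Cfsg.Agent.Helper96.T5RIGS

open Matrix Cfsg Cfsg.Geo Cfsg.Agent.Helper71.T4 Cfsg.Agent.Helper96.T5
open scoped Kronecker

variable {F : Type*} [Field F] {a b : ℕ}
variable {J₁ : Matrix (Fin a) (Fin a) F} {J₂ : Matrix (Fin b) (Fin b) F}
  {Q : (Fin a × Fin b → F) → F}

/-- `(1 ⊗ rk w w) v = (cnt w v) ⊗ w`. -/
theorem one_kron_rk_mulVec (J₂ : Matrix (Fin b) (Fin b) F) (w : Fin b → F)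
    (v : Fin a × Fin b → F) :
    ((1 : Matrix (Fin a) (Fin a) F) ⊗ₖ rk J₂ w w) *ᵥ v = pt (cnt J₂ w v) w := by
  ext ⟨i, k⟩
  simp only [Matrix.mulVec, dotProduct, Matrix.kronecker_apply, Matrix.one_apply, rk,
    Matrix.vecMulVec_apply, Fintype.sum_prod_type, pt, cnt]
  rw [Finset.sum_eq_single i (fun j _ hj => by simp [Ne.symm hj])
    (fun h => absurd (Finset.mem_univ _) h)]
  simp only [if_true, one_mul, Finset.sum_mul]
  refine Finset.sum_congr rfl fun l _ => ?_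
  rw [Finset.mul_sum, Finset.sum_mul]
  exact Finset.sum_congr rfl fun x _ => by ring

/-- `rank (1 ⊗ rk w w) ≤ a`. -/
theorem rank_one_kron_rk (J₂ : Matrix (Fin b) (Fin b) F) (w : Fin b → F) :
    ((1 : Matrix (Fin a) (Fin a) F) ⊗ₖ rk J₂ w w).rank ≤ a := by
  let L : (Fin a → F) →ₗ[F] (Fin a × Fin b → F) :=
    { toFun := fun u => pt u w
      map_add' := fun u u' => pt_add_left u u' w
      map_smul' := fun c u => pt_smul_left c u w }
  have h1 : LinearMap.range ((1 : Matrix (Fin a) (Fin a) F) ⊗ₖ rk J₂ w w).mulVecLin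
      ≤ LinearMap.range L := by
    rintro _ ⟨v, rfl⟩
    exact ⟨cnt J₂ w v, (one_kron_rk_mulVec J₂ w v).symm⟩
  have h2 := Submodule.finrank_mono h1
  have h3 := LinearMap.finrank_range_le L
  have h4 : Module.finrank F (Fin a → F) = a := by simp
  unfold Matrix.rank
  omega

/-- PIECE RIGS -/
theorem rigs (hT : TQ J₁ J₂ Q) (ha : 1 ≤ a) (hab : a < b)
    (M : Subgroup (GL (Fin a × Fin b) F)) (hMO : M ≤ isometryGroup F Q) (hR : HasR J₁ J₂ M)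
    (hA1 : ∀ d : Fin b → F, d ≠ 0 → ∀ g ∈ M, InU J₂ d (g.1 - 1) → IsKron g.1)
    (x : GL (Fin a × Fin b) F) (hx : x ∈ M) (d e : Fin b → F) (hd : d ≠ 0) (he : e ≠ 0)
    (hde : ∀ u : Fin a → F, ∃ u' : Fin a → F, x.1 *ᵥ pt u d = pt u' e)
    (w' : Fin b → F) (hw' : w' ≠ 0) (hwd : bf J₂ w' d = 0) :
    ∃ e' : Fin b → F, e' ≠ 0 ∧
      ∀ u : Fin a → F, ∃ u' : Fin a → F, x.1 *ᵥ pt u w' = pt u' e' := by
  obtain ⟨t, htM, ht⟩ := hR.1 w' 1
  obtain ⟨y₁, hy₁⟩ : ∃ y₁ : GL (Fin a × Fin b) F, y₁ = x * t * x⁻¹ := ⟨_, rfl⟩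
  have hy₁M : y₁ ∈ M := by
    rw [hy₁]
    exact M.mul_mem (M.mul_mem hx htM) (M.inv_mem hx)
  have hy₁v : y₁.1 = x.1 * t.1 * (x⁻¹).1 := by rw [hy₁]; rfl
  have hsurj := Cfsg.Agent.Helper84.T5SURJ.surj x d e hd he hde
  have hxi : (x⁻¹).1 * x.1 = 1 := by
    rw [← Units.val_mul, inv_mul_cancel, Units.val_one]
  have hxi' : x.1 * (x⁻¹).1 = 1 := by
    rw [← Units.val_mul, mul_inv_cancel, Units.val_one]
  have hdw : bf J₂ d w' = 0 := by rw [bf_swap J₂ hT.alt₂, hwd, neg_zero]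
  have htd : ∀ u : Fin a → F, t.1 *ᵥ pt u d = pt u d := by
    intro u
    rw [ht, kron_mulVec_pt, Matrix.one_mulVec, tv_mulVec, hdw, mul_zero, zero_smul, add_zero]
  have hfix : ∀ u : Fin a → F, y₁.1 *ᵥ pt u e = pt u e := by
    intro u'
    obtain ⟨u, hu⟩ := hsurj u'
    rw [← hu, hy₁v, Matrix.mulVec_mulVec, Matrix.mul_assoc, hxi, Matrix.mul_one,
      ← Matrix.mulVec_mulVec, htd]
  have hsub : y₁.1 - 1 = x.1 * ((1 : Matrix (Fin a) (Fin a) F) ⊗ₖ rk J₂ w' w') * (x⁻¹).1 := by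
    have h1 : t.1 = 1 + (1 : Matrix (Fin a) (Fin a) F) ⊗ₖ rk J₂ w' w' := by
      rw [ht, tv, one_smul, Matrix.kronecker_add, Matrix.one_kronecker_one]
    rw [hy₁v, h1, Matrix.mul_add, Matrix.add_mul, Matrix.mul_one, hxi', add_sub_cancel_left]
  have hcnt : ∀ v, cnt J₂ e ((y₁.1 - 1) *ᵥ v) = 0 := by
    intro v
    rw [Cfsg.Agent.Helper33.T5CNT.cnt_eq_zero_iff hT]
    intro u'
    obtain ⟨u, hu⟩ := hsurj u'
    rw [hsub, ← hu, ← Matrix.mulVec_mulVec, ← Matrix.mulVec_mulVec, one_kron_rk_mulVec,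
      ← hT.polar, Cfsg.Agent.Helper97.Gen.polar_isometry (hMO hx), hT.polar, bf_kron_pt, hwd,
      mul_zero]
  have hrank : (y₁.1 - 1).rank ≤ a := by
    rw [hsub]
    exact ((Matrix.rank_mul_le_left _ _).trans (Matrix.rank_mul_le_right _ _)).trans
      (rank_one_kron_rk J₂ w')
  have h1 := Cfsg.Agent.Helper84.T5RY1.ry1 hT ha M hMO hR hA1 y₁ hy₁M e he hfix hcnt
  obtain ⟨w₀, hw₀, h2⟩ := Cfsg.Agent.Helper84.T5RY2A.ry2a ha J₂ y₁.1 e he h1 hrank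
  have hk : IsKron y₁.1 := Cfsg.Agent.Helper33.T5RY2B.ry2b hT ha M hMO hR hA1 y₁ hy₁M e he hfix hcnt w₀ hw₀ h2
  rw [hy₁v, ht] at hk
  exact Cfsg.Agent.Helper12.T5CC.cc hT ha hab x w' hw' hk

end Cfsg.Agent.Helper96.T5RIGS
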