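import Mathlib
import Cfsg.Prelude.Def_GeometricClasses
import Cfsg.Agent.Helper71.T4Defs
import Cfsg.Agent.Helper71.T4Main
import Cfsg.Agent.Helper97.OForm
import Cfsg.Agent.Helper96.T5Defs
import Cfsg.Agent.Helper12.T5CC
import Cfsg.Agent.Helper51.T5EVEN
import Cfsg.Agent.Helper70.T5L1A
import Cfsg.Agent.Helper49.T5L1B
import Cfsg.Agent.Helper51.T5L6A
import Cfsg.Agent.Helper29.T5L6B
import Cfsg.Agent.Helper51.T5L6P
import Cfsg.Agent.Helper51.T5NSV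
import Cfsg.Agent.Helper51.T5PP
import Cfsg.Agent.Helper42.T5PROP
import Cfsg.Agent.Helper41.T5REDG
import Cfsg.Agent.Helper41.T5REDQ
import Cfsg.Agent.Helper96.T5RIGS
import Cfsg.Agent.Helper59.T5ROOT
import Cfsg.Agent.Helper42.T5SCE1
import Cfsg.Agent.Helper3.T5SCE2
import Cfsg.Agent.Helper94.T5SCO
import Cfsg.Agent.Helper51.T5SG
import Cfsg.Agent.Helper53.T5T1U
import Cfsg.Agent.Helper58.T5T1W
import Cfsg.Agent.Helper67.T5T2A
import Cfsg.Agent.Helper59.T5T2B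
import Cfsg.Agent.Helper59.T5T2C
import Cfsg.Agent.Helper44.T5T2E
import Cfsg.Agent.Helper58.T5TWU
import Cfsg.Agent.Helper8.T5UISO
import Cfsg.Agent.Helper34.T5UK

/-!
# Helper96: assembly of CALL S5704: the stabiliser of a tensor decomposition
`(F^{n₁}, symplectic) ⊗ (F^{n₂}, symplectic)`, `n₁ < n₂`, is maximal in `Ω⁺_{n₁ n₂}(F)`.
-/

set_option autoImplicit false
set_option linter.unusedVariables false

namespace Cfsg.Agent.Helper96.T5Main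

open Matrix Cfsg Cfsg.Geo Cfsg.Agent.Helper71.T4 Cfsg.Agent.Helper96.T5
open scoped Kronecker

variable {F : Type*} [Field F] {a b : ℕ}
variable {J₁ : Matrix (Fin a) (Fin a) F} {J₂ : Matrix (Fin b) (Fin b) F}
  {Q : (Fin a × Fin b → F) → F}

theorem inM_mono {M K : Subgroup (GL (Fin a × Fin b) F)} (h : M ≤ K)
    {Z : Matrix (Fin a × Fin b) (Fin a × Fin b) F} (hZ : InM M Z) : InM K Z := by
  obtain ⟨g, hg, rfl⟩ := hZ
  exact ⟨g, h hg, rfl⟩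

theorem hasR_mono {M K : Subgroup (GL (Fin a × Fin b) F)} (h : M ≤ K) (hR : HasR J₁ J₂ M) :
    HasR J₁ J₂ K :=
  ⟨fun w c => inM_mono h (hR.1 w c), fun u c => inM_mono h (hR.2 u c)⟩

/-- The T-step. -/
theorem tstep [Fintype F] (hT : TQ J₁ J₂ Q) (ha : 2 ≤ a) (hb : 5 ≤ b)
    (M : Subgroup (GL (Fin a × Fin b) F)) (hMO : M ≤ isometryGroup F Q) (hR : HasR J₁ J₂ M)
    (h : ¬ NSW J₂ M ∨ ¬ NSU J₁ M) : omegaGL Q ≤ M := by
  have hU : ¬ NSU J₁ M := by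
    rcases h with h | h
    · unfold NSW at h
      push Not at h
      obtain ⟨S, d, hd, hS, hns⟩ := h
      obtain ⟨u, u', hu, hind, huu, hX⟩ := Cfsg.Agent.Helper58.T5T1W.t1w hT M hMO hR S d hd hS
        (by rintro ⟨c, hc⟩; exact hns c hc)
      exact Cfsg.Agent.Helper58.T5TWU.twu hT (by omega) M hR u u' hu hind huu d hd hX
    · exact h
  obtain ⟨u₀, x₀, y₀, hu₀, hx₀, hind, hxy, h0⟩ := Cfsg.Agent.Helper53.T5T1U.t1u hT M hMO hR hU
  have hA := Cfsg.Agent.Helper67.T5T2A.t2a hT M hR u₀ x₀ y₀ hu₀ hx₀ hind hxy h0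
  have hB := Cfsg.Agent.Helper59.T5T2B.t2b hT hb M hA
  have hC := Cfsg.Agent.Helper59.T5T2C.t2c hT hb M hB
  exact Cfsg.Agent.Helper44.T5T2E.t2e hT ha (by omega) M hB hC

theorem blk_eq_zero_of_inU (d dt : Fin b → F) (Z : Matrix (Fin a × Fin b) (Fin a × Fin b) F)
    (hZ : InU J₂ d Z) : blk Z (J₂ *ᵥ d) dt = 0 := by
  have h : ∀ u : Fin a → F, blk Z (J₂ *ᵥ d) dt *ᵥ u = (0 : Matrix (Fin a) (Fin a) F) *ᵥ u := by
    intro u
    rw [blk_mulVec_eq_cnt, hZ.2.1, Matrix.zero_mulVec]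
  ext i j
  have h1 := congrFun (h (Pi.single j 1)) i
  simpa using h1

/-- (A1): the elements of `M` in the unipotent radical of the stabiliser of `U ⊗ d` are
Kronecker products. -/
theorem a1 (hT : TQ J₁ J₂ Q) (ha : 2 ≤ a) (hae : Even a) (hb : 5 ≤ b)
    (hq : a = 2 → ∃ l : F, l ≠ 0 ∧ l ≠ 1) (M : Subgroup (GL (Fin a × Fin b) F))
    (hMO : M ≤ isometryGroup F Q) (hR : HasR J₁ J₂ M) (hW : NSW J₂ M) (hU : NSU J₁ M)
    (d : Fin b → F) (hd : d ≠ 0) (g : GL (Fin a × Fin b) F) (hg : g ∈ M)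
    (hZ : InU J₂ d (g.1 - 1)) : IsKron g.1 := by
  obtain ⟨dt0, hdt0⟩ := exists_bf_eq_one J₂ hT.det₂ d hd
  obtain ⟨dt, hdd⟩ : ∃ dt : Fin b → F, bf J₂ dt d = 1 :=
    ⟨-dt0, by rw [bf_swap J₂ hT.alt₂, bf_neg_right, hdt0, neg_neg]⟩
  refine Cfsg.Agent.Helper34.T5UK.uk hT (by omega) M hMO hR hW d dt hd hdd g hg hZ (fun w hwd => ?_)
  by_cases hind : ∃ c : F, w = c • d
  · obtain ⟨c, rfl⟩ := hind
    refine ⟨0, ?_⟩
    rw [Matrix.mulVec_smul, blk_smul_left, blk_eq_zero_of_inU d dt _ hZ, smul_zero, zero_smul]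
  · push Not at hind
    obtain ⟨𝔖, hmem, hone, hconj, hadj, hpair⟩ := Cfsg.Agent.Helper51.T5SG.sg_props hT M hR hW d w hd hwd hind
    obtain ⟨A, hAdef⟩ : ∃ A, A = blk (g.1 - 1) (J₂ *ᵥ w) dt := ⟨_, rfl⟩
    rw [← hAdef]
    have hA : A ∈ 𝔖 := by
      rw [hmem]
      refine ⟨-(adj J₁ A * A), ?_⟩
      rw [hAdef, ← Cfsg.Agent.Helper8.T5UISO.uiso hT g (hMO hg) d dt w hdd hwd hZ]
      exact (((hR.1 w 1).mul (inM_of_mem hg)).mul (hR.1 w (-1))).mul (inM_of_mem (M.inv_mem hg))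
    by_cases ha2 : a = 2
    · by_contra hns
      obtain ⟨e, κ, he, hκ, hmem'⟩ := Cfsg.Agent.Helper70.T5L1A.l1a J₁ hT.alt₁ hT.det₁ ha2 (hq ha2) 𝔖 hone hconj A hA hns
      obtain ⟨S, hS⟩ := (hmem _).1 hmem'
      exact Cfsg.Agent.Helper49.T5L1B.l1b hT ha2 (by omega) M hMO hR d w hd hwd hind e he κ hκ S hS hU
    · obtain ⟨k, hk⟩ := hae
      by_cases h2 : (2 : F) = 0
      · have hal := Cfsg.Agent.Helper42.T5SCE1.sce1 J₁ hT.alt₁ hT.det₁ (by omega) h2 𝔖 hconj hadj hpair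
        by_cases ha4 : a = 4
        · by_contra hns
          obtain ⟨e, he, hAe⟩ := Cfsg.Agent.Helper51.T5NSV.nsv A hns
          have hself : ∀ x y, bf J₁ (A *ᵥ x) y = bf J₁ x (A *ᵥ y) := by
            intro x y
            have h1 := hal A hA (x + y)
            rw [Matrix.mulVec_add, bf_add_left, bf_add_right, bf_add_right, hal A hA x,
              hal A hA y] at h1
            rw [bf_swap J₁ hT.alt₁ x (A *ᵥ y)]
            linear_combination h1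
          have hD : dm J₁ e (A *ᵥ e) ∈ 𝔖 := by
            have h1 := 𝔖.sub_mem (hconj e 1 A hA) hA
            rwa [Cfsg.Agent.Helper51.T5L6P.l6p J₁ A hself (hal A hA) e 1, one_smul] at h1
          obtain ⟨S, hS⟩ := (hmem _).1 hD
          have hxy : bf J₁ e (A *ᵥ e) = 0 := by
            rw [bf_swap J₁ hT.alt₁, hal A hA e, neg_zero]
          obtain ⟨β, hβ⟩ := Cfsg.Agent.Helper51.T5L6A.l6a hT ha4 h2 M hMO hR hW d w hd hwd e (A *ᵥ e) he hAe hxy S hS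
          exact Cfsg.Agent.Helper29.T5L6B.l6b hT hb h2 M hR d w hd hwd hind e (A *ᵥ e) he hAe hxy β hβ hU
        · exact Cfsg.Agent.Helper3.T5SCE2.sce2 J₁ hT.alt₁ hT.det₁ (by omega) h2 𝔖 hconj hpair hal A hA
      · exact Cfsg.Agent.Helper94.T5SCO.sco J₁ hT.alt₁ hT.det₁ (by omega) h2 𝔖 hone hconj hadj hpair A hA

/-- Rigidity: an element of `M` conjugating a root element to a Kronecker product is a
Kronecker product. -/
theorem rig (hT : TQ J₁ J₂ Q) (ha : 1 ≤ a) (hab : a < b) (hb : 3 ≤ b)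
    (M : Subgroup (GL (Fin a × Fin b) F)) (hMO : M ≤ isometryGroup F Q) (hR : HasR J₁ J₂ M)
    (hA1 : ∀ d : Fin b → F, d ≠ 0 → ∀ g ∈ M, InU J₂ d (g.1 - 1) → IsKron g.1)
    (w : Fin b → F) (hw : w ≠ 0) (x : GL (Fin a × Fin b) F) (hx : x ∈ M)
    (hk : IsKron (x.1 * ((1 : Matrix (Fin a) (Fin a) F) ⊗ₖ tv J₂ w 1) * (x⁻¹).1)) :
    IsKron x.1 := by
  obtain ⟨e, he, hxe⟩ := Cfsg.Agent.Helper12.T5CC.cc hT ha hab x w hw hk
  have hdet : x.1.det ≠ 0 := ((Matrix.isUnit_iff_isUnit_det _).1 x.isUnit).ne_zero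
  refine Cfsg.Agent.Helper71.T4Main.kron_of_pure hab x.1 hdet (fun u w'' => ?_)
  by_cases hw'' : w'' = 0
  · refine ⟨0, 0, ?_⟩
    rw [hw'', pt_zero_right, Matrix.mulVec_zero, pt_zero_right]
  · obtain ⟨m, hm0, hm1, hm2⟩ := exists_perp2 hb (J₂ *ᵥ w) (J₂ *ᵥ w'')
    have hmw : bf J₂ m w = 0 := hm1
    have hwm : bf J₂ w'' m = 0 := by
      rw [bf_swap J₂ hT.alt₂]
      show - (m ⬝ᵥ J₂ *ᵥ w'') = 0
      rw [hm2, neg_zero]
    obtain ⟨e₁, he₁, h₁⟩ := Cfsg.Agent.Helper96.T5RIGS.rigs hT ha hab M hMO hR hA1 x hx w e hw he hxe m hm0 hmw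
    obtain ⟨e₂, he₂, h₂⟩ := Cfsg.Agent.Helper96.T5RIGS.rigs hT ha hab M hMO hR hA1 x hx m e₁ hm0 he₁ h₁ w'' hw'' hwm
    obtain ⟨u', hu'⟩ := h₂ u
    exact ⟨u', e₂, hu'⟩

/-- The dichotomy: a subgroup of `O(Q)` containing the root elements of `Sp(U) ⊗ Sp(W)`
consists of Kronecker products or contains `Ω(Q)`. -/
theorem kron_or_omega [Fintype F] (hT : TQ J₁ J₂ Q) (ha : 2 ≤ a) (hae : Even a) (hab : a < b)
    (hb : 5 ≤ b) (hq : a = 2 → ∃ l : F, l ≠ 0 ∧ l ≠ 1) (M : Subgroup (GL (Fin a × Fin b) F))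
    (hMO : M ≤ isometryGroup F Q) (hR : HasR J₁ J₂ M) :
    (∀ g ∈ M, IsKron g.1) ∨ omegaGL Q ≤ M := by
  by_cases h : NSW J₂ M ∧ NSU J₁ M
  · left
    have hA1 : ∀ d : Fin b → F, d ≠ 0 → ∀ g ∈ M, InU J₂ d (g.1 - 1) → IsKron g.1 :=
      fun d hd g hg hZ => a1 hT ha hae hb hq M hMO hR h.1 h.2 d hd g hg hZ
    have hi : ∀ w : Fin b → F, w ≠ 0 → ∀ g ∈ M,
        IsKron (g.1 * ((1 : Matrix (Fin a) (Fin a) F) ⊗ₖ tv J₂ w 1) * (g⁻¹).1) → IsKron g.1 :=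
      fun w hw g hg hk => rig hT (by omega) hab (by omega) M hMO hR hA1 w hw g hg hk
    intro g hg
    have hdet : g.1.det ≠ 0 := ((Matrix.isUnit_iff_isUnit_det _).1 g.isUnit).ne_zero
    exact Cfsg.Agent.Helper71.T4Main.kron_of_pure hab g.1 hdet
      (fun u w => Cfsg.Agent.Helper51.T5PP.pp hT (by omega) hab M hR hi g hg u w)
  · right
    exact tstep hT ha hb M hMO hR (not_and_or.mp h)

/-- **Maximality of the `Sp ⊗ Sp` tensor stabiliser in `Ω⁺`.** -/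
theorem sp_tensor_maximal {F : Type*} [Field F] [Fintype F] {n : ℕ} (hn : 13 ≤ n)
    (Q : (Fin n → F) → F) (hQ : IsNondegenerateQuadraticForm Q) (n₁ n₂ : ℕ) (h12 : n₁ < n₂)
    (hex : ¬ (Fintype.card F = 2 ∧ n₁ = 2)) (e : Fin n ≃ Fin n₁ × Fin n₂) (P : GL (Fin n) F)
    (f₁ : (Fin n₁ → F) → (Fin n₁ → F) → F) (f₂ : (Fin n₂ → F) → (Fin n₂ → F) → F)
    (hf₁ : IsSymplecticForm f₁) (hf₂ : IsSymplecticForm f₂)
    (hT : IsTensorFormStructure id (QuadraticMap.polar Q) f₁ f₂ e P)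
    (hpure : ∀ (x₁ : Fin n₁ → F) (x₂ : Fin n₂ → F),
      Q (Matrix.mulVec (P : Matrix (Fin n) (Fin n) F)
        ((fun a : Fin n₁ × Fin n₂ => x₁ a.1 * x₂ a.2) ∘ e)) = 0) :
    IsMaximalIn (omegaGL Q) (tensorProductSubgroup n₁ n₂ e P ⊓ omegaGL Q) := by
  classical
  have hcard : n = n₁ * n₂ := by
    have h := Fintype.card_congr e
    simpa using h
  obtain ⟨c, Q', hc, hTQ, hQQ⟩ := Cfsg.Agent.Helper41.T5REDQ.redq Q hQ n₁ n₂ e P f₁ f₂ hf₁ hf₂ hT hpure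
  have he1 : Even n₁ := Cfsg.Agent.Helper51.T5EVEN.even_of_alt _ hTQ.alt₁ hTQ.det₁
  have he2 : Even n₂ := Cfsg.Agent.Helper51.T5EVEN.even_of_alt _ hTQ.alt₂ hTQ.det₂
  obtain ⟨k₁, hk₁⟩ := he1
  obtain ⟨k₂, hk₂⟩ := he2
  have hk1 : 1 ≤ k₁ := by
    by_contra hcon
    have : k₁ = 0 := by omega
    subst this
    simp only [add_zero] at hk₁
    subst hk₁
    omega
  have hk2 : 3 ≤ k₂ := by
    by_contra hcon
    have h1 : k₂ ≤ 2 := by omega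
    have h2 : k₁ ≤ 1 := by omega
    have h3 : n₁ * n₂ ≤ 2 * 4 := Nat.mul_le_mul (by omega) (by omega)
    omega
  have ha : 2 ≤ n₁ := by omega
  have hb : 5 ≤ n₂ := by omega
  have hq : n₁ = 2 → ∃ l : F, l ≠ 0 ∧ l ≠ 1 := by
    intro hn1
    have hc2 : Fintype.card F ≠ 2 := fun h => hex ⟨h, hn1⟩
    have h2 : 1 < Fintype.card F := Fintype.one_lt_card
    by_contra hcon
    push Not at hcon
    have hsub : (Finset.univ : Finset F) ⊆ {0, 1} := by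
      intro l _
      by_cases hl0 : l = 0
      · simp [hl0]
      · simp [hcon l hl0]
    have := Finset.card_le_card hsub
    have h2' : ({0, 1} : Finset F).card ≤ 2 := Finset.card_le_two
    rw [Finset.card_univ] at this
    omega
  have hab5 : 5 ≤ n₁ * n₂ := by omega
  refine Cfsg.Agent.Helper41.T5REDG.redg Q n₁ n₂ (by omega) (by omega) e P c hc Q' hQQ (Cfsg.Agent.Helper42.T5PROP.prop hTQ ha (by omega)) (fun K hK1 hK2 => ?_)
  exact kron_or_omega hTQ ha ⟨k₁, hk₁⟩ h12 hb hq K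
    (hK2.trans (Cfsg.Agent.Helper97.Gen.omegaGL_le Q'))
    (hasR_mono hK1 (Cfsg.Agent.Helper59.T5ROOT.root hTQ ⟨k₁, hk₁⟩ ⟨k₂, hk₂⟩ hab5))

end Cfsg.Agent.Helper96.T5Main
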