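import Mathlib
import Cfsg.Prelude.Def_GeometricClasses
import Cfsg.Agent.Helper96.T5Main

/-!
# Helper96: the `Sp ⊗ Sp` tensor stabiliser is maximal in `Ω⁺` -- version for every dimension

`sp_tensor_maximal_any`: same statement as `T5Main.sp_tensor_maximal`, with the hypothesis
`13 ≤ n` replaced by `1 ≤ n₁` and `5 ≤ n₂` (so it covers e.g. `Sp₂ ⊗ Sp₆ < Ω⁺₁₂`).
-/

set_option autoImplicit false
set_option linter.unusedVariables false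

namespace Cfsg.Agent.Helper96.T5Gen

open Matrix Cfsg Cfsg.Geo Cfsg.Agent.Helper71.T4 Cfsg.Agent.Helper96.T5
open scoped Kronecker

/-- **Maximality of the `Sp ⊗ Sp` tensor stabiliser in `Ω⁺`, any dimension with
`1 ≤ n₁ < n₂`, `5 ≤ n₂`.** -/
theorem sp_tensor_maximal_any {F : Type*} [Field F] [Fintype F] {n : ℕ}
    (Q : (Fin n → F) → F) (hQ : IsNondegenerateQuadraticForm Q) (n₁ n₂ : ℕ) (h1 : 1 ≤ n₁)
    (h5 : 5 ≤ n₂) (h12 : n₁ < n₂)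
    (hex : ¬ (Fintype.card F = 2 ∧ n₁ = 2)) (e : Fin n ≃ Fin n₁ × Fin n₂) (P : GL (Fin n) F)
    (f₁ : (Fin n₁ → F) → (Fin n₁ → F) → F) (f₂ : (Fin n₂ → F) → (Fin n₂ → F) → F)
    (hf₁ : IsSymplecticForm f₁) (hf₂ : IsSymplecticForm f₂)
    (hT : IsTensorFormStructure id (QuadraticMap.polar Q) f₁ f₂ e P)
    (hpure : ∀ (x₁ : Fin n₁ → F) (x₂ : Fin n₂ → F),
      Q (Matrix.mulVec (P : Matrix (Fin n) (Fin n) F)
        ((fun a : Fin n₁ × Fin n₂ => x₁ a.1 * x₂ a.2) ∘ e)) = 0) :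
    IsMaximalIn (omegaGL Q) (tensorProductSubgroup n₁ n₂ e P ⊓ omegaGL Q) := by
  classical
  obtain ⟨c, Q', hc, hTQ, hQQ⟩ :=
    Cfsg.Agent.Helper41.T5REDQ.redq Q hQ n₁ n₂ e P f₁ f₂ hf₁ hf₂ hT hpure
  have he1 : Even n₁ := Cfsg.Agent.Helper51.T5EVEN.even_of_alt _ hTQ.alt₁ hTQ.det₁
  have he2 : Even n₂ := Cfsg.Agent.Helper51.T5EVEN.even_of_alt _ hTQ.alt₂ hTQ.det₂
  obtain ⟨k₁, hk₁⟩ := he1
  obtain ⟨k₂, hk₂⟩ := he2
  have ha : 2 ≤ n₁ := by omega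
  have hq : n₁ = 2 → ∃ l : F, l ≠ 0 ∧ l ≠ 1 := by
    intro hn1
    have hc2 : Fintype.card F ≠ 2 := fun h => hex ⟨h, hn1⟩
    have h2 : 1 < Fintype.card F := Fintype.one_lt_card
    by_contra hcon
    push Not at hcon
    have hsub : (Finset.univ : Finset F) ⊆ {0, 1} := by
      intro l _
      by_cases hl0 : l = 0
      · simp [hl0]
      · simp [hcon l hl0]
    have := Finset.card_le_card hsub
    have h2' : ({0, 1} : Finset F).card ≤ 2 := Finset.card_le_two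
    rw [Finset.card_univ] at this
    omega
  have hab5 : 5 ≤ n₁ * n₂ := by nlinarith
  refine Cfsg.Agent.Helper41.T5REDG.redg Q n₁ n₂ (by omega) (by omega) e P c hc Q' hQQ
    (Cfsg.Agent.Helper42.T5PROP.prop hTQ ha (by omega)) (fun K hK1 hK2 => ?_)
  exact Cfsg.Agent.Helper96.T5Main.kron_or_omega hTQ ha ⟨k₁, hk₁⟩ h12 h5 hq K
    (hK2.trans (Cfsg.Agent.Helper97.Gen.omegaGL_le Q'))
    (Cfsg.Agent.Helper96.T5Main.hasR_mono hK1
      (Cfsg.Agent.Helper59.T5ROOT.root hTQ ⟨k₁, hk₁⟩ ⟨k₂, hk₂⟩ hab5))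

end Cfsg.Agent.Helper96.T5Gen
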